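import Mathlib
import Cfsg.Agent.Lib.helper4.OrthSig

set_option autoImplicit false

/-!
# Simplicity of `PΩ` (Iwasawa's argument, dimension `≥ 6`, any characteristic)

`sig_mem_comm` (Siegel transformations are commutators in `Ω`), `omega_perfect`,
`scalar_of_fix_sing`, `NOrb` (orbit of a singular point under a normal subgroup),
`omega_normal_eq_top`, `pomega_simple`.
-/

namespace Cfsg.Agent.Lib.helper4

open Cfsg.Agent.Lib.helper13
open scoped commutatorElement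

section OrthSimple

variable {F : Type*} [Field F] {ι : Type} [Fintype ι] [DecidableEq ι]

/-- Siegel transformations with non-singular parameter are commutators of elements of `Ω` -/
lemma sig_mem_comm [Fintype F] (hn : 6 ≤ Fintype.card ι) (Q : QuadraticForm F (ι → F))
    (hQ : (QuadraticMap.polarBilin Q).Nondegenerate) (e u : ι → F) (hQe : Q e = 0)
    (heu : QuadraticMap.polar (⇑Q) e u = 0) (hu : Q u ≠ 0) :
    sigEl Q e u ∈ ⁅Cfsg.Omega F ⇑Q, Cfsg.Omega F ⇑Q⁆ := by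
  by_cases he0 : e = 0
  · rw [he0, sig_zero_left]
    exact one_mem _
  obtain ⟨e', hQe', hee'⟩ := exists_hyp_partner Q hQ e he0 hQe
  have hdim : 3 ≤ Module.finrank F ↥(orthSub Q (Submodule.span F {e, e', u})) := by
    rw [finrank_orthSub Q hQ]
    have := finrank_span_triple_le (F := F) e e' u
    omega
  obtain ⟨f, hfU, hf0, hQf⟩ := exists_sing_in Q _ hdim
  rw [mem_orthSub_span] at hfU
  have hef : QuadraticMap.polar (⇑Q) e f = 0 := hfU e (by simp)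
  have he'f : QuadraticMap.polar (⇑Q) e' f = 0 := hfU e' (by simp)
  have huf : QuadraticMap.polar (⇑Q) u f = 0 := hfU u (by simp)
  have hfe : QuadraticMap.polar (⇑Q) f e = 0 := by rw [QuadraticMap.polar_comm, hef]
  have hfu : QuadraticMap.polar (⇑Q) f u = 0 := by rw [QuadraticMap.polar_comm, huf]
  have hff : QuadraticMap.polar (⇑Q) f f = 0 := by rw [polar_self_eq, hQf, mul_zero]
  have hee : QuadraticMap.polar (⇑Q) e e = 0 := by rw [polar_self_eq, hQe, mul_zero]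
  have hfK : f ∉ Submodule.span F {e} := by
    intro h
    obtain ⟨c, rfl⟩ := Submodule.mem_span_singleton.mp h
    rw [QuadraticMap.polar_smul_right, QuadraticMap.polar_comm (⇑Q) e' e, hee', smul_eq_mul,
      mul_one] at he'f
    exact hf0 (by rw [he'f, zero_smul])
  obtain ⟨a₀, ha₀K, ha₀⟩ := exists_perp_pairing Q hQ _ f hfK
  have hea₀ : QuadraticMap.polar (⇑Q) e a₀ = 0 := (mem_orthSub_span Q _ a₀).mp ha₀K e rfl
  obtain ⟨a, ha⟩ : ∃ a, a = (QuadraticMap.polar (⇑Q) f a₀)⁻¹ • a₀ := ⟨_, rfl⟩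
  have hea : QuadraticMap.polar (⇑Q) e a = 0 := by
    rw [ha, QuadraticMap.polar_smul_right, hea₀, smul_zero]
  have hfa : QuadraticMap.polar (⇑Q) f a = 1 := by
    rw [ha, QuadraticMap.polar_smul_right, smul_eq_mul, inv_mul_cancel₀ ha₀]
  have huK : u ∉ Submodule.span F {e, f} := by
    intro h
    obtain ⟨α, β, rfl⟩ := Submodule.mem_span_pair.mp h
    apply hu
    rw [Q_add, QuadraticMap.map_smul, QuadraticMap.map_smul, hQe, hQf,
      QuadraticMap.polar_smul_left, QuadraticMap.polar_smul_right, hef]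
    simp
  obtain ⟨u', hu'K, hu'⟩ := exists_perp_pairing Q hQ _ u huK
  rw [mem_orthSub_span] at hu'K
  have heu' : QuadraticMap.polar (⇑Q) e u' = 0 := hu'K e (by simp)
  have hfu' : QuadraticMap.polar (⇑Q) f u' = 0 := hu'K f (by simp)
  obtain ⟨t, ht⟩ : ∃ t, t = -(Q u + QuadraticMap.polar (⇑Q) u a) / QuadraticMap.polar (⇑Q) u u' :=
    ⟨_, rfl⟩
  obtain ⟨v, hv⟩ : ∃ v, v = a + t • u' := ⟨_, rfl⟩
  have hev : QuadraticMap.polar (⇑Q) e v = 0 := by
    rw [hv, QuadraticMap.polar_add_right, QuadraticMap.polar_smul_right, hea, heu']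
    simp
  have hfv : QuadraticMap.polar (⇑Q) f v = 1 := by
    rw [hv, QuadraticMap.polar_add_right, QuadraticMap.polar_smul_right, hfa, hfu']
    simp
  have huv : QuadraticMap.polar (⇑Q) u v = -Q u := by
    rw [hv, QuadraticMap.polar_add_right, QuadraticMap.polar_smul_right, ht, smul_eq_mul]
    field_simp
    ring
  obtain ⟨z, hz⟩ : ∃ z, z = u + Q u • f := ⟨_, rfl⟩
  have hQz : Q z = Q u := by
    rw [hz, Q_add, QuadraticMap.map_smul, hQf, QuadraticMap.polar_smul_right, huf]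
    simp
  have hfz : QuadraticMap.polar (⇑Q) f z = 0 := by
    rw [hz, QuadraticMap.polar_add_right, QuadraticMap.polar_smul_right, hfu, hff]
    simp
  have hez : QuadraticMap.polar (⇑Q) e z = 0 := by
    rw [hz, QuadraticMap.polar_add_right, QuadraticMap.polar_smul_right, heu, hef]
    simp
  have hze : QuadraticMap.polar (⇑Q) z e = 0 := by rw [QuadraticMap.polar_comm, hez]
  have hzv : QuadraticMap.polar (⇑Q) z v = 0 := by
    rw [hz, QuadraticMap.polar_add_left, QuadraticMap.polar_smul_left, huv, hfv]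
    simp
  have hg : sigEl Q f z ∈ Cfsg.Omega F ⇑Q := sig_mem_omega (by omega) Q hQ f z hQf hfz
  have hh : sigEl Q e v ∈ Cfsg.Omega F ⇑Q := sig_mem_omega (by omega) Q hQ e v hQe hev
  have hge : (mat Q (sigEl Q f z)).mulVec e = e := by
    rw [sigEl_mulVec Q f z hQf hfz, hfe, hze]
    simp
  have hgv : (mat Q (sigEl Q f z)).mulVec v = v + u := by
    rw [sigEl_mulVec Q f z hQf hfz, hfv, hzv, hQz, hz]
    module
  have key : sigEl Q e u = ⁅sigEl Q f z, sigEl Q e v⁆ := by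
    rw [commutatorElement_def, sig_conj Q _ e v hQe hev, hge, hgv, sig_inv Q e v hQe hev,
      sig_mul Q e (v + u) (-v) hQe (by rw [QuadraticMap.polar_add_right, hev, heu, add_zero])
        (by rw [QuadraticMap.polar_neg_right, hev, neg_zero])]
    congr 1
    abel
  rw [key]
  exact Subgroup.commutator_mem_commutator hg hh

/-- `Ω` is perfect -/
theorem omega_perfect [Fintype F] (hn : 6 ≤ Fintype.card ι) (Q : QuadraticForm F (ι → F))
    (hQ : (QuadraticMap.polarBilin Q).Nondegenerate) :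
    commutator ↥(Cfsg.Omega F ⇑Q) = ⊤ := by
  have h1 : SigGrp Q ≤ ⁅Cfsg.Omega F ⇑Q, Cfsg.Omega F ⇑Q⁆ := by
    unfold SigGrp
    rw [Subgroup.closure_le]
    rintro g ⟨e, u, hQe, heu, hu, rfl⟩
    exact sig_mem_comm hn Q hQ e u hQe heu hu
  rw [← omega_eq_SigGrp (by omega) Q hQ] at h1
  rw [eq_top_iff]
  intro g _
  have h2 := h1 g.2
  rw [← Subgroup.map_subtype_commutator] at h2
  obtain ⟨g', hg', hgg'⟩ := h2
  have h3 : g' = g := Subtype.ext hgg'
  rw [← h3]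
  exact hg'

/-- an isometry fixing every singular point is `±1` -/
theorem scalar_of_fix_sing [Fintype F] (hn : 4 ≤ Fintype.card ι) (Q : QuadraticForm F (ι → F))
    (hQ : (QuadraticMap.polarBilin Q).Nondegenerate) (z : ↥(Cfsg.isometryGroup F ⇑Q))
    (hfix : ∀ e : ι → F, e ≠ 0 → Q e = 0 → ∃ a : F, (mat Q z).mulVec e = a • e)
    (e : ι → F) (he0 : e ≠ 0) (hQe : Q e = 0) :
    mat Q z = 1 ∨ mat Q z = -1 := by
  classical
  obtain ⟨f, hQf, hef⟩ := exists_hyp_partner Q hQ e he0 hQe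
  have hfe : QuadraticMap.polar (⇑Q) f e = 1 := by rw [QuadraticMap.polar_comm, hef]
  have hee : QuadraticMap.polar (⇑Q) e e = 0 := by rw [polar_self_eq, hQe, mul_zero]
  have hff : QuadraticMap.polar (⇑Q) f f = 0 := by rw [polar_self_eq, hQf, mul_zero]
  have hf0 : f ≠ 0 := by
    rintro rfl
    rw [QuadraticMap.polar_zero_right] at hef
    exact zero_ne_one hef
  obtain ⟨a, ha⟩ := hfix e he0 hQe
  obtain ⟨b, hb⟩ := hfix f hf0 hQf
  have hinj : ∀ x, (mat Q z).mulVec x = 0 → x = 0 := by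
    intro x hx
    have h1 := mat_inv_mulVec Q z x
    rw [hx, Matrix.mulVec_zero] at h1
    exact h1.symm
  have ha0 : a ≠ 0 := by
    rintro rfl
    rw [zero_smul] at ha
    exact he0 (hinj e ha)
  have hb0 : b ≠ 0 := by
    rintro rfl
    rw [zero_smul] at hb
    exact hf0 (hinj f hb)
  have hH : GoodSub Q (Submodule.span F {e, f}) := hyp_good Q e f hQe hQf hef
  have hHdim : Module.finrank F ↥(Submodule.span F {e, f}) ≤ 2 := finrank_span_pair_le e f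
  have hO := finrank_orthSub Q hQ (Submodule.span F {e, f})
  have hOg := goodSub_orth Q hQ _ hH
  have hw : ∀ w ∈ orthSub Q (Submodule.span F {e, f}),
      (mat Q z).mulVec w = a • w ∧ (Q w ≠ 0 → b = a) := by
    intro w hwO
    rw [mem_orthSub] at hwO
    have hew := hwO e (Submodule.subset_span (by simp))
    have hfw := hwO f (Submodule.subset_span (by simp))
    have hwe : QuadraticMap.polar (⇑Q) w e = 0 := by rw [QuadraticMap.polar_comm, hew]
    have hwf : QuadraticMap.polar (⇑Q) w f = 0 := by rw [QuadraticMap.polar_comm, hfw]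
    obtain ⟨s, hs⟩ : ∃ s, s = e + w - Q w • f := ⟨_, rfl⟩
    have hQs : Q s = 0 := by
      rw [hs, Q_sub, Q_add, hQe, QuadraticMap.map_smul, hQf, QuadraticMap.polar_smul_right,
        QuadraticMap.polar_add_left, hef, hwf, hew]
      simp only [smul_eq_mul]
      ring
    have hfs : QuadraticMap.polar (⇑Q) f s = 1 := by
      rw [hs, QuadraticMap.polar_sub_right, QuadraticMap.polar_add_right,
        QuadraticMap.polar_smul_right, hfe, hfw, hff]
      simp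
    have hs0 : s ≠ 0 := by
      rintro rfl
      rw [QuadraticMap.polar_zero_right] at hfs
      exact zero_ne_one hfs
    obtain ⟨μ, hμ⟩ := hfix s hs0 hQs
    have hzw : (mat Q z).mulVec w = μ • w + (μ - a) • e + (Q w * (b - μ)) • f := by
      have h1 : (mat Q z).mulVec s = a • e + (mat Q z).mulVec w - (Q w * b) • f := by
        rw [hs, Matrix.mulVec_sub, Matrix.mulVec_add, Matrix.mulVec_smul, ha, hb, smul_smul]
      rw [hμ, hs] at h1
      have h2 : (mat Q z).mulVec w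
          = (a • e + (mat Q z).mulVec w - (Q w * b) • f) - a • e + (Q w * b) • f := by abel
      rw [h2, ← h1]
      module
    have h3 : QuadraticMap.polar (⇑Q) ((mat Q z).mulVec w) ((mat Q z).mulVec e) = 0 := by
      rw [isom_polar, hwe]
    have h4 : QuadraticMap.polar (⇑Q) ((mat Q z).mulVec w) ((mat Q z).mulVec f) = 0 := by
      rw [isom_polar, hwf]
    rw [ha, QuadraticMap.polar_smul_right, hzw] at h3
    rw [hb, QuadraticMap.polar_smul_right, hzw] at h4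
    simp only [QuadraticMap.polar_add_left, QuadraticMap.polar_smul_left, hwe, hwf, hee, hff,
      hef, hfe, smul_eq_mul, mul_zero, mul_one, add_zero, zero_add] at h3 h4
    have h5 : Q w * (b - μ) = 0 := (mul_eq_zero.mp h3).resolve_left ha0
    have h6 : μ - a = 0 := (mul_eq_zero.mp h4).resolve_left hb0
    have hμa : μ = a := sub_eq_zero.mp h6
    rw [hμa] at h5 hzw
    constructor
    · rw [hzw, h5, sub_self, zero_smul, zero_smul, add_zero, add_zero]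
    · intro hQw
      exact sub_eq_zero.mp ((mul_eq_zero.mp h5).resolve_left hQw)
  obtain ⟨w₀, hw₀O, hQw₀⟩ := good_universal Q hQ _ hOg (by omega) 1 one_ne_zero
  have hba : b = a := (hw w₀ hw₀O).2 (by rw [hQw₀]; exact one_ne_zero)
  have hall : ∀ v, (mat Q z).mulVec v = a • v := by
    intro v
    obtain ⟨h, hh, w, hwv, rfl⟩ := good_decomp Q hQ _ ⊤ le_top hH v trivial
    obtain ⟨α, β, rfl⟩ := Submodule.mem_span_pair.mp hh
    rw [Matrix.mulVec_add, Matrix.mulVec_add, Matrix.mulVec_smul, Matrix.mulVec_smul, ha, hb,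
      (hw w hwv.2).1, hba]
    module
  have haa : a * a = 1 := by
    have h1 := isom_pres Q z w₀
    rw [show ((z : Matrix.GeneralLinearGroup ι F) : Matrix ι ι F).mulVec w₀ = a • w₀ from hall w₀,
      QuadraticMap.map_smul, hQw₀, smul_eq_mul, mul_one] at h1
    exact h1
  rcases mul_self_eq_one_iff.mp haa with rfl | rfl
  · left
    apply Matrix.mulVec_injective
    funext v
    rw [hall v, one_smul, Matrix.one_mulVec]
  · right
    apply Matrix.mulVec_injective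
    funext v
    rw [hall v, neg_one_smul, Matrix.neg_mulVec, Matrix.one_mulVec]

/-- a non-scalar isometry moves some singular point -/
lemma exists_moved_sing [Fintype F] (hn : 4 ≤ Fintype.card ι) (Q : QuadraticForm F (ι → F))
    (hQ : (QuadraticMap.polarBilin Q).Nondegenerate) (z : ↥(Cfsg.isometryGroup F ⇑Q))
    (hz : ¬ (mat Q z = 1 ∨ mat Q z = -1)) :
    ∃ e : ι → F, e ≠ 0 ∧ Q e = 0 ∧ (mat Q z).mulVec e ∉ Submodule.span F {e} := by
  obtain ⟨e₁, -, he₁0, hQe₁⟩ := exists_sing_in Q ⊤ (by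
    rw [finrank_top, Module.finrank_fintype_fun_eq_card]
    omega)
  by_contra hcon
  push Not at hcon
  apply hz
  apply scalar_of_fix_sing hn Q hQ z _ e₁ he₁0 hQe₁
  intro e he0 hQe
  obtain ⟨a, ha⟩ := Submodule.mem_span_singleton.mp (hcon e he0 hQe)
  exact ⟨a, ha.symm⟩

/-! ### orbits of a normal subgroup on singular points -/

/-- `y` spans a point in the `N`-orbit of the point spanned by `e₀` -/
def NOrb (Q : QuadraticForm F (ι → F)) (N : Subgroup ↥(Cfsg.isometryGroup F ⇑Q))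
    (e₀ y : ι → F) : Prop :=
  ∃ n ∈ N, ∃ c : F, c ≠ 0 ∧ (mat Q n).mulVec e₀ = c • y

lemma NOrb_self (Q : QuadraticForm F (ι → F)) (N : Subgroup ↥(Cfsg.isometryGroup F ⇑Q))
    (e₀ : ι → F) : NOrb Q N e₀ e₀ :=
  ⟨1, one_mem _, 1, one_ne_zero, by rw [mat_one, Matrix.one_mulVec, one_smul]⟩

lemma NOrb_of_smul (Q : QuadraticForm F (ι → F)) (N : Subgroup ↥(Cfsg.isometryGroup F ⇑Q))
    (e₀ y : ι → F) (t : F) (ht : t ≠ 0) (h : NOrb Q N e₀ (t • y)) : NOrb Q N e₀ y := by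
  obtain ⟨n, hn, c, hc, hnc⟩ := h
  exact ⟨n, hn, c * t, mul_ne_zero hc ht, by rw [hnc, smul_smul]⟩

/-- an element of `Ω` fixing a point of the orbit preserves the orbit -/
lemma NOrb_stab (Q : QuadraticForm F (ι → F)) (N : Subgroup ↥(Cfsg.isometryGroup F ⇑Q))
    (hnorm : ∀ g ∈ Cfsg.Omega F ⇑Q, ∀ m ∈ N, g * m * g⁻¹ ∈ N) (e₀ : ι → F)
    (g : ↥(Cfsg.isometryGroup F ⇑Q)) (hg : g ∈ Cfsg.Omega F ⇑Q) (b : ι → F) (c : F) (hc : c ≠ 0)
    (hgb : (mat Q g).mulVec b = c • b) (hb : NOrb Q N e₀ b) (x : ι → F) (hx : NOrb Q N e₀ x) :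
    NOrb Q N e₀ ((mat Q g).mulVec x) := by
  obtain ⟨nb, hnb, cb, hcb, hnbc⟩ := hb
  obtain ⟨nx, hnx, cx, hcx, hnxc⟩ := hx
  have hginv : (mat Q g⁻¹).mulVec b = c⁻¹ • b := by
    have h1 := mat_inv_mulVec Q g b
    rw [hgb, Matrix.mulVec_smul] at h1
    have h2 : (mat Q g⁻¹).mulVec b = c⁻¹ • (c • (mat Q g⁻¹).mulVec b) := by
      rw [smul_smul, inv_mul_cancel₀ hc, one_smul]
    rw [h2, h1]
  have hnbinv : (mat Q nb⁻¹).mulVec b = cb⁻¹ • e₀ := by
    have h1 := mat_inv_mulVec Q nb e₀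
    rw [hnbc, Matrix.mulVec_smul] at h1
    have h2 : (mat Q nb⁻¹).mulVec b = cb⁻¹ • (cb • (mat Q nb⁻¹).mulVec b) := by
      rw [smul_smul, inv_mul_cancel₀ hcb, one_smul]
    rw [h2, h1]
  refine ⟨g * (nx * nb⁻¹) * g⁻¹ * nb, mul_mem (hnorm g hg _ (mul_mem hnx (inv_mem hnb))) hnb,
    c⁻¹ * cx, mul_ne_zero (inv_ne_zero hc) hcx, ?_⟩
  rw [mat_mul, mat_mul, mat_mul, mat_mul, ← Matrix.mulVec_mulVec, ← Matrix.mulVec_mulVec,
    ← Matrix.mulVec_mulVec, ← Matrix.mulVec_mulVec, hnbc]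
  simp only [Matrix.mulVec_smul, hginv, hnbinv, hnxc, smul_smul]
  congr 1
  field_simp

/-- the root group of a point `b` of the orbit is transitive on the singular points not
orthogonal to `b` -/
lemma NOrb_move [Fintype F] (hn : 5 ≤ Fintype.card ι) (Q : QuadraticForm F (ι → F))
    (hQ : (QuadraticMap.polarBilin Q).Nondegenerate) (N : Subgroup ↥(Cfsg.isometryGroup F ⇑Q))
    (hnorm : ∀ g ∈ Cfsg.Omega F ⇑Q, ∀ m ∈ N, g * m * g⁻¹ ∈ N) (e₀ b x y : ι → F)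
    (hQb : Q b = 0) (hQx : Q x = 0) (hQy : Q y = 0) (hb : NOrb Q N e₀ b) (hx : NOrb Q N e₀ x)
    (hbx : QuadraticMap.polar (⇑Q) b x ≠ 0) (hby : QuadraticMap.polar (⇑Q) b y ≠ 0) :
    NOrb Q N e₀ y := by
  obtain ⟨p, hp⟩ : ∃ p, p = QuadraticMap.polar (⇑Q) b x := ⟨_, rfl⟩
  obtain ⟨q, hq⟩ : ∃ q, q = QuadraticMap.polar (⇑Q) b y := ⟨_, rfl⟩
  rw [← hp] at hbx
  rw [← hq] at hby
  obtain ⟨w, hw⟩ : ∃ w, w = p⁻¹ • ((p / q) • y - x) := ⟨_, rfl⟩
  have hbw : QuadraticMap.polar (⇑Q) b w = 0 := by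
    rw [hw, QuadraticMap.polar_smul_right, QuadraticMap.polar_sub_right,
      QuadraticMap.polar_smul_right, ← hp, ← hq, smul_eq_mul, smul_eq_mul, div_mul_cancel₀ _ hby,
      sub_self, mul_zero]
  have hxx : QuadraticMap.polar (⇑Q) x x = 0 := by rw [polar_self_eq, hQx, mul_zero]
  have hgΩ : sigEl Q b w ∈ Cfsg.Omega F ⇑Q := sig_mem_omega hn Q hQ b w hQb hbw
  have hgb : (mat Q (sigEl Q b w)).mulVec b = (1 : F) • b := by
    rw [sig_fix Q b w hQb hbw, one_smul]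
  have hcoef : QuadraticMap.polar (⇑Q) w x + Q w * QuadraticMap.polar (⇑Q) b x = 0 := by
    rw [hw, QuadraticMap.polar_smul_left, QuadraticMap.polar_sub_left,
      QuadraticMap.polar_smul_left, QuadraticMap.map_smul, Q_sub, QuadraticMap.map_smul, hQy, hQx,
      hxx, QuadraticMap.polar_smul_left, ← hp]
    simp only [smul_eq_mul]
    field_simp
    ring
  have hgx : (mat Q (sigEl Q b w)).mulVec x = (p / q) • y := by
    rw [sigEl_mulVec Q b w hQb hbw, hcoef, zero_smul, sub_zero, ← hp, hw, smul_smul,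
      mul_inv_cancel₀ hbx, one_smul]
    abel
  have h1 := NOrb_stab Q N hnorm e₀ _ hgΩ b 1 one_ne_zero hgb hb x hx
  rw [hgx] at h1
  exact NOrb_of_smul Q N e₀ y (p / q) (div_ne_zero hbx hby) h1

/-- a singular vector orthogonal to neither of two orthogonal singular vectors -/
lemma exists_sing_nonperp (Q : QuadraticForm F (ι → F))
    (hQ : (QuadraticMap.polarBilin Q).Nondegenerate) (b y : ι → F) (hb0 : b ≠ 0) (hy0 : y ≠ 0)
    (hQb : Q b = 0) (hQy : Q y = 0) (hby : QuadraticMap.polar (⇑Q) b y = 0) :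
    ∃ z, Q z = 0 ∧ QuadraticMap.polar (⇑Q) z b ≠ 0 ∧ QuadraticMap.polar (⇑Q) z y ≠ 0 := by
  obtain ⟨fb, hQfb, hbfb⟩ := exists_hyp_partner Q hQ b hb0 hQb
  obtain ⟨fy, hQfy, hyfy⟩ := exists_hyp_partner Q hQ y hy0 hQy
  have hfbb : QuadraticMap.polar (⇑Q) fb b = 1 := by rw [QuadraticMap.polar_comm, hbfb]
  have hfyy : QuadraticMap.polar (⇑Q) fy y = 1 := by rw [QuadraticMap.polar_comm, hyfy]
  have hbb : QuadraticMap.polar (⇑Q) b b = 0 := by rw [polar_self_eq, hQb, mul_zero]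
  by_cases h1 : QuadraticMap.polar (⇑Q) fb y = 0
  swap
  · exact ⟨fb, hQfb, by rw [hfbb]; exact one_ne_zero, h1⟩
  by_cases h2 : QuadraticMap.polar (⇑Q) fy b = 0
  swap
  · exact ⟨fy, hQfy, h2, by rw [hfyy]; exact one_ne_zero⟩
  refine ⟨fb + fy - QuadraticMap.polar (⇑Q) fb fy • b, ?_, ?_, ?_⟩
  · rw [Q_sub, Q_add, QuadraticMap.map_smul, hQfb, hQfy, hQb, QuadraticMap.polar_smul_right,
      QuadraticMap.polar_add_left, hfbb, h2]
    simp
  · rw [QuadraticMap.polar_sub_left, QuadraticMap.polar_add_left, QuadraticMap.polar_smul_left,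
      hfbb, h2, hbb]
    simp
  · rw [QuadraticMap.polar_sub_left, QuadraticMap.polar_add_left, QuadraticMap.polar_smul_left,
      h1, hfyy, hby]
    simp

/-- if the orbit contains two non-orthogonal points, it contains all singular points -/
lemma NOrb_all_of_pair [Fintype F] (hn : 5 ≤ Fintype.card ι) (Q : QuadraticForm F (ι → F))
    (hQ : (QuadraticMap.polarBilin Q).Nondegenerate) (N : Subgroup ↥(Cfsg.isometryGroup F ⇑Q))
    (hnorm : ∀ g ∈ Cfsg.Omega F ⇑Q, ∀ m ∈ N, g * m * g⁻¹ ∈ N) (e₀ x₁ x₂ : ι → F)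
    (hQx₁ : Q x₁ = 0) (hQx₂ : Q x₂ = 0) (hx₁ : NOrb Q N e₀ x₁) (hx₂ : NOrb Q N e₀ x₂)
    (hx₁x₂ : QuadraticMap.polar (⇑Q) x₁ x₂ ≠ 0) (y : ι → F) (hy0 : y ≠ 0) (hQy : Q y = 0) :
    NOrb Q N e₀ y := by
  have hx₁0 : x₁ ≠ 0 := by
    rintro rfl
    exact hx₁x₂ (QuadraticMap.polar_zero_left Q x₂)
  by_cases h : QuadraticMap.polar (⇑Q) x₁ y = 0
  · obtain ⟨z, hQz, hzx₁, hzy⟩ := exists_sing_nonperp Q hQ x₁ y hx₁0 hy0 hQx₁ hQy h
    have hz : NOrb Q N e₀ z := NOrb_move hn Q hQ N hnorm e₀ x₁ x₂ z hQx₁ hQx₂ hQz hx₁ hx₂ hx₁x₂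
      (by rw [QuadraticMap.polar_comm]; exact hzx₁)
    exact NOrb_move hn Q hQ N hnorm e₀ z x₁ y hQz hQx₁ hQy hz hx₁ hzx₁ hzy
  · exact NOrb_move hn Q hQ N hnorm e₀ x₁ x₂ y hQx₁ hQx₂ hQy hx₁ hx₂ hx₁x₂ h

/-- an orbit with at least two points contains two non-orthogonal points -/
lemma NOrb_pair [Fintype F] (hn : 5 ≤ Fintype.card ι) (Q : QuadraticForm F (ι → F))
    (hQ : (QuadraticMap.polarBilin Q).Nondegenerate) (N : Subgroup ↥(Cfsg.isometryGroup F ⇑Q))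
    (hnorm : ∀ g ∈ Cfsg.Omega F ⇑Q, ∀ m ∈ N, g * m * g⁻¹ ∈ N) (e₀ y₁ : ι → F)
    (hQe₀ : Q e₀ = 0) (hQy₁ : Q y₁ = 0) (hy₁ : NOrb Q N e₀ y₁)
    (hne : y₁ ∉ Submodule.span F {e₀}) :
    ∃ x₁ x₂ : ι → F, Q x₁ = 0 ∧ Q x₂ = 0 ∧ NOrb Q N e₀ x₁ ∧ NOrb Q N e₀ x₂ ∧
      QuadraticMap.polar (⇑Q) x₁ x₂ ≠ 0 := by
  by_cases h : QuadraticMap.polar (⇑Q) e₀ y₁ = 0
  swap
  · exact ⟨e₀, y₁, hQe₀, hQy₁, NOrb_self Q N e₀, hy₁, h⟩
  obtain ⟨v, hvK, hv⟩ := exists_perp_pairing Q hQ _ y₁ hne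
  have he₀v : QuadraticMap.polar (⇑Q) e₀ v = 0 := (mem_orthSub_span Q _ v).mp hvK e₀ rfl
  have hy₁y₁ : QuadraticMap.polar (⇑Q) y₁ y₁ = 0 := by rw [polar_self_eq, hQy₁, mul_zero]
  obtain ⟨p, hp⟩ : ∃ p, p = QuadraticMap.polar (⇑Q) y₁ v := ⟨_, rfl⟩
  rw [← hp] at hv
  obtain ⟨f, hf⟩ : ∃ f, f = v - (Q v / p) • y₁ := ⟨_, rfl⟩
  have hQf : Q f = 0 := by
    rw [hf, Q_sub, QuadraticMap.map_smul, hQy₁, QuadraticMap.polar_smul_right,
      QuadraticMap.polar_comm (⇑Q) v y₁, ← hp]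
    simp only [smul_eq_mul]
    field_simp
    ring
  have he₀f : QuadraticMap.polar (⇑Q) e₀ f = 0 := by
    rw [hf, QuadraticMap.polar_sub_right, QuadraticMap.polar_smul_right, he₀v, h]
    simp
  have hfe₀ : QuadraticMap.polar (⇑Q) f e₀ = 0 := by rw [QuadraticMap.polar_comm, he₀f]
  have hfy₁ : QuadraticMap.polar (⇑Q) f y₁ = p := by
    rw [hf, QuadraticMap.polar_sub_left, QuadraticMap.polar_smul_left, hy₁y₁,
      QuadraticMap.polar_comm (⇑Q) v y₁, ← hp]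
    simp
  obtain ⟨u, huK, hQu⟩ := exists_nonsing_perp Q hQ (Submodule.span F {e₀, f}) (by
    have := finrank_span_pair_le (F := F) e₀ f
    omega)
  rw [mem_orthSub_span] at huK
  have he₀u : QuadraticMap.polar (⇑Q) e₀ u = 0 := huK e₀ (by simp)
  have hfu : QuadraticMap.polar (⇑Q) f u = 0 := huK f (by simp)
  have hue₀ : QuadraticMap.polar (⇑Q) u e₀ = 0 := by rw [QuadraticMap.polar_comm, he₀u]
  have hgΩ : sigEl Q f u ∈ Cfsg.Omega F ⇑Q := sig_mem_omega hn Q hQ f u hQf hfu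
  have hge₀ : (mat Q (sigEl Q f u)).mulVec e₀ = (1 : F) • e₀ := by
    rw [sigEl_mulVec Q f u hQf hfu, hfe₀, hue₀]
    simp
  have h1 := NOrb_stab Q N hnorm e₀ _ hgΩ e₀ 1 one_ne_zero hge₀ (NOrb_self Q N e₀) y₁ hy₁
  refine ⟨y₁, (mat Q (sigEl Q f u)).mulVec y₁, hQy₁, ?_, hy₁, h1, ?_⟩
  · rw [isom_pres]
    exact hQy₁
  · rw [sigEl_mulVec Q f u hQf hfu, QuadraticMap.polar_sub_right, QuadraticMap.polar_add_right,
      QuadraticMap.polar_smul_right, QuadraticMap.polar_smul_right, hy₁y₁, hfy₁,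
      QuadraticMap.polar_comm (⇑Q) y₁ f, hfy₁, QuadraticMap.polar_comm (⇑Q) y₁ u]
    simp only [smul_eq_mul]
    have h2 : 0 + p * QuadraticMap.polar (⇑Q) u y₁
        - (QuadraticMap.polar (⇑Q) u y₁ + Q u * p) * p = -(Q u * p * p) := by ring
    rw [h2]
    exact neg_ne_zero.mpr (mul_ne_zero (mul_ne_zero hQu hv) hv)

/-- Iwasawa: a normal subgroup of `Ω` not inside the centre is everything (dimension `≥ 6`). -/
theorem omega_normal_eq_top [Fintype F] (hn : 6 ≤ Fintype.card ι) (Q : QuadraticForm F (ι → F))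
    (hQ : (QuadraticMap.polarBilin Q).Nondegenerate) (N : Subgroup ↥(Cfsg.Omega F ⇑Q))
    [hN : N.Normal] (hNZ : ¬ N ≤ Subgroup.center ↥(Cfsg.Omega F ⇑Q)) : N = ⊤ := by
  classical
  obtain ⟨n, hnN, hnZ⟩ : ∃ n ∈ N, n ∉ Subgroup.center ↥(Cfsg.Omega F ⇑Q) := by
    by_contra hcon
    push Not at hcon
    exact hNZ hcon
  have hns : ¬ (mat Q n.1 = 1 ∨ mat Q n.1 = -1) := by
    intro h
    apply hnZ
    rw [Subgroup.mem_center_iff]
    intro g
    apply Subtype.ext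
    apply isom_ext
    show mat Q (g.1 * n.1) = mat Q (n.1 * g.1)
    rw [mat_mul, mat_mul]
    rcases h with h | h <;> rw [h] <;> simp
  obtain ⟨e₀, he₀0, hQe₀, hmove⟩ := exists_moved_sing (by omega) Q hQ n.1 hns
  obtain ⟨N', hN'⟩ : ∃ N' : Subgroup ↥(Cfsg.isometryGroup F ⇑Q),
      N' = N.map (Cfsg.Omega F ⇑Q).subtype := ⟨_, rfl⟩
  have hN'Ω : ∀ m ∈ N', m ∈ Cfsg.Omega F ⇑Q := by
    intro m hm
    rw [hN'] at hm
    obtain ⟨m', _, rfl⟩ := hm
    exact m'.2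
  have hN'mem : ∀ (m : ↥(Cfsg.isometryGroup F ⇑Q)) (hm : m ∈ Cfsg.Omega F ⇑Q), m ∈ N' →
      (⟨m, hm⟩ : ↥(Cfsg.Omega F ⇑Q)) ∈ N := by
    intro m hm hmN
    rw [hN'] at hmN
    obtain ⟨m', hm', hmm'⟩ := hmN
    have h1 : m' = ⟨m, hm⟩ := Subtype.ext hmm'
    rw [← h1]
    exact hm'
  have hnorm : ∀ g ∈ Cfsg.Omega F ⇑Q, ∀ m ∈ N', g * m * g⁻¹ ∈ N' := by
    intro g hg m hm
    rw [hN'] at hm ⊢
    obtain ⟨m', hm', rfl⟩ := hm
    have h3 := hN.conj_mem m' hm' (⟨g, hg⟩ : ↥(Cfsg.Omega F ⇑Q))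
    have h4 : g * (Cfsg.Omega F ⇑Q).subtype m' * g⁻¹
        = (Cfsg.Omega F ⇑Q).subtype
          ((⟨g, hg⟩ : ↥(Cfsg.Omega F ⇑Q)) * m' * (⟨g, hg⟩ : ↥(Cfsg.Omega F ⇑Q))⁻¹) := by
      rw [map_mul, map_mul, map_inv]
      rfl
    rw [h4]
    exact Subgroup.mem_map_of_mem _ h3
  have hnN' : n.1 ∈ N' := by
    rw [hN']
    exact ⟨n, hnN, rfl⟩
  have h1 : NOrb Q N' e₀ ((mat Q n.1).mulVec e₀) :=
    ⟨n.1, hnN', 1, one_ne_zero, by rw [one_smul]⟩
  obtain ⟨x₁, x₂, hQx₁, hQx₂, hx₁, hx₂, hx₁x₂⟩ := NOrb_pair (by omega) Q hQ N' hnorm e₀ _ hQe₀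
    (by rw [isom_pres]; exact hQe₀) h1 hmove
  have htrans := NOrb_all_of_pair (by omega) Q hQ N' hnorm e₀ x₁ x₂ hQx₁ hQx₂ hx₁ hx₂ hx₁x₂
  obtain ⟨π, hπ⟩ : ∃ π : ↥(Cfsg.Omega F ⇑Q) →* ↥(Cfsg.Omega F ⇑Q) ⧸ N,
      π = QuotientGroup.mk' N := ⟨_, rfl⟩
  have hπN : ∀ m : ↥(Cfsg.Omega F ⇑Q), m ∈ N → π m = 1 := by
    intro m hm
    rw [hπ]
    exact (QuotientGroup.eq_one_iff m).mpr hm
  have hsΩ : ∀ u : ι → F, QuadraticMap.polar (⇑Q) e₀ u = 0 → sigEl Q e₀ u ∈ Cfsg.Omega F ⇑Q :=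
    fun u hu => sig_mem_omega (by omega) Q hQ e₀ u hQe₀ hu
  obtain ⟨S₀, hS₀⟩ : ∃ S₀ : Set (↥(Cfsg.Omega F ⇑Q) ⧸ N),
      S₀ = {x | ∃ (u : ι → F) (hu : QuadraticMap.polar (⇑Q) e₀ u = 0),
        x = π ⟨sigEl Q e₀ u, hsΩ u hu⟩} := ⟨_, rfl⟩
  obtain ⟨C, hC⟩ : ∃ C : Subgroup (↥(Cfsg.Omega F ⇑Q) ⧸ N), C = Subgroup.closure S₀ := ⟨_, rfl⟩
  have hTΩ := SigGrp_le_omega (Or.inr (by omega)) Q hQ
  have h2 : ∀ (g : ↥(Cfsg.isometryGroup F ⇑Q)) (hg : g ∈ Cfsg.Omega F ⇑Q), π ⟨g, hg⟩ ∈ C := by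
    intro g hg
    have hgT : g ∈ SigGrp Q := omega_le_SigGrp (by omega) Q hQ hg
    revert hg
    induction hgT using Subgroup.closure_induction with
    | mem x hx =>
      intro hg
      obtain ⟨e, u, hQe, heu, hu, rfl⟩ := hx
      by_cases he0 : e = 0
      · have h3 : (⟨sigEl Q e u, hg⟩ : ↥(Cfsg.Omega F ⇑Q)) = 1 := by
          apply Subtype.ext
          show sigEl Q e u = 1
          rw [he0, sig_zero_left]
        rw [h3, map_one]
        exact one_mem _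
      obtain ⟨m, hm, c, hc, hmc⟩ := htrans e he0 hQe
      obtain ⟨u', hu'⟩ : ∃ u', u' = (mat Q m⁻¹).mulVec (c⁻¹ • u) := ⟨_, rfl⟩
      have hmu' : (mat Q m).mulVec u' = c⁻¹ • u := by rw [hu', mat_mulVec_inv]
      have he₀u' : QuadraticMap.polar (⇑Q) e₀ u' = 0 := by
        have h3 := isom_polar Q m e₀ u'
        rw [show ((m : Matrix.GeneralLinearGroup ι F) : Matrix ι ι F).mulVec e₀ = c • e from hmc,
          show ((m : Matrix.GeneralLinearGroup ι F) : Matrix ι ι F).mulVec u' = c⁻¹ • u from hmu',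
          QuadraticMap.polar_smul_left, QuadraticMap.polar_smul_right, heu] at h3
        rw [← h3]
        simp
      have e1 : sigEl Q e u = m * sigEl Q e₀ u' * m⁻¹ := by
        rw [sig_conj Q m e₀ u' hQe₀ he₀u', hmc, hmu',
          sig_smul Q e (c⁻¹ • u) c hQe (by rw [QuadraticMap.polar_smul_right, heu, smul_zero]),
          smul_smul, mul_inv_cancel₀ hc, one_smul]
      have hmΩ : m ∈ Cfsg.Omega F ⇑Q := hN'Ω m hm
      have e2 : (⟨sigEl Q e u, hg⟩ : ↥(Cfsg.Omega F ⇑Q))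
          = ⟨m, hmΩ⟩ * ⟨sigEl Q e₀ u', hsΩ u' he₀u'⟩ * ⟨m, hmΩ⟩⁻¹ := Subtype.ext e1
      rw [e2, map_mul, map_mul, map_inv, hπN ⟨m, hmΩ⟩ (hN'mem m hmΩ hm), one_mul, inv_one, mul_one,
        hC]
      apply Subgroup.subset_closure
      rw [hS₀]
      exact ⟨u', he₀u', rfl⟩
    | one =>
      intro hg
      have h3 : (⟨1, hg⟩ : ↥(Cfsg.Omega F ⇑Q)) = 1 := rfl
      rw [h3, map_one]
      exact one_mem _
    | mul x y hx hy ihx ihy =>
      intro hg
      have hxΩ : x ∈ Cfsg.Omega F ⇑Q := hTΩ hx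
      have hyΩ : y ∈ Cfsg.Omega F ⇑Q := hTΩ hy
      have h3 : (⟨x * y, hg⟩ : ↥(Cfsg.Omega F ⇑Q)) = ⟨x, hxΩ⟩ * ⟨y, hyΩ⟩ := rfl
      rw [h3, map_mul]
      exact mul_mem (ihx hxΩ) (ihy hyΩ)
    | inv x hx ih =>
      intro hg
      have hxΩ : x ∈ Cfsg.Omega F ⇑Q := hTΩ hx
      have h3 : (⟨x⁻¹, hg⟩ : ↥(Cfsg.Omega F ⇑Q)) = ⟨x, hxΩ⟩⁻¹ := rfl
      rw [h3, map_inv]
      exact inv_mem (ih hxΩ)
  have hgen : ∀ (u v : ι → F) (hu : QuadraticMap.polar (⇑Q) e₀ u = 0)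
      (hv : QuadraticMap.polar (⇑Q) e₀ v = 0),
      π ⟨sigEl Q e₀ u, hsΩ u hu⟩ * π ⟨sigEl Q e₀ v, hsΩ v hv⟩
        = π ⟨sigEl Q e₀ v, hsΩ v hv⟩ * π ⟨sigEl Q e₀ u, hsΩ u hu⟩ := by
    intro u v hu hv
    rw [← map_mul, ← map_mul]
    congr 1
    apply Subtype.ext
    show sigEl Q e₀ u * sigEl Q e₀ v = sigEl Q e₀ v * sigEl Q e₀ u
    rw [sig_mul Q e₀ u v hQe₀ hu hv, sig_mul Q e₀ v u hQe₀ hv hu, add_comm]
  have h3 : C ≤ Subgroup.centralizer S₀ := by
    rw [hC, Subgroup.closure_le]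
    intro x hx
    rw [hS₀] at hx
    obtain ⟨u, hu, rfl⟩ := hx
    rw [SetLike.mem_coe, Subgroup.mem_centralizer_iff]
    intro y hy
    rw [hS₀] at hy
    obtain ⟨v, hv, rfl⟩ := hy
    exact hgen v u hv hu
  have h4 : C ≤ Subgroup.centralizer (C : Set (↥(Cfsg.Omega F ⇑Q) ⧸ N)) := by
    conv_lhs => rw [hC]
    rw [Subgroup.closure_le]
    intro x hx
    rw [SetLike.mem_coe, Subgroup.mem_centralizer_iff]
    intro h hh
    have h5 := h3 hh
    rw [Subgroup.mem_centralizer_iff] at h5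
    exact (h5 x hx).symm
  have h5 : commutator ↥(Cfsg.Omega F ⇑Q) ≤ N := by
    rw [commutator_def, Subgroup.commutator_le]
    intro g _ h _
    rw [← QuotientGroup.eq_one_iff (N := N), commutatorElement_def]
    have hg' : π g ∈ C := h2 g.1 g.2
    have hh' : π h ∈ C := h2 h.1 h.2
    have h6 := h4 hg'
    rw [Subgroup.mem_centralizer_iff] at h6
    have h7 := h6 _ hh'
    have h8 : π (g * h * g⁻¹ * h⁻¹) = 1 := by
      rw [map_mul, map_mul, map_mul, map_inv, map_inv, ← h7, mul_inv_cancel_right, mul_inv_cancel]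
    rw [hπ] at h8
    exact h8
  rw [eq_top_iff, ← omega_perfect hn Q hQ]
  exact h5

/-- a Siegel transformation with non-singular parameter is not a scalar -/
lemma sig_not_scalar (Q : QuadraticForm F (ι → F))
    (hQ : (QuadraticMap.polarBilin Q).Nondegenerate) (e u : ι → F) (he0 : e ≠ 0) (hQe : Q e = 0)
    (heu : QuadraticMap.polar (⇑Q) e u = 0) (hu : Q u ≠ 0) :
    ¬ (mat Q (sigEl Q e u) = 1 ∨ mat Q (sigEl Q e u) = -1) := by
  obtain ⟨e', hQe', hee'⟩ := exists_hyp_partner Q hQ e he0 hQe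
  have hee : QuadraticMap.polar (⇑Q) e e = 0 := by rw [polar_self_eq, hQe, mul_zero]
  have h1 := sigEl_mulVec Q e u hQe heu e'
  rw [hee', one_smul, mul_one] at h1
  obtain ⟨c, hc⟩ : ∃ c, c = QuadraticMap.polar (⇑Q) u e' + Q u := ⟨_, rfl⟩
  rw [← hc] at h1
  have hne : u ≠ c • e := by
    intro h
    apply hu
    rw [h, QuadraticMap.map_smul, hQe, smul_zero]
  rintro (h | h)
  · rw [h, Matrix.one_mulVec] at h1
    apply hne
    have h2 : u = (e' + u - c • e) - e' + c • e := by abel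
    rw [h2, ← h1]
    abel
  · rw [h, Matrix.neg_mulVec, Matrix.one_mulVec] at h1
    have h2 : (2 : F) = 0 := by
      have h3 := congrArg (fun y => QuadraticMap.polar (⇑Q) e y) h1
      simp only [QuadraticMap.polar_neg_right, QuadraticMap.polar_sub_right,
        QuadraticMap.polar_add_right, QuadraticMap.polar_smul_right, hee', heu, hee, smul_eq_mul,
        mul_zero, add_zero, sub_zero] at h3
      linear_combination -h3
    apply hne
    have h4 : u = (e' + u - c • e) - e' + c • e := by abel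
    rw [h4, ← h1]
    have h5 : -e' - e' + c • e = c • e - (2 : F) • e' := by
      rw [two_smul]
      abel
    rw [h5, h2, zero_smul, sub_zero]

/-- `PΩ(Q)` is simple for a non-degenerate quadratic form in dimension at least six over a finite
field. -/
theorem pomega_simple [Fintype F] (hn : 6 ≤ Fintype.card ι) (Q : QuadraticForm F (ι → F))
    (hQ : (QuadraticMap.polarBilin Q).Nondegenerate) : IsSimpleGroup (Cfsg.POmega F ⇑Q) := by
  classical
  obtain ⟨e₀, -, he₀0, hQe₀⟩ := exists_sing_in Q ⊤ (by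
    rw [finrank_top, Module.finrank_fintype_fun_eq_card]
    omega)
  obtain ⟨u, huK, hQu⟩ := exists_nonsing_perp Q hQ (Submodule.span F {e₀}) (by
    have := finrank_span_single_le (F := F) e₀
    omega)
  have he₀u : QuadraticMap.polar (⇑Q) e₀ u = 0 := (mem_orthSub_span Q _ u).mp huK e₀ rfl
  have hgΩ : sigEl Q e₀ u ∈ Cfsg.Omega F ⇑Q := sig_mem_omega (by omega) Q hQ e₀ u hQe₀ he₀u
  have hgZ : (⟨sigEl Q e₀ u, hgΩ⟩ : ↥(Cfsg.Omega F ⇑Q)) ∉ Subgroup.center ↥(Cfsg.Omega F ⇑Q) := by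
    intro hz
    apply sig_not_scalar Q hQ e₀ u he₀0 hQe₀ he₀u hQu
    apply central_scalar hn Q hQ (sigEl Q e₀ u) _ e₀ he₀0 hQe₀
    intro g hg
    have h1 := Subgroup.mem_center_iff.mp hz ⟨g, hg⟩
    exact (congrArg Subtype.val h1).symm
  have hnt : Nontrivial (Cfsg.POmega F ⇑Q) := by
    refine ⟨⟨QuotientGroup.mk' _ ⟨sigEl Q e₀ u, hgΩ⟩, 1, ?_⟩⟩
    intro h
    exact hgZ ((QuotientGroup.eq_one_iff _).mp h)
  refine { toNontrivial := hnt, eq_bot_or_eq_top_of_normal := ?_ }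
  intro H hH
  have hcomap : (H.comap (QuotientGroup.mk' (Subgroup.center ↥(Cfsg.Omega F ⇑Q)))).Normal :=
    hH.comap _
  by_cases hle : H.comap (QuotientGroup.mk' (Subgroup.center ↥(Cfsg.Omega F ⇑Q)))
      ≤ Subgroup.center ↥(Cfsg.Omega F ⇑Q)
  · left
    rw [eq_bot_iff]
    intro h hh
    obtain ⟨g, rfl⟩ := QuotientGroup.mk'_surjective _ h
    rw [Subgroup.mem_bot]
    exact (QuotientGroup.eq_one_iff g).mpr (hle hh)
  · right
    have htop := omega_normal_eq_top hn Q hQ _ hle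
    rw [eq_top_iff]
    intro h _
    obtain ⟨g, rfl⟩ := QuotientGroup.mk'_surjective _ h
    have h1 : g ∈ H.comap (QuotientGroup.mk' (Subgroup.center ↥(Cfsg.Omega F ⇑Q))) := by
      rw [htop]
      exact Subgroup.mem_top g
    exact h1

end OrthSimple

end Cfsg.Agent.Lib.helper4
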