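import Mathlib
import Cfsg.Prelude.Def_GeometricClasses
import Cfsg.Agent.Lib.helper18.RCF3

/-!
# Quadratic field subalgebras of matrix algebras: generalities
-/

namespace Cfsg.Agent.Lib.helper4.Quad

open Matrix Polynomial

universe u

variable {F : Type u} [Field F] {n : ℕ}

/-- Two matrices killed by the same monic irreducible polynomial are conjugate. -/
theorem irr_conj (P : F[X]) (hPm : P.Monic) (hirr : Irreducible P)
    (A B : Matrix (Fin n) (Fin n) F) (hA : aeval A P = 0) (hB : aeval B P = 0) :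
    ∃ C D : Matrix (Fin n) (Fin n) F, C * D = 1 ∧ D * C = 1 ∧ C * A = B * C := by
  classical
  have key : ∀ T : Module.End F (Fin n → F), aeval T P = 0 →
      ∃ (ι : Type u) (_ : Fintype ι) (g : ι → F[X]), (∀ i, (g i).Monic) ∧
        (∀ i, g i = 1 ∨ g i = P) ∧
        (Finset.univ.filter (fun i => ¬ g i = 1)).card * P.natDegree = n ∧
        ∃ Ψ : (Fin n → F) ≃ₗ[F] Cfsg.Agent.Lib.helper18.RCF.Mg g,
          ∀ v, Ψ (T v) = (X : F[X]) • Ψ v := by
    intro T hT
    obtain ⟨ι, _, g, hg, -, Ψ, hΨ⟩ := Cfsg.Agent.Lib.helper18.RCF.exists_rcf T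
    have hdvd : ∀ i, g i ∣ P := Cfsg.Agent.Lib.helper18.RCF.rcf_dvd T g Ψ hΨ _ hT
    have hg1 : ∀ i, g i = 1 ∨ g i = P := by
      intro i
      obtain ⟨c, hc⟩ := hdvd i
      rcases hirr.isUnit_or_isUnit hc with h | h
      · left
        exact (hg i).eq_one_of_isUnit h
      · right
        apply eq_of_monic_of_associated (hg i) hPm
        exact ⟨h.unit, by rw [IsUnit.unit_spec]; exact hc.symm⟩
    refine ⟨ι, inferInstance, g, hg, hg1, ?_, Ψ, hΨ⟩
    have hcp : T.charpoly = P ^ (Finset.univ.filter (fun i => ¬ g i = 1)).card := by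
      rw [Cfsg.Agent.Lib.helper18.RCF.charpoly_of_rcf T g hg Ψ hΨ]
      have e1 : ∀ i, g i = if g i = 1 then 1 else P := by
        intro i
        rcases hg1 i with h | h
        · rw [if_pos h, h]
        · by_cases h' : g i = 1
          · rw [if_pos h', h']
          · rw [if_neg h', h]
      rw [Finset.prod_congr rfl (fun i _ => e1 i), Finset.prod_ite, Finset.prod_const_one,
        one_mul, Finset.prod_const]
    have e2 := LinearMap.charpoly_natDegree T
    rw [hcp, hPm.natDegree_pow, Module.finrank_fin_fun] at e2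
    exact e2
  have hTA : aeval (Matrix.toLinAlgEquiv' A) P = 0 := by
    have := Polynomial.aeval_algHom_apply
      (Matrix.toLinAlgEquiv' (R := F) (n := Fin n)).toAlgHom A P
    rw [hA, map_zero] at this
    exact this
  have hTB : aeval (Matrix.toLinAlgEquiv' B) P = 0 := by
    have := Polynomial.aeval_algHom_apply
      (Matrix.toLinAlgEquiv' (R := F) (n := Fin n)).toAlgHom B P
    rw [hB, map_zero] at this
    exact this
  obtain ⟨ι, _, g, hg, hg1, hcnt, Ψ, hΨ⟩ := key (Matrix.toLinAlgEquiv' A) hTA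
  obtain ⟨ι', _, g', hg', hg1', hcnt', Ψ', hΨ'⟩ := key (Matrix.toLinAlgEquiv' B) hTB
  have hdeg : 0 < P.natDegree := hirr.natDegree_pos
  have hj : (Finset.univ.filter (fun i => ¬ g i = 1)).card
      = (Finset.univ.filter (fun i => ¬ g' i = 1)).card :=
    Nat.eq_of_mul_eq_mul_right hdeg (hcnt.trans hcnt'.symm)
  obtain ⟨θ, hθ⟩ := Cfsg.Agent.Lib.helper18.RCF.Mg_equiv g g' hg hg' (by
    intro h hh
    rw [Nat.card_eq_fintype_card, Nat.card_eq_fintype_card, Fintype.card_subtype,
      Fintype.card_subtype]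
    by_cases hP : h = P
    · have e1 : Finset.univ.filter (fun i => g i = h)
          = Finset.univ.filter (fun i => ¬ g i = 1) := by
        ext i
        simp only [Finset.mem_filter, Finset.mem_univ, true_and]
        constructor
        · intro hi; rw [hi]; exact hh
        · intro hi; rw [hP]; exact (hg1 i).resolve_left hi
      have e1' : Finset.univ.filter (fun i => g' i = h)
          = Finset.univ.filter (fun i => ¬ g' i = 1) := by
        ext i
        simp only [Finset.mem_filter, Finset.mem_univ, true_and]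
        constructor
        · intro hi; rw [hi]; exact hh
        · intro hi; rw [hP]; exact (hg1' i).resolve_left hi
      rw [e1, e1', hj]
    · have e1 : Finset.univ.filter (fun i => g i = h) = ∅ := by
        ext i
        simp only [Finset.mem_filter, Finset.mem_univ, true_and, Finset.notMem_empty, iff_false]
        intro hi
        rcases hg1 i with h1 | h1
        · exact hh (hi ▸ h1)
        · exact hP (hi ▸ h1)
      have e1' : Finset.univ.filter (fun i => g' i = h) = ∅ := by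
        ext i
        simp only [Finset.mem_filter, Finset.mem_univ, true_and, Finset.notMem_empty, iff_false]
        intro hi
        rcases hg1' i with h1 | h1
        · exact hh (hi ▸ h1)
        · exact hP (hi ▸ h1)
      rw [e1, e1', Finset.card_empty, Finset.card_empty])
  obtain ⟨φ, hφ⟩ : ∃ φ : (Fin n → F) ≃ₗ[F] (Fin n → F),
      ∀ v, φ (Matrix.toLinAlgEquiv' A v) = Matrix.toLinAlgEquiv' B (φ v) := by
    refine ⟨Ψ.trans (θ.trans Ψ'.symm), ?_⟩
    intro v
    apply Ψ'.injective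
    rw [hΨ', LinearEquiv.trans_apply, LinearEquiv.trans_apply, LinearEquiv.apply_symm_apply, hΨ,
      hθ, LinearEquiv.trans_apply, LinearEquiv.trans_apply, LinearEquiv.apply_symm_apply]
  refine ⟨LinearMap.toMatrix' (φ : (Fin n → F) →ₗ[F] (Fin n → F)),
    LinearMap.toMatrix' (φ.symm : (Fin n → F) →ₗ[F] (Fin n → F)), ?_, ?_, ?_⟩
  · rw [← LinearMap.toMatrix'_comp, LinearEquiv.comp_coe, LinearEquiv.symm_trans_self,
      LinearEquiv.refl_toLinearMap, LinearMap.toMatrix'_id]
  · rw [← LinearMap.toMatrix'_comp, LinearEquiv.comp_coe, LinearEquiv.self_trans_symm,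
      LinearEquiv.refl_toLinearMap, LinearMap.toMatrix'_id]
  · have h3 : (φ : (Fin n → F) →ₗ[F] (Fin n → F)) ∘ₗ Matrix.toLin' A =
        Matrix.toLin' B ∘ₗ (φ : (Fin n → F) →ₗ[F] (Fin n → F)) := LinearMap.ext hφ
    have h4 := congrArg LinearMap.toMatrix' h3
    rw [LinearMap.toMatrix'_comp, LinearMap.toMatrix'_comp, LinearMap.toMatrix'_toLin',
      LinearMap.toMatrix'_toLin'] at h4
    exact h4

theorem coeff_zero (hn : 0 < n) (θ : Matrix (Fin n) (Fin n) F) (hθns : ∀ a : F, θ ≠ a • 1)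
    (s t : F) (h : s • (1 : Matrix (Fin n) (Fin n) F) + t • θ = 0) : s = 0 ∧ t = 0 := by
  have ht : t = 0 := by
    by_contra ht
    apply hθns (-(t⁻¹ * s))
    have e1 : t • θ = -(s • (1 : Matrix (Fin n) (Fin n) F)) := eq_neg_of_add_eq_zero_right h
    calc θ = t⁻¹ • (t • θ) := by rw [smul_smul, inv_mul_cancel₀ ht, one_smul]
      _ = -(t⁻¹ * s) • 1 := by rw [e1, smul_neg, smul_smul, neg_smul]
  subst ht
  rw [zero_smul, add_zero] at h
  have e2 := congrFun (congrFun h ⟨0, hn⟩) ⟨0, hn⟩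
  rw [Matrix.smul_apply, Matrix.one_apply_eq, smul_eq_mul, mul_one] at e2
  exact ⟨e2, rfl⟩

theorem exists_nonscalar (K : Subalgebra F (Matrix (Fin n) (Fin n) F))
    (hK : Module.finrank F K = 2) : ∃ κ ∈ K, ∀ a : F, κ ≠ a • 1 := by
  classical
  by_contra hcon
  push Not at hcon
  have hle : Subalgebra.toSubmodule K ≤ Submodule.span F {(1 : Matrix (Fin n) (Fin n) F)} := by
    intro κ hκ
    obtain ⟨a, ha⟩ := hcon κ hκ
    rw [ha]
    exact Submodule.smul_mem _ _ (Submodule.mem_span_singleton_self _)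
  have h1 := Submodule.finrank_mono hle
  have h2 : Module.finrank F (Submodule.span F {(1 : Matrix (Fin n) (Fin n) F)}) ≤ 1 :=
    (finrank_span_le_card ({(1 : Matrix (Fin n) (Fin n) F)} : Set _)).trans (by simp)
  have h0 : Module.finrank F (Subalgebra.toSubmodule K) = 2 := hK
  omega

theorem mem_iff_of_nonscalar (hn : 0 < n) (K : Subalgebra F (Matrix (Fin n) (Fin n) F))
    (hK : Module.finrank F K = 2) (θ : Matrix (Fin n) (Fin n) F) (hθ : θ ∈ K)
    (hθns : ∀ a : F, θ ≠ a • 1) (y : Matrix (Fin n) (Fin n) F) :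
    y ∈ K ↔ ∃ α β : F, y = α • 1 + β • θ := by
  constructor
  · intro hy
    have hli : LinearIndependent F ![(1 : K), (⟨θ, hθ⟩ : K)] := by
      rw [LinearIndependent.pair_iff]
      intro s t hst
      have h1 := congrArg Subtype.val hst
      exact coeff_zero hn θ hθns s t h1
    obtain ⟨b, hb⟩ : ∃ b : Module.Basis (Fin 2) F K, ⇑b = ![(1 : K), (⟨θ, hθ⟩ : K)] :=
      ⟨basisOfLinearIndependentOfCardEqFinrank hli (by rw [Fintype.card_fin, hK]),
        coe_basisOfLinearIndependentOfCardEqFinrank _ _⟩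
    have h2 := b.sum_repr ⟨y, hy⟩
    rw [Fin.sum_univ_two, hb] at h2
    refine ⟨b.repr ⟨y, hy⟩ 0, b.repr ⟨y, hy⟩ 1, ?_⟩
    have h3 := congrArg Subtype.val h2
    exact h3.symm
  · rintro ⟨α, β, rfl⟩
    exact K.add_mem (K.smul_mem K.one_mem α) (K.smul_mem hθ β)

theorem mem_norm_of (K : Subalgebra F (Matrix (Fin n) (Fin n) F))
    (θ : Matrix (Fin n) (Fin n) F)
    (hKθ : ∀ y, y ∈ K ↔ ∃ α β : F, y = α • 1 + β • θ) (g : GL (Fin n) F)
    (h1 : (g : Matrix (Fin n) (Fin n) F) * θ
      * ((g⁻¹ : GL (Fin n) F) : Matrix (Fin n) (Fin n) F) ∈ K)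
    (h2 : ((g⁻¹ : GL (Fin n) F) : Matrix (Fin n) (Fin n) F) * θ
      * (g : Matrix (Fin n) (Fin n) F) ∈ K) :
    g ∈ Cfsg.Geo.subalgebraNormalizer K := by
  have hgg : (g : Matrix (Fin n) (Fin n) F)
      * ((g⁻¹ : GL (Fin n) F) : Matrix (Fin n) (Fin n) F) = 1 := by
    rw [← Units.val_mul, mul_inv_cancel, Units.val_one]
  have hgg' : ((g⁻¹ : GL (Fin n) F) : Matrix (Fin n) (Fin n) F)
      * (g : Matrix (Fin n) (Fin n) F) = 1 := by
    rw [← Units.val_mul, inv_mul_cancel, Units.val_one]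
  show ∀ k : Matrix (Fin n) (Fin n) F, k ∈ K ↔ (g : Matrix (Fin n) (Fin n) F) * k
    * ((g⁻¹ : GL (Fin n) F) : Matrix (Fin n) (Fin n) F) ∈ K
  intro k
  constructor
  · intro hk
    obtain ⟨α, β, rfl⟩ := (hKθ k).mp hk
    have e1 : (g : Matrix (Fin n) (Fin n) F) * (α • 1 + β • θ)
        * ((g⁻¹ : GL (Fin n) F) : Matrix (Fin n) (Fin n) F)
        = α • 1 + β • ((g : Matrix (Fin n) (Fin n) F) * θ
          * ((g⁻¹ : GL (Fin n) F) : Matrix (Fin n) (Fin n) F)) := by
      rw [mul_add, add_mul, Matrix.mul_smul, Matrix.smul_mul, mul_one, hgg, Matrix.mul_smul,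
        Matrix.smul_mul]
    rw [e1]
    exact K.add_mem (K.smul_mem K.one_mem α) (K.smul_mem h1 β)
  · intro hk
    obtain ⟨α, β, hαβ⟩ := (hKθ _).mp hk
    have e1 : k = ((g⁻¹ : GL (Fin n) F) : Matrix (Fin n) (Fin n) F)
        * ((g : Matrix (Fin n) (Fin n) F) * k
          * ((g⁻¹ : GL (Fin n) F) : Matrix (Fin n) (Fin n) F))
        * (g : Matrix (Fin n) (Fin n) F) := by
      calc k = (((g⁻¹ : GL (Fin n) F) : Matrix (Fin n) (Fin n) F)
            * (g : Matrix (Fin n) (Fin n) F)) * k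
            * (((g⁻¹ : GL (Fin n) F) : Matrix (Fin n) (Fin n) F)
            * (g : Matrix (Fin n) (Fin n) F)) := by rw [hgg', one_mul, mul_one]
        _ = _ := by simp only [mul_assoc]
    have e2 : k = α • 1 + β • (((g⁻¹ : GL (Fin n) F) : Matrix (Fin n) (Fin n) F) * θ
          * (g : Matrix (Fin n) (Fin n) F)) := by
      rw [e1, hαβ, mul_add, add_mul, Matrix.mul_smul, Matrix.smul_mul, mul_one, hgg',
        Matrix.mul_smul, Matrix.smul_mul]
    rw [e2]
    exact K.add_mem (K.smul_mem K.one_mem α) (K.smul_mem h2 β)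

theorem sl_of_gl (H : Subgroup (GL (Fin n) F)) (x : SpecialLinearGroup (Fin n) F)
    (g : GL (Fin n) F) (hg : g⁻¹ * SpecialLinearGroup.toGL x * g ∈ H)
    (hdet : (g : Matrix (Fin n) (Fin n) F).det = 1) :
    ∃ P : SpecialLinearGroup (Fin n) F, P⁻¹ * x * P
      ∈ H.comap (SpecialLinearGroup.toGL : SpecialLinearGroup (Fin n) F →* GL (Fin n) F) := by
  obtain ⟨P, hP⟩ : ∃ P : SpecialLinearGroup (Fin n) F, SpecialLinearGroup.toGL P = g :=
    ⟨⟨g.1, hdet⟩, Units.ext rfl⟩
  refine ⟨P, ?_⟩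
  rw [Subgroup.mem_comap, map_mul, map_mul, map_inv, hP]
  exact hg

end Cfsg.Agent.Lib.helper4.Quad
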