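import Mathlib
import Cfsg.Prelude.Def_GeometricClasses

/-!
# Field subalgebras of full degree in matrix algebras (Singer cycles): structure
-/

namespace Cfsg.Agent.Lib.helper4.Singer

open Matrix Polynomial

universe u

variable {F : Type u} [Field F] {n : ℕ}

theorem inv_two_sided (K : Subalgebra F (Matrix (Fin n) (Fin n) F)) (k : ℕ)
    (hK : Cfsg.Geo.IsFieldSubalgebra k K) (x : Matrix (Fin n) (Fin n) F) (hx : x ∈ K)
    (hx0 : x ≠ 0) : ∃ y ∈ K, x * y = 1 ∧ y * x = 1 := by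
  obtain ⟨y, hy, hxy⟩ := hK.inv x hx hx0
  exact ⟨y, hy, hxy, by rw [hK.comm y hy x hx]; exact hxy⟩

theorem mulVec_inj (K : Subalgebra F (Matrix (Fin n) (Fin n) F)) (k : ℕ)
    (hK : Cfsg.Geo.IsFieldSubalgebra k K) (x : Matrix (Fin n) (Fin n) F) (hx : x ∈ K)
    (v : Fin n → F) (hv : v ≠ 0) (h : x *ᵥ v = 0) : x = 0 := by
  by_contra hx0
  obtain ⟨y, hy, hxy, hyx⟩ := inv_two_sided K k hK x hx hx0
  apply hv
  calc v = (y * x) *ᵥ v := by rw [hyx, one_mulVec]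
    _ = y *ᵥ (x *ᵥ v) := (mulVec_mulVec _ _ _).symm
    _ = 0 := by rw [h, mulVec_zero]

theorem exists_eq_mulVec (hn : 0 < n) (K : Subalgebra F (Matrix (Fin n) (Fin n) F))
    (hK : Cfsg.Geo.IsFieldSubalgebra n K) (v : Fin n → F) (hv : v ≠ 0) (u : Fin n → F) :
    ∃ κ ∈ K, κ *ᵥ v = u := by
  obtain ⟨φ, hφ⟩ : ∃ φ : ↥K →ₗ[F] (Fin n → F), ∀ κ : ↥K, φ κ = κ.1 *ᵥ v :=
    ⟨{ toFun := fun κ => κ.1 *ᵥ v
       map_add' := fun a b => by
         show (a.1 + b.1) *ᵥ v = a.1 *ᵥ v + b.1 *ᵥ v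
         rw [add_mulVec]
       map_smul' := fun a κ => by
         show (a • κ.1) *ᵥ v = a • (κ.1 *ᵥ v)
         rw [smul_mulVec] }, fun _ => rfl⟩
  have hinj : Function.Injective φ := by
    rw [← LinearMap.ker_eq_bot, LinearMap.ker_eq_bot']
    intro κ hκ
    rw [hφ] at hκ
    exact Subtype.ext (mulVec_inj K n hK κ.1 κ.2 v hv hκ)
  have hsurj : Function.Surjective φ :=
    (LinearMap.injective_iff_surjective_of_finrank_eq_finrank
      (by rw [hK.finrank_eq, Module.finrank_fin_fun])).mp hinj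
  obtain ⟨κ, hκ⟩ := hsurj u
  exact ⟨κ.1, κ.2, by rw [← hφ]; exact hκ⟩

theorem commute_aeval (y κ : Matrix (Fin n) (Fin n) F) (hy : y * κ = κ * y) (f : F[X]) :
    y * aeval κ f = aeval κ f * y := by
  induction f using Polynomial.induction_on' with
  | add p q hp hq => rw [map_add, mul_add, add_mul, hp, hq]
  | monomial k a =>
    rw [aeval_monomial, Algebra.algebraMap_eq_smul_one, Matrix.smul_mul, one_mul,
      Matrix.mul_smul, Matrix.smul_mul]
    congr 1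
    exact (Commute.pow_right (show Commute y κ from hy) k).eq

theorem commute_of_commute (hn : n.Prime) (K : Subalgebra F (Matrix (Fin n) (Fin n) F))
    (hK : Cfsg.Geo.IsFieldSubalgebra n K) (κ : Matrix (Fin n) (Fin n) F) (hκ : κ ∈ K)
    (hκns : ∀ a : F, κ ≠ a • 1) (y : Matrix (Fin n) (Fin n) F) (hy : y * κ = κ * y) :
    ∀ κ₁ ∈ K, y * κ₁ = κ₁ * y := by
  haveI : Nonempty (Fin n) := ⟨⟨0, hn.pos⟩⟩
  haveI : Nontrivial ↥K := ⟨⟨0, 1, fun h => by
    have := congrArg Subtype.val h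
    exact zero_ne_one this⟩⟩
  haveI : NoZeroDivisors ↥K := ⟨fun {a b} hab => by
    by_contra hcon
    push Not at hcon
    obtain ⟨y, hy, hay, hya⟩ := inv_two_sided K n hK a.1 a.2 (fun h => hcon.1 (Subtype.ext h))
    apply hcon.2
    apply Subtype.ext
    have e1 : a.1 * b.1 = 0 := congrArg Subtype.val hab
    calc b.1 = (y * a.1) * b.1 := by rw [hya, one_mul]
      _ = y * (a.1 * b.1) := mul_assoc _ _ _
      _ = 0 := by rw [e1, mul_zero]⟩
  haveI : IsDomain ↥K := NoZeroDivisors.to_isDomain _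
  have hsimple := Subalgebra.isSimpleOrder_of_finrank_prime F ↥K
    (by rw [hK.finrank_eq]; exact hn)
  obtain ⟨κ', hκ'⟩ : ∃ κ' : ↥K, κ'.1 = κ := ⟨⟨κ, hκ⟩, rfl⟩
  have hadj : Algebra.adjoin F {κ'} = ⊤ := by
    rcases hsimple.eq_bot_or_eq_top (Algebra.adjoin F {κ'}) with h | h
    · exfalso
      have h1 : κ' ∈ (⊥ : Subalgebra F ↥K) := h ▸ Algebra.subset_adjoin (Set.mem_singleton _)
      rw [Algebra.mem_bot] at h1
      obtain ⟨a, ha⟩ := h1
      apply hκns a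
      rw [← hκ', ← ha, Algebra.algebraMap_eq_smul_one]
      rfl
    · exact h
  intro κ₁ hκ₁
  have hmem : (⟨κ₁, hκ₁⟩ : ↥K) ∈ Algebra.adjoin F {κ'} := by rw [hadj]; exact Algebra.mem_top
  rw [Algebra.adjoin_singleton_eq_range_aeval] at hmem
  obtain ⟨f, hf⟩ := hmem
  have hf' : aeval κ f = κ₁ := by
    have e2 := Polynomial.aeval_algHom_apply K.val κ' f
    rw [← hκ']
    have e3 : K.val (aeval κ' f) = κ₁ := by
      have := congrArg Subtype.val hf
      exact this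
    rw [← e3]
    exact e2
  rw [← hf']
  exact commute_aeval y κ hy f

theorem mem_norm_of_forall (K : Subalgebra F (Matrix (Fin n) (Fin n) F)) (g : GL (Fin n) F)
    (h : ∀ κ ∈ K, (g : Matrix (Fin n) (Fin n) F) * κ
      * ((g⁻¹ : GL (Fin n) F) : Matrix (Fin n) (Fin n) F) ∈ K) :
    g ∈ Cfsg.Geo.subalgebraNormalizer K := by
  have hgg : (g : Matrix (Fin n) (Fin n) F)
      * ((g⁻¹ : GL (Fin n) F) : Matrix (Fin n) (Fin n) F) = 1 := by
    rw [← Units.val_mul, mul_inv_cancel, Units.val_one]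
  have hgg' : ((g⁻¹ : GL (Fin n) F) : Matrix (Fin n) (Fin n) F)
      * (g : Matrix (Fin n) (Fin n) F) = 1 := by
    rw [← Units.val_mul, inv_mul_cancel, Units.val_one]
  obtain ⟨c, hc⟩ : ∃ c : ↥K →ₗ[F] ↥K, ∀ κ : ↥K, (c κ).1 = (g : Matrix (Fin n) (Fin n) F) * κ.1
      * ((g⁻¹ : GL (Fin n) F) : Matrix (Fin n) (Fin n) F) :=
    ⟨{ toFun := fun κ => ⟨_, h κ.1 κ.2⟩
       map_add' := fun a b => by
         apply Subtype.ext
         show (g : Matrix (Fin n) (Fin n) F) * (a.1 + b.1)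
           * ((g⁻¹ : GL (Fin n) F) : Matrix (Fin n) (Fin n) F) = _ + _
         rw [mul_add, add_mul]
       map_smul' := fun a κ => by
         apply Subtype.ext
         show (g : Matrix (Fin n) (Fin n) F) * (a • κ.1)
           * ((g⁻¹ : GL (Fin n) F) : Matrix (Fin n) (Fin n) F) = a • _
         rw [Matrix.mul_smul, Matrix.smul_mul] }, fun _ => rfl⟩
  have hinj : Function.Injective c := by
    rw [← LinearMap.ker_eq_bot, LinearMap.ker_eq_bot']
    intro κ hκ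
    apply Subtype.ext
    have e1 := congrArg Subtype.val hκ
    rw [hc] at e1
    calc κ.1 = ((g⁻¹ : GL (Fin n) F) : Matrix (Fin n) (Fin n) F)
          * ((g : Matrix (Fin n) (Fin n) F) * κ.1
          * ((g⁻¹ : GL (Fin n) F) : Matrix (Fin n) (Fin n) F)) * (g : Matrix (Fin n) (Fin n) F) := by
          simp only [← mul_assoc, hgg', one_mul]
          rw [mul_assoc, hgg', mul_one]
      _ = 0 := by rw [e1]; simp
  have hsurj : Function.Surjective c := LinearMap.surjective_of_injective hinj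
  show ∀ k : Matrix (Fin n) (Fin n) F, k ∈ K ↔ (g : Matrix (Fin n) (Fin n) F) * k
    * ((g⁻¹ : GL (Fin n) F) : Matrix (Fin n) (Fin n) F) ∈ K
  intro k
  constructor
  · intro hk
    exact h k hk
  · intro hk
    obtain ⟨κ, hκ⟩ := hsurj ⟨_, hk⟩
    have e1 := congrArg Subtype.val hκ
    rw [hc] at e1
    have e2 : κ.1 = k := by
      have := congrArg (fun M => ((g⁻¹ : GL (Fin n) F) : Matrix (Fin n) (Fin n) F) * M
        * (g : Matrix (Fin n) (Fin n) F)) e1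
      simp only [← mul_assoc, hgg', one_mul] at this
      simp only [mul_assoc, hgg', mul_one] at this
      exact this
    rw [← e2]
    exact κ.2

theorem no_fix2 (hn : n.Prime) (K : Subalgebra F (Matrix (Fin n) (Fin n) F))
    (hK : Cfsg.Geo.IsFieldSubalgebra n K) (g : GL (Fin n) F)
    (hg : g ∈ Cfsg.Geo.subalgebraNormalizer K) (w₁ w₂ : Fin n → F)
    (hw₁ : (g : Matrix (Fin n) (Fin n) F) *ᵥ w₁ = w₁)
    (hw₂ : (g : Matrix (Fin n) (Fin n) F) *ᵥ w₂ = w₂) (hli : ∀ a : F, w₂ ≠ a • w₁)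
    (hw₁0 : w₁ ≠ 0) : (g : Matrix (Fin n) (Fin n) F) = 1 := by
  have hgg' : ((g⁻¹ : GL (Fin n) F) : Matrix (Fin n) (Fin n) F)
      * (g : Matrix (Fin n) (Fin n) F) = 1 := by
    rw [← Units.val_mul, inv_mul_cancel, Units.val_one]
  obtain ⟨κ, hκ, hκw⟩ := exists_eq_mulVec hn.pos K hK w₁ hw₁0 w₂
  have hκns : ∀ a : F, κ ≠ a • 1 := by
    intro a ha
    apply hli a
    rw [← hκw, ha, smul_mulVec, one_mulVec]
  have hκ' : (g : Matrix (Fin n) (Fin n) F) * κ
      * ((g⁻¹ : GL (Fin n) F) : Matrix (Fin n) (Fin n) F) ∈ K := (hg κ).mp hκ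
  have e1 : (g : Matrix (Fin n) (Fin n) F) * κ = ((g : Matrix (Fin n) (Fin n) F) * κ
      * ((g⁻¹ : GL (Fin n) F) : Matrix (Fin n) (Fin n) F)) * (g : Matrix (Fin n) (Fin n) F) := by
    rw [mul_assoc, hgg', mul_one]
  have e2 : ((g : Matrix (Fin n) (Fin n) F) * κ
      * ((g⁻¹ : GL (Fin n) F) : Matrix (Fin n) (Fin n) F) - κ) *ᵥ w₁ = 0 := by
    rw [sub_mulVec, hκw]
    nth_rewrite 1 [← hw₁]
    rw [mulVec_mulVec, ← e1, ← mulVec_mulVec, hκw, hw₂, sub_self]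
  have e3 := mulVec_inj K n hK _ (K.sub_mem hκ' hκ) w₁ hw₁0 e2
  have hcomm : (g : Matrix (Fin n) (Fin n) F) * κ = κ * (g : Matrix (Fin n) (Fin n) F) := by
    rw [e1, sub_eq_zero.mp e3]
  have hall := commute_of_commute hn K hK κ hκ hκns _ hcomm
  apply Matrix.toLin'.injective
  apply LinearMap.ext
  intro u
  obtain ⟨κ₁, hκ₁, hκ₁w⟩ := exists_eq_mulVec hn.pos K hK w₁ hw₁0 u
  rw [Matrix.toLin'_apply, Matrix.toLin'_one, LinearMap.id_apply, ← hκ₁w, mulVec_mulVec,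
    hall κ₁ hκ₁, ← mulVec_mulVec, hw₁]

end Cfsg.Agent.Lib.helper4.Singer
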