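import Mathlib
import Cfsg.Prelude.Def_GeometricClasses
import Cfsg.Agent.Lib.helper4.Singer1

/-!
# Singer cycle normalisers: the Frobenius element
-/

namespace Cfsg.Agent.Lib.helper4.Singer

open Matrix Polynomial

universe u

variable {F : Type u} [Field F] {n : ℕ}

theorem frob_facts [Fintype F] (hn : 2 ≤ n) (K : Subalgebra F (Matrix (Fin n) (Fin n) F))
    (hK : Cfsg.Geo.IsFieldSubalgebra n K) :
    (∀ κ ∈ K, κ ^ (Fintype.card F ^ n) = κ) ∧ ∃ κ ∈ K, κ ^ Fintype.card F ≠ κ := by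
  classical
  haveI : Nonempty (Fin n) := ⟨⟨0, by omega⟩⟩
  have hIsField : IsField ↥K :=
    { exists_pair_ne := ⟨0, 1, fun h => zero_ne_one (congrArg Subtype.val h)⟩
      mul_comm := fun a b => Subtype.ext (hK.comm a.1 a.2 b.1 b.2)
      mul_inv_cancel := fun {a} ha => by
        obtain ⟨y, hy, hay⟩ := hK.inv a.1 a.2 (fun h => ha (Subtype.ext h))
        exact ⟨⟨y, hy⟩, Subtype.ext hay⟩ }
  letI : Field ↥K := hIsField.toField
  haveI : Finite ↥K := Module.finite_of_finite F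
  haveI : Fintype ↥K := Fintype.ofFinite _
  have hcard : Fintype.card ↥K = Fintype.card F ^ n := by
    rw [Module.card_eq_pow_finrank (K := F) (V := ↥K), hK.finrank_eq]
  constructor
  · intro κ hκ
    have h1 := FiniteField.pow_card (⟨κ, hκ⟩ : ↥K)
    rw [hcard] at h1
    have e := congrArg Subtype.val h1
    exact e
  · by_contra hcon
    push Not at hcon
    have hroots : (Finset.univ : Finset ↥K).val
        ⊆ (X ^ Fintype.card F - X : (↥K)[X]).roots := by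
      intro κ _
      rw [mem_roots (FiniteField.X_pow_card_sub_X_ne_zero ↥K Fintype.one_lt_card), IsRoot.def,
        eval_sub, eval_pow, eval_X, sub_eq_zero]
      apply Subtype.ext
      exact hcon κ.1 κ.2
    have h1 := Polynomial.card_le_degree_of_subset_roots hroots
    rw [Finset.card_univ, hcard,
      FiniteField.X_pow_card_sub_X_natDegree_eq ↥K Fintype.one_lt_card] at h1
    have hq1 : 1 < Fintype.card F := Fintype.one_lt_card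
    have h2 : Fintype.card F ^ 2 ≤ Fintype.card F ^ n := Nat.pow_le_pow_right (by omega) hn
    nlinarith

theorem exists_frob [Fintype F] {p : ℕ} [Fact p.Prime] [CharP F p] (hn : n.Prime)
    (K : Subalgebra F (Matrix (Fin n) (Fin n) F)) (hK : Cfsg.Geo.IsFieldSubalgebra n K) :
    ∃ S : GL (Fin n) F, S ∈ Cfsg.Geo.subalgebraNormalizer K ∧
      (S : Matrix (Fin n) (Fin n) F) ^ n = 1 ∧ (S : Matrix (Fin n) (Fin n) F) ≠ 1 := by
  classical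
  haveI : Nonempty (Fin n) := ⟨⟨0, hn.pos⟩⟩
  obtain ⟨q, hq⟩ : ∃ q : ℕ, q = Fintype.card F := ⟨_, rfl⟩
  obtain ⟨f, hp, hf⟩ := FiniteField.card F p
  obtain ⟨hF1, κ₀, hκ₀, hκ₀q⟩ := frob_facts hn.two_le K hK
  rw [← hq] at hF1 hκ₀q
  obtain ⟨v, hv⟩ : ∃ v : Fin n → F, v = Pi.single (⟨0, hn.pos⟩ : Fin n) 1 := ⟨_, rfl⟩
  have hv0 : v ≠ 0 := by
    intro h
    have := congrFun h ⟨0, hn.pos⟩
    rw [hv, Pi.single_eq_same, Pi.zero_apply] at this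
    exact one_ne_zero this
  obtain ⟨φ, hφ⟩ : ∃ φ : ↥K →ₗ[F] (Fin n → F), ∀ κ : ↥K, φ κ = κ.1 *ᵥ v :=
    ⟨{ toFun := fun κ => κ.1 *ᵥ v
       map_add' := fun a b => by
         show (a.1 + b.1) *ᵥ v = a.1 *ᵥ v + b.1 *ᵥ v
         rw [add_mulVec]
       map_smul' := fun a κ => by
         show (a • κ.1) *ᵥ v = a • (κ.1 *ᵥ v)
         rw [smul_mulVec] }, fun _ => rfl⟩
  have hinj : Function.Injective φ := by
    rw [← LinearMap.ker_eq_bot, LinearMap.ker_eq_bot']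
    intro κ hκ
    rw [hφ] at hκ
    exact Subtype.ext (mulVec_inj K n hK κ.1 κ.2 v hv0 hκ)
  have hsurj : Function.Surjective φ :=
    (LinearMap.injective_iff_surjective_of_finrank_eq_finrank
      (by rw [hK.finrank_eq, Module.finrank_fin_fun])).mp hinj
  obtain ⟨φe, hφe⟩ : ∃ φe : ↥K ≃ₗ[F] (Fin n → F), ∀ κ : ↥K, φe κ = κ.1 *ᵥ v :=
    ⟨LinearEquiv.ofBijective φ ⟨hinj, hsurj⟩, fun κ => hφ κ⟩
  obtain ⟨Fr, hFr⟩ : ∃ Fr : ↥K →ₗ[F] ↥K, ∀ κ : ↥K, (Fr κ).1 = κ.1 ^ q :=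
    ⟨{ toFun := fun κ => ⟨κ.1 ^ q, K.pow_mem κ.2 q⟩
       map_add' := fun a b => by
         apply Subtype.ext
         show (a.1 + b.1) ^ q = a.1 ^ q + b.1 ^ q
         rw [hq, hf]
         exact add_pow_char_pow_of_commute p (f : ℕ) (hK.comm a.1 a.2 b.1 b.2)
       map_smul' := fun a κ => by
         apply Subtype.ext
         show (a • κ.1) ^ q = a • κ.1 ^ q
         rw [_root_.smul_pow, hq, FiniteField.pow_card] }, fun _ => rfl⟩
  obtain ⟨Sm, hSm⟩ : ∃ Sm : Matrix (Fin n) (Fin n) F,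
      Sm = LinearMap.toMatrix' (φe.toLinearMap ∘ₗ Fr ∘ₗ φe.symm.toLinearMap) := ⟨_, rfl⟩
  have hkey : ∀ κ : ↥K, Sm *ᵥ (κ.1 *ᵥ v) = (κ.1 ^ q) *ᵥ v := by
    intro κ
    rw [hSm, LinearMap.toMatrix'_mulVec, ← hφe κ]
    show φe (Fr (φe.symm (φe κ))) = _
    rw [LinearEquiv.symm_apply_apply, hφe, hFr]
  have hpow : ∀ (j : ℕ) (κ : ↥K), (Sm ^ j) *ᵥ (κ.1 *ᵥ v) = (κ.1 ^ (q ^ j)) *ᵥ v := by
    intro j
    induction j with
    | zero => intro κ; simp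
    | succ j ih =>
      intro κ
      rw [pow_succ, ← mulVec_mulVec, hkey κ]
      have := ih ⟨κ.1 ^ q, K.pow_mem κ.2 q⟩
      rw [this, ← pow_mul, pow_succ, mul_comm (q ^ j) q]
  have hext : ∀ M N : Matrix (Fin n) (Fin n) F,
      (∀ κ : ↥K, M *ᵥ (κ.1 *ᵥ v) = N *ᵥ (κ.1 *ᵥ v)) → M = N := by
    intro M N h
    apply Matrix.toLin'.injective
    apply LinearMap.ext
    intro u
    obtain ⟨κ, hκ⟩ := φe.surjective u
    rw [hφe] at hκ
    rw [Matrix.toLin'_apply, Matrix.toLin'_apply, ← hκ, h κ]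
  have hSn : Sm ^ n = 1 := by
    apply hext
    intro κ
    rw [hpow n κ, hF1 κ.1 κ.2, one_mulVec]
  have hS1 : Sm ≠ 1 := by
    intro h
    apply hκ₀q
    have e1 := hkey ⟨κ₀, hκ₀⟩
    rw [h, one_mulVec] at e1
    have e2 : (κ₀ ^ q - κ₀) *ᵥ v = 0 := by rw [sub_mulVec, ← e1, sub_self]
    exact sub_eq_zero.mp (mulVec_inj K n hK _ (K.sub_mem (K.pow_mem hκ₀ q) hκ₀) v hv0 e2)
  have hSκ : ∀ κ ∈ K, Sm * κ = κ ^ q * Sm := by
    intro κ hκ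
    apply hext
    intro κ₁
    calc (Sm * κ) *ᵥ (κ₁.1 *ᵥ v) = Sm *ᵥ ((κ * κ₁.1) *ᵥ v) := by
          rw [← mulVec_mulVec, mulVec_mulVec v κ κ₁.1]
      _ = ((κ * κ₁.1) ^ q) *ᵥ v := hkey ⟨κ * κ₁.1, K.mul_mem hκ κ₁.2⟩
      _ = (κ ^ q * κ₁.1 ^ q) *ᵥ v := by
          rw [(show Commute κ κ₁.1 from hK.comm κ hκ κ₁.1 κ₁.2).mul_pow]
      _ = (κ ^ q) *ᵥ (Sm *ᵥ (κ₁.1 *ᵥ v)) := by rw [hkey κ₁, mulVec_mulVec]
      _ = (κ ^ q * Sm) *ᵥ (κ₁.1 *ᵥ v) := by rw [mulVec_mulVec]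
  obtain ⟨m, hm⟩ : ∃ m, n = m + 1 := ⟨n - 1, by have := hn.pos; omega⟩
  obtain ⟨S, hS, hS'⟩ : ∃ S : GL (Fin n) F, (S : Matrix (Fin n) (Fin n) F) = Sm ∧
      ((S⁻¹ : GL (Fin n) F) : Matrix (Fin n) (Fin n) F) = Sm ^ m :=
    ⟨⟨Sm, Sm ^ m, by rw [← pow_succ', ← hm, hSn], by rw [← pow_succ, ← hm, hSn]⟩, rfl, rfl⟩
  refine ⟨S, ?_, by rw [hS]; exact hSn, by rw [hS]; exact hS1⟩
  apply mem_norm_of_forall
  intro κ hκ
  rw [hS, hS', hSκ κ hκ, mul_assoc, ← pow_succ', ← hm, hSn, mul_one]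
  exact K.pow_mem hκ q

end Cfsg.Agent.Lib.helper4.Singer
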