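import Mathlib
import Cfsg.Prelude.Def_GeometricClasses
import Cfsg.Agent.Lib.helper18.RCF3
import Cfsg.Agent.Lib.helper4.Singer4
import Cfsg.Agent.Lib.helper4.Quad1

/-!
# Singer cycle normalisers: elements of order `n` when `q` is a primitive root mod `n`
-/

namespace Cfsg.Agent.Lib.helper4.Singer

open Matrix Polynomial

universe u

variable {F : Type u} [Field F] {n : ℕ}

theorem deg_ge [Fintype F] (hn : n.Prime)
    (hord : orderOf ((Fintype.card F : ℕ) : ZMod n) = n - 1)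
    (g : F[X]) (hgm : g.Monic) (hgi : Irreducible g) (hdvd : g ∣ X ^ n - 1)
    (hg1 : g ≠ X - 1) : n - 1 ≤ g.natDegree := by
  classical
  haveI : Fact (Irreducible g) := ⟨hgi⟩
  haveI : Fact n.Prime := ⟨hn⟩
  have hg0 : g ≠ 0 := hgi.ne_zero
  haveI : Module.Finite F (AdjoinRoot g) := (AdjoinRoot.powerBasis hg0).finite
  haveI : Finite (AdjoinRoot g) := Module.finite_of_finite F
  haveI : Fintype (AdjoinRoot g) := Fintype.ofFinite _
  have hcard : Fintype.card (AdjoinRoot g) = Fintype.card F ^ g.natDegree := by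
    rw [Module.card_eq_pow_finrank (K := F) (V := AdjoinRoot g),
      (AdjoinRoot.powerBasis hg0).finrank, AdjoinRoot.powerBasis_dim]
  obtain ⟨ζ, hζ⟩ : ∃ ζ : AdjoinRoot g, ζ = AdjoinRoot.root g := ⟨_, rfl⟩
  have hζn : ζ ^ n = 1 := by
    have h1 : AdjoinRoot.mk g (X ^ n - 1) = 0 := AdjoinRoot.mk_eq_zero.mpr hdvd
    rw [map_sub, map_pow, AdjoinRoot.mk_X, map_one, sub_eq_zero] at h1
    rw [hζ]; exact h1
  have hX1irr : Irreducible (X - 1 : F[X]) := by
    have := irreducible_X_sub_C (1 : F)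
    rwa [map_one] at this
  have hX1m : (X - 1 : F[X]).Monic := by
    have := monic_X_sub_C (1 : F)
    rwa [map_one] at this
  have hζ1 : ζ ≠ 1 := by
    intro h
    apply hg1
    have h1 : AdjoinRoot.mk g (X - 1) = 0 := by
      rw [map_sub, AdjoinRoot.mk_X, map_one, ← hζ, h, sub_self]
    have h2 : g ∣ X - 1 := AdjoinRoot.mk_eq_zero.mp h1
    exact eq_of_monic_of_associated hgm hX1m (hgi.associated_of_dvd hX1irr h2)
  have hζ0 : ζ ≠ 0 := by
    intro h
    rw [h, zero_pow hn.ne_zero] at hζn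
    exact zero_ne_one hζn
  have h4 : orderOf (Units.mk0 ζ hζ0) = n :=
    orderOf_eq_prime (Units.ext (by rw [Units.val_pow_eq_pow_val]; exact hζn))
      (fun h => hζ1 (congrArg Units.val h))
  have h5 : n ∣ Fintype.card (AdjoinRoot g)ˣ := by rw [← h4]; exact orderOf_dvd_card
  rw [Fintype.card_units, hcard] at h5
  have h6 : ((Fintype.card F : ℕ) : ZMod n) ^ g.natDegree = 1 := by
    have e1 : (((Fintype.card F) ^ g.natDegree - 1 : ℕ) : ZMod n) = 0 :=
      (ZMod.natCast_eq_zero_iff _ _).mpr h5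
    rw [Nat.cast_sub (Nat.one_le_pow _ _ Fintype.card_pos), Nat.cast_pow, Nat.cast_one,
      sub_eq_zero] at e1
    exact e1
  have h7 := orderOf_dvd_of_pow_eq_one h6
  rw [hord] at h7
  exact Nat.le_of_dvd hgi.natDegree_pos h7

theorem root_one [Fintype F] (hn : n.Prime) (hn3 : 3 < n)
    (hord : orderOf ((Fintype.card F : ℕ) : ZMod n) = n - 1) (a : F) (ha : a ^ n = 1) :
    a = 1 := by
  classical
  haveI : Fact n.Prime := ⟨hn⟩
  by_contra ha1
  have ha0 : a ≠ 0 := by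
    intro h
    rw [h, zero_pow hn.ne_zero] at ha
    exact zero_ne_one ha
  have h4 : orderOf (Units.mk0 a ha0) = n :=
    orderOf_eq_prime (Units.ext (by rw [Units.val_pow_eq_pow_val]; exact ha))
      (fun h => ha1 (congrArg Units.val h))
  have h5 : n ∣ Fintype.card Fˣ := by rw [← h4]; exact orderOf_dvd_card
  rw [Fintype.card_units] at h5
  have hq1 : 1 < Fintype.card F := Fintype.one_lt_card
  have h6 : ((Fintype.card F : ℕ) : ZMod n) ^ 1 = 1 := by
    have e1 : ((Fintype.card F - 1 : ℕ) : ZMod n) = 0 := (ZMod.natCast_eq_zero_iff _ _).mpr h5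
    rw [Nat.cast_sub (by omega), Nat.cast_one, sub_eq_zero] at e1
    rw [pow_one, e1]
  have h7 := orderOf_dvd_of_pow_eq_one h6
  rw [hord] at h7
  have := Nat.le_of_dvd (by norm_num) h7
  omega

theorem charpoly_eq [Fintype F] (hn : n.Prime) (hn3 : 3 < n) (hnF : (n : F) ≠ 0)
    (hord : orderOf ((Fintype.card F : ℕ) : ZMod n) = n - 1)
    (A : Matrix (Fin n) (Fin n) F) (hAn : A ^ n = 1) (hA1 : A ≠ 1) :
    A.charpoly = X ^ n - 1 := by
  classical
  obtain ⟨T, hT⟩ : ∃ T : Module.End F (Fin n → F), T = Matrix.toLin' A := ⟨_, rfl⟩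
  have hTn : T ^ n = 1 := by
    rw [hT, ← Matrix.toLin'_pow, hAn, Matrix.toLin'_one]; rfl
  obtain ⟨ι, _, g, hg, hpp, Ψ, hΨ⟩ := Cfsg.Agent.Lib.helper18.RCF.exists_rcf T
  have hirr := Cfsg.Agent.Lib.helper18.RCF.rcf_semisimple T g hg hpp Ψ hΨ n hnF hTn
  have h0 : aeval T (X ^ n - 1 : F[X]) = 0 := by
    rw [map_sub, map_pow, aeval_X, map_one, hTn, sub_self]
  have hdvd : ∀ i, g i ∣ X ^ n - 1 := Cfsg.Agent.Lib.helper18.RCF.rcf_dvd T g Ψ hΨ _ h0
  have hcpA : A.charpoly = ∏ i, g i := by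
    rw [← Cfsg.Agent.Lib.helper18.RCF.charpoly_of_rcf T g hg Ψ hΨ, hT, Matrix.charpoly_toLin']
  have hX1irr : Irreducible (X - 1 : F[X]) := by
    have := irreducible_X_sub_C (1 : F)
    rwa [map_one] at this
  have hX1m : (X - 1 : F[X]).Monic := by
    have := monic_X_sub_C (1 : F)
    rwa [map_one] at this
  have hbig : ∃ i₀, g i₀ ≠ 1 ∧ g i₀ ≠ X - 1 := by
    by_contra hcon
    push Not at hcon
    apply hA1
    have hkill : ∀ y : Cfsg.Agent.Lib.helper18.RCF.Mg g, (X - 1 : F[X]) • y = 0 := fun y =>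
      Cfsg.Agent.Lib.helper18.RCF.Mg_kill g (X - 1) (fun i => by
        by_cases h : g i = 1
        · rw [h]; exact one_dvd _
        · rw [hcon i h]) y
    have hTv : ∀ v, T v = v := by
      intro v
      apply Ψ.injective
      have e := Cfsg.Agent.Lib.helper18.RCF.gen_sub_one (X : F[X]) (Ψ v) (hkill (Ψ v))
      rw [hΨ, e]
    apply Matrix.toLin'.injective
    apply LinearMap.ext
    intro v
    rw [← hT, hTv, Matrix.toLin'_one]
    rfl
  obtain ⟨i₀, hi1, hi2⟩ := hbig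
  have hirr₀ : Irreducible (g i₀) := (hirr i₀).resolve_left hi1
  have hdeg₀ : n - 1 ≤ (g i₀).natDegree := deg_ge hn hord (g i₀) (hg i₀) hirr₀ (hdvd i₀) hi2
  have hcop : IsCoprime (g i₀) (X - 1 : F[X]) := by
    apply (hirr₀.coprime_iff_not_dvd).mpr
    intro h
    apply hi2
    exact eq_of_monic_of_associated (hg i₀) hX1m (hirr₀.associated_of_dvd hX1irr h)
  have hX1 : (X - 1 : F[X]) ∣ X ^ n - 1 := by
    have := sub_dvd_pow_sub_pow (X : F[X]) 1 n
    rwa [one_pow] at this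
  have hprod : g i₀ * (X - 1) ∣ X ^ n - 1 := hcop.mul_dvd (hdvd i₀) hX1
  have hXn_monic : (X ^ n - 1 : F[X]).Monic := by
    have := monic_X_pow_sub_C (1 : F) hn.ne_zero
    rwa [map_one] at this
  have hXn_deg : (X ^ n - 1 : F[X]).natDegree = n := by
    have := natDegree_X_pow_sub_C (n := n) (r := (1 : F))
    rwa [map_one] at this
  have hdeg1 : (X - 1 : F[X]).natDegree = 1 := by
    have := natDegree_X_sub_C (1 : F)
    rwa [map_one] at this
  have hdegprod : (g i₀ * (X - 1)).natDegree = (g i₀).natDegree + 1 := by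
    rw [(hg i₀).natDegree_mul hX1m, hdeg1]
  have hle : (g i₀).natDegree + 1 ≤ n := by
    rw [← hdegprod, ← hXn_deg]
    exact natDegree_le_of_dvd hprod hXn_monic.ne_zero
  have hfact : g i₀ * (X - 1) = X ^ n - 1 :=
    (eq_of_monic_of_dvd_of_natDegree_le ((hg i₀).mul hX1m) hXn_monic hprod
      (by rw [hXn_deg, hdegprod]; omega)).symm
  obtain ⟨R, hR⟩ : ∃ R : F[X], R = ∏ i ∈ Finset.univ.erase i₀, g i := ⟨_, rfl⟩
  have hsplit : A.charpoly = g i₀ * R := by
    rw [hcpA, hR, Finset.mul_prod_erase _ _ (Finset.mem_univ i₀)]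
  have hRm : R.Monic := by rw [hR]; exact monic_prod_of_monic _ _ (fun i _ => hg i)
  have hRdeg : R.natDegree = 1 := by
    have e1 := Matrix.charpoly_natDegree_eq_dim A
    rw [hsplit, (hg i₀).natDegree_mul hRm, Fintype.card_fin] at e1
    omega
  have hRX := hRm.eq_X_add_C hRdeg
  obtain ⟨a, ha⟩ : ∃ a : F, a = -(R.coeff 0) := ⟨_, rfl⟩
  have hroot : eval a R = 0 := by
    rw [hRX, eval_add, eval_X, eval_C, ha]; ring
  have hex : ∃ j ∈ Finset.univ.erase i₀, eval a (g j) = 0 := by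
    rw [hR, eval_prod, Finset.prod_eq_zero_iff] at hroot
    exact hroot
  obtain ⟨j, -, hj⟩ := hex
  have han : a ^ n = 1 := by
    have e1 := eval_eq_zero_of_dvd_of_eval_eq_zero (hdvd j) hj
    rw [eval_sub, eval_pow, eval_X, eval_one, sub_eq_zero] at e1
    exact e1
  have ha1 : a = 1 := root_one hn hn3 hord a han
  have hR1 : R = X - 1 := by
    rw [hRX]
    have : R.coeff 0 = -1 := by rw [← neg_neg (R.coeff 0), ← ha, ha1]
    rw [this, map_neg, map_one, sub_eq_add_neg]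
  rw [hsplit, hR1, hfact]

theorem ss_sl_conj' [Fintype F] (H : Subgroup (GL (Fin n) F)) (hn : 0 < n)
    (x : SpecialLinearGroup (Fin n) F) (m : ℕ) (hm : (m : F) ≠ 0)
    (hx : (x : Matrix (Fin n) (Fin n) F) ^ m = 1) (g : GL (Fin n) F)
    (hg : g⁻¹ * SpecialLinearGroup.toGL x * g ∈ H) :
    ∃ P : SpecialLinearGroup (Fin n) F, P⁻¹ * x * P
      ∈ H.comap (SpecialLinearGroup.toGL : SpecialLinearGroup (Fin n) F →* GL (Fin n) F) := by
  classical
  obtain ⟨B, hB⟩ : ∃ B : Matrix (Fin n) (Fin n) F,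
      B = ((g⁻¹ * SpecialLinearGroup.toGL x * g : GL (Fin n) F) : Matrix (Fin n) (Fin n) F) :=
    ⟨_, rfl⟩
  have hXm : (SpecialLinearGroup.toGL x) ^ m = 1 := by
    apply Units.ext
    rw [Units.val_pow_eq_pow_val]
    exact hx
  have hBm : B ^ m = 1 := by
    have e1 : (g⁻¹ * SpecialLinearGroup.toGL x * g) ^ m = 1 := by
      have := conj_pow (a := g⁻¹) (b := SpecialLinearGroup.toGL x) (i := m)
      rw [inv_inv] at this
      rw [this, hXm]
      group
    have e2 := congrArg Units.val e1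
    rw [Units.val_pow_eq_pow_val] at e2
    rw [hB]
    exact e2
  have hc : (x : Matrix (Fin n) (Fin n) F).charpoly = B.charpoly := by
    rw [hB, Units.val_mul, Units.val_mul, Matrix.coe_units_inv]
    exact (Matrix.charpoly_units_conj' g (x : Matrix (Fin n) (Fin n) F)).symm
  obtain ⟨C, D, hCD, hDC, hCA, hdetC⟩ := Cfsg.Agent.Lib.helper18.RCF.ss_conj_mat_det hn
    (x : Matrix (Fin n) (Fin n) F) B m m hm hm hx hBm hc
  obtain ⟨PG, hPG, hPG'⟩ : ∃ PG : GL (Fin n) F, (PG : Matrix (Fin n) (Fin n) F) = D ∧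
      ((PG⁻¹ : GL (Fin n) F) : Matrix (Fin n) (Fin n) F) = C := ⟨⟨D, C, hDC, hCD⟩, rfl, rfl⟩
  have e3 : PG⁻¹ * SpecialLinearGroup.toGL x * PG = g⁻¹ * SpecialLinearGroup.toGL x * g := by
    apply Units.ext
    rw [Units.val_mul, Units.val_mul, hPG, hPG', ← hB]
    show C * (x : Matrix (Fin n) (Fin n) F) * D = B
    rw [hCA, mul_assoc, hCD, mul_one]
  apply Quad.sl_of_gl H x PG (by rw [e3]; exact hg)
  rw [hPG]
  have : C.det * D.det = 1 := by rw [← det_mul, hCD, det_one]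
  rw [hdetC, one_mul] at this
  exact this

end Cfsg.Agent.Lib.helper4.Singer
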