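import Mathlib
import Cfsg.Agent.Lib.helper4.URank

set_option autoImplicit false
set_option linter.unusedSectionVars false

/-!
# Unitary transvections over the field with four elements are 3-transpositions
-/

namespace Cfsg.Agent.Lib.helper4

open Matrix

section UThree

variable {F : Type*} [Field F] [Fintype F] {n : ℕ}

theorem two_eq_zero_of_card_four (hF : Fintype.card F = 2 ^ 2) : (2 : F) = 0 := by
  have h1 : ((Fintype.card F : ℕ) : F) = 0 := FiniteField.cast_card_eq_zero F
  rw [hF] at h1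
  have h2 : (2 : F) * 2 = 0 := by
    have h3 : (((2 ^ 2 : ℕ)) : F) = 2 * 2 := by norm_num
    rw [← h3]
    exact h1
  exact mul_self_eq_zero.mp h2

theorem cube_eq_one_of_card_four (hF : Fintype.card F = 2 ^ 2) (l : F) (hl : l ≠ 0) :
    l ^ (2 + 1) = 1 := by
  have h := FiniteField.pow_card_sub_one_eq_one l hl
  rw [hF] at h
  exact h

theorem utvSU_zero {q : ℕ} (hF : Fintype.card F = q ^ 2) (v : Fin n → F) : utvSU hF v 0 = 1 := by
  classical
  have hq := uq_ge_two hF
  by_cases hv : Cfsg.hermForm n F q v v = 0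
  · apply su_ext
    intro x
    rw [utvSU_mulVec hF v 0 hv (by rw [zero_pow (by omega), add_zero]), zero_mul, zero_smul,
      add_zero, suM_one, Matrix.one_mulVec]
  · unfold utvSU
    rw [dif_neg (fun h => hv h.1)]

theorem u3_mem_iff (hF : Fintype.card F = 2 ^ 2) (g : Cfsg.SU n F 2) :
    (suM g - 1).rank = 1 ↔
      ∃ x : Fin n → F, x ≠ 0 ∧ Cfsg.hermForm n F 2 x x = 0 ∧ g = utvSU hF x (-1) := by
  constructor
  · intro hr
    obtain ⟨x, c, hx0, hc0, hx, hc, rfl⟩ := rank_one_su hF g hr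
    have h1 : c * (1 + c) = 0 := by linear_combination hc
    have h2 : c = -1 := by
      rcases mul_eq_zero.mp h1 with h | h
      · exact absurd h hc0
      · linear_combination h
    subst h2
    exact ⟨x, hx0, hx, rfl⟩
  · rintro ⟨x, hx0, hx, rfl⟩
    exact rank_utvSU hF x (-1) hx0 (neg_ne_zero.mpr one_ne_zero) hx (by ring)

theorem u3_sq (hF : Fintype.card F = 2 ^ 2) (x : Fin n → F)
    (hx : Cfsg.hermForm n F 2 x x = 0) : utvSU hF x (-1) * utvSU hF x (-1) = 1 := by
  rw [utvSU_add hF x (-1) (-1) hx (by ring) (by ring)]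
  have h2 := two_eq_zero_of_card_four hF
  have h3 : (-1 : F) + -1 = 0 := by linear_combination -h2
  rw [h3, utvSU_zero]

theorem u3_prod (hF : Fintype.card F = 2 ^ 2) (x y : Fin n → F)
    (hx : Cfsg.hermForm n F 2 x x = 0) (hy : Cfsg.hermForm n F 2 y y = 0) :
    (utvSU hF x (-1) * utvSU hF y (-1)) ^ 2 = 1 ∨ (utvSU hF x (-1) * utvSU hF y (-1)) ^ 3 = 1 := by
  obtain ⟨d, hd⟩ : ∃ d : Cfsg.SU n F 2, d = utvSU hF x (-1) := ⟨_, rfl⟩
  obtain ⟨e, he⟩ : ∃ e : Cfsg.SU n F 2, e = utvSU hF y (-1) := ⟨_, rfl⟩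
  have hdd : d * d = 1 := by rw [hd]; exact u3_sq hF x hx
  have hee : e * e = 1 := by rw [he]; exact u3_sq hF y hy
  have h1 : d * e = utvSU hF (suM d *ᵥ y) (-1) * d := by
    rw [he]; exact utvSU_conj hF d y (-1) hy (by ring)
  have h2 : e * d = utvSU hF (suM e *ᵥ x) (-1) * e := by
    rw [hd]; exact utvSU_conj hF e x (-1) hx (by ring)
  have hdy : suM d *ᵥ y = y + (-1 * Cfsg.hermForm n F 2 y x) • x := by
    rw [hd, utvSU_mulVec hF x (-1) hx (by ring)]
  have hex : suM e *ᵥ x = x + (-1 * Cfsg.hermForm n F 2 x y) • y := by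
    rw [he, utvSU_mulVec hF y (-1) hy (by ring)]
  rw [← hd, ← he]
  by_cases hβ : Cfsg.hermForm n F 2 x y = 0
  · left
    have hβ' : Cfsg.hermForm n F 2 y x = 0 := herm_zero_of_symm hF hβ
    have hcomm : d * e = e * d := by
      rw [h1, hdy, hβ', mul_zero, zero_smul, add_zero, he]
    calc (d * e) ^ 2 = d * e * (d * e) := pow_two _
      _ = d * e * (e * d) := by rw [hcomm]
      _ = d * (e * e) * d := by simp only [mul_assoc]
      _ = 1 := by rw [hee, mul_one, hdd]
  · right
    have hββ' : Cfsg.hermForm n F 2 x y * Cfsg.hermForm n F 2 y x = 1 := by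
      rw [← herm_symm hF x y, ← pow_succ']
      exact cube_eq_one_of_card_four hF _ hβ
    have hβ'0 : Cfsg.hermForm n F 2 y x ≠ 0 := by
      intro h
      rw [h, mul_zero] at hββ'
      exact zero_ne_one hββ'
    have hvec : suM d *ᵥ y = (-Cfsg.hermForm n F 2 y x) • (suM e *ᵥ x) := by
      rw [hdy, hex, smul_add, smul_smul]
      have h3 : -Cfsg.hermForm n F 2 y x * (-1 * Cfsg.hermForm n F 2 x y) = 1 := by
        linear_combination hββ'
      rw [h3, one_smul, neg_one_mul, add_comm]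
    have hiso : Cfsg.hermForm n F 2 (suM e *ᵥ x) (suM e *ᵥ x) = 0 := by
      rw [su_pres]; exact hx
    have h3 : utvSU hF (suM d *ᵥ y) (-1) = utvSU hF (suM e *ᵥ x) (-1) := by
      rw [hvec, utvSU_smul hF _ (-Cfsg.hermForm n F 2 y x) (-1) hiso (by ring),
        cube_eq_one_of_card_four hF _ (neg_ne_zero.mpr hβ'0), mul_one]
    have hbr : d * e * d = e * d * e := by
      rw [h1, h2, mul_assoc, hdd, mul_one, mul_assoc, hee, mul_one, h3]
    have h4 : (d * e) ^ 3 = (d * e * d) * (e * d * e) := by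
      simp only [pow_succ, pow_zero, one_mul, mul_assoc]
    rw [h4, hbr]
    calc e * d * e * (e * d * e) = e * d * (e * e) * d * e := by simp only [mul_assoc]
      _ = e * (d * d) * e := by rw [hee, mul_one, mul_assoc e d d]
      _ = 1 := by rw [hdd, mul_one, hee]

end UThree

end Cfsg.Agent.Lib.helper4
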