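import Mathlib
import Cfsg.Agent.S0751
import Cfsg.Agent.Lib.helper2.SLGen
import Cfsg.Prelude.Def_GeometricClasses

set_option autoImplicit false
set_option linter.unusedSectionVars false

/-!
# The similarity group of a symplectic form is maximal in `SL_n(F)`
-/

namespace Cfsg.Agent.Lib.helper4

open Matrix

section SLSymp

variable {F : Type*} [Field F] {n : ℕ}

theorem gl_ext (g g' : Matrix.GeneralLinearGroup (Fin n) F)
    (h : ∀ x, (g : Matrix (Fin n) (Fin n) F) *ᵥ x = (g' : Matrix (Fin n) (Fin n) F) *ᵥ x) :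
    g = g' := by
  apply Units.ext
  apply Matrix.toLin'.injective
  apply LinearMap.ext
  intro x
  rw [Matrix.toLin'_apply, Matrix.toLin'_apply]
  exact h x

theorem gl_inv_mulVec (g : Matrix.GeneralLinearGroup (Fin n) F) (x : Fin n → F) :
    ((g⁻¹ : Matrix.GeneralLinearGroup (Fin n) F) : Matrix (Fin n) (Fin n) F) *ᵥ
      ((g : Matrix (Fin n) (Fin n) F) *ᵥ x) = x := by
  rw [Matrix.mulVec_mulVec, ← Units.val_mul, inv_mul_cancel, Units.val_one, Matrix.one_mulVec]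

theorem gl_mulVec_inv (g : Matrix.GeneralLinearGroup (Fin n) F) (x : Fin n → F) :
    (g : Matrix (Fin n) (Fin n) F) *ᵥ
      (((g⁻¹ : Matrix.GeneralLinearGroup (Fin n) F) : Matrix (Fin n) (Fin n) F) *ᵥ x) = x := by
  rw [Matrix.mulVec_mulVec, ← Units.val_mul, mul_inv_cancel, Units.val_one, Matrix.one_mulVec]

variable (f : (Fin n → F) → (Fin n → F) → F)

/-- the bilinear form of `f`. -/
noncomputable def fB (hf : Cfsg.Geo.IsBilinearForm f) : LinearMap.BilinForm F (Fin n → F) :=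
  LinearMap.mk₂ F f hf.add_left (fun c x v => by rw [hf.smul_left, smul_eq_mul]) hf.add_right
    (fun c v x => by rw [hf.smul_right, smul_eq_mul])

theorem fB_apply (hf : Cfsg.Geo.IsBilinearForm f) (u v : Fin n → F) : fB f hf u v = f u v := rfl

theorem f_sub_right (hf : Cfsg.Geo.IsBilinearForm f) (v x y : Fin n → F) :
    f v (x - y) = f v x - f v y := (fB f hf v).map_sub x y

theorem f_sub_left (hf : Cfsg.Geo.IsBilinearForm f) (x y v : Fin n → F) :
    f (x - y) v = f x v - f y v := LinearMap.map_sub₂ (fB f hf) x y v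

theorem f_zero_right (hf : Cfsg.Geo.IsBilinearForm f) (v : Fin n → F) : f v 0 = 0 :=
  (fB f hf v).map_zero

theorem f_zero_left (hf : Cfsg.Geo.IsBilinearForm f) (v : Fin n → F) : f 0 v = 0 :=
  LinearMap.map_zero₂ (fB f hf) v

theorem f_sum_left (hf : Cfsg.Geo.IsBilinearForm f) (x w : Fin n → F) :
    f x w = ∑ j, x j * f (Pi.single j 1) w := by
  classical
  have h := LinearMap.pi_apply_eq_sum_univ ((fB f hf).flip w) x
  have hflip : ∀ y, ((fB f hf).flip w) y = f y w := fun y => rfl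
  simp only [hflip, smul_eq_mul] at h
  rw [h]
  refine Finset.sum_congr rfl (fun j _ => ?_)
  congr 2
  funext j'
  rw [Pi.single_apply]
  by_cases hj : j = j'
  · rw [if_pos hj, if_pos hj.symm]
  · rw [if_neg hj, if_neg (fun h => hj h.symm)]

theorem fB_nondeg (hf : Cfsg.Geo.IsSymplecticForm f) : (fB f hf.bilinear).Nondegenerate := by
  refine ⟨fun x hx => ?_, fun y hy => ?_⟩
  · by_contra hx0
    obtain ⟨y, hy⟩ := (hf.nondegenerate x hx0).2
    exact hy (hx y)
  · by_contra hy0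
    obtain ⟨x, hx⟩ := (hf.nondegenerate y hy0).1
    exact hx (hy x)

/-- Riesz representation: every linear functional is `f(·, w)`. -/
theorem f_riesz (hf : Cfsg.Geo.IsSymplecticForm f) (φ : (Fin n → F) →ₗ[F] F) :
    ∃ w : Fin n → F, ∀ x, f x w = φ x := by
  classical
  obtain ⟨w, hw⟩ := Cfsg.Agent.S0751.L_surj (RingHom.id F) (fB f hf.bilinear) (fun a => rfl)
    (fB_nondeg f hf) (fun j : Fin n => (Pi.single j 1 : Fin n → F))
    (Pi.linearIndependent_single_one (Fin n) F) (fun j => φ (Pi.single j 1))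
  refine ⟨w, fun x => ?_⟩
  rw [f_sum_left f hf.bilinear x w]
  have h := LinearMap.pi_apply_eq_sum_univ φ x
  rw [h]
  refine Finset.sum_congr rfl (fun j _ => ?_)
  rw [smul_eq_mul]
  congr 1
  have h2 := hw j
  rw [fB_apply] at h2
  rw [h2]
  congr 1
  funext j'
  rw [Pi.single_apply]
  by_cases hj : j = j'
  · rw [if_pos hj, if_pos hj.symm]
  · rw [if_neg hj, if_neg (fun h => hj h.symm)]

/-- the matrix of `x ↦ x + f(x, w) a`. -/
def ftv (a w : Fin n → F) : Matrix (Fin n) (Fin n) F :=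
  1 + Matrix.vecMulVec a (fun j => f (Pi.single j 1) w)

theorem ftv_mulVec (hf : Cfsg.Geo.IsBilinearForm f) (a w x : Fin n → F) :
    ftv f a w *ᵥ x = x + f x w • a := by
  unfold ftv
  rw [Matrix.add_mulVec, Matrix.one_mulVec, Matrix.vecMulVec_mulVec, op_smul_eq_smul]
  congr 2
  rw [f_sum_left f hf x w]
  simp only [dotProduct]
  exact Finset.sum_congr rfl (fun j _ => mul_comm _ _)

theorem ftv_det (hf : Cfsg.Geo.IsBilinearForm f) (a w : Fin n → F) :
    (ftv f a w).det = 1 + f a w := by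
  unfold ftv
  rw [Matrix.vecMulVec_eq (ι := Unit), Matrix.det_one_add_replicateCol_mul_replicateRow,
    f_sum_left f hf a w]
  congr 1
  simp only [dotProduct]
  exact Finset.sum_congr rfl (fun j _ => mul_comm _ _)

open Classical in
/-- the element of `GL` acting as `x ↦ x + f(x, w) a` (when `f(a, w) = 0`). -/
noncomputable def ftvGL (a w : Fin n → F) : Matrix.GeneralLinearGroup (Fin n) F :=
  if h : (ftv f a w).det ≠ 0 then Matrix.GeneralLinearGroup.mkOfDetNeZero (ftv f a w) h else 1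

theorem ftvGL_val (hf : Cfsg.Geo.IsBilinearForm f) (a w : Fin n → F) (h : f a w = 0) :
    ((ftvGL f a w : Matrix.GeneralLinearGroup (Fin n) F) : Matrix (Fin n) (Fin n) F)
      = ftv f a w := by
  have hdet : (ftv f a w).det ≠ 0 := by
    rw [ftv_det f hf, h, add_zero]
    exact one_ne_zero
  unfold ftvGL
  rw [dif_pos hdet]
  rfl

theorem ftvGL_mulVec (hf : Cfsg.Geo.IsBilinearForm f) (a w : Fin n → F) (h : f a w = 0)
    (x : Fin n → F) :
    ((ftvGL f a w : Matrix.GeneralLinearGroup (Fin n) F) : Matrix (Fin n) (Fin n) F) *ᵥ x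
      = x + f x w • a := by
  rw [ftvGL_val f hf a w h, ftv_mulVec f hf]

theorem ftvGL_mem_sl (hf : Cfsg.Geo.IsBilinearForm f) (a w : Fin n → F) (h : f a w = 0) :
    ftvGL f a w ∈ Cfsg.Geo.specialLinear (Fin n) F := by
  show ftvGL f a w ∈ (Matrix.GeneralLinearGroup.det :
    Matrix.GeneralLinearGroup (Fin n) F →* Fˣ).ker
  rw [MonoidHom.mem_ker]
  apply Units.ext
  rw [Matrix.GeneralLinearGroup.val_det_apply, Units.val_one, ftvGL_val f hf a w h,
    ftv_det f hf, h, add_zero]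

theorem ftvGL_conj (hf : Cfsg.Geo.IsSymplecticForm f) (s : Matrix.GeneralLinearGroup (Fin n) F)
    (hs : ∀ x y, f ((s : Matrix (Fin n) (Fin n) F) *ᵥ x) ((s : Matrix (Fin n) (Fin n) F) *ᵥ y)
      = f x y) (a w : Fin n → F) (h : f a w = 0) :
    s * ftvGL f a w * s⁻¹ = ftvGL f ((s : Matrix (Fin n) (Fin n) F) *ᵥ a)
      ((s : Matrix (Fin n) (Fin n) F) *ᵥ w) := by
  apply gl_ext
  intro x
  rw [Units.val_mul, Units.val_mul, ← Matrix.mulVec_mulVec, ← Matrix.mulVec_mulVec,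
    ftvGL_mulVec f hf.bilinear a w h, ftvGL_mulVec f hf.bilinear _ _ (by rw [hs]; exact h),
    Matrix.mulVec_add, Matrix.mulVec_smul, gl_mulVec_inv]
  congr 2
  rw [← hs (((s⁻¹ : Matrix.GeneralLinearGroup (Fin n) F) : Matrix (Fin n) (Fin n) F) *ᵥ x) w,
    gl_mulVec_inv]

theorem stv_mulVec (hf : Cfsg.Geo.IsSymplecticForm f) (b : Fin n → F) (c : F) (x : Fin n → F) :
    ((ftvGL f b (c • b) : Matrix.GeneralLinearGroup (Fin n) F) : Matrix (Fin n) (Fin n) F) *ᵥ x
      = x + (c * f x b) • b := by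
  rw [ftvGL_mulVec f hf.bilinear b (c • b)
    (by rw [hf.bilinear.smul_right, hf.alternating, mul_zero]), hf.bilinear.smul_right]

theorem stv_iso (hf : Cfsg.Geo.IsSymplecticForm f) (b : Fin n → F) (c : F) (x y : Fin n → F) :
    f (((ftvGL f b (c • b) : Matrix.GeneralLinearGroup (Fin n) F) :
        Matrix (Fin n) (Fin n) F) *ᵥ x)
      (((ftvGL f b (c • b) : Matrix.GeneralLinearGroup (Fin n) F) :
        Matrix (Fin n) (Fin n) F) *ᵥ y) = f x y := by
  rw [stv_mulVec f hf, stv_mulVec f hf]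
  simp only [hf.bilinear.add_left, hf.bilinear.add_right, hf.bilinear.smul_left,
    hf.bilinear.smul_right, hf.alternating]
  rw [hf.skew b y]
  ring

theorem stv_mem (hf : Cfsg.Geo.IsSymplecticForm f) (b : Fin n → F) (c : F) :
    ftvGL f b (c • b) ∈ Cfsg.Geo.similarityGroup f ⊓ Cfsg.Geo.specialLinear (Fin n) F :=
  ⟨⟨1, fun u v => by rw [stv_iso f hf, Units.val_one, one_mul]⟩,
    ftvGL_mem_sl f hf.bilinear b (c • b)
      (by rw [hf.bilinear.smul_right, hf.alternating, mul_zero])⟩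

theorem f_exists_common (hf : Cfsg.Geo.IsSymplecticForm f) (a b : Fin n → F) (ha : a ≠ 0)
    (hb : b ≠ 0) : ∃ d, f a d ≠ 0 ∧ f d b ≠ 0 := by
  obtain ⟨d₁, h1⟩ := (hf.nondegenerate a ha).2
  obtain ⟨d₂, h2⟩ := (hf.nondegenerate b hb).1
  by_cases h3 : f d₁ b = 0
  · by_cases h4 : f a d₂ = 0
    · refine ⟨d₁ + d₂, ?_, ?_⟩
      · rw [hf.bilinear.add_right, h4, add_zero]
        exact h1
      · rw [hf.bilinear.add_left, h3, zero_add]
        exact h2
    · exact ⟨d₂, h4, h2⟩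
  · exact ⟨d₁, h1, h3⟩

/-- transitivity on nonzero vectors, one step. -/
theorem sl_T1_step (hf : Cfsg.Geo.IsSymplecticForm f)
    (H : Subgroup (Matrix.GeneralLinearGroup (Fin n) F))
    (hP : Cfsg.Geo.similarityGroup f ⊓ Cfsg.Geo.specialLinear (Fin n) F ≤ H)
    (a b : Fin n → F) (hab : f a b ≠ 0) :
    ∃ s ∈ H, (∀ x y, f ((s : Matrix (Fin n) (Fin n) F) *ᵥ x)
      ((s : Matrix (Fin n) (Fin n) F) *ᵥ y) = f x y) ∧
      (s : Matrix (Fin n) (Fin n) F) *ᵥ a = b := by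
  refine ⟨ftvGL f (b - a) ((f a b)⁻¹ • (b - a)), hP (stv_mem f hf _ _), stv_iso f hf _ _, ?_⟩
  rw [stv_mulVec f hf, f_sub_right f hf.bilinear, hf.alternating, sub_zero, inv_mul_cancel₀ hab,
    one_smul]
  abel

theorem sl_T1 (hf : Cfsg.Geo.IsSymplecticForm f)
    (H : Subgroup (Matrix.GeneralLinearGroup (Fin n) F))
    (hP : Cfsg.Geo.similarityGroup f ⊓ Cfsg.Geo.specialLinear (Fin n) F ≤ H)
    (a b : Fin n → F) (ha : a ≠ 0) (hb : b ≠ 0) :
    ∃ s ∈ H, (∀ x y, f ((s : Matrix (Fin n) (Fin n) F) *ᵥ x)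
      ((s : Matrix (Fin n) (Fin n) F) *ᵥ y) = f x y) ∧
      (s : Matrix (Fin n) (Fin n) F) *ᵥ a = b := by
  by_cases hab : f a b = 0
  · obtain ⟨d, h1, h2⟩ := f_exists_common f hf a b ha hb
    obtain ⟨s₁, hs₁H, hs₁, hs₁a⟩ := sl_T1_step f hf H hP a d h1
    obtain ⟨s₂, hs₂H, hs₂, hs₂a⟩ := sl_T1_step f hf H hP d b h2
    refine ⟨s₂ * s₁, H.mul_mem hs₂H hs₁H, fun x y => ?_, ?_⟩
    · rw [Units.val_mul, ← Matrix.mulVec_mulVec, ← Matrix.mulVec_mulVec, hs₂, hs₁]
    · rw [Units.val_mul, ← Matrix.mulVec_mulVec, hs₁a, hs₂a]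
  · exact sl_T1_step f hf H hP a b hab

/-- transitivity of the stabiliser of `a` on `a^⊥ ∖ F a`, one step. -/
theorem sl_T2_step (hf : Cfsg.Geo.IsSymplecticForm f)
    (H : Subgroup (Matrix.GeneralLinearGroup (Fin n) F))
    (hP : Cfsg.Geo.similarityGroup f ⊓ Cfsg.Geo.specialLinear (Fin n) F ≤ H)
    (a w w' : Fin n → F) (haw : f a w = 0) (haw' : f a w' = 0) (hww : f w w' ≠ 0) :
    ∃ s ∈ H, (∀ x y, f ((s : Matrix (Fin n) (Fin n) F) *ᵥ x)
      ((s : Matrix (Fin n) (Fin n) F) *ᵥ y) = f x y) ∧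
      (s : Matrix (Fin n) (Fin n) F) *ᵥ a = a ∧ (s : Matrix (Fin n) (Fin n) F) *ᵥ w = w' := by
  refine ⟨ftvGL f (w' - w) ((f w w')⁻¹ • (w' - w)), hP (stv_mem f hf _ _), stv_iso f hf _ _,
    ?_, ?_⟩
  · rw [stv_mulVec f hf, f_sub_right f hf.bilinear, haw, haw', sub_zero, mul_zero, zero_smul,
      add_zero]
  · rw [stv_mulVec f hf, f_sub_right f hf.bilinear, hf.alternating, sub_zero,
      inv_mul_cancel₀ hww, one_smul]
    abel

theorem sl_T2 (hf : Cfsg.Geo.IsSymplecticForm f)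
    (H : Subgroup (Matrix.GeneralLinearGroup (Fin n) F))
    (hP : Cfsg.Geo.similarityGroup f ⊓ Cfsg.Geo.specialLinear (Fin n) F ≤ H)
    (a w w' : Fin n → F) (ha : a ≠ 0) (haw : f a w = 0) (haw' : f a w' = 0)
    (hw : ∀ c : F, w ≠ c • a) (hw' : ∀ c : F, w' ≠ c • a) :
    ∃ s ∈ H, (∀ x y, f ((s : Matrix (Fin n) (Fin n) F) *ᵥ x)
      ((s : Matrix (Fin n) (Fin n) F) *ᵥ y) = f x y) ∧
      (s : Matrix (Fin n) (Fin n) F) *ᵥ a = a ∧ (s : Matrix (Fin n) (Fin n) F) *ᵥ w = w' := by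
  classical
  by_cases hww : f w w' = 0
  · have hLI : ∀ u : Fin n → F, (∀ c : F, u ≠ c • a) → LinearIndependent F ![u, a] := by
      intro u hu
      rw [LinearIndependent.pair_iff]
      intro s t hst
      have hs : s = 0 := by
        by_contra hs0
        apply hu (-(s⁻¹ * t))
        have h1 : s • u = -(t • a) := eq_neg_of_add_eq_zero_left hst
        have h2 : u = s⁻¹ • (s • u) := by rw [smul_smul, inv_mul_cancel₀ hs0, one_smul]
        rw [h2, h1, smul_neg, smul_smul, neg_smul]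
      refine ⟨hs, ?_⟩
      rw [hs, zero_smul, zero_add] at hst
      exact (smul_eq_zero.mp hst).resolve_right ha
    obtain ⟨d₁, hd₁⟩ := Cfsg.Agent.S0751.L_surj (RingHom.id F) (fB f hf.bilinear) (fun a => rfl)
      (fB_nondeg f hf) ![w, a] (hLI w hw) ![1, 0]
    obtain ⟨d₂, hd₂⟩ := Cfsg.Agent.S0751.L_surj (RingHom.id F) (fB f hf.bilinear) (fun a => rfl)
      (fB_nondeg f hf) ![w', a] (hLI w' hw') ![1, 0]
    have h1w : f w d₁ = 1 := hd₁ 0
    have h1a : f a d₁ = 0 := hd₁ 1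
    have h2w : f w' d₂ = 1 := hd₂ 0
    have h2a : f a d₂ = 0 := hd₂ 1
    have h2w' : f d₂ w' ≠ 0 := by
      rw [hf.skew, h2w]
      exact neg_ne_zero.mpr one_ne_zero
    obtain ⟨d, hda, hwd, hdw'⟩ : ∃ d, f a d = 0 ∧ f w d ≠ 0 ∧ f d w' ≠ 0 := by
      by_cases h3 : f d₁ w' = 0
      · by_cases h4 : f w d₂ = 0
        · refine ⟨d₁ + d₂, ?_, ?_, ?_⟩
          · rw [hf.bilinear.add_right, h1a, h2a, add_zero]
          · rw [hf.bilinear.add_right, h1w, h4, add_zero]
            exact one_ne_zero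
          · rw [hf.bilinear.add_left, h3, zero_add]
            exact h2w'
        · exact ⟨d₂, h2a, h4, h2w'⟩
      · exact ⟨d₁, h1a, by rw [h1w]; exact one_ne_zero, h3⟩
    obtain ⟨s₁, hs₁H, hs₁, hs₁a, hs₁w⟩ := sl_T2_step f hf H hP a w d haw hda hwd
    obtain ⟨s₂, hs₂H, hs₂, hs₂a, hs₂w⟩ := sl_T2_step f hf H hP a d w' hda haw' hdw'
    refine ⟨s₂ * s₁, H.mul_mem hs₂H hs₁H, fun x y => ?_, ?_, ?_⟩
    · rw [Units.val_mul, ← Matrix.mulVec_mulVec, ← Matrix.mulVec_mulVec, hs₂, hs₁]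
    · rw [Units.val_mul, ← Matrix.mulVec_mulVec, hs₁a, hs₂a]
    · rw [Units.val_mul, ← Matrix.mulVec_mulVec, hs₁w, hs₂w]
  · exact sl_T2_step f hf H hP a w w' haw haw' hww

/-- one non-symplectic transvection in `H` gives all transvections. -/
theorem sl_all_of_one (hf : Cfsg.Geo.IsSymplecticForm f)
    (H : Subgroup (Matrix.GeneralLinearGroup (Fin n) F))
    (hP : Cfsg.Geo.similarityGroup f ⊓ Cfsg.Geo.specialLinear (Fin n) F ≤ H)
    (a₀ w₀ : Fin n → F) (ha₀ : a₀ ≠ 0) (h₀ : f a₀ w₀ = 0) (hw₀ : ∀ c : F, w₀ ≠ c • a₀)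
    (hmem : ftvGL f a₀ w₀ ∈ H) (a w : Fin n → F) (h : f a w = 0) : ftvGL f a w ∈ H := by
  by_cases ha : a = 0
  · have h1 : ftvGL f a w = 1 := by
      apply gl_ext
      intro x
      rw [ftvGL_mulVec f hf.bilinear a w h, ha, smul_zero, add_zero, Units.val_one,
        Matrix.one_mulVec]
    rw [h1]
    exact one_mem _
  · by_cases hw : ∃ c : F, w = c • a
    · obtain ⟨c, rfl⟩ := hw
      exact hP (stv_mem f hf a c)
    · push Not at hw
      obtain ⟨s₁, hs₁H, hs₁, hs₁a⟩ := sl_T1 f hf H hP a₀ a ha₀ ha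
      have h1 : ftvGL f a ((s₁ : Matrix (Fin n) (Fin n) F) *ᵥ w₀) ∈ H := by
        rw [← hs₁a, ← ftvGL_conj f hf s₁ hs₁ a₀ w₀ h₀]
        exact H.mul_mem (H.mul_mem hs₁H hmem) (H.inv_mem hs₁H)
      have h2 : f a ((s₁ : Matrix (Fin n) (Fin n) F) *ᵥ w₀) = 0 := by
        rw [← hs₁a, hs₁]
        exact h₀
      have h3 : ∀ c : F, (s₁ : Matrix (Fin n) (Fin n) F) *ᵥ w₀ ≠ c • a := by
        intro c hc
        apply hw₀ c
        have h4 : ((s₁⁻¹ : Matrix.GeneralLinearGroup (Fin n) F) : Matrix (Fin n) (Fin n) F) *ᵥ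
            ((s₁ : Matrix (Fin n) (Fin n) F) *ᵥ w₀)
            = ((s₁⁻¹ : Matrix.GeneralLinearGroup (Fin n) F) : Matrix (Fin n) (Fin n) F) *ᵥ
              (c • a) := by rw [hc]
        rw [gl_inv_mulVec, Matrix.mulVec_smul, ← hs₁a, gl_inv_mulVec] at h4
        exact h4
      obtain ⟨s₂, hs₂H, hs₂, hs₂a, hs₂w⟩ := sl_T2 f hf H hP a _ w ha h2 h h3 hw
      have h5 := ftvGL_conj f hf s₂ hs₂ a _ h2
      rw [hs₂a, hs₂w] at h5
      rw [← h5]
      exact H.mul_mem (H.mul_mem hs₂H h1) (H.inv_mem hs₂H)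

/-- an element of `H` that is not a similarity produces a non-symplectic transvection. -/
theorem sl_initial (hn : 1 ≤ n) (hf : Cfsg.Geo.IsSymplecticForm f)
    (H : Subgroup (Matrix.GeneralLinearGroup (Fin n) F))
    (hP : Cfsg.Geo.similarityGroup f ⊓ Cfsg.Geo.specialLinear (Fin n) F ≤ H)
    (g : Matrix.GeneralLinearGroup (Fin n) F) (hgH : g ∈ H)
    (hg : g ∉ Cfsg.Geo.similarityGroup f) :
    ∃ a₀ w₀ : Fin n → F, a₀ ≠ 0 ∧ f a₀ w₀ = 0 ∧ (∀ c : F, w₀ ≠ c • a₀) ∧ ftvGL f a₀ w₀ ∈ H := by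
  classical
  by_contra hcon
  push Not at hcon
  have hginj : ∀ x, (g : Matrix (Fin n) (Fin n) F) *ᵥ x = 0 → x = 0 := by
    intro x hx
    rw [← gl_inv_mulVec g x, hx, Matrix.mulVec_zero]
  have hA : ∀ b : Fin n → F, b ≠ 0 → ∃ c : F, ∀ y, f y b
      = c * f ((g : Matrix (Fin n) (Fin n) F) *ᵥ y) ((g : Matrix (Fin n) (Fin n) F) *ᵥ b) := by
    intro b hb
    obtain ⟨w, hw⟩ := f_riesz f hf (((fB f hf.bilinear).flip b).comp
      (Matrix.mulVecLin ((g⁻¹ : Matrix.GeneralLinearGroup (Fin n) F) :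
        Matrix (Fin n) (Fin n) F)))
    have hw' : ∀ x, f x w = f (((g⁻¹ : Matrix.GeneralLinearGroup (Fin n) F) :
        Matrix (Fin n) (Fin n) F) *ᵥ x) b := fun x => hw x
    have h0 : f ((g : Matrix (Fin n) (Fin n) F) *ᵥ b) w = 0 := by
      rw [hw', gl_inv_mulVec, hf.alternating]
    have hT : g * ftvGL f b ((1 : F) • b) * g⁻¹
        = ftvGL f ((g : Matrix (Fin n) (Fin n) F) *ᵥ b) w := by
      apply gl_ext
      intro x
      rw [Units.val_mul, Units.val_mul, ← Matrix.mulVec_mulVec, ← Matrix.mulVec_mulVec,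
        stv_mulVec f hf, ftvGL_mulVec f hf.bilinear _ _ h0, Matrix.mulVec_add,
        Matrix.mulVec_smul, gl_mulVec_inv, hw', one_mul]
    have hTH : ftvGL f ((g : Matrix (Fin n) (Fin n) F) *ᵥ b) w ∈ H := by
      rw [← hT]
      exact H.mul_mem (H.mul_mem hgH (hP (stv_mem f hf b 1))) (H.inv_mem hgH)
    have hex : ∃ c : F, w = c • ((g : Matrix (Fin n) (Fin n) F) *ᵥ b) := by
      by_contra hno
      push Not at hno
      exact hcon _ w (fun h => hb (hginj b h)) h0 hno hTH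
    obtain ⟨c, hc⟩ := hex
    refine ⟨c, fun y => ?_⟩
    have h1 := hw' ((g : Matrix (Fin n) (Fin n) F) *ᵥ y)
    rw [gl_inv_mulVec, hc, hf.bilinear.smul_right] at h1
    exact h1.symm
  choose! κ hκ using hA
  have hκeq : ∀ b y : Fin n → F, b ≠ 0 → y ≠ 0 → f y b ≠ 0 → κ b = κ y := by
    intro b y hb hy hyb
    have h1 := hκ b hb y
    have h2 := hκ y hy b
    rw [hf.skew b y, hf.skew ((g : Matrix (Fin n) (Fin n) F) *ᵥ b)] at h2
    have h3 : f ((g : Matrix (Fin n) (Fin n) F) *ᵥ y) ((g : Matrix (Fin n) (Fin n) F) *ᵥ b)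
        ≠ 0 := by
      intro h0
      rw [h0, mul_zero] at h1
      exact hyb h1
    have h4 : (κ b - κ y) * f ((g : Matrix (Fin n) (Fin n) F) *ᵥ y)
        ((g : Matrix (Fin n) (Fin n) F) *ᵥ b) = 0 := by
      linear_combination -h1 - h2
    exact sub_eq_zero.mp ((mul_eq_zero.mp h4).resolve_right h3)
  have hκconst : ∀ b b' : Fin n → F, b ≠ 0 → b' ≠ 0 → κ b = κ b' := by
    intro b b' hb hb'
    obtain ⟨d, h1, h2⟩ := f_exists_common f hf b b' hb hb'
    have hd : d ≠ 0 := by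
      rintro rfl
      exact h1 (f_zero_right f hf.bilinear b)
    have h3 : f d b ≠ 0 := by
      rw [hf.skew]
      exact neg_ne_zero.mpr h1
    rw [hκeq b d hb hd h3, hκeq b' d hb' hd h2]
  obtain ⟨b₁, hb₁⟩ : ∃ b₁ : Fin n → F, b₁ ≠ 0 := by
    refine ⟨Pi.single (⟨0, by omega⟩ : Fin n) 1, fun h => ?_⟩
    have h1 := congrFun h (⟨0, by omega⟩ : Fin n)
    rw [Pi.single_eq_same, Pi.zero_apply] at h1
    exact one_ne_zero h1
  have hκ0 : κ b₁ ≠ 0 := by
    intro h0
    obtain ⟨y, hy⟩ := (hf.nondegenerate b₁ hb₁).1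
    apply hy
    rw [hκ b₁ hb₁ y, h0, zero_mul]
  apply hg
  refine ⟨Units.mk0 (κ b₁)⁻¹ (inv_ne_zero hκ0), fun u v => ?_⟩
  rw [Units.val_mk0]
  by_cases hv : v = 0
  · rw [hv, Matrix.mulVec_zero, f_zero_right f hf.bilinear, f_zero_right f hf.bilinear, mul_zero]
  · rw [hκ v hv u, hκconst v b₁ hv hb₁, ← mul_assoc, inv_mul_cancel₀ hκ0, one_mul]

/-- if `H` contains all transvections then it contains `SL_n`. -/
theorem sl_le_of_all (hn : 2 ≤ n) (hf : Cfsg.Geo.IsSymplecticForm f)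
    (H : Subgroup (Matrix.GeneralLinearGroup (Fin n) F))
    (hall : ∀ a w : Fin n → F, f a w = 0 → ftvGL f a w ∈ H) :
    Cfsg.Geo.specialLinear (Fin n) F ≤ H := by
  classical
  have : Nontrivial (Fin n) := Fin.nontrivial_iff_two_le.mpr hn
  have hP' : ∀ A : Matrix.SpecialLinearGroup (Fin n) F,
      Matrix.SpecialLinearGroup.toGL A ∈ H := by
    intro A
    refine Cfsg.Agent.Lib.helper2.SLGen.transvection_induction
      (fun A => Matrix.SpecialLinearGroup.toGL A ∈ H) ?_ ?_ A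
    · intro i j hij c
      obtain ⟨w, hw⟩ := f_riesz f hf (c • LinearMap.proj j)
      have hw' : ∀ x, f x w = c * x j := fun x => hw x
      have h0 : f (Pi.single i 1) w = 0 := by
        rw [hw', Pi.single_apply, if_neg hij.symm, mul_zero]
      have h1 : Matrix.SpecialLinearGroup.toGL (Matrix.SpecialLinearGroup.transvection hij c)
          = ftvGL f (Pi.single i 1) w := by
        apply gl_ext
        intro x
        rw [ftvGL_mulVec f hf.bilinear _ _ h0, hw']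
        show ((Matrix.SpecialLinearGroup.transvection hij c : Matrix.SpecialLinearGroup (Fin n) F) :
          Matrix (Fin n) (Fin n) F) *ᵥ x = _
        rw [Matrix.SpecialLinearGroup.transvection_coe]
        rw [Matrix.add_mulVec, Matrix.one_mulVec, Matrix.single_mulVec]
        congr 1
        funext k
        rw [Function.update_apply, Pi.smul_apply, Pi.single_apply, smul_eq_mul]
        by_cases hk : k = i
        · rw [if_pos hk, if_pos hk, mul_one]
        · rw [if_neg hk, if_neg hk, mul_zero]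
          rfl
      show Matrix.SpecialLinearGroup.toGL (Matrix.SpecialLinearGroup.transvection hij c) ∈ H
      rw [h1]
      exact hall _ _ h0
    · intro A B hA hB
      show Matrix.SpecialLinearGroup.toGL (A * B) ∈ H
      rw [map_mul]
      exact H.mul_mem hA hB
  intro g hg
  have hdet : (g : Matrix (Fin n) (Fin n) F).det = 1 := by
    have h1 : g ∈ (Matrix.GeneralLinearGroup.det :
      Matrix.GeneralLinearGroup (Fin n) F →* Fˣ).ker := hg
    rw [MonoidHom.mem_ker] at h1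
    have h2 := congrArg Units.val h1
    rw [Matrix.GeneralLinearGroup.val_det_apply, Units.val_one] at h2
    exact h2
  have h3 : g = Matrix.SpecialLinearGroup.toGL
      (⟨(g : Matrix (Fin n) (Fin n) F), hdet⟩ : Matrix.SpecialLinearGroup (Fin n) F) :=
    Units.ext rfl
  rw [h3]
  exact hP' _

/-- a transvection that is a similarity is symplectic. -/
theorem ftv_similarity (hf : Cfsg.Geo.IsSymplecticForm f) (a w : Fin n → F) (ha : a ≠ 0)
    (h : f a w = 0) (hsim : ftvGL f a w ∈ Cfsg.Geo.similarityGroup f) : ∃ c : F, w = c • a := by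
  obtain ⟨c, hc⟩ := hsim
  have hT := ftvGL_mulVec f hf.bilinear a w h
  obtain ⟨x₀, hx₀⟩ := (hf.nondegenerate a ha).1
  have hTa : ((ftvGL f a w : Matrix.GeneralLinearGroup (Fin n) F) :
      Matrix (Fin n) (Fin n) F) *ᵥ a = a := by
    rw [hT, h, zero_smul, add_zero]
  have hc1 : (c : F) = 1 := by
    have h1 := hc x₀ a
    rw [hTa, hT, hf.bilinear.add_left, hf.bilinear.smul_left, hf.alternating, mul_zero,
      add_zero] at h1
    have h2 : ((c : F) - 1) * f x₀ a = 0 := by linear_combination -h1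
    exact sub_eq_zero.mp ((mul_eq_zero.mp h2).resolve_right hx₀)
  have key : ∀ y, f y w = f y ((f x₀ w / f x₀ a) • a) := by
    intro y
    have h1 := hc x₀ y
    rw [hc1, one_mul, hT, hT] at h1
    simp only [hf.bilinear.add_left, hf.bilinear.add_right, hf.bilinear.smul_left,
      hf.bilinear.smul_right, hf.alternating] at h1
    rw [hf.skew a y] at h1
    rw [hf.bilinear.smul_right]
    field_simp
    linear_combination h1
  refine ⟨f x₀ w / f x₀ a, ?_⟩
  by_contra hne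
  obtain ⟨y, hy⟩ := (hf.nondegenerate (w - (f x₀ w / f x₀ a) • a) (sub_ne_zero.mpr hne)).1
  apply hy
  rw [f_sub_right f hf.bilinear, key y, sub_self]

/-- the similarity group of a symplectic form is maximal in `SL_n(F)`. -/
theorem sl_symp_max (hn : 3 ≤ n) (hf : Cfsg.Geo.IsSymplecticForm f) :
    Cfsg.Geo.IsMaximalIn (Cfsg.Geo.specialLinear (Fin n) F)
      (Cfsg.Geo.similarityGroup f ⊓ Cfsg.Geo.specialLinear (Fin n) F) := by
  classical
  refine ⟨lt_of_le_of_ne inf_le_right ?_, ?_⟩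
  · intro heq
    obtain ⟨w₁, hw₁⟩ := f_riesz f hf (LinearMap.proj (⟨1, by omega⟩ : Fin n))
    obtain ⟨w₂, hw₂⟩ := f_riesz f hf (LinearMap.proj (⟨2, by omega⟩ : Fin n))
    have hw₁' : ∀ x, f x w₁ = x (⟨1, by omega⟩ : Fin n) := fun x => hw₁ x
    have hw₂' : ∀ x, f x w₂ = x (⟨2, by omega⟩ : Fin n) := fun x => hw₂ x
    obtain ⟨a, hadef⟩ : ∃ a : Fin n → F, a = Pi.single (⟨0, by omega⟩ : Fin n) 1 := ⟨_, rfl⟩
    have ha : a ≠ 0 := by
      intro h
      have h1 := congrFun h (⟨0, by omega⟩ : Fin n)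
      rw [hadef, Pi.single_eq_same, Pi.zero_apply] at h1
      exact one_ne_zero h1
    have h1 : f a w₁ = 0 := by
      rw [hw₁', hadef, Pi.single_apply, if_neg]
      intro h
      exact absurd (Fin.mk.inj h) (by omega)
    have h2 : f a w₂ = 0 := by
      rw [hw₂', hadef, Pi.single_apply, if_neg]
      intro h
      exact absurd (Fin.mk.inj h) (by omega)
    have hs1 : ftvGL f a w₁ ∈ Cfsg.Geo.similarityGroup f ⊓ Cfsg.Geo.specialLinear (Fin n) F := by
      rw [heq]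
      exact ftvGL_mem_sl f hf.bilinear a w₁ h1
    have hs2 : ftvGL f a w₂ ∈ Cfsg.Geo.similarityGroup f ⊓ Cfsg.Geo.specialLinear (Fin n) F := by
      rw [heq]
      exact ftvGL_mem_sl f hf.bilinear a w₂ h2
    obtain ⟨c₁, hc₁⟩ := ftv_similarity f hf a w₁ ha h1 hs1.1
    obtain ⟨c₂, hc₂⟩ := ftv_similarity f hf a w₂ ha h2 hs2.1
    have h3 := hw₁' (Pi.single (⟨1, by omega⟩ : Fin n) 1)
    rw [Pi.single_eq_same, hc₁, hf.bilinear.smul_right] at h3
    have h4 := hw₂' (Pi.single (⟨1, by omega⟩ : Fin n) 1)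
    rw [Pi.single_apply, if_neg (by intro h; exact absurd (Fin.mk.inj h) (by omega)), hc₂,
      hf.bilinear.smul_right] at h4
    have h5 := hw₂' (Pi.single (⟨2, by omega⟩ : Fin n) 1)
    rw [Pi.single_eq_same, hc₂, hf.bilinear.smul_right] at h5
    have h6 : f (Pi.single (⟨1, by omega⟩ : Fin n) 1) a ≠ 0 := by
      intro h0
      rw [h0, mul_zero] at h3
      exact zero_ne_one h3
    have h7 : c₂ = 0 := (mul_eq_zero.mp h4).resolve_right h6
    rw [h7, zero_mul] at h5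
    exact zero_ne_one h5
  · intro M hPM hMS
    by_cases hMP : M ≤ Cfsg.Geo.similarityGroup f ⊓ Cfsg.Geo.specialLinear (Fin n) F
    · left
      exact le_antisymm hMP hPM
    · right
      obtain ⟨g, hgM, hgP⟩ := SetLike.not_le_iff_exists.mp hMP
      have hg : g ∉ Cfsg.Geo.similarityGroup f := fun h => hgP ⟨h, hMS hgM⟩
      obtain ⟨a₀, w₀, ha₀, h₀, hw₀, hmem⟩ := sl_initial f (by omega) hf M hPM g hgM hg
      exact le_antisymm hMS (sl_le_of_all f (by omega) hf M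
        (fun a w h => sl_all_of_one f hf M hPM a₀ w₀ ha₀ h₀ hw₀ hmem a w h))

end SLSymp

end Cfsg.Agent.Lib.helper4
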