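import Mathlib
import Cfsg.Agent.Lib.helper4.OrthTS2

set_option autoImplicit false

/-!
# Stabilisers of orthogonal decompositions over the field with three elements are not maximal

The stabiliser of a decomposition into isometric blocks of dimension 2 (anisotropic) or 3 over
`F₃` preserves the set of vectors of a fixed norm lying in the blocks (an orthogonal frame).
-/

namespace Cfsg.Agent.Lib.helper4

open Cfsg.Agent.Lib.helper13

section OrthFrame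

variable {F : Type*} [Field F] {ι : Type} [Fintype ι] [DecidableEq ι]

/-- over a finite field, a matrix mapping a set of vectors into itself stabilises it -/
lemma mem_stabilizing_of_maps [Fintype F] (g : Matrix.GeneralLinearGroup ι F) (S : Set (ι → F))
    (h : ∀ v ∈ S, (g : Matrix ι ι F).mulVec v ∈ S) :
    g ∈ Cfsg.stabilizing (Cfsg.glToMat ι F) S := by
  intro v
  constructor
  · exact h v
  · intro hv
    let φ : ↥S → ↥S := fun w => ⟨(g : Matrix ι ι F).mulVec w, h w w.2⟩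
    have hinj : Function.Injective φ := by
      intro x y hxy
      exact Subtype.ext (gl_mulVec_inj g _ _ (congrArg Subtype.val hxy))
    have hsurj := Finite.injective_iff_surjective.mp hinj
    obtain ⟨w, hw⟩ := hsurj ⟨_, hv⟩
    have h2 : (w : ι → F) = v := gl_mulVec_inj g _ _ (congrArg Subtype.val hw)
    rw [← h2]
    exact w.2

/-- non-maximality of the stabiliser of a decomposition via the set of block vectors of norm
`ε` -/
theorem set_stab_not_max [Fintype F] (Q : QuadraticForm F (ι → F)) {t : ℕ}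
    (D : Fin t → Submodule F (ι → F)) (ε : F)
    (hb : ∃ g : ↥(Cfsg.isometryGroup F ⇑Q), g ∈ Cfsg.Omega F ⇑Q ∧
      (∀ i, ∀ v ∈ D i, Q v = ε → ∃ j, (mat Q g).mulVec v ∈ D j) ∧
      (Cfsg.isometryGroup F ⇑Q).subtype g ∉ Cfsg.Geo.decompositionStabilizer D)
    (hc : ∃ g : ↥(Cfsg.isometryGroup F ⇑Q), g ∈ Cfsg.Omega F ⇑Q ∧
      ∃ i, ∃ v ∈ D i, Q v = ε ∧ ∀ j, (mat Q g).mulVec v ∉ D j) :
    ∃ K : Subgroup (Matrix.GeneralLinearGroup ι F),
      Cfsg.Geo.decompositionStabilizer D ⊓ Cfsg.Geo.omegaGL ⇑Q < K ∧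
        K < Cfsg.Geo.omegaGL ⇑Q := by
  classical
  obtain ⟨S, hS⟩ : ∃ S : Set (ι → F), S = {v | ∃ i, v ∈ D i ∧ Q v = ε} := ⟨_, rfl⟩
  have hmaps : ∀ g : ↥(Cfsg.isometryGroup F ⇑Q),
      (∀ i, ∀ v ∈ D i, Q v = ε → ∃ j, (mat Q g).mulVec v ∈ D j) →
      (Cfsg.isometryGroup F ⇑Q).subtype g ∈ Cfsg.stabilizing (Cfsg.glToMat ι F) S := by
    intro g hg
    apply mem_stabilizing_of_maps
    intro v hv
    rw [hS] at hv ⊢
    obtain ⟨i, hvi, hQv⟩ := hv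
    obtain ⟨j, hj⟩ := hg i v hvi hQv
    exact ⟨j, hj, by rw [← hQv]; exact isom_pres Q g v⟩
  refine ⟨Cfsg.stabilizing (Cfsg.glToMat ι F) S ⊓ Cfsg.Geo.omegaGL ⇑Q, ?_, ?_⟩
  · rw [SetLike.lt_iff_le_and_exists]
    constructor
    · rintro g ⟨⟨σ, hσ⟩, hgΩ⟩
      refine ⟨?_, hgΩ⟩
      obtain ⟨y, hyΩ, rfl⟩ := hgΩ
      apply hmaps
      intro i v hv _
      refine ⟨σ i, ?_⟩
      have h1 : (mat Q y).mulVec v ∈ imgSub Q y (D i) := (mem_imgSub Q y (D i) _).mpr ⟨v, hv, rfl⟩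
      rw [imgSub_eq_map, hσ i] at h1
      exact h1
    · obtain ⟨g, hgΩ, hgS, hgD⟩ := hb
      exact ⟨_, ⟨hmaps g hgS, ⟨g, hgΩ, rfl⟩⟩, fun h => hgD h.1⟩
  · rw [SetLike.lt_iff_le_and_exists]
    refine ⟨inf_le_right, ?_⟩
    obtain ⟨g, hgΩ, i, v, hvi, hQv, hgv⟩ := hc
    refine ⟨_, ⟨g, hgΩ, rfl⟩, ?_⟩
    rintro ⟨hst, -⟩
    have h1 : v ∈ S := by rw [hS]; exact ⟨i, hvi, hQv⟩
    have h2 := (hst v).mp h1
    rw [hS] at h2
    obtain ⟨j, hj, -⟩ := h2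
    exact hgv j hj

lemma three_eq_zero_of_card [Fintype F] (hq : Fintype.card F = 3) : (3 : F) = 0 := by
  have h := Nat.cast_card_eq_zero F
  rw [hq] at h
  exact_mod_cast h

/-- the frame argument: two blocks carrying orthogonal pairs of vectors of norm `ε` which
account for all vectors of norm `ε` in the blocks -/
theorem frame_not_max [Fintype F] (hq : Fintype.card F = 3)
    (Q : QuadraticForm F (ι → F)) (hQ : (QuadraticMap.polarBilin Q).Nondegenerate) {t : ℕ}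
    (D : Fin t → Submodule F (ι → F))
    (horth : ∀ i j, i ≠ j → ∀ u ∈ D i, ∀ v ∈ D j, QuadraticMap.polar (⇑Q) u v = 0)
    (i₀ i₁ : Fin t) (h01 : i₀ ≠ i₁) (ε : F) (hε : ε ≠ 0) (e₁ e₂ e₁' e₂' : ι → F)
    (he₁ : e₁ ∈ D i₀) (he₂ : e₂ ∈ D i₀) (he₁' : e₁' ∈ D i₁) (he₂' : e₂' ∈ D i₁)
    (hQ1 : Q e₁ = ε) (hQ2 : Q e₂ = ε) (hQ1' : Q e₁' = ε) (hQ2' : Q e₂' = ε)
    (h12 : QuadraticMap.polar (⇑Q) e₁ e₂ = 0) (h12' : QuadraticMap.polar (⇑Q) e₁' e₂' = 0)
    (H0 : ∀ v ∈ D i₀, Q v = ε → v = e₁ ∨ v = -e₁ ∨ v = e₂ ∨ v = -e₂ ∨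
      (QuadraticMap.polar (⇑Q) e₁ v = 0 ∧ QuadraticMap.polar (⇑Q) e₂ v = 0))
    (H1 : ∀ v ∈ D i₁, Q v = ε → v = e₁' ∨ v = -e₁' ∨ QuadraticMap.polar (⇑Q) e₁' v = 0) :
    ∃ K : Subgroup (Matrix.GeneralLinearGroup ι F),
      Cfsg.Geo.decompositionStabilizer D ⊓ Cfsg.Geo.omegaGL ⇑Q < K ∧
        K < Cfsg.Geo.omegaGL ⇑Q := by
  classical
  have hh : Fintype.card F ≠ 2 ∨ Fintype.card ι ≠ 4 := Or.inl (by omega)
  have h3 : (3 : F) = 0 := three_eq_zero_of_card hq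
  have h2 : (2 : F) ≠ 0 := by
    intro h
    have h1 : (1 : F) = 0 := by linear_combination h3 - h
    exact one_ne_zero h1
  have h2ε : 2 * ε ≠ 0 := mul_ne_zero h2 hε
  have hc01 : ∀ u ∈ D i₀, ∀ v ∈ D i₁, QuadraticMap.polar (⇑Q) u v = 0 := horth i₀ i₁ h01
  have hc10 : ∀ u ∈ D i₁, ∀ v ∈ D i₀, QuadraticMap.polar (⇑Q) u v = 0 := horth i₁ i₀ h01.symm
  have p11 : QuadraticMap.polar (⇑Q) e₁ e₁ = 2 * ε := by rw [polar_self_eq, hQ1]
  have p22 : QuadraticMap.polar (⇑Q) e₂ e₂ = 2 * ε := by rw [polar_self_eq, hQ2]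
  have p11' : QuadraticMap.polar (⇑Q) e₁' e₁' = 2 * ε := by rw [polar_self_eq, hQ1']
  have p22' : QuadraticMap.polar (⇑Q) e₂' e₂' = 2 * ε := by rw [polar_self_eq, hQ2']
  have p21 : QuadraticMap.polar (⇑Q) e₂ e₁ = 0 := by rw [QuadraticMap.polar_comm, h12]
  have p21' : QuadraticMap.polar (⇑Q) e₂' e₁' = 0 := by rw [QuadraticMap.polar_comm, h12']
  have q11 := hc01 e₁ he₁ e₁' he₁'
  have q12 := hc01 e₁ he₁ e₂' he₂'
  have q21 := hc01 e₂ he₂ e₁' he₁'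
  have q22 := hc01 e₂ he₂ e₂' he₂'
  have r11 := hc10 e₁' he₁' e₁ he₁
  have r12 := hc10 e₁' he₁' e₂ he₂
  have r21 := hc10 e₂' he₂' e₁ he₁
  have r22 := hc10 e₂' he₂' e₂ he₂
  apply set_stab_not_max Q D ε
  · obtain ⟨a, ha⟩ : ∃ a, a = e₁ - e₁' := ⟨_, rfl⟩
    obtain ⟨b, hb⟩ : ∃ b, b = e₁ + e₂ := ⟨_, rfl⟩
    have hQa : Q a = 2 * ε := by rw [ha, Q_sub, hQ1, hQ1', q11]; ring
    have hQb : Q b = 2 * ε := by rw [hb, Q_add, hQ1, hQ2, h12]; ring
    have hQa0 : Q a ≠ 0 := by rw [hQa]; exact h2ε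
    have hQb0 : Q b ≠ 0 := by rw [hQb]; exact h2ε
    have hbD : b ∈ D i₀ := by rw [hb]; exact (D i₀).add_mem he₁ he₂
    have hRb : ∀ i, ∀ v ∈ D i, (mat Q (reflEl Q b)).mulVec v ∈ D i := by
      intro i v hv
      show ((reflEl Q b : Matrix.GeneralLinearGroup ι F) : Matrix ι ι F).mulVec v ∈ D i
      rw [reflEl_mulVec Q b hQb0]
      by_cases hi : i = i₀
      · subst hi
        exact (D i).sub_mem hv ((D i).smul_mem _ hbD)
      · rw [horth i₀ i (Ne.symm hi) b hbD v hv, mul_zero, zero_smul, sub_zero]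
        exact hv
    have hfix : ∀ v, QuadraticMap.polar (⇑Q) e₁ v = 0 → QuadraticMap.polar (⇑Q) e₁' v = 0 →
        (mat Q (reflEl Q a)).mulVec v = v := by
      intro v hv1 hv2
      show ((reflEl Q a : Matrix.GeneralLinearGroup ι F) : Matrix ι ι F).mulVec v = v
      rw [reflEl_mulVec Q a hQa0, ha, QuadraticMap.polar_sub_left, hv1, hv2, sub_zero, mul_zero,
        zero_smul, sub_zero]
    have ha1 : (mat Q (reflEl Q a)).mulVec e₁ = e₁' := by
      show ((reflEl Q a : Matrix.GeneralLinearGroup ι F) : Matrix ι ι F).mulVec e₁ = e₁'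
      rw [reflEl_mulVec Q a hQa0, hQa]
      have h5 : QuadraticMap.polar (⇑Q) a e₁ = 2 * ε := by
        rw [ha, QuadraticMap.polar_sub_left, p11, r11, sub_zero]
      rw [h5, inv_mul_cancel₀ h2ε, one_smul, ha]
      abel
    have ha1' : (mat Q (reflEl Q a)).mulVec e₁' = e₁ := by
      show ((reflEl Q a : Matrix.GeneralLinearGroup ι F) : Matrix ι ι F).mulVec e₁' = e₁
      rw [reflEl_mulVec Q a hQa0, hQa]
      have h5 : QuadraticMap.polar (⇑Q) a e₁' = -(2 * ε) := by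
        rw [ha, QuadraticMap.polar_sub_left, p11', q11, zero_sub]
      rw [h5, mul_neg, inv_mul_cancel₀ h2ε, neg_one_smul, ha]
      abel
    have hneg : ∀ (g : ↥(Cfsg.isometryGroup F ⇑Q)) (v : ι → F),
        (mat Q g).mulVec (-v) = -(mat Q g).mulVec v := fun g v => Matrix.mulVec_neg _ _
    have hRa : ∀ i, ∀ v ∈ D i, Q v = ε → ∃ j, (mat Q (reflEl Q a)).mulVec v ∈ D j := by
      intro i v hv hQv
      by_cases hi0 : i = i₀
      · subst hi0
        have hv1' : QuadraticMap.polar (⇑Q) e₁' v = 0 := hc10 e₁' he₁' v hv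
        rcases H0 v hv hQv with rfl | rfl | rfl | rfl | ⟨h, -⟩
        · exact ⟨i₁, by rw [ha1]; exact he₁'⟩
        · exact ⟨i₁, by rw [hneg, ha1]; exact (D i₁).neg_mem he₁'⟩
        · exact ⟨i, by rw [hfix _ h12 hv1']; exact hv⟩
        · refine ⟨i, ?_⟩
          rw [hfix _ (by rw [QuadraticMap.polar_neg_right, h12, neg_zero]) hv1']
          exact hv
        · exact ⟨i, by rw [hfix _ h hv1']; exact hv⟩
      · by_cases hi1 : i = i₁
        · subst hi1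
          have hv1 : QuadraticMap.polar (⇑Q) e₁ v = 0 := hc01 e₁ he₁ v hv
          rcases H1 v hv hQv with rfl | rfl | h
          · exact ⟨i₀, by rw [ha1']; exact he₁⟩
          · exact ⟨i₀, by rw [hneg, ha1']; exact (D i₀).neg_mem he₁⟩
          · exact ⟨i, by rw [hfix _ hv1 h]; exact hv⟩
        · refine ⟨i, ?_⟩
          rw [hfix _ (horth i₀ i (Ne.symm hi0) e₁ he₁ v hv) (horth i₁ i (Ne.symm hi1) e₁' he₁' v hv)]
          exact hv
    have hb1 : (mat Q (reflEl Q b)).mulVec e₁ = -e₂ := by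
      show ((reflEl Q b : Matrix.GeneralLinearGroup ι F) : Matrix ι ι F).mulVec e₁ = -e₂
      rw [reflEl_mulVec Q b hQb0, hQb]
      have h5 : QuadraticMap.polar (⇑Q) b e₁ = 2 * ε := by
        rw [hb, QuadraticMap.polar_add_left, p11, p21, add_zero]
      rw [h5, inv_mul_cancel₀ h2ε, one_smul, hb]
      abel
    have hb2 : (mat Q (reflEl Q b)).mulVec e₂ = -e₁ := by
      show ((reflEl Q b : Matrix.GeneralLinearGroup ι F) : Matrix ι ι F).mulVec e₂ = -e₁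
      rw [reflEl_mulVec Q b hQb0, hQb]
      have h5 : QuadraticMap.polar (⇑Q) b e₂ = 2 * ε := by
        rw [hb, QuadraticMap.polar_add_left, p22, h12, zero_add]
      rw [h5, inv_mul_cancel₀ h2ε, one_smul, hb]
      abel
    refine ⟨reflEl Q a * reflEl Q b, pair_mem_omega hh Q hQ a b hQa0 (hQb.trans hQa.symm), ?_, ?_⟩
    · intro i v hv hQv
      rw [mat_mul, ← Matrix.mulVec_mulVec]
      exact hRa i _ (hRb i v hv) (by rw [← hQv]; exact isom_pres Q (reflEl Q b) v)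
    · rintro ⟨σ, hσ⟩
      have himg : ∀ v ∈ D i₀, (mat Q (reflEl Q a * reflEl Q b)).mulVec v ∈ D (σ i₀) := by
        intro v hv
        have h1 : (mat Q (reflEl Q a * reflEl Q b)).mulVec v
            ∈ imgSub Q (reflEl Q a * reflEl Q b) (D i₀) := (mem_imgSub Q _ (D i₀) _).mpr ⟨v, hv, rfl⟩
        rw [imgSub_eq_map, hσ i₀] at h1
        exact h1
      have hg1 : (mat Q (reflEl Q a * reflEl Q b)).mulVec e₁ = -e₂ := by
        rw [mat_mul, ← Matrix.mulVec_mulVec, hb1, hneg, hfix _ h12 r12]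
      have hg2 : (mat Q (reflEl Q a * reflEl Q b)).mulVec e₂ = -e₁' := by
        rw [mat_mul, ← Matrix.mulVec_mulVec, hb2, hneg, ha1]
      have h5 := himg e₁ he₁
      have h6 := himg e₂ he₂
      rw [hg1] at h5
      rw [hg2] at h6
      have hσ0 : σ i₀ = i₀ := by
        by_contra hne
        have h7 := horth (σ i₀) i₀ hne _ h5 e₂ he₂
        rw [QuadraticMap.polar_neg_left, p22] at h7
        exact h2ε (neg_eq_zero.mp h7)
      rw [hσ0] at h6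
      have h8 := hc01 _ h6 e₁' he₁'
      rw [QuadraticMap.polar_neg_left, p11'] at h8
      exact h2ε (neg_eq_zero.mp h8)
  · obtain ⟨a, ha⟩ : ∃ a, a = e₁ + e₂ + e₁' + e₂' := ⟨_, rfl⟩
    have hQa : Q a = ε := by
      rw [ha, Q_add, Q_add, Q_add, hQ1, hQ2, hQ1', hQ2', h12]
      simp only [QuadraticMap.polar_add_left, q11, q12, q21, q22, h12']
      linear_combination ε * h3
    have hQa0 : Q a ≠ 0 := by rw [hQa]; exact hε
    have hQ20 : Q e₂ ≠ 0 := by rw [hQ2]; exact hε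
    refine ⟨reflEl Q a * reflEl Q e₂, pair_mem_omega hh Q hQ a e₂ hQa0 (hQ2.trans hQa.symm), i₀,
      e₁, he₁, hQ1, ?_⟩
    have hg : (mat Q (reflEl Q a * reflEl Q e₂)).mulVec e₁ = e₁ - (2 : F) • a := by
      show (((reflEl Q a * reflEl Q e₂ : ↥(Cfsg.isometryGroup F ⇑Q))
        : Matrix.GeneralLinearGroup ι F) : Matrix ι ι F).mulVec e₁ = e₁ - (2 : F) • a
      rw [reflEl_pair_mulVec Q a e₂ hQa0 hQ20, p21, mul_zero, zero_smul, sub_zero, hQa]
      have h5 : QuadraticMap.polar (⇑Q) a e₁ = 2 * ε := by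
        rw [ha]
        simp only [QuadraticMap.polar_add_left, p11, p21, r11, r21]
        ring
      rw [h5]
      have h6 : ε⁻¹ * (2 * ε) = 2 := by field_simp
      rw [h6]
    rw [hg]
    intro j hj
    have h4ε : -(4 * ε) ≠ 0 := by
      have : -(4 * ε) = -ε := by linear_combination (-ε) * h3
      rw [this]
      exact neg_ne_zero.mpr hε
    have hj1 : j = i₁ := by
      by_contra hne
      have h7 := horth i₁ j (Ne.symm hne) e₁' he₁' _ hj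
      rw [QuadraticMap.polar_sub_right, QuadraticMap.polar_smul_right, r11, ha] at h7
      simp only [QuadraticMap.polar_add_right, r11, r12, p11', h12', smul_eq_mul] at h7
      apply h4ε
      linear_combination h7
    rw [hj1] at hj
    have h8 := hc01 e₂ he₂ _ hj
    rw [QuadraticMap.polar_sub_right, QuadraticMap.polar_smul_right, p21, ha] at h8
    simp only [QuadraticMap.polar_add_right, p21, p22, q21, q22, smul_eq_mul] at h8
    apply h4ε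
    linear_combination h8

/-- splitting off a non-singular vector of a non-degenerate subspace -/
lemma good_step (h2 : (2 : F) ≠ 0) (Q : QuadraticForm F (ι → F))
    (hQ : (QuadraticMap.polarBilin Q).Nondegenerate) (X : Submodule F (ι → F))
    (hX : GoodSub Q X) (d : ℕ) (hdim : Module.finrank F X = d + 1) :
    ∃ v ∈ X, Q v ≠ 0 ∧ ∃ X₁ : Submodule F (ι → F), X₁ ≤ X ∧ GoodSub Q X₁ ∧
      Module.finrank F X₁ = d ∧ (∀ y ∈ X₁, QuadraticMap.polar (⇑Q) v y = 0) ∧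
      ∀ x ∈ X, ∃ a : F, x - a • v ∈ X₁ := by
  have hX0 : X ≠ ⊥ := by
    intro h
    rw [h, finrank_bot] at hdim
    omega
  obtain ⟨v, hvX, hQv⟩ := exists_nonsing_of_good Q X hX hX0
  have hv0 : v ≠ 0 := by
    rintro rfl
    exact hQv (QuadraticMap.map_zero Q)
  have hvv : QuadraticMap.polar (⇑Q) v v = 2 * Q v := polar_self_eq Q v
  have hvv0 : 2 * Q v ≠ 0 := mul_ne_zero h2 hQv
  have hdec : ∀ x ∈ X, ∃ a : F, x - a • v ∈ X ⊓ orthSub Q (Submodule.span F {v}) := by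
    intro x hx
    refine ⟨(2 * Q v)⁻¹ * QuadraticMap.polar (⇑Q) v x, X.sub_mem hx (X.smul_mem _ hvX),
      (mem_orthSub Q _ _).mpr ?_⟩
    intro u hu
    obtain ⟨s, rfl⟩ := Submodule.mem_span_singleton.mp hu
    rw [QuadraticMap.polar_smul_left, QuadraticMap.polar_sub_right,
      QuadraticMap.polar_smul_right, hvv, smul_eq_mul, smul_eq_mul]
    field_simp
    ring
  have hperp : ∀ y ∈ X ⊓ orthSub Q (Submodule.span F {v}),
      QuadraticMap.polar (⇑Q) v y = 0 := by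
    intro y hy
    exact (mem_orthSub Q _ y).mp hy.2 v (Submodule.mem_span_singleton_self v)
  have hgood : GoodSub Q (X ⊓ orthSub Q (Submodule.span F {v})) := by
    intro x hx hxy
    apply hX x hx.1
    intro y hy
    obtain ⟨a, ha⟩ := hdec y hy
    have h1 : y = (y - a • v) + a • v := by abel
    rw [h1, QuadraticMap.polar_add_right, hxy _ ha, QuadraticMap.polar_smul_right,
      QuadraticMap.polar_comm (⇑Q) x v, hperp x hx, smul_zero, add_zero]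
  have hfin : Module.finrank F ↥(X ⊓ orthSub Q (Submodule.span F {v})) = d := by
    have h1 := finrank_orthSub Q hQ (Submodule.span F {v})
    rw [finrank_span_singleton hv0] at h1
    have h2' := Submodule.finrank_sup_add_finrank_inf_eq X (orthSub Q (Submodule.span F {v}))
    have h3 : Module.finrank F ↥(X ⊔ orthSub Q (Submodule.span F {v})) ≤ Fintype.card ι := by
      rw [← Module.finrank_fintype_fun_eq_card (R := F) (η := ι)]
      exact Submodule.finrank_le _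
    have h3' : Module.finrank F ↥X ≤ Fintype.card ι := by
      rw [← Module.finrank_fintype_fun_eq_card (R := F) (η := ι)]
      exact Submodule.finrank_le _
    have h4 : Module.finrank F ↥(X ⊓ orthSub Q (Submodule.span F {v})) < Module.finrank F X := by
      apply Submodule.finrank_lt_finrank_of_lt
      refine lt_of_le_of_ne inf_le_left ?_
      intro h
      have h5 : v ∈ X ⊓ orthSub Q (Submodule.span F {v}) := by rw [h]; exact hvX
      exact hvv0 (by rw [← hvv]; exact hperp v h5)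
    omega
  exact ⟨v, hvX, hQv, _, inf_le_left, hgood, hfin, hperp, hdec⟩

lemma orth_basis3 (h2 : (2 : F) ≠ 0) (Q : QuadraticForm F (ι → F))
    (hQ : (QuadraticMap.polarBilin Q).Nondegenerate) (X : Submodule F (ι → F))
    (hX : GoodSub Q X) (hdim : Module.finrank F X = 3) :
    ∃ v₁ v₂ v₃ : ι → F, v₁ ∈ X ∧ v₂ ∈ X ∧ v₃ ∈ X ∧ Q v₁ ≠ 0 ∧ Q v₂ ≠ 0 ∧ Q v₃ ≠ 0 ∧
      QuadraticMap.polar (⇑Q) v₁ v₂ = 0 ∧ QuadraticMap.polar (⇑Q) v₁ v₃ = 0 ∧
      QuadraticMap.polar (⇑Q) v₂ v₃ = 0 ∧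
      ∀ x ∈ X, ∃ a b c : F, x = a • v₁ + b • v₂ + c • v₃ := by
  obtain ⟨v₁, hv₁, hQ₁, X₁, hX₁X, hX₁, hd₁, hp₁, hdec₁⟩ := good_step h2 Q hQ X hX 2 hdim
  obtain ⟨v₂, hv₂, hQ₂, X₂, hX₂X, hX₂, hd₂, hp₂, hdec₂⟩ := good_step h2 Q hQ X₁ hX₁ 1 hd₁
  obtain ⟨v₃, hv₃, hQ₃, X₃, hX₃X, hX₃, hd₃, hp₃, hdec₃⟩ := good_step h2 Q hQ X₂ hX₂ 0 hd₂
  have hX₃0 : X₃ = ⊥ := Submodule.finrank_eq_zero.mp hd₃
  refine ⟨v₁, v₂, v₃, hv₁, hX₁X hv₂, hX₁X (hX₂X hv₃), hQ₁, hQ₂, hQ₃, hp₁ v₂ hv₂,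
    hp₁ v₃ (hX₂X hv₃), hp₂ v₃ hv₃, ?_⟩
  intro x hx
  obtain ⟨a, ha⟩ := hdec₁ x hx
  obtain ⟨b, hb⟩ := hdec₂ _ ha
  obtain ⟨c, hc⟩ := hdec₃ _ hb
  rw [hX₃0, Submodule.mem_bot] at hc
  refine ⟨a, b, c, ?_⟩
  have h1 : x = (x - a • v₁ - b • v₂ - c • v₃) + (a • v₁ + b • v₂ + c • v₃) := by abel
  rw [h1, hc, zero_add]

lemma orth_basis2 (h2 : (2 : F) ≠ 0) (Q : QuadraticForm F (ι → F))
    (hQ : (QuadraticMap.polarBilin Q).Nondegenerate) (X : Submodule F (ι → F))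
    (hX : GoodSub Q X) (hdim : Module.finrank F X = 2) :
    ∃ v₁ v₂ : ι → F, v₁ ∈ X ∧ v₂ ∈ X ∧ Q v₁ ≠ 0 ∧ Q v₂ ≠ 0 ∧
      QuadraticMap.polar (⇑Q) v₁ v₂ = 0 ∧ ∀ x ∈ X, ∃ a b : F, x = a • v₁ + b • v₂ := by
  obtain ⟨v₁, hv₁, hQ₁, X₁, hX₁X, hX₁, hd₁, hp₁, hdec₁⟩ := good_step h2 Q hQ X hX 1 hdim
  obtain ⟨v₂, hv₂, hQ₂, X₂, hX₂X, hX₂, hd₂, hp₂, hdec₂⟩ := good_step h2 Q hQ X₁ hX₁ 0 hd₁
  have hX₂0 : X₂ = ⊥ := Submodule.finrank_eq_zero.mp hd₂
  refine ⟨v₁, v₂, hv₁, hX₁X hv₂, hQ₁, hQ₂, hp₁ v₂ hv₂, ?_⟩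
  intro x hx
  obtain ⟨a, ha⟩ := hdec₁ x hx
  obtain ⟨b, hb⟩ := hdec₂ _ ha
  rw [hX₂0, Submodule.mem_bot] at hb
  refine ⟨a, b, ?_⟩
  have h1 : x = (x - a • v₁ - b • v₂) + (a • v₁ + b • v₂) := by abel
  rw [h1, hb, zero_add]

lemma pm_one_of_card [Fintype F] (hq : Fintype.card F = 3) (a : F) (ha : a ≠ 0) :
    a = 1 ∨ a = -1 :=
  mul_self_eq_one_iff.mp (sq_eq_one_of_card_le (by omega) a ha)

lemma pm_rel (x y : F) (hx : x = 1 ∨ x = -1) (hy : y = 1 ∨ y = -1) : y = x ∨ y = -x := by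
  rcases hx with rfl | rfl <;> rcases hy with rfl | rfl <;> simp

/-- an orthogonal spanning triple of vectors of the same norm -/
def IsFrame3 (Q : QuadraticForm F (ι → F)) (X : Submodule F (ι → F)) (ε : F)
    (e₁ e₂ e₃ : ι → F) : Prop :=
  e₁ ∈ X ∧ e₂ ∈ X ∧ e₃ ∈ X ∧ Q e₁ = ε ∧ Q e₂ = ε ∧ Q e₃ = ε ∧
    QuadraticMap.polar (⇑Q) e₁ e₂ = 0 ∧ QuadraticMap.polar (⇑Q) e₁ e₃ = 0 ∧
    QuadraticMap.polar (⇑Q) e₂ e₃ = 0 ∧ ∀ x ∈ X, ∃ a b c : F, x = a • e₁ + b • e₂ + c • e₃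

omit [Fintype ι] [DecidableEq ι] in
lemma frame3_fix (h3 : (3 : F) = 0) (h2 : (2 : F) ≠ 0) (Q : QuadraticForm F (ι → F))
    (X : Submodule F (ι → F)) (δ : F) (u₁ u₂ u₃ : ι → F) (hu₁ : u₁ ∈ X) (hu₂ : u₂ ∈ X)
    (hu₃ : u₃ ∈ X) (hQ1 : Q u₁ = δ) (hQ2 : Q u₂ = δ) (hQ3 : Q u₃ = -δ)
    (h12 : QuadraticMap.polar (⇑Q) u₁ u₂ = 0) (h13 : QuadraticMap.polar (⇑Q) u₁ u₃ = 0)
    (h23 : QuadraticMap.polar (⇑Q) u₂ u₃ = 0)
    (hspan : ∀ x ∈ X, ∃ a b c : F, x = a • u₁ + b • u₂ + c • u₃) :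
    IsFrame3 Q X (-δ) (u₁ + u₂) (u₁ - u₂) u₃ := by
  have h21 : QuadraticMap.polar (⇑Q) u₂ u₁ = 0 := by rw [QuadraticMap.polar_comm, h12]
  have p11 : QuadraticMap.polar (⇑Q) u₁ u₁ = 2 * δ := by
    rw [QuadraticMap.polar_self, hQ1, two_nsmul, two_mul]
  have p22 : QuadraticMap.polar (⇑Q) u₂ u₂ = 2 * δ := by
    rw [QuadraticMap.polar_self, hQ2, two_nsmul, two_mul]
  refine ⟨X.add_mem hu₁ hu₂, X.sub_mem hu₁ hu₂, hu₃, ?_, ?_, hQ3, ?_, ?_, ?_, ?_⟩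
  · have h1 : Q (u₁ + u₂) = Q u₁ + Q u₂ + QuadraticMap.polar (⇑Q) u₁ u₂ := by
      unfold QuadraticMap.polar; ring
    rw [h1, hQ1, hQ2, h12]
    linear_combination δ * h3
  · have h1 : Q (u₁ - u₂) = Q u₁ + Q (-u₂) + QuadraticMap.polar (⇑Q) u₁ (-u₂) := by
      unfold QuadraticMap.polar
      rw [sub_eq_add_neg]
      ring
    rw [h1, QuadraticMap.map_neg, QuadraticMap.polar_neg_right, hQ1, hQ2, h12]
    linear_combination δ * h3
  · simp only [QuadraticMap.polar_add_left, QuadraticMap.polar_sub_right, p11, p22, h12, h21]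
    ring
  · rw [QuadraticMap.polar_add_left, h13, h23, add_zero]
  · rw [QuadraticMap.polar_sub_left, h13, h23, sub_zero]
  · intro x hx
    obtain ⟨a, b, c, rfl⟩ := hspan x hx
    refine ⟨2⁻¹ * (a + b), 2⁻¹ * (a - b), c, ?_⟩
    match_scalars <;> field_simp <;> ring

lemma exists_frame3 [Fintype F] (hq : Fintype.card F = 3) (Q : QuadraticForm F (ι → F))
    (hQ : (QuadraticMap.polarBilin Q).Nondegenerate) (X : Submodule F (ι → F))
    (hX : GoodSub Q X) (hdim : Module.finrank F X = 3) :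
    ∃ (ε : F) (e₁ e₂ e₃ : ι → F), ε ≠ 0 ∧ IsFrame3 Q X ε e₁ e₂ e₃ := by
  have h3 : (3 : F) = 0 := three_eq_zero_of_card hq
  have h2 : (2 : F) ≠ 0 := by
    intro h
    have h1 : (1 : F) = 0 := by linear_combination h3 - h
    exact one_ne_zero h1
  obtain ⟨v₁, v₂, v₃, hv₁, hv₂, hv₃, hQ₁, hQ₂, hQ₃, h12, h13, h23, hspan⟩ :=
    orth_basis3 h2 Q hQ X hX hdim
  have pa := pm_one_of_card hq _ hQ₁
  have pb := pm_one_of_card hq _ hQ₂
  have pc := pm_one_of_card hq _ hQ₃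
  have h21 : QuadraticMap.polar (⇑Q) v₂ v₁ = 0 := by rw [QuadraticMap.polar_comm, h12]
  have h31 : QuadraticMap.polar (⇑Q) v₃ v₁ = 0 := by rw [QuadraticMap.polar_comm, h13]
  have h32 : QuadraticMap.polar (⇑Q) v₃ v₂ = 0 := by rw [QuadraticMap.polar_comm, h23]
  -- a spanning orthogonal triple whose first two norms agree
  obtain ⟨u₁, u₂, u₃, hu₁, hu₂, hu₃, hQu, hQu0, hQu3, g12, g13, g23, gspan⟩ :
      ∃ u₁ u₂ u₃ : ι → F, u₁ ∈ X ∧ u₂ ∈ X ∧ u₃ ∈ X ∧ Q u₂ = Q u₁ ∧ Q u₁ ≠ 0 ∧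
        (Q u₃ = Q u₁ ∨ Q u₃ = -Q u₁) ∧
        QuadraticMap.polar (⇑Q) u₁ u₂ = 0 ∧ QuadraticMap.polar (⇑Q) u₁ u₃ = 0 ∧
        QuadraticMap.polar (⇑Q) u₂ u₃ = 0 ∧
        ∀ x ∈ X, ∃ a b c : F, x = a • u₁ + b • u₂ + c • u₃ := by
    by_cases hab : Q v₂ = Q v₁
    · exact ⟨v₁, v₂, v₃, hv₁, hv₂, hv₃, hab, hQ₁, pm_rel _ _ pa pc, h12, h13, h23, hspan⟩
    · have hb' : Q v₂ = -Q v₁ := (pm_rel _ _ pa pb).resolve_left hab
      by_cases hac : Q v₃ = Q v₁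
      · refine ⟨v₁, v₃, v₂, hv₁, hv₃, hv₂, hac, hQ₁, Or.inr hb', h13, h12, h32, ?_⟩
        intro x hx
        obtain ⟨a, b, c, rfl⟩ := hspan x hx
        exact ⟨a, c, b, by abel⟩
      · have hc' : Q v₃ = -Q v₁ := (pm_rel _ _ pa pc).resolve_left hac
        refine ⟨v₂, v₃, v₁, hv₂, hv₃, hv₁, by rw [hc', hb'], hQ₂, Or.inr (by rw [hb', neg_neg]),
          h23, h21, h31, ?_⟩
        intro x hx
        obtain ⟨a, b, c, rfl⟩ := hspan x hx
        exact ⟨b, c, a, by abel⟩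
  rcases hQu3 with h | h
  · exact ⟨Q u₁, u₁, u₂, u₃, hQu0, hu₁, hu₂, hu₃, rfl, hQu, h, g12, g13, g23, gspan⟩
  · exact ⟨-Q u₁, u₁ + u₂, u₁ - u₂, u₃, neg_ne_zero.mpr hQu0,
      frame3_fix h3 h2 Q X (Q u₁) u₁ u₂ u₃ hu₁ hu₂ hu₃ rfl hQu h g12 g13 g23 gspan⟩

lemma sq_zero_or_one [Fintype F] (hq : Fintype.card F = 3) (a : F) : a * a = 0 ∨ a * a = 1 := by
  by_cases h : a = 0
  · left; rw [h, mul_zero]
  · right; exact sq_eq_one_of_card_le (by omega) a h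

lemma frame3_char [Fintype F] (hq : Fintype.card F = 3) (Q : QuadraticForm F (ι → F))
    (X : Submodule F (ι → F)) (ε : F) (hε : ε ≠ 0) (e₁ e₂ e₃ : ι → F)
    (hfr : IsFrame3 Q X ε e₁ e₂ e₃) :
    ∀ v ∈ X, Q v = ε → v = e₁ ∨ v = -e₁ ∨ v = e₂ ∨ v = -e₂ ∨ v = e₃ ∨ v = -e₃ := by
  obtain ⟨-, -, -, hQ1, hQ2, hQ3, h12, h13, h23, hspan⟩ := hfr
  have h3 : (3 : F) = 0 := three_eq_zero_of_card hq
  intro v hv hQv
  obtain ⟨a, b, c, rfl⟩ := hspan v hv
  have hsum : a * a + b * b + c * c = 1 := by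
    have h1 : Q (a • e₁ + b • e₂ + c • e₃) = ε * (a * a + b * b + c * c) := by
      rw [Q_add, Q_add, QuadraticMap.map_smul, QuadraticMap.map_smul, QuadraticMap.map_smul, hQ1,
        hQ2, hQ3]
      simp only [QuadraticMap.polar_add_left, QuadraticMap.polar_smul_left,
        QuadraticMap.polar_smul_right, h12, h13, h23, smul_eq_mul]
      ring
    rw [h1] at hQv
    have h4 : ε * (a * a + b * b + c * c) = ε * 1 := by rw [hQv, mul_one]
    exact mul_left_cancel₀ hε h4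
  rcases sq_zero_or_one hq a with ha | ha <;> rcases sq_zero_or_one hq b with hb | hb <;>
    rcases sq_zero_or_one hq c with hc | hc <;> rw [ha, hb, hc] at hsum
  · exact absurd (by linear_combination -hsum : (1 : F) = 0) one_ne_zero
  · rw [mul_self_eq_zero.mp ha, mul_self_eq_zero.mp hb]
    rcases mul_self_eq_one_iff.mp hc with rfl | rfl
    · right; right; right; right; left; simp
    · right; right; right; right; right; simp
  · rw [mul_self_eq_zero.mp ha, mul_self_eq_zero.mp hc]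
    rcases mul_self_eq_one_iff.mp hb with rfl | rfl
    · right; right; left; simp
    · right; right; right; left; simp
  · exact absurd (by linear_combination hsum : (1 : F) = 0) one_ne_zero
  · rw [mul_self_eq_zero.mp hb, mul_self_eq_zero.mp hc]
    rcases mul_self_eq_one_iff.mp ha with rfl | rfl
    · left; simp
    · right; left; simp
  · exact absurd (by linear_combination hsum : (1 : F) = 0) one_ne_zero
  · exact absurd (by linear_combination hsum : (1 : F) = 0) one_ne_zero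
  · exact absurd (by linear_combination h3 - hsum : (1 : F) = 0) one_ne_zero

lemma exists_frame2 [Fintype F] (hq : Fintype.card F = 3) (Q : QuadraticForm F (ι → F))
    (hQ : (QuadraticMap.polarBilin Q).Nondegenerate) (X : Submodule F (ι → F))
    (hX : GoodSub Q X) (hdim : Module.finrank F X = 2) (hani : ∀ x ∈ X, Q x = 0 → x = 0) :
    ∃ (ε : F) (e₁ e₂ : ι → F), ε ≠ 0 ∧ e₁ ∈ X ∧ e₂ ∈ X ∧ Q e₁ = ε ∧ Q e₂ = ε ∧
      QuadraticMap.polar (⇑Q) e₁ e₂ = 0 ∧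
      ∀ v ∈ X, Q v = ε → v = e₁ ∨ v = -e₁ ∨ v = e₂ ∨ v = -e₂ := by
  have h3 : (3 : F) = 0 := three_eq_zero_of_card hq
  have h2 : (2 : F) ≠ 0 := by
    intro h
    have h1 : (1 : F) = 0 := by linear_combination h3 - h
    exact one_ne_zero h1
  obtain ⟨v₁, v₂, hv₁, hv₂, hQ₁, hQ₂, h12, hspan⟩ := orth_basis2 h2 Q hQ X hX hdim
  have pa := pm_one_of_card hq _ hQ₁
  have pb := pm_one_of_card hq _ hQ₂
  have hab : Q v₂ = Q v₁ := by
    rcases pm_rel _ _ pa pb with h | h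
    · exact h
    · exfalso
      have h1 : Q (v₁ + v₂) = 0 := by rw [Q_add, h, h12]; ring
      have h4 := hani _ (X.add_mem hv₁ hv₂) h1
      have h5 : QuadraticMap.polar (⇑Q) v₁ (v₁ + v₂) = 0 := by
        rw [h4, QuadraticMap.polar_zero_right]
      rw [QuadraticMap.polar_add_right, h12, add_zero, polar_self_eq] at h5
      exact mul_ne_zero h2 hQ₁ h5
  refine ⟨Q v₁, v₁, v₂, hQ₁, hv₁, hv₂, rfl, hab, h12, ?_⟩
  intro v hv hQv
  obtain ⟨a, b, rfl⟩ := hspan v hv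
  have hsum : a * a + b * b = 1 := by
    have h1 : Q (a • v₁ + b • v₂) = Q v₁ * (a * a + b * b) := by
      rw [Q_add, QuadraticMap.map_smul, QuadraticMap.map_smul, hab]
      simp only [QuadraticMap.polar_smul_left, QuadraticMap.polar_smul_right, h12, smul_eq_mul]
      ring
    rw [h1] at hQv
    have h4 : Q v₁ * (a * a + b * b) = Q v₁ * 1 := by rw [hQv, mul_one]
    exact mul_left_cancel₀ hQ₁ h4
  rcases sq_zero_or_one hq a with ha | ha <;> rcases sq_zero_or_one hq b with hb | hb <;>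
    rw [ha, hb] at hsum
  · exact absurd (by linear_combination -hsum : (1 : F) = 0) one_ne_zero
  · rw [mul_self_eq_zero.mp ha]
    rcases mul_self_eq_one_iff.mp hb with rfl | rfl
    · right; right; left; simp
    · right; right; right; simp
  · rw [mul_self_eq_zero.mp hb]
    rcases mul_self_eq_one_iff.mp ha with rfl | rfl
    · left; simp
    · right; left; simp
  · exact absurd (by linear_combination hsum : (1 : F) = 0) one_ne_zero

omit [Fintype ι] [DecidableEq ι] in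
lemma isom_polar_sub (Q : QuadraticForm F (ι → F)) (X Y : Submodule F (ι → F))
    (φ : X ≃ₗ[F] Y) (hφ : ∀ w : X, Q ((φ w : Y) : ι → F) = Q (w : ι → F)) (x y : X) :
    QuadraticMap.polar (⇑Q) ((φ x : Y) : ι → F) ((φ y : Y) : ι → F)
      = QuadraticMap.polar (⇑Q) (x : ι → F) (y : ι → F) := by
  unfold QuadraticMap.polar
  rw [← Submodule.coe_add, ← map_add, hφ, hφ, hφ, Submodule.coe_add]

omit [Fintype ι] [DecidableEq ι] in
lemma aniso_of_not_plus (Q : QuadraticForm F (ι → F)) (X : Submodule F (ι → F))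
    (hdim : Module.finrank F X = 2) (h : ¬ Cfsg.Geo.IsPlusTypeOn ⇑Q X) :
    ∀ x ∈ X, Q x = 0 → x = 0 := by
  intro x hx hQx
  by_contra hx0
  apply h
  refine ⟨Submodule.span F {x}, ?_, ?_, ?_⟩
  · rw [Submodule.span_le]
    intro z hz
    rw [Set.mem_singleton_iff] at hz
    rw [hz]
    exact hx
  · intro u hu
    obtain ⟨s, rfl⟩ := Submodule.mem_span_singleton.mp hu
    rw [QuadraticMap.map_smul, hQx, smul_zero]
  · rw [finrank_span_singleton hx0, hdim]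

/-- the stabiliser in Ω of a decomposition into isometric non-degenerate 3-spaces over `F₃` is
not maximal -/
theorem decomp3_not_max [Fintype F] (hq : Fintype.card F = 3)
    (Q : QuadraticForm F (ι → F)) (hQ : (QuadraticMap.polarBilin Q).Nondegenerate) {t : ℕ}
    (D : Fin t → Submodule F (ι → F))
    (hD : Cfsg.Geo.IsOrthogonalMDecomposition ⇑Q 3 D) :
    ∃ K : Subgroup (Matrix.GeneralLinearGroup ι F),
      Cfsg.Geo.decompositionStabilizer D ⊓ Cfsg.Geo.omegaGL ⇑Q < K ∧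
        K < Cfsg.Geo.omegaGL ⇑Q := by
  have ht := hD.decomp.decomp.two_le
  obtain ⟨i₀, hi₀⟩ : ∃ i₀ : Fin t, i₀ = ⟨0, by omega⟩ := ⟨_, rfl⟩
  obtain ⟨i₁, hi₁⟩ : ∃ i₁ : Fin t, i₁ = ⟨1, by omega⟩ := ⟨_, rfl⟩
  have h01 : i₀ ≠ i₁ := by
    rw [hi₀, hi₁]
    intro h
    simp [Fin.ext_iff] at h
  have hX : GoodSub Q (D i₀) := plane_good Q (D i₀) (hD.decomp.nondegenerate i₀)
  obtain ⟨ε, e₁, e₂, e₃, hε, hfr⟩ :=
    exists_frame3 hq Q hQ (D i₀) hX (hD.decomp.decomp.finrank_eq i₀)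
  have hchar := frame3_char hq Q (D i₀) ε hε e₁ e₂ e₃ hfr
  obtain ⟨he₁, he₂, he₃, hQ1, hQ2, hQ3, h12, h13, h23, -⟩ := hfr
  obtain ⟨φ, hφ⟩ := hD.isometric i₀ i₁
  have hpol := isom_polar_sub Q (D i₀) (D i₁) φ hφ
  refine frame_not_max hq Q hQ D hD.decomp.orthogonal i₀ i₁ h01 ε hε e₁ e₂
    (φ ⟨e₁, he₁⟩ : ι → F) (φ ⟨e₂, he₂⟩ : ι → F) he₁ he₂ (φ ⟨e₁, he₁⟩).2 (φ ⟨e₂, he₂⟩).2 hQ1 hQ2
    (by rw [hφ]; exact hQ1) (by rw [hφ]; exact hQ2) h12 (by rw [hpol]; exact h12) ?_ ?_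
  · intro v hv hQv
    rcases hchar v hv hQv with h | h | h | h | h | h
    · exact Or.inl h
    · exact Or.inr (Or.inl h)
    · exact Or.inr (Or.inr (Or.inl h))
    · exact Or.inr (Or.inr (Or.inr (Or.inl h)))
    · exact Or.inr (Or.inr (Or.inr (Or.inr ⟨by rw [h]; exact h13, by rw [h]; exact h23⟩)))
    · refine Or.inr (Or.inr (Or.inr (Or.inr ⟨?_, ?_⟩)))
      · rw [h, QuadraticMap.polar_neg_right, h13, neg_zero]
      · rw [h, QuadraticMap.polar_neg_right, h23, neg_zero]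
  · intro v hv hQv
    obtain ⟨w, hw⟩ : ∃ w : D i₀, φ w = ⟨v, hv⟩ := ⟨φ.symm ⟨v, hv⟩, φ.apply_symm_apply _⟩
    have hvw : v = (φ w : ι → F) := by rw [hw]
    have hQw : Q (w : ι → F) = ε := by rw [← hφ w, ← hvw]; exact hQv
    have hpos : ∀ u : D i₀, (w : ι → F) = (u : ι → F) → v = (φ u : ι → F) := by
      intro u hu
      rw [hvw, Subtype.ext hu]
    have hnegc : ∀ u : D i₀, (w : ι → F) = -(u : ι → F) → v = -(φ u : ι → F) := by
      intro u hu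
      have h1 : w = -u := Subtype.ext (by rw [hu]; rfl)
      rw [hvw, h1, map_neg]
      rfl
    rcases hchar w w.2 hQw with h | h | h | h | h | h
    · exact Or.inl (hpos ⟨e₁, he₁⟩ h)
    · exact Or.inr (Or.inl (hnegc ⟨e₁, he₁⟩ h))
    · refine Or.inr (Or.inr ?_)
      rw [hpos ⟨e₂, he₂⟩ h, hpol]
      exact h12
    · refine Or.inr (Or.inr ?_)
      rw [hnegc ⟨e₂, he₂⟩ h, QuadraticMap.polar_neg_right, hpol]
      show -QuadraticMap.polar (⇑Q) e₁ e₂ = 0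
      rw [h12, neg_zero]
    · refine Or.inr (Or.inr ?_)
      rw [hpos ⟨e₃, he₃⟩ h, hpol]
      exact h13
    · refine Or.inr (Or.inr ?_)
      rw [hnegc ⟨e₃, he₃⟩ h, QuadraticMap.polar_neg_right, hpol]
      show -QuadraticMap.polar (⇑Q) e₁ e₃ = 0
      rw [h13, neg_zero]

/-- the stabiliser in Ω of a decomposition into isometric anisotropic planes over `F₃` is not
maximal -/
theorem decomp2_not_max [Fintype F] (hq : Fintype.card F = 3)
    (Q : QuadraticForm F (ι → F)) (hQ : (QuadraticMap.polarBilin Q).Nondegenerate) {t : ℕ}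
    (D : Fin t → Submodule F (ι → F))
    (hD : Cfsg.Geo.IsOrthogonalMDecomposition ⇑Q 2 D)
    (hminus : ∀ i, ¬ Cfsg.Geo.IsPlusTypeOn ⇑Q (D i)) :
    ∃ K : Subgroup (Matrix.GeneralLinearGroup ι F),
      Cfsg.Geo.decompositionStabilizer D ⊓ Cfsg.Geo.omegaGL ⇑Q < K ∧
        K < Cfsg.Geo.omegaGL ⇑Q := by
  have ht := hD.decomp.decomp.two_le
  obtain ⟨i₀, hi₀⟩ : ∃ i₀ : Fin t, i₀ = ⟨0, by omega⟩ := ⟨_, rfl⟩
  obtain ⟨i₁, hi₁⟩ : ∃ i₁ : Fin t, i₁ = ⟨1, by omega⟩ := ⟨_, rfl⟩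
  have h01 : i₀ ≠ i₁ := by
    rw [hi₀, hi₁]
    intro h
    simp [Fin.ext_iff] at h
  have hX : GoodSub Q (D i₀) := plane_good Q (D i₀) (hD.decomp.nondegenerate i₀)
  have hdim := hD.decomp.decomp.finrank_eq i₀
  obtain ⟨ε, e₁, e₂, hε, he₁, he₂, hQ1, hQ2, h12, hchar⟩ :=
    exists_frame2 hq Q hQ (D i₀) hX hdim (aniso_of_not_plus Q (D i₀) hdim (hminus i₀))
  obtain ⟨φ, hφ⟩ := hD.isometric i₀ i₁
  have hpol := isom_polar_sub Q (D i₀) (D i₁) φ hφ
  refine frame_not_max hq Q hQ D hD.decomp.orthogonal i₀ i₁ h01 ε hε e₁ e₂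
    (φ ⟨e₁, he₁⟩ : ι → F) (φ ⟨e₂, he₂⟩ : ι → F) he₁ he₂ (φ ⟨e₁, he₁⟩).2 (φ ⟨e₂, he₂⟩).2 hQ1 hQ2
    (by rw [hφ]; exact hQ1) (by rw [hφ]; exact hQ2) h12 (by rw [hpol]; exact h12) ?_ ?_
  · intro v hv hQv
    rcases hchar v hv hQv with h | h | h | h
    · exact Or.inl h
    · exact Or.inr (Or.inl h)
    · exact Or.inr (Or.inr (Or.inl h))
    · exact Or.inr (Or.inr (Or.inr (Or.inl h)))
  · intro v hv hQv
    obtain ⟨w, hw⟩ : ∃ w : D i₀, φ w = ⟨v, hv⟩ := ⟨φ.symm ⟨v, hv⟩, φ.apply_symm_apply _⟩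
    have hvw : v = (φ w : ι → F) := by rw [hw]
    have hQw : Q (w : ι → F) = ε := by rw [← hφ w, ← hvw]; exact hQv
    have hpos : ∀ u : D i₀, (w : ι → F) = (u : ι → F) → v = (φ u : ι → F) := by
      intro u hu
      rw [hvw, Subtype.ext hu]
    have hnegc : ∀ u : D i₀, (w : ι → F) = -(u : ι → F) → v = -(φ u : ι → F) := by
      intro u hu
      have h1 : w = -u := Subtype.ext (by rw [hu]; rfl)
      rw [hvw, h1, map_neg]
      rfl
    rcases hchar w w.2 hQw with h | h | h | h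
    · exact Or.inl (hpos ⟨e₁, he₁⟩ h)
    · exact Or.inr (Or.inl (hnegc ⟨e₁, he₁⟩ h))
    · refine Or.inr (Or.inr ?_)
      rw [hpos ⟨e₂, he₂⟩ h, hpol]
      exact h12
    · refine Or.inr (Or.inr ?_)
      rw [hnegc ⟨e₂, he₂⟩ h, QuadraticMap.polar_neg_right, hpol]
      show -QuadraticMap.polar (⇑Q) e₁ e₂ = 0
      rw [h12, neg_zero]

end OrthFrame

end Cfsg.Agent.Lib.helper4
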