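import Mathlib
import Cfsg.Agent.Lib.helper2.PSL42

/-!
# `A₇` embeds in `GL₄(2)`
-/

namespace Cfsg.Agent.Lib.helper4.A7a

open Matrix

theorem exists_A7 {F : Type*} [Field F] [Fintype F] (hF : Fintype.card F = 2) :
    ∃ H : Subgroup (Matrix.GeneralLinearGroup (Fin 4) F),
      Nonempty (H ≃* alternatingGroup (Fin 7)) := by
  classical
  obtain ⟨e⟩ := Cfsg.Agent.Lib.helper2.PSL42.iso hF
  -- the centre of `SL₄(F)` is trivial
  have hc : Subgroup.center (SpecialLinearGroup (Fin 4) F) = ⊥ := by
    apply Subgroup.eq_bot_of_card_eq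
    rw [Cfsg.Agent.Lib.helper2.SLCard.card_center_SL F 4 (by norm_num), hF]
    decide
  have hπ : Function.Injective
      (QuotientGroup.mk' (Subgroup.center (SpecialLinearGroup (Fin 4) F))) := by
    rw [← MonoidHom.ker_eq_bot_iff, QuotientGroup.ker_mk', hc]
  have hπs : Function.Surjective
      (QuotientGroup.mk' (Subgroup.center (SpecialLinearGroup (Fin 4) F))) :=
    QuotientGroup.mk'_surjective _
  let eπ : SpecialLinearGroup (Fin 4) F ≃* ProjectiveSpecialLinearGroup (Fin 4) F :=
    MulEquiv.ofBijective (QuotientGroup.mk' (Subgroup.center (SpecialLinearGroup (Fin 4) F)))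
      ⟨hπ, hπs⟩
  -- `A₇ → A₈`
  let f : Fin 7 ≃ {x : Fin 8 // x ≠ Fin.last 7} := finSuccAboveEquiv (Fin.last 7)
  let j : Equiv.Perm (Fin 7) →* Equiv.Perm (Fin 8) := Equiv.Perm.extendDomainHom f
  have hj : Function.Injective j := Equiv.Perm.extendDomainHom_injective f
  have hsign : ∀ s : Equiv.Perm (Fin 7), Equiv.Perm.sign (j s) = Equiv.Perm.sign s := by
    intro s
    exact Equiv.Perm.sign_extendDomain s f
  let j' : alternatingGroup (Fin 7) →* alternatingGroup (Fin 8) :=
    { toFun := fun s => ⟨j s.1, by
        rw [Equiv.Perm.mem_alternatingGroup, hsign]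
        exact Equiv.Perm.mem_alternatingGroup.mp s.2⟩
      map_one' := by
        apply Subtype.ext
        exact map_one j
      map_mul' := by
        intro a b
        apply Subtype.ext
        exact map_mul j a.1 b.1 }
  have hj' : Function.Injective j' := by
    intro a b hab
    apply Subtype.ext
    apply hj
    exact congrArg Subtype.val hab
  let ψ : alternatingGroup (Fin 7) →* Matrix.GeneralLinearGroup (Fin 4) F :=
    (Matrix.SpecialLinearGroup.toGL).comp
      ((eπ.symm.toMonoidHom.comp e.symm.toMonoidHom).comp j')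
  have hψ : Function.Injective ψ := by
    intro a b hab
    apply hj'
    apply e.symm.injective
    apply eπ.symm.injective
    exact Matrix.SpecialLinearGroup.toGL_injective hab
  exact ⟨ψ.range, ⟨(MonoidHom.ofInjective hψ).symm⟩⟩

end Cfsg.Agent.Lib.helper4.A7a
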