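import Mathlib

/-!
# The pointwise stabiliser of two vectors in `GL₄(2)` has order `96`
-/

namespace Cfsg.Agent.Lib.helper4.A7b

open Matrix

variable {F : Type*} [Field F] [Fintype F]

theorem mulVec_cancel (g : Matrix.GeneralLinearGroup (Fin 4) F) (a : Fin 4 → F) :
    ((g⁻¹ : Matrix.GeneralLinearGroup (Fin 4) F) : Matrix (Fin 4) (Fin 4) F).mulVec
      ((g : Matrix (Fin 4) (Fin 4) F).mulVec a) = a := by
  rw [Matrix.mulVec_mulVec, ← Units.val_mul, inv_mul_cancel, Units.val_one, Matrix.one_mulVec]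

theorem mulVec_inj (g : Matrix.GeneralLinearGroup (Fin 4) F) (a b : Fin 4 → F)
    (h : (g : Matrix (Fin 4) (Fin 4) F).mulVec a = (g : Matrix (Fin 4) (Fin 4) F).mulVec b) :
    a = b := by
  rw [← mulVec_cancel g a, h, mulVec_cancel g b]

theorem mulVec_ne_zero (g : Matrix.GeneralLinearGroup (Fin 4) F) (a : Fin 4 → F) (ha : a ≠ 0) :
    (g : Matrix (Fin 4) (Fin 4) F).mulVec a ≠ 0 := by
  intro h
  apply ha
  apply mulVec_inj g
  rw [h, Matrix.mulVec_zero]

/-- the action of `GL₄(F)` on ordered pairs of distinct nonzero vectors. -/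
@[reducible] def pairAct : MulAction (Matrix.GeneralLinearGroup (Fin 4) F)
    {p : (Fin 4 → F) × (Fin 4 → F) // p.1 ≠ 0 ∧ p.2 ≠ 0 ∧ p.1 ≠ p.2} where
  smul := fun g p =>
    ⟨((g : Matrix (Fin 4) (Fin 4) F).mulVec p.1.1, (g : Matrix (Fin 4) (Fin 4) F).mulVec p.1.2),
      mulVec_ne_zero _ _ p.2.1, mulVec_ne_zero _ _ p.2.2.1,
      fun h => p.2.2.2 (mulVec_inj _ _ _ h)⟩
  one_smul := by
    intro p
    apply Subtype.ext
    apply Prod.ext
    · show ((1 : Matrix.GeneralLinearGroup (Fin 4) F) : Matrix (Fin 4) (Fin 4) F).mulVec p.1.1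
        = p.1.1
      rw [Units.val_one, Matrix.one_mulVec]
    · show ((1 : Matrix.GeneralLinearGroup (Fin 4) F) : Matrix (Fin 4) (Fin 4) F).mulVec p.1.2
        = p.1.2
      rw [Units.val_one, Matrix.one_mulVec]
  mul_smul := by
    intro g h p
    apply Subtype.ext
    apply Prod.ext
    · show ((g * h : Matrix.GeneralLinearGroup (Fin 4) F) : Matrix (Fin 4) (Fin 4) F).mulVec p.1.1
        = (g : Matrix (Fin 4) (Fin 4) F).mulVec ((h : Matrix (Fin 4) (Fin 4) F).mulVec p.1.1)
      rw [Units.val_mul, Matrix.mulVec_mulVec]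
    · show ((g * h : Matrix.GeneralLinearGroup (Fin 4) F) : Matrix (Fin 4) (Fin 4) F).mulVec p.1.2
        = (g : Matrix (Fin 4) (Fin 4) F).mulVec ((h : Matrix (Fin 4) (Fin 4) F).mulVec p.1.2)
      rw [Units.val_mul, Matrix.mulVec_mulVec]

theorem zero_or_one (hF : Fintype.card F = 2) (a : F) : a = 0 ∨ a = 1 := by
  classical
  by_contra h
  push Not at h
  have h3 : ({0, 1, a} : Finset F).card = 3 := by
    rw [Finset.card_insert_of_notMem, Finset.card_insert_of_notMem, Finset.card_singleton]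
    · simp only [Finset.mem_singleton]
      exact fun h' => h.2 h'.symm
    · simp only [Finset.mem_insert, Finset.mem_singleton]
      rintro (h' | h')
      · exact zero_ne_one h'
      · exact h.1 h'.symm
  have := Finset.card_le_univ ({0, 1, a} : Finset F)
  omega

theorem indep_pair (hF : Fintype.card F = 2) (v w : Fin 4 → F) (hv : v ≠ 0) (hw : w ≠ 0)
    (hvw : v ≠ w) : LinearIndependent F ![v, w] := by
  have hneg : (-1 : F) = 1 := by
    rcases zero_or_one hF (-1 : F) with h | h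
    · exact absurd (neg_eq_zero.mp h) one_ne_zero
    · exact h
  rw [LinearIndependent.pair_iff]
  intro s t hst
  rcases zero_or_one hF s with rfl | rfl <;> rcases zero_or_one hF t with rfl | rfl
  · exact ⟨rfl, rfl⟩
  · exfalso
    rw [zero_smul, one_smul, zero_add] at hst
    exact hw hst
  · exfalso
    rw [zero_smul, one_smul, add_zero] at hst
    exact hv hst
  · exfalso
    rw [one_smul, one_smul] at hst
    apply hvw
    have h1 : v = -w := eq_neg_of_add_eq_zero_left hst
    rw [h1, ← neg_one_smul F w, hneg, one_smul]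

theorem exists_gl_pair (hF : Fintype.card F = 2) (v w v' w' : Fin 4 → F) (hv : v ≠ 0)
    (hw : w ≠ 0) (hvw : v ≠ w) (hv' : v' ≠ 0) (hw' : w' ≠ 0) (hvw' : v' ≠ w') :
    ∃ g : Matrix.GeneralLinearGroup (Fin 4) F,
      (g : Matrix (Fin 4) (Fin 4) F).mulVec v = v' ∧
      (g : Matrix (Fin 4) (Fin 4) F).mulVec w = w' := by
  classical
  have h := indep_pair hF v w hv hw hvw
  have h' := indep_pair hF v' w' hv' hw' hvw'
  let f := h.linearCombinationEquiv.symm ≪≫ₗ h'.linearCombinationEquiv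
  obtain ⟨g, hg⟩ := Submodule.exists_linearEquiv_restrict_eq f
  have q0 : ((h.linearCombinationEquiv (Finsupp.single 0 1) :
      Submodule.span F (Set.range ![v, w])) : Fin 4 → F) = v := by simp
  have q1 : ((h.linearCombinationEquiv (Finsupp.single 1 1) :
      Submodule.span F (Set.range ![v, w])) : Fin 4 → F) = w := by simp
  have hgv : g v = v' := by
    have h1 := hg (h.linearCombinationEquiv (Finsupp.single 0 1))
    rw [q0] at h1
    rw [← h1]
    simp [f]
  have hgw : g w = w' := by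
    have h1 := hg (h.linearCombinationEquiv (Finsupp.single 1 1))
    rw [q1] at h1
    rw [← h1]
    simp [f]
  have hmv : ∀ x, (LinearMap.toMatrix' g.toLinearMap).mulVec x = g x := by
    intro x
    rw [LinearMap.toMatrix'_mulVec]
    rfl
  have h12 : LinearMap.toMatrix' g.toLinearMap * LinearMap.toMatrix' g.symm.toLinearMap = 1 := by
    rw [← LinearMap.toMatrix'_comp, ← LinearMap.toMatrix'_id]
    congr 1
    ext x
    simp
  have h21 : LinearMap.toMatrix' g.symm.toLinearMap * LinearMap.toMatrix' g.toLinearMap = 1 := by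
    rw [← LinearMap.toMatrix'_comp, ← LinearMap.toMatrix'_id]
    congr 1
    ext x
    simp
  refine ⟨⟨LinearMap.toMatrix' g.toLinearMap, LinearMap.toMatrix' g.symm.toLinearMap, h12, h21⟩,
    ?_, ?_⟩
  · show (LinearMap.toMatrix' g.toLinearMap).mulVec v = v'
    rw [hmv, hgv]
  · show (LinearMap.toMatrix' g.toLinearMap).mulVec w = w'
    rw [hmv, hgw]

theorem card_GL4 (hF : Fintype.card F = 2) :
    Nat.card (Matrix.GeneralLinearGroup (Fin 4) F) = 20160 := by
  rw [Matrix.card_GL_field, Fin.prod_univ_four, hF]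
  norm_num

theorem card_pairs' (hF : Fintype.card F = 2) :
    Nat.card {p : (Fin 4 → F) × (Fin 4 → F) // p.1 ≠ 0 ∧ p.2 ≠ 0 ∧ p.1 ≠ p.2} = 210 := by
  classical
  have hV : Fintype.card (Fin 4 → F) = 16 := by
    rw [Fintype.card_fun, hF, Fintype.card_fin]
    norm_num
  rw [Nat.card_eq_fintype_card, Fintype.card_subtype]
  have h1 : (Finset.univ.filter
      (fun p : (Fin 4 → F) × (Fin 4 → F) => p.1 ≠ 0 ∧ p.2 ≠ 0 ∧ p.1 ≠ p.2))
      = ((Finset.univ : Finset (Fin 4 → F)).erase 0).offDiag := by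
    ext p
    simp [Finset.mem_offDiag]
  rw [h1, Finset.offDiag_card, Finset.card_erase_of_mem (Finset.mem_univ _), Finset.card_univ, hV]

theorem card_fix_pair_dvd (hF : Fintype.card F = 2) (v w : Fin 4 → F) (hv : v ≠ 0) (hw : w ≠ 0)
    (hvw : v ≠ w) (K : Subgroup (Matrix.GeneralLinearGroup (Fin 4) F))
    (hK : ∀ g ∈ K, (g : Matrix (Fin 4) (Fin 4) F).mulVec v = v ∧
      (g : Matrix (Fin 4) (Fin 4) F).mulVec w = w) : Nat.card K ∣ 96 := by
  classical
  letI := pairAct (F := F)
  obtain ⟨ω, hω⟩ : ∃ ω : {p : (Fin 4 → F) × (Fin 4 → F) // p.1 ≠ 0 ∧ p.2 ≠ 0 ∧ p.1 ≠ p.2},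
      ω = ⟨(v, w), hv, hw, hvw⟩ := ⟨_, rfl⟩
  have horb : MulAction.orbit (Matrix.GeneralLinearGroup (Fin 4) F) ω = Set.univ := by
    rw [Set.eq_univ_iff_forall]
    intro ω'
    obtain ⟨g, hg1, hg2⟩ := exists_gl_pair hF v w ω'.1.1 ω'.1.2 hv hw hvw ω'.2.1 ω'.2.2.1
      ω'.2.2.2
    rw [MulAction.mem_orbit_iff]
    refine ⟨g, ?_⟩
    apply Subtype.ext
    rw [hω]
    exact Prod.ext hg1 hg2
  have hcard : Nat.card (MulAction.stabilizer (Matrix.GeneralLinearGroup (Fin 4) F) ω) = 96 := by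
    have h1 : (MulAction.stabilizer (Matrix.GeneralLinearGroup (Fin 4) F) ω).index
        * Nat.card (MulAction.stabilizer (Matrix.GeneralLinearGroup (Fin 4) F) ω) = 20160 := by
      rw [Subgroup.index_mul_card, card_GL4 hF]
    rw [MulAction.index_stabilizer, horb, Set.ncard_univ, card_pairs' hF] at h1
    omega
  rw [← hcard]
  apply Subgroup.card_dvd_of_le
  intro g hg
  rw [MulAction.mem_stabilizer_iff]
  apply Subtype.ext
  rw [hω]
  exact Prod.ext (hK g hg).1 (hK g hg).2

end Cfsg.Agent.Lib.helper4.A7b
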