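import Mathlib

/-!
# Counting lemmas for `A₇ ≤ GL₄(2)`
-/

namespace Cfsg.Agent.Lib.helper4.A7c

theorem card_pairs {F : Type*} [Field F] [Fintype F] (hF : Fintype.card F = 2) :
    Nat.card {p : (Fin 4 → F) × (Fin 4 → F) // p.1 ≠ 0 ∧ p.2 ≠ 0 ∧ p.1 ≠ p.2} = 210 := by
  classical
  have hV : Fintype.card (Fin 4 → F) = 16 := by
    rw [Fintype.card_fun, hF, Fintype.card_fin]
    norm_num
  rw [Nat.card_eq_fintype_card, Fintype.card_subtype]
  have h1 : (Finset.univ.filter
      (fun p : (Fin 4 → F) × (Fin 4 → F) => p.1 ≠ 0 ∧ p.2 ≠ 0 ∧ p.1 ≠ p.2))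
      = ((Finset.univ : Finset (Fin 4 → F)).erase 0).offDiag := by
    ext p
    simp [Finset.mem_offDiag]
  rw [h1, Finset.offDiag_card, Finset.card_erase_of_mem (Finset.mem_univ _), Finset.card_univ, hV]

theorem trans_of_count {G Ω : Type*} [Group G] [Finite G] [MulAction G Ω] [Finite Ω]
    (hG : Nat.card G = 2520) (hΩ : Nat.card Ω = 210)
    (hst : ∀ ω : Ω, Nat.card (MulAction.stabilizer G ω) ∣ 24) (σ : Ω → Ω)
    (hσ : ∀ ω, σ ω ≠ ω) (hσσ : ∀ ω, σ (σ ω) = ω)
    (hσg : ∀ (g : G) (ω : Ω), σ (g • ω) = g • σ ω) (ω₀ : Ω)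
    (hω₀ : σ ω₀ ∈ MulAction.orbit G ω₀) : ∀ ω : Ω, ω ∈ MulAction.orbit G ω₀ := by
  classical
  have hos : Nat.card (MulAction.orbit G ω₀) * Nat.card (MulAction.stabilizer G ω₀) = 2520 := by
    rw [Nat.card_coe_set_eq, ← MulAction.index_stabilizer, Subgroup.index_mul_card, hG]
  obtain ⟨k, hk⟩ := hst ω₀
  have hs0 : 0 < Nat.card (MulAction.stabilizer G ω₀) := Nat.card_pos
  have hO : Nat.card (MulAction.orbit G ω₀) = 105 * k := by
    have h1 : Nat.card (MulAction.orbit G ω₀) * Nat.card (MulAction.stabilizer G ω₀)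
        = 105 * k * Nat.card (MulAction.stabilizer G ω₀) := by
      rw [hos]
      have : 105 * k * Nat.card (MulAction.stabilizer G ω₀)
          = 105 * (Nat.card (MulAction.stabilizer G ω₀) * k) := by ring
      rw [this, ← hk]
    exact Nat.eq_of_mul_eq_mul_right hs0 h1
  have hle : Nat.card (MulAction.orbit G ω₀) ≤ 210 := by
    rw [← hΩ]
    exact Nat.card_le_card_of_injective Subtype.val Subtype.val_injective
  have hstab : ∀ x : Ω, x ∈ MulAction.orbit G ω₀ → σ x ∈ MulAction.orbit G ω₀ := by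
    intro x hx
    obtain ⟨g, rfl⟩ := MulAction.mem_orbit_iff.mp hx
    obtain ⟨h, hh⟩ := MulAction.mem_orbit_iff.mp hω₀
    rw [hσg, ← hh, ← mul_smul]
    exact MulAction.mem_orbit _ _
  haveI : Fintype (MulAction.orbit G ω₀) := Fintype.ofFinite _
  have heven : Even (Nat.card (MulAction.orbit G ω₀)) := by
    haveI : Fact (Nat.Prime 2) := ⟨Nat.prime_two⟩
    let τ : Function.End (MulAction.orbit G ω₀) := fun x => ⟨σ x.1, hstab x.1 x.2⟩
    have hτ : τ ^ 2 ^ 1 = 1 := by
      funext x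
      apply Subtype.ext
      show σ (σ x.1) = x.1
      exact hσσ x.1
    have h1 := Equiv.Perm.card_fixedPoints_modEq (p := 2) (n := 1) hτ
    have h2 : Fintype.card (Function.fixedPoints τ) = 0 := by
      rw [Fintype.card_eq_zero_iff]
      refine ⟨fun x => ?_⟩
      have h3 : τ x.1 = x.1 := x.2
      exact hσ x.1.1 (congrArg Subtype.val h3)
    rw [h2] at h1
    rw [Nat.card_eq_fintype_card]
    exact Nat.even_iff.mpr h1
  have hk2 : k = 2 := by
    rw [hO] at hle heven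
    have hk0 : k ≠ 0 := by
      rintro rfl
      omega
    have hk2' : k ≤ 2 := by omega
    rcases Nat.even_or_odd k with he | ho
    · rcases he with ⟨j, hj⟩
      omega
    · exfalso
      have : Odd (105 * k) := Odd.mul (by decide) ho
      exact (Nat.not_even_iff_odd.mpr this) heven
  rw [hk2] at hO
  intro ω
  by_contra hω
  have h1 : (MulAction.orbit G ω₀) ⊆ (Set.univ \ {ω}) := by
    intro x hx
    refine ⟨Set.mem_univ _, ?_⟩
    rintro rfl
    exact hω hx
  have h2 := Set.ncard_le_ncard h1 (Set.toFinite _)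
  rw [Set.ncard_sdiff_singleton_of_mem (Set.mem_univ ω), Set.ncard_univ, hΩ,
    ← Nat.card_coe_set_eq, hO] at h2
  omega

end Cfsg.Agent.Lib.helper4.A7c
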