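import Mathlib

/-!
# Groups of order 27: commutators are central, two non-commuting elements generate
-/

namespace Cfsg.Agent.Lib.helper4.E27

theorem comm_of_card_dvd_nine {G : Type*} [Group G] (h : Nat.card G ∣ 9) (a b : G) :
    a * b = b * a := by
  have h9 : Nat.card G ∈ Nat.divisors 9 := Nat.mem_divisors.mpr ⟨h, by norm_num⟩
  have hd : Nat.divisors 9 = {1, 3, 9} := by decide
  rw [hd] at h9
  simp only [Finset.mem_insert, Finset.mem_singleton] at h9
  haveI : Fact (Nat.Prime 3) := ⟨Nat.prime_three⟩
  rcases h9 with h1 | h3 | h9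
  · haveI : Subsingleton G := (Nat.card_eq_one_iff_unique.mp h1).1
    exact Subsingleton.elim _ _
  · haveI : IsCyclic G := isCyclic_of_prime_card h3
    exact (IsCyclic.commGroup (α := G)).mul_comm a b
  · exact IsPGroup.commutative_of_card_eq_prime_sq (p := 3) (by rw [h9]; norm_num) a b

theorem comm_central {G : Type*} [Group G] (hG : Nat.card G = 27) (a b x : G) :
    (a * b * a⁻¹ * b⁻¹) * x = x * (a * b * a⁻¹ * b⁻¹) := by
  haveI : Fact (Nat.Prime 3) := ⟨Nat.prime_three⟩
  haveI : Finite G := Nat.finite_of_card_ne_zero (by rw [hG]; norm_num)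
  haveI : Nontrivial G := (Finite.one_lt_card_iff_nontrivial).mp (by rw [hG]; norm_num)
  have hp : IsPGroup 3 G := IsPGroup.of_card (n := 3) (by rw [hG]; norm_num)
  haveI := hp.center_nontrivial
  have hmul := Subgroup.card_eq_card_quotient_mul_card_subgroup (Subgroup.center G)
  rw [hG] at hmul
  have hZ1 : 1 < Nat.card (Subgroup.center G) := Finite.one_lt_card
  have hq9 : Nat.card (G ⧸ Subgroup.center G) ∣ 9 := by
    have hz : Nat.card (Subgroup.center G) ∣ 27 := Dvd.intro_left _ hmul.symm
    have hz' : Nat.card (Subgroup.center G) ∈ Nat.divisors 27 :=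
      Nat.mem_divisors.mpr ⟨hz, by norm_num⟩
    have hd : Nat.divisors 27 = {1, 3, 9, 27} := by decide
    rw [hd] at hz'
    simp only [Finset.mem_insert, Finset.mem_singleton] at hz'
    rcases hz' with h | h | h | h
    · omega
    · rw [h] at hmul
      have : Nat.card (G ⧸ Subgroup.center G) = 9 := by omega
      rw [this]
    · rw [h] at hmul
      have : Nat.card (G ⧸ Subgroup.center G) = 3 := by omega
      rw [this]; norm_num
    · rw [h] at hmul
      have : Nat.card (G ⧸ Subgroup.center G) = 1 := by omega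
      rw [this]; norm_num
  have hc := comm_of_card_dvd_nine hq9 (QuotientGroup.mk a) (QuotientGroup.mk b)
  have hmem : a * b * a⁻¹ * b⁻¹ ∈ Subgroup.center G := by
    rw [← QuotientGroup.eq_one_iff]
    rw [QuotientGroup.mk_mul, QuotientGroup.mk_mul, QuotientGroup.mk_mul, QuotientGroup.mk_inv,
      QuotientGroup.mk_inv, hc]
    group
  exact (Subgroup.mem_center_iff.mp hmem x).symm

theorem closure_eq {G : Type*} [Group G] (R : Subgroup G) (hR : Nat.card R = 27) (a b : G)
    (ha : a ∈ R) (hb : b ∈ R) (hab : a * b ≠ b * a) : Subgroup.closure {a, b} = R := by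
  haveI : Finite R := Nat.finite_of_card_ne_zero (by rw [hR]; norm_num)
  have hle : Subgroup.closure {a, b} ≤ R := (Subgroup.closure_le R).mpr (by
    intro x hx
    rcases hx with rfl | rfl
    · exact ha
    · exact hb)
  have hdvd : Nat.card (Subgroup.closure ({a, b} : Set G)) ∣ 27 := by
    rw [← hR]; exact Subgroup.card_dvd_of_le hle
  have hmem : Nat.card (Subgroup.closure ({a, b} : Set G)) ∈ Nat.divisors 27 :=
    Nat.mem_divisors.mpr ⟨hdvd, by norm_num⟩
  have hd : Nat.divisors 27 = {1, 3, 9, 27} := by decide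
  rw [hd] at hmem
  simp only [Finset.mem_insert, Finset.mem_singleton] at hmem
  have hcomm : Nat.card (Subgroup.closure ({a, b} : Set G)) ∣ 9 → False := by
    intro h9
    apply hab
    have := comm_of_card_dvd_nine h9
      (⟨a, Subgroup.subset_closure (by simp)⟩ : Subgroup.closure ({a, b} : Set G))
      ⟨b, Subgroup.subset_closure (by simp)⟩
    exact congrArg Subtype.val this
  rcases hmem with h | h | h | h
  · exact (hcomm (by rw [h]; norm_num)).elim
  · exact (hcomm (by rw [h]; norm_num)).elim
  · exact (hcomm (by rw [h])).elim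
  · exact Subgroup.eq_of_le_of_card_ge hle (by rw [h, hR])

end Cfsg.Agent.Lib.helper4.E27
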