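import Mathlib

/-!
# Standard form of two 3 × 3 matrices `A`, `B` of order three with `A B = ω B A`
-/

namespace Cfsg.Agent.Lib.helper4.E27

open Matrix

variable {F : Type*} [Field F]

theorem ext_cols (X Y : Matrix (Fin 3) (Fin 3) F)
    (h : ∀ j, X *ᵥ Pi.single j 1 = Y *ᵥ Pi.single j 1) : X = Y := by
  ext i j
  have := congrFun (h j) i
  rw [mulVec_single_one, mulVec_single_one] at this
  exact this

theorem exists_eig (A : Matrix (Fin 3) (Fin 3) F) (hA : A ^ 3 = 1) (ω : F)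
    (hω : ω ^ 2 + ω + 1 = 0) (h3 : (3 : F) ≠ 0) (u : Fin 3 → F) (hu : u ≠ 0) :
    ∃ (μ : F) (v : Fin 3 → F), μ ^ 3 = 1 ∧ v ≠ 0 ∧ A *ᵥ v = μ • v ∧
      ∀ (Y : Matrix (Fin 3) (Fin 3) F) (c : F), Y * A = A * Y → Y *ᵥ u = c • u →
        Y *ᵥ v = c • v := by
  have hω3 : ω ^ 3 = 1 := by linear_combination (ω - 1) * hω
  have hA' : A * A ^ 2 = 1 := by rw [← pow_succ', hA]
  have key : ∀ μ : F, μ ^ 3 = 1 →
      A * (1 + μ ^ 2 • A + μ • A ^ 2) = μ • (1 + μ ^ 2 • A + μ • A ^ 2) := by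
    intro μ hμ
    rw [mul_add, mul_add, mul_one, Matrix.mul_smul, Matrix.mul_smul, ← pow_two, hA', smul_add,
      smul_add, smul_smul, smul_smul]
    have : μ * μ ^ 2 = 1 := by rw [← hμ]; ring
    rw [this, one_smul, ← pow_two]
    abel
  have hcomm : ∀ (μ : F) (Y : Matrix (Fin 3) (Fin 3) F), Y * A = A * Y →
      Y * (1 + μ ^ 2 • A + μ • A ^ 2) = (1 + μ ^ 2 • A + μ • A ^ 2) * Y := by
    intro μ Y hY
    have h2 : Y * A ^ 2 = A ^ 2 * Y := (Commute.pow_right (show Commute Y A from hY) 2).eq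
    rw [mul_add, mul_add, add_mul, add_mul, mul_one, one_mul, Matrix.mul_smul, Matrix.mul_smul,
      Matrix.smul_mul, Matrix.smul_mul, hY, h2]
  have e1 : (1 : F) ^ 2 + ω ^ 2 + (ω ^ 2) ^ 2 = 0 := by linear_combination (ω ^ 2 - ω + 1) * hω
  have e2 : (1 : F) + ω + ω ^ 2 = 0 := by linear_combination hω
  have hsum : (1 + (1 : F) ^ 2 • A + (1 : F) • A ^ 2) + (1 + ω ^ 2 • A + ω • A ^ 2)
      + (1 + (ω ^ 2) ^ 2 • A + (ω ^ 2) • A ^ 2) = (3 : F) • (1 : Matrix (Fin 3) (Fin 3) F) := by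
    linear_combination (norm := module) e1 • A + e2 • A ^ 2
  have hfin : ∀ μ : F, μ ^ 3 = 1 → (1 + μ ^ 2 • A + μ • A ^ 2) *ᵥ u ≠ 0 →
      ∃ (μ : F) (v : Fin 3 → F), μ ^ 3 = 1 ∧ v ≠ 0 ∧ A *ᵥ v = μ • v ∧
        ∀ (Y : Matrix (Fin 3) (Fin 3) F) (c : F), Y * A = A * Y → Y *ᵥ u = c • u →
          Y *ᵥ v = c • v := by
    intro μ hμ hne
    refine ⟨μ, _, hμ, hne, ?_, ?_⟩
    · rw [mulVec_mulVec, key μ hμ, smul_mulVec]
    · intro Y c hY hYu
      rw [mulVec_mulVec, hcomm μ Y hY, ← mulVec_mulVec, hYu, mulVec_smul]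
  by_cases h1 : (1 + (1 : F) ^ 2 • A + (1 : F) • A ^ 2) *ᵥ u ≠ 0
  · exact hfin 1 (one_pow 3) h1
  by_cases h2 : (1 + ω ^ 2 • A + ω • A ^ 2) *ᵥ u ≠ 0
  · exact hfin ω hω3 h2
  by_cases h4 : (1 + (ω ^ 2) ^ 2 • A + (ω ^ 2) • A ^ 2) *ᵥ u ≠ 0
  · exact hfin (ω ^ 2) (by rw [← pow_mul, mul_comm, pow_mul, hω3, one_pow]) h4
  exfalso
  push Not at h1 h2 h4
  apply hu
  have := congrArg (fun X => X *ᵥ u) hsum
  simp only [add_mulVec, h1, h2, h4, add_zero, smul_mulVec, one_mulVec] at this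
  have h5 : (3 : F)⁻¹ • ((3 : F) • u) = 0 := by rw [← this, smul_zero]
  rwa [smul_smul, inv_mul_cancel₀ h3, one_smul] at h5

theorem std_aux (A B Z : Matrix (Fin 3) (Fin 3) F) (hAB : A * B = Z * B * A)
    (hZA : Z * A = A * Z) (hZB : Z * B = B * Z) (hA : A ^ 3 = 1) (hB : B ^ 3 = 1) (ω : F)
    (hω : ω ^ 2 + ω + 1 = 0) (h3 : (3 : F) ≠ 0) (u : Fin 3 → F) (hu : u ≠ 0)
    (hZu : Z *ᵥ u = ω • u) :
    ∃ (μ : F) (M Mi : Matrix (Fin 3) (Fin 3) F), μ ^ 3 = 1 ∧ M * Mi = 1 ∧ Mi * M = 1 ∧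
      A * M = M * diagonal ![μ, μ * ω, μ * ω ^ 2] ∧
      B * M = M * !![0, 0, 1; 1, 0, 0; 0, 1, 0] ∧ Z = ω • (1 : Matrix (Fin 3) (Fin 3) F) := by
  classical
  obtain ⟨μ, v, hμ, hv0, hAv, hYv⟩ := exists_eig A hA ω hω h3 u hu
  have hZv : Z *ᵥ v = ω • v := hYv Z ω hZA hZu
  have hω3 : ω ^ 3 = 1 := by linear_combination (ω - 1) * hω
  have hω1 : ω ≠ 1 := by
    rintro rfl
    apply h3
    linear_combination hω
  have hω0 : ω ≠ 0 := by
    rintro rfl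
    rw [zero_pow (by norm_num)] at hω3
    exact zero_ne_one hω3
  have hμ0 : μ ≠ 0 := by
    rintro rfl
    rw [zero_pow (by norm_num)] at hμ
    exact zero_ne_one hμ
  obtain ⟨V, hV⟩ : ∃ V : Fin 3 → (Fin 3 → F), V = ![v, B *ᵥ v, B *ᵥ (B *ᵥ v)] := ⟨_, rfl⟩
  have hV0 : V 0 = v := by rw [hV]; rfl
  have hV1 : V 1 = B *ᵥ v := by rw [hV]; rfl
  have hV2 : V 2 = B *ᵥ (B *ᵥ v) := by rw [hV]; rfl
  have hBBB : B *ᵥ (B *ᵥ (B *ᵥ v)) = v := by
    rw [mulVec_mulVec, mulVec_mulVec, ← pow_two, ← pow_succ, hB, one_mulVec]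
  have hstep : ∀ (w : Fin 3 → F) (c : F), A *ᵥ w = c • w → Z *ᵥ w = ω • w →
      A *ᵥ (B *ᵥ w) = (c * ω) • (B *ᵥ w) ∧ Z *ᵥ (B *ᵥ w) = ω • (B *ᵥ w) := by
    intro w c hw hzw
    constructor
    · rw [mulVec_mulVec, hAB, ← mulVec_mulVec, ← mulVec_mulVec, hw, mulVec_smul, mulVec_smul,
        mulVec_mulVec, hZB, ← mulVec_mulVec, hzw, mulVec_smul, smul_smul]
    · rw [mulVec_mulVec, hZB, ← mulVec_mulVec, hzw, mulVec_smul]
  obtain ⟨hA1, hZ1⟩ := hstep v μ hAv hZv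
  obtain ⟨hA2, hZ2⟩ := hstep (B *ᵥ v) (μ * ω) hA1 hZ1
  obtain ⟨d, hd⟩ : ∃ d : Fin 3 → F, d = ![μ, μ * ω, μ * ω ^ 2] := ⟨_, rfl⟩
  have hd0 : d 0 = μ := by rw [hd]; rfl
  have hd1 : d 1 = μ * ω := by rw [hd]; rfl
  have hd2 : d 2 = μ * ω ^ 2 := by rw [hd]; rfl
  have hAV : ∀ j, A *ᵥ V j = d j • V j := by
    intro j
    fin_cases j
    · show A *ᵥ V 0 = d 0 • V 0
      rw [hV0, hd0]; exact hAv
    · show A *ᵥ V 1 = d 1 • V 1
      rw [hV1, hd1]; exact hA1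
    · show A *ᵥ V 2 = d 2 • V 2
      rw [hV2, hd2]
      have : μ * ω ^ 2 = μ * ω * ω := by ring
      rw [this]; exact hA2
  have hZV : ∀ j, Z *ᵥ V j = ω • V j := by
    intro j
    fin_cases j
    · show Z *ᵥ V 0 = ω • V 0
      rw [hV0]; exact hZv
    · show Z *ᵥ V 1 = ω • V 1
      rw [hV1]; exact hZ1
    · show Z *ᵥ V 2 = ω • V 2
      rw [hV2]; exact hZ2
  have hBV : B *ᵥ V 0 = V 1 ∧ B *ᵥ V 1 = V 2 ∧ B *ᵥ V 2 = V 0 := by
    rw [hV0, hV1, hV2]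
    exact ⟨rfl, rfl, hBBB⟩
  have hV_ne : ∀ j, V j ≠ 0 := by
    intro j
    fin_cases j
    · show V 0 ≠ 0
      rw [hV0]; exact hv0
    · show V 1 ≠ 0
      rw [hV1]
      intro h
      apply hv0
      rw [← hBBB, h, mulVec_zero, mulVec_zero]
    · show V 2 ≠ 0
      rw [hV2]
      intro h
      apply hv0
      rw [← hBBB, h, mulVec_zero]
  have hdinj : Function.Injective d := by
    have h01 : d 0 ≠ d 1 := by
      rw [hd0, hd1]
      intro h
      apply hω1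
      have : μ * (ω - 1) = 0 := by linear_combination -h
      rcases mul_eq_zero.mp this with h' | h'
      · exact (hμ0 h').elim
      · exact sub_eq_zero.mp h'
    have h02 : d 0 ≠ d 2 := by
      rw [hd0, hd2]
      intro h
      have : μ * (ω ^ 2 - 1) = 0 := by linear_combination -h
      rcases mul_eq_zero.mp this with h' | h'
      · exact (hμ0 h').elim
      · apply hω1
        have h6 : ω * ω ^ 2 = ω * 1 := by rw [sub_eq_zero.mp h']
        rw [mul_one] at h6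
        rw [← h6, ← hω3]; ring
    have h12 : d 1 ≠ d 2 := by
      rw [hd1, hd2]
      intro h
      apply hω1
      have : μ * ω * (ω - 1) = 0 := by linear_combination -h
      rcases mul_eq_zero.mp this with h' | h'
      · exact ((mul_ne_zero hμ0 hω0) h').elim
      · exact sub_eq_zero.mp h'
    intro i j hij
    fin_cases i <;> fin_cases j <;> first
      | rfl
      | exact (h01 hij).elim
      | exact (h02 hij).elim
      | exact (h12 hij).elim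
      | exact (h01 hij.symm).elim
      | exact (h02 hij.symm).elim
      | exact (h12 hij.symm).elim
  have hli : LinearIndependent F V := by
    apply Module.End.eigenvectors_linearIndependent' (Matrix.toLin' A) d hdinj V
    intro j
    exact ⟨Module.End.mem_eigenspace_iff.mpr (by rw [Matrix.toLin'_apply]; exact hAV j), hV_ne j⟩
  obtain ⟨M, hM⟩ : ∃ M : Matrix (Fin 3) (Fin 3) F, M = Matrix.of (fun i j => V j i) := ⟨_, rfl⟩
  have hMcol : ∀ j, M *ᵥ Pi.single j 1 = V j := by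
    intro j
    rw [mulVec_single_one]
    funext i
    rw [hM]; rfl
  have hMunit : IsUnit M := by
    rw [← Matrix.linearIndependent_cols_iff_isUnit]
    have : M.col = V := by
      funext j i
      rw [hM]; rfl
    rw [this]
    exact hli
  obtain ⟨Mu, hMu⟩ := hMunit
  have hMMi : M * ((Mu⁻¹ : (Matrix (Fin 3) (Fin 3) F)ˣ) : Matrix (Fin 3) (Fin 3) F) = 1 := by
    rw [← hMu]; exact Mu.mul_inv
  have hS : ∀ j : Fin 3, (!![0, 0, 1; 1, 0, 0; 0, 1, 0] : Matrix (Fin 3) (Fin 3) F)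
      *ᵥ Pi.single j 1 = Pi.single (j + 1) 1 := by
    intro j
    rw [mulVec_single_one]
    funext i
    fin_cases j <;> fin_cases i <;> simp [Matrix.col_apply]
  refine ⟨μ, M, ((Mu⁻¹ : (Matrix (Fin 3) (Fin 3) F)ˣ) : Matrix (Fin 3) (Fin 3) F), hμ, hMMi,
    by rw [← hMu]; exact Mu.inv_mul, ?_, ?_, ?_⟩
  · apply ext_cols
    intro j
    have hsing : (Pi.single j (d j) : Fin 3 → F) = d j • Pi.single j 1 := by
      rw [← Pi.single_smul, smul_eq_mul, mul_one]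
    rw [← mulVec_mulVec, ← mulVec_mulVec, hMcol, hAV, ← hd, diagonal_mulVec_single, mul_one,
      hsing, mulVec_smul, hMcol]
  · apply ext_cols
    intro j
    rw [← mulVec_mulVec, ← mulVec_mulVec, hMcol, hS, hMcol]
    fin_cases j
    · exact hBV.1
    · exact hBV.2.1
    · exact hBV.2.2
  · have hZM : Z * M = ω • M := by
      apply ext_cols
      intro j
      rw [← mulVec_mulVec, hMcol, hZV, smul_mulVec, hMcol]
    calc Z = Z * (M * ((Mu⁻¹ : (Matrix (Fin 3) (Fin 3) F)ˣ) : Matrix (Fin 3) (Fin 3) F)) := by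
          rw [hMMi, mul_one]
      _ = ω • (1 : Matrix (Fin 3) (Fin 3) F) := by
          rw [← mul_assoc, hZM, Matrix.smul_mul, hMMi]

end Cfsg.Agent.Lib.helper4.E27
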