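import Mathlib
import Cfsg.Prelude.Def_GeometricClasses
import Cfsg.Agent.Lib.helper4.E27a
import Cfsg.Agent.Lib.helper4.E27b

/-!
# Standard form of a non-abelian subgroup of order 27 and exponent 3 of `GL₃(F)`
-/

namespace Cfsg.Agent.Lib.helper4.E27

open Matrix

variable {F : Type*} [Field F]

theorem exists_prim_eig (Z : Matrix (Fin 3) (Fin 3) F) (hZ : Z ^ 3 = 1) (hZ1 : Z ≠ 1) (ω : F)
    (hω : ω ^ 2 + ω + 1 = 0) :
    ∃ (e : F) (u : Fin 3 → F), e ^ 2 + e + 1 = 0 ∧ u ≠ 0 ∧ Z *ᵥ u = e • u := by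
  have hω3 : ω ^ 3 = 1 := by linear_combination (ω - 1) * hω
  have hex : ∃ w : Fin 3 → F, (Z - 1) *ᵥ w ≠ 0 := by
    by_contra hcon
    push Not at hcon
    apply hZ1
    apply ext_cols
    intro j
    have := hcon (Pi.single j 1)
    rw [sub_mulVec] at this
    exact sub_eq_zero.mp this
  obtain ⟨w, hw⟩ := hex
  have hfac : (Z - ω • 1) * (Z - ω ^ 2 • 1) * (Z - 1) = 0 := by
    have e1 : (Z - ω • 1) * (Z - ω ^ 2 • 1) = Z ^ 2 + Z + 1 := by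
      rw [sub_mul, mul_sub, mul_sub, Matrix.smul_mul, Matrix.mul_smul, Matrix.smul_mul,
        Matrix.mul_smul, one_mul, mul_one, mul_one, smul_smul, ← pow_two]
      have e2 : ω * ω ^ 2 = 1 := by rw [← hω3]; ring
      have e3 : -(ω ^ 2) - ω = 1 := by linear_combination -hω
      rw [e2]
      linear_combination (norm := module) e3 • Z
    rw [e1]
    have : (Z ^ 2 + Z + 1) * (Z - 1) = Z ^ 3 - 1 := by noncomm_ring
    rw [this, hZ, sub_self]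
  by_cases h : (Z - ω ^ 2 • 1) *ᵥ ((Z - 1) *ᵥ w) = 0
  · refine ⟨ω ^ 2, (Z - 1) *ᵥ w, by linear_combination (ω ^ 2 - ω + 1) * hω, hw, ?_⟩
    rw [sub_mulVec, smul_mulVec, one_mulVec] at h
    exact sub_eq_zero.mp h
  · refine ⟨ω, (Z - ω ^ 2 • 1) *ᵥ ((Z - 1) *ᵥ w), hω, h, ?_⟩
    have := congrArg (fun X => X *ᵥ w) hfac
    simp only [zero_mulVec] at this
    rw [← mulVec_mulVec, ← mulVec_mulVec, sub_mulVec, smul_mulVec, one_mulVec] at this
    exact sub_eq_zero.mp this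

theorem std_form (h3 : (3 : F) ≠ 0) (ω : F) (hω : ω ^ 2 + ω + 1 = 0)
    (R : Subgroup (GL (Fin 3) F)) (hR : Nat.card R = 27) (hRe : Monoid.exponent R = 3)
    (hRna : ¬ IsMulCommutative R) :
    ∃ (e : F) (M Mi : Matrix (Fin 3) (Fin 3) F) (a b z : GL (Fin 3) F),
      e ^ 2 + e + 1 = 0 ∧ M * Mi = 1 ∧ Mi * M = 1 ∧ a ∈ R ∧ b ∈ R ∧ z ∈ R ∧
      (z : Matrix (Fin 3) (Fin 3) F) = e • (1 : Matrix (Fin 3) (Fin 3) F) ∧
      (a : Matrix (Fin 3) (Fin 3) F) * M = M * diagonal ![1, e, e ^ 2] ∧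
      (b : Matrix (Fin 3) (Fin 3) F) * M = M * !![0, 0, 1; 1, 0, 0; 0, 1, 0] ∧
      Subgroup.closure {a, b} = R := by
  classical
  have hex : ∃ a₀ b₀ : R, a₀ * b₀ ≠ b₀ * a₀ := by
    by_contra hcon
    push Not at hcon
    exact hRna ⟨⟨fun x y => hcon x y⟩⟩
  obtain ⟨a₀, b₀, hab₀⟩ := hex
  have hcube : ∀ g : R, ((g : GL (Fin 3) F) : Matrix (Fin 3) (Fin 3) F) ^ 3 = 1 := by
    intro g
    have h1 := Monoid.pow_exponent_eq_one g
    rw [hRe] at h1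
    have h2 := congrArg (fun t : R => ((t : GL (Fin 3) F) : Matrix (Fin 3) (Fin 3) F)) h1
    exact h2
  obtain ⟨z₀, hz₀⟩ : ∃ z₀ : R, z₀ = a₀ * b₀ * a₀⁻¹ * b₀⁻¹ := ⟨_, rfl⟩
  have hcent : ∀ x : R, z₀ * x = x * z₀ := by
    intro x
    rw [hz₀]
    exact comm_central hR a₀ b₀ x
  have hz₀1 : z₀ ≠ 1 := by
    intro h
    apply hab₀
    rw [hz₀] at h
    have : a₀ * b₀ = (a₀ * b₀ * a₀⁻¹ * b₀⁻¹) * (b₀ * a₀) := by group
    rw [this, h, one_mul]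
  obtain ⟨A, hA⟩ : ∃ A : Matrix (Fin 3) (Fin 3) F,
      A = ((a₀ : GL (Fin 3) F) : Matrix (Fin 3) (Fin 3) F) := ⟨_, rfl⟩
  obtain ⟨B, hB⟩ : ∃ B : Matrix (Fin 3) (Fin 3) F,
      B = ((b₀ : GL (Fin 3) F) : Matrix (Fin 3) (Fin 3) F) := ⟨_, rfl⟩
  obtain ⟨Z, hZ⟩ : ∃ Z : Matrix (Fin 3) (Fin 3) F,
      Z = ((z₀ : GL (Fin 3) F) : Matrix (Fin 3) (Fin 3) F) := ⟨_, rfl⟩
  have hAB : A * B = Z * B * A := by
    have h1 : a₀ * b₀ = z₀ * b₀ * a₀ := by rw [hz₀]; group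
    have h2 := congrArg (fun t : R => ((t : GL (Fin 3) F) : Matrix (Fin 3) (Fin 3) F)) h1
    rw [hA, hB, hZ]
    exact h2
  have hZA : Z * A = A * Z := by
    have h2 := congrArg (fun t : R => ((t : GL (Fin 3) F) : Matrix (Fin 3) (Fin 3) F))
      (hcent a₀)
    rw [hA, hZ]
    exact h2
  have hZB : Z * B = B * Z := by
    have h2 := congrArg (fun t : R => ((t : GL (Fin 3) F) : Matrix (Fin 3) (Fin 3) F))
      (hcent b₀)
    rw [hB, hZ]
    exact h2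
  have hA3 : A ^ 3 = 1 := by rw [hA]; exact hcube a₀
  have hB3 : B ^ 3 = 1 := by rw [hB]; exact hcube b₀
  have hZ3 : Z ^ 3 = 1 := by rw [hZ]; exact hcube z₀
  have hZ1 : Z ≠ 1 := by
    intro h
    apply hz₀1
    apply Subtype.ext
    apply Units.ext
    rw [hZ] at h
    exact h
  obtain ⟨e, u, he, hu, hZu⟩ := exists_prim_eig Z hZ3 hZ1 ω hω
  obtain ⟨μ, M, Mi, hμ, hM1, hM2, hAM, hBM, hZe⟩ :=
    std_aux A B Z hAB hZA hZB hA3 hB3 e he h3 u hu hZu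
  have he3 : e ^ 3 = 1 := by linear_combination (e - 1) * he
  have he0 : e ≠ 0 := by
    rintro rfl
    rw [zero_pow (by norm_num)] at he3
    exact zero_ne_one he3
  -- a scalar element of `R` inverse to `μ`
  have hs : ∃ s : R, ∃ c : F, ((s : GL (Fin 3) F) : Matrix (Fin 3) (Fin 3) F)
      = c • (1 : Matrix (Fin 3) (Fin 3) F) ∧ c * μ = 1 := by
    have hfac : (μ - 1) * ((μ - e) * (μ - e ^ 2)) = 0 := by
      linear_combination hμ - (μ - 1) * μ * he + (μ - 1) * he3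
    rcases mul_eq_zero.mp hfac with h | h
    · refine ⟨1, 1, ?_, ?_⟩
      · rw [one_smul]; rfl
      · rw [one_mul]; exact sub_eq_zero.mp h
    rcases mul_eq_zero.mp h with h | h
    · refine ⟨z₀ * z₀, e * e, ?_, ?_⟩
      · show ((z₀ : GL (Fin 3) F) : Matrix (Fin 3) (Fin 3) F)
          * ((z₀ : GL (Fin 3) F) : Matrix (Fin 3) (Fin 3) F) = _
        rw [← hZ, hZe, smul_mul_smul_comm, mul_one]
      · rw [sub_eq_zero.mp h, ← he3]; ring
    · refine ⟨z₀, e, ?_, ?_⟩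
      · rw [← hZ, hZe]
      · rw [sub_eq_zero.mp h, ← he3]; ring
  obtain ⟨s, c, hsc, hcμ⟩ := hs
  have hc0 : c ≠ 0 := left_ne_zero_of_mul_eq_one hcμ
  have e1 : (((s * a₀ : R) : GL (Fin 3) F) : Matrix (Fin 3) (Fin 3) F) = c • A := by
    show ((s : GL (Fin 3) F) : Matrix (Fin 3) (Fin 3) F)
      * ((a₀ : GL (Fin 3) F) : Matrix (Fin 3) (Fin 3) F) = _
    rw [hsc, ← hA, Matrix.smul_mul, one_mul]
  refine ⟨e, M, Mi, ((s * a₀ : R) : GL (Fin 3) F), (b₀ : GL (Fin 3) F), (z₀ : GL (Fin 3) F), he,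
    hM1, hM2, (s * a₀).2, b₀.2, z₀.2, by rw [← hZ, hZe], ?_, by rw [← hB]; exact hBM, ?_⟩
  · rw [e1, Matrix.smul_mul, hAM, ← Matrix.mul_smul]
    congr 1
    rw [← diagonal_smul]
    congr 1
    funext i
    fin_cases i
    · show c • μ = 1
      exact hcμ
    · show c • (μ * e) = e
      rw [smul_eq_mul, ← mul_assoc, hcμ, one_mul]
    · show c • (μ * e ^ 2) = e ^ 2
      rw [smul_eq_mul, ← mul_assoc, hcμ, one_mul]
  · apply closure_eq R hR _ _ (s * a₀).2 b₀.2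
    intro h
    apply hab₀
    apply Subtype.ext
    apply Units.ext
    have h2 := congrArg (fun t : GL (Fin 3) F => (t : Matrix (Fin 3) (Fin 3) F)) h
    simp only [Units.val_mul] at h2
    rw [e1, ← hB, Matrix.smul_mul, Matrix.mul_smul] at h2
    have h4 := congrArg (fun X => c⁻¹ • X) h2
    simp only [smul_smul, inv_mul_cancel₀ hc0, one_smul] at h4
    show ((a₀ : GL (Fin 3) F) : Matrix (Fin 3) (Fin 3) F)
      * ((b₀ : GL (Fin 3) F) : Matrix (Fin 3) (Fin 3) F)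
      = ((b₀ : GL (Fin 3) F) : Matrix (Fin 3) (Fin 3) F)
      * ((a₀ : GL (Fin 3) F) : Matrix (Fin 3) (Fin 3) F)
    rw [← hA, ← hB]
    exact h4

end Cfsg.Agent.Lib.helper4.E27
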