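import Mathlib
import Cfsg.Prelude.Def_GeometricClasses
import Cfsg.Agent.Lib.helper4.E27c

/-!
# Elements normalising a subgroup `3^{1+2}` of `GL₃(F)` in standard form
-/

namespace Cfsg.Agent.Lib.helper4.E27

open Matrix

variable {F : Type*} [Field F]

theorem norm_of (R : Subgroup (GL (Fin 3) F)) [Finite R] (a b : GL (Fin 3) F)
    (hcl : Subgroup.closure {a, b} = R) (g : GL (Fin 3) F) (hga : g * a * g⁻¹ ∈ R)
    (hgb : g * b * g⁻¹ ∈ R) : g ∈ Cfsg.Geo.subgroupNormalizer R := by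
  show g ∈ Subgroup.normalizer (R : Set (GL (Fin 3) F))
  rw [Subgroup.mem_normalizer_iff_map_conj_eq]
  have hle : R ≤ R.comap (MulAut.conj g).toMonoidHom := by
    rw [← hcl, Subgroup.closure_le]
    intro x hx
    rw [hcl]
    rcases hx with h | h
    · rw [h]; exact hga
    · rw [Set.mem_singleton_iff] at h
      rw [h]; exact hgb
  have hle' : R.map (MulAut.conj g).toMonoidHom ≤ R := Subgroup.map_le_iff_le_comap.mpr hle
  exact Subgroup.eq_of_le_of_card_ge hle'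
    (le_of_eq (Subgroup.card_map_of_injective (MulAut.conj g).injective).symm)

theorem exists_gl (M Mi : Matrix (Fin 3) (Fin 3) F) (hM1 : M * Mi = 1) (hM2 : Mi * M = 1)
    (N Ni : Matrix (Fin 3) (Fin 3) F) (h1 : N * Ni = 1) (h2 : Ni * N = 1) :
    ∃ G : GL (Fin 3) F, (G : Matrix (Fin 3) (Fin 3) F) = M * N * Mi ∧
      ((G⁻¹ : GL (Fin 3) F) : Matrix (Fin 3) (Fin 3) F) = M * Ni * Mi :=
  ⟨⟨M * N * Mi, M * Ni * Mi, by
      calc M * N * Mi * (M * Ni * Mi) = M * N * (Mi * M) * Ni * Mi := by simp only [mul_assoc]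
        _ = 1 := by rw [hM2, mul_one, mul_assoc M N Ni, h1, mul_one, hM1],
    by
      calc M * Ni * Mi * (M * N * Mi) = M * Ni * (Mi * M) * N * Mi := by simp only [mul_assoc]
        _ = 1 := by rw [hM2, mul_one, mul_assoc M Ni N, h2, mul_one, hM1]⟩, rfl, rfl⟩

theorem conj_std (M Mi : Matrix (Fin 3) (Fin 3) F) (hM1 : M * Mi = 1) (hM2 : Mi * M = 1)
    (x : GL (Fin 3) F) (X₀ : Matrix (Fin 3) (Fin 3) F)
    (hx : (x : Matrix (Fin 3) (Fin 3) F) * M = M * X₀) (G : GL (Fin 3) F)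
    (N Ni : Matrix (Fin 3) (Fin 3) F) (hG : (G : Matrix (Fin 3) (Fin 3) F) = M * N * Mi)
    (hGi : ((G⁻¹ : GL (Fin 3) F) : Matrix (Fin 3) (Fin 3) F) = M * Ni * Mi)
    (y : GL (Fin 3) F) (Y₀ : Matrix (Fin 3) (Fin 3) F)
    (hy : (y : Matrix (Fin 3) (Fin 3) F) * M = M * Y₀) (hN : N * X₀ * Ni = Y₀) :
    G * x * G⁻¹ = y := by
  apply Units.ext
  rw [Units.val_mul, Units.val_mul, hG, hGi]
  have hx' : Mi * (x : Matrix (Fin 3) (Fin 3) F) * M = X₀ := by
    rw [mul_assoc, hx, ← mul_assoc, hM2, one_mul]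
  have hy' : (y : Matrix (Fin 3) (Fin 3) F) = M * Y₀ * Mi := by
    rw [← hy, mul_assoc, hM1, mul_one]
  rw [hy', ← hN]
  calc M * N * Mi * (x : Matrix (Fin 3) (Fin 3) F) * (M * Ni * Mi)
      = M * N * (Mi * (x : Matrix (Fin 3) (Fin 3) F) * M) * Ni * Mi := by simp only [mul_assoc]
    _ = M * (N * X₀ * Ni) * Mi := by rw [hx']; simp only [mul_assoc]

theorem conjM_mul (M Mi : Matrix (Fin 3) (Fin 3) F) (hM2 : Mi * M = 1)
    (N N' : Matrix (Fin 3) (Fin 3) F) : (M * N * Mi) * (M * N' * Mi) = M * (N * N') * Mi := by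
  calc (M * N * Mi) * (M * N' * Mi) = M * N * (Mi * M) * N' * Mi := by simp only [mul_assoc]
    _ = M * (N * N') * Mi := by rw [hM2, mul_one]; simp only [mul_assoc]

theorem conjM_det (M Mi : Matrix (Fin 3) (Fin 3) F) (hM1 : M * Mi = 1)
    (N : Matrix (Fin 3) (Fin 3) F) : (M * N * Mi).det = N.det := by
  rw [det_mul, det_mul, mul_right_comm, ← det_mul, hM1, det_one, one_mul]

theorem conjM_scalar (M Mi : Matrix (Fin 3) (Fin 3) F) (hM1 : M * Mi = 1) (hM2 : Mi * M = 1)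
    (N : Matrix (Fin 3) (Fin 3) F) (c : F) (h : M * N * Mi = c • (1 : Matrix (Fin 3) (Fin 3) F)) :
    N = c • (1 : Matrix (Fin 3) (Fin 3) F) := by
  calc N = (Mi * M) * N * (Mi * M) := by rw [hM2, one_mul, mul_one]
    _ = Mi * (M * N * Mi) * M := by simp only [mul_assoc]
    _ = c • 1 := by rw [h, Matrix.mul_smul, mul_one, Matrix.smul_mul, hM2]

theorem of_conjM (M Mi : Matrix (Fin 3) (Fin 3) F) (hM1 : M * Mi = 1)
    (X X₀ : Matrix (Fin 3) (Fin 3) F) (h : X * M = M * X₀) : X = M * X₀ * Mi := by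
  rw [← h, mul_assoc, hM1, mul_one]

end Cfsg.Agent.Lib.helper4.E27
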