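import Mathlib
import Cfsg.Prelude.Def_GeometricClasses
import Cfsg.Agent.Lib.helper4.E27d

/-!
# Explicit 3 × 3 computations for the normaliser of `3^{1+2}`
-/

namespace Cfsg.Agent.Lib.helper4.E27

open Matrix

variable {F : Type*} [Field F]

theorem diag3 (x y z : F) : (diagonal ![x, y, z] : Matrix (Fin 3) (Fin 3) F) = !![x, 0, 0; 0, y, 0; 0, 0, z] := by
  ext i j
  fin_cases i <;> fin_cases j <;> simp

theorem T0_sq : (!![-1, 0, 0; 0, 0, -1; 0, -1, 0] : Matrix (Fin 3) (Fin 3) F)
    * !![-1, 0, 0; 0, 0, -1; 0, -1, 0] = 1 := by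
  rw [Matrix.one_fin_three]
  simp only [Matrix.mul_fin_three]
  ext i j
  fin_cases i <;> fin_cases j <;> simp

theorem T0_diag (e : F) (he3 : e ^ 3 = 1) :
    (!![-1, 0, 0; 0, 0, -1; 0, -1, 0] : Matrix (Fin 3) (Fin 3) F) * diagonal ![1, e, e ^ 2]
      * !![-1, 0, 0; 0, 0, -1; 0, -1, 0] = diagonal ![1, e, e ^ 2] * diagonal ![1, e, e ^ 2] := by
  rw [diag3]
  simp only [Matrix.mul_fin_three]
  ext i j
  fin_cases i <;> fin_cases j <;> simp <;>
    first | ring1 | linear_combination (-e) * he3 | linear_combination e * he3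

theorem T0_shift : (!![-1, 0, 0; 0, 0, -1; 0, -1, 0] : Matrix (Fin 3) (Fin 3) F)
    * !![0, 0, 1; 1, 0, 0; 0, 1, 0] * !![-1, 0, 0; 0, 0, -1; 0, -1, 0]
    = !![0, 0, 1; 1, 0, 0; 0, 1, 0] * !![0, 0, 1; 1, 0, 0; 0, 1, 0] := by
  simp only [Matrix.mul_fin_three]
  ext i j
  fin_cases i <;> fin_cases j <;> simp

theorem Y0_shift (e : F) (he3 : e ^ 3 = 1) :
    (diagonal ![e, e ^ 2, e] : Matrix (Fin 3) (Fin 3) F) * !![0, 0, 1; 1, 0, 0; 0, 1, 0]
      * diagonal ![e ^ 2, e, e ^ 2] = diagonal ![1, e, e ^ 2] * !![0, 0, 1; 1, 0, 0; 0, 1, 0] := by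
  rw [diag3, diag3, diag3]
  simp only [Matrix.mul_fin_three]
  ext i j
  fin_cases i <;> fin_cases j <;> simp <;>
    first | ring1 | linear_combination he3 | linear_combination e * he3 | linear_combination (-e) * he3 | linear_combination -he3

theorem Y0_inv (e : F) (he3 : e ^ 3 = 1) :
    (diagonal ![e, e ^ 2, e] : Matrix (Fin 3) (Fin 3) F) * diagonal ![e ^ 2, e, e ^ 2] = 1 := by
  rw [diag3, diag3, Matrix.one_fin_three]
  simp only [Matrix.mul_fin_three]
  ext i j
  fin_cases i <;> fin_cases j <;> simp <;>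
    first | ring1 | linear_combination he3 | linear_combination e * he3 | linear_combination (-e) * he3 | linear_combination -he3

theorem Y0_inv' (e : F) (he3 : e ^ 3 = 1) :
    (diagonal ![e ^ 2, e, e ^ 2] : Matrix (Fin 3) (Fin 3) F) * diagonal ![e, e ^ 2, e] = 1 := by
  rw [diag3, diag3, Matrix.one_fin_three]
  simp only [Matrix.mul_fin_three]
  ext i j
  fin_cases i <;> fin_cases j <;> simp <;>
    first | ring1 | linear_combination he3 | linear_combination e * he3 | linear_combination (-e) * he3 | linear_combination -he3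

theorem Y0_diag (e : F) (he3 : e ^ 3 = 1) :
    (diagonal ![e, e ^ 2, e] : Matrix (Fin 3) (Fin 3) F) * diagonal ![1, e, e ^ 2]
      * diagonal ![e ^ 2, e, e ^ 2] = diagonal ![1, e, e ^ 2] := by
  rw [diag3, diag3, diag3]
  simp only [Matrix.mul_fin_three]
  ext i j
  fin_cases i <;> fin_cases j <;> simp <;>
    first | ring1 | linear_combination he3 | linear_combination e * he3 | linear_combination (-e) * he3 | linear_combination -he3 | linear_combination e^2 * he3 | linear_combination (e^2 + 1) * he3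

theorem Y0_quad (e : F) (he : e ^ 2 + e + 1 = 0) :
    (diagonal ![e, e ^ 2, e] : Matrix (Fin 3) (Fin 3) F) * diagonal ![e, e ^ 2, e]
      + diagonal ![e, e ^ 2, e] + 1 = 0 := by
  rw [diag3, Matrix.one_fin_three]
  simp only [Matrix.mul_fin_three]
  ext i j
  fin_cases i <;> fin_cases j <;> simp <;>
    first | ring1 | linear_combination he | linear_combination (e ^ 2 - e + 1) * he

theorem S_cube : (!![0, 0, 1; 1, 0, 0; 0, 1, 0] : Matrix (Fin 3) (Fin 3) F)
    * !![0, 0, 1; 1, 0, 0; 0, 1, 0] * !![0, 0, 1; 1, 0, 0; 0, 1, 0] = 1 := by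
  rw [Matrix.one_fin_three]
  simp only [Matrix.mul_fin_three]
  ext i j
  fin_cases i <;> fin_cases j <;> simp

theorem S_det : (!![0, 0, 1; 1, 0, 0; 0, 1, 0] : Matrix (Fin 3) (Fin 3) F).det = 1 := by
  rw [Matrix.det_fin_three]
  simp

theorem T0_det : (!![-1, 0, 0; 0, 0, -1; 0, -1, 0] : Matrix (Fin 3) (Fin 3) F).det = 1 := by
  rw [Matrix.det_fin_three]
  simp

theorem comm_std (e : F) (he : e ^ 2 + e + 1 = 0) (h3 : (3 : F) ≠ 0)
    (Y : Matrix (Fin 3) (Fin 3) F)
    (h1 : Y * diagonal ![1, e, e ^ 2] = diagonal ![1, e, e ^ 2] * Y)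
    (h2 : Y * !![0, 0, 1; 1, 0, 0; 0, 1, 0] = !![0, 0, 1; 1, 0, 0; 0, 1, 0] * Y) :
    Y = (Y 0 0) • (1 : Matrix (Fin 3) (Fin 3) F) := by
  have he3 : e ^ 3 = 1 := by linear_combination (e - 1) * he
  have he1 : e - 1 ≠ 0 := by
    intro h
    apply h3
    have : e = 1 := sub_eq_zero.mp h
    rw [this] at he
    linear_combination he
  have he0 : e ≠ 0 := by
    rintro rfl
    rw [zero_pow (by norm_num)] at he3
    exact zero_ne_one he3
  have he21 : e ^ 2 - 1 ≠ 0 := by
    intro h
    apply he1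
    have h6 : e * e ^ 2 = e * 1 := by rw [sub_eq_zero.mp h]
    linear_combination -h6 + he3
  have he2e : e ^ 2 - e ≠ 0 := by
    intro h
    have : e * (e - 1) = 0 := by linear_combination h
    rcases mul_eq_zero.mp this with h' | h'
    · exact he0 h'
    · exact he1 h'
  have d01 := congrFun (congrFun h1 0) 1
  have d02 := congrFun (congrFun h1 0) 2
  have d10 := congrFun (congrFun h1 1) 0
  have d12 := congrFun (congrFun h1 1) 2
  have d20 := congrFun (congrFun h1 2) 0
  have d21 := congrFun (congrFun h1 2) 1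
  rw [Matrix.mul_diagonal, Matrix.diagonal_mul] at d01 d02 d10 d12 d20 d21
  have v0 : (![1, e, e ^ 2] : Fin 3 → F) 0 = 1 := rfl
  have v1 : (![1, e, e ^ 2] : Fin 3 → F) 1 = e := rfl
  have v2 : (![1, e, e ^ 2] : Fin 3 → F) 2 = e ^ 2 := rfl
  rw [v0, v1] at d01
  rw [v0, v2] at d02
  rw [v0, v1] at d10
  rw [v1, v2] at d12
  rw [v0, v2] at d20
  rw [v1, v2] at d21
  have z01 : Y 0 1 = 0 := by
    have : Y 0 1 * (e - 1) = 0 := by linear_combination d01
    exact (mul_eq_zero.mp this).resolve_right he1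
  have z02 : Y 0 2 = 0 := by
    have : Y 0 2 * (e ^ 2 - 1) = 0 := by linear_combination d02
    exact (mul_eq_zero.mp this).resolve_right he21
  have z10 : Y 1 0 = 0 := by
    have : Y 1 0 * (e - 1) = 0 := by linear_combination -d10
    exact (mul_eq_zero.mp this).resolve_right he1
  have z12 : Y 1 2 = 0 := by
    have : Y 1 2 * (e ^ 2 - e) = 0 := by linear_combination d12
    exact (mul_eq_zero.mp this).resolve_right he2e
  have z20 : Y 2 0 = 0 := by
    have : Y 2 0 * (e ^ 2 - 1) = 0 := by linear_combination -d20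
    exact (mul_eq_zero.mp this).resolve_right he21
  have z21 : Y 2 1 = 0 := by
    have : Y 2 1 * (e ^ 2 - e) = 0 := by linear_combination -d21
    exact (mul_eq_zero.mp this).resolve_right he2e
  have s10 := congrFun (congrFun h2 1) 0
  have s21 := congrFun (congrFun h2 2) 1
  simp [Matrix.mul_apply, Fin.sum_univ_three] at s10 s21
  ext i j
  fin_cases i <;> fin_cases j <;> simp [z01, z02, z10, z12, z20, z21, s10, s21]

end Cfsg.Agent.Lib.helper4.E27
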