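import Mathlib
import Cfsg.Prelude.Def_GeometricClasses
import Cfsg.Agent.Lib.helper4.E27e

/-!
# Elements of the normaliser of `3^{1+2}` in `GL₃(F)`
-/

namespace Cfsg.Agent.Lib.helper4.E27

open Matrix

variable {F : Type*} [Field F]

theorem norm_elts (h3 : (3 : F) ≠ 0) (R : Subgroup (GL (Fin 3) F)) [Finite R] (e : F)
    (he : e ^ 2 + e + 1 = 0) (M Mi : Matrix (Fin 3) (Fin 3) F) (hM1 : M * Mi = 1)
    (hM2 : Mi * M = 1) (a b : GL (Fin 3) F) (ha : a ∈ R) (hb : b ∈ R)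
    (haM : (a : Matrix (Fin 3) (Fin 3) F) * M = M * diagonal ![1, e, e ^ 2])
    (hbM : (b : Matrix (Fin 3) (Fin 3) F) * M = M * !![0, 0, 1; 1, 0, 0; 0, 1, 0])
    (hcl : Subgroup.closure {a, b} = R) :
    (∃ t : GL (Fin 3) F, t ∈ Cfsg.Geo.subgroupNormalizer R ∧
      (t : Matrix (Fin 3) (Fin 3) F) * (t : Matrix (Fin 3) (Fin 3) F) = 1 ∧
      (t : Matrix (Fin 3) (Fin 3) F).det = 1 ∧
      ∀ c : F, (t : Matrix (Fin 3) (Fin 3) F) ≠ c • (1 : Matrix (Fin 3) (Fin 3) F)) ∧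
    (∃ y : GL (Fin 3) F, y ∈ Cfsg.Geo.subgroupNormalizer R ∧
      (y : Matrix (Fin 3) (Fin 3) F) * (y : Matrix (Fin 3) (Fin 3) F)
        + (y : Matrix (Fin 3) (Fin 3) F) + 1 = 0 ∧
      (y : Matrix (Fin 3) (Fin 3) F).det = e ∧
      ∀ c : F, (y : Matrix (Fin 3) (Fin 3) F) ≠ c • (1 : Matrix (Fin 3) (Fin 3) F)) ∧
    ((b : Matrix (Fin 3) (Fin 3) F).det = 1 ∧ (a : Matrix (Fin 3) (Fin 3) F).det = 1 ∧
      ∀ c : F, (b : Matrix (Fin 3) (Fin 3) F) ≠ c • (1 : Matrix (Fin 3) (Fin 3) F)) ∧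
    (∀ Y : Matrix (Fin 3) (Fin 3) F, Y * (a : Matrix (Fin 3) (Fin 3) F)
        = (a : Matrix (Fin 3) (Fin 3) F) * Y →
      Y * (b : Matrix (Fin 3) (Fin 3) F) = (b : Matrix (Fin 3) (Fin 3) F) * Y →
      ∃ c : F, Y = c • (1 : Matrix (Fin 3) (Fin 3) F)) := by
  have he3 : e ^ 3 = 1 := by linear_combination (e - 1) * he
  have he0 : e ≠ 0 := by
    rintro rfl
    rw [zero_pow (by norm_num)] at he3
    exact zero_ne_one he3
  have he1 : e ≠ 1 := by
    rintro rfl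
    apply h3
    linear_combination he
  obtain ⟨Δ, hΔ⟩ : ∃ Δ : Matrix (Fin 3) (Fin 3) F, Δ = diagonal ![1, e, e ^ 2] := ⟨_, rfl⟩
  obtain ⟨S, hS⟩ : ∃ S : Matrix (Fin 3) (Fin 3) F, S = !![0, 0, 1; 1, 0, 0; 0, 1, 0] :=
    ⟨_, rfl⟩
  rw [← hΔ] at haM
  rw [← hS] at hbM
  have haaM : ((a * a : GL (Fin 3) F) : Matrix (Fin 3) (Fin 3) F) * M = M * (Δ * Δ) := by
    rw [Units.val_mul, mul_assoc, haM, ← mul_assoc, haM, mul_assoc]
  have hbbM : ((b * b : GL (Fin 3) F) : Matrix (Fin 3) (Fin 3) F) * M = M * (S * S) := by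
    rw [Units.val_mul, mul_assoc, hbM, ← mul_assoc, hbM, mul_assoc]
  have habM : ((a * b : GL (Fin 3) F) : Matrix (Fin 3) (Fin 3) F) * M = M * (Δ * S) := by
    rw [Units.val_mul, mul_assoc, hbM, ← mul_assoc, haM, mul_assoc]
  refine ⟨?_, ?_, ?_, ?_⟩
  · obtain ⟨T₀, hT₀⟩ : ∃ T₀ : Matrix (Fin 3) (Fin 3) F,
        T₀ = !![-1, 0, 0; 0, 0, -1; 0, -1, 0] := ⟨_, rfl⟩
    have hTT : T₀ * T₀ = 1 := by rw [hT₀]; exact T0_sq
    obtain ⟨t, ht, hti⟩ := exists_gl M Mi hM1 hM2 T₀ T₀ hTT hTT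
    have h1 : t * a * t⁻¹ = a * a :=
      conj_std M Mi hM1 hM2 a Δ haM t T₀ T₀ ht hti (a * a) (Δ * Δ) haaM
        (by rw [hT₀, hΔ]; exact T0_diag e he3)
    have h2 : t * b * t⁻¹ = b * b :=
      conj_std M Mi hM1 hM2 b S hbM t T₀ T₀ ht hti (b * b) (S * S) hbbM
        (by rw [hT₀, hS]; exact T0_shift)
    refine ⟨t, norm_of R a b hcl t (by rw [h1]; exact R.mul_mem ha ha)
      (by rw [h2]; exact R.mul_mem hb hb), ?_, ?_, ?_⟩
    · rw [ht, conjM_mul M Mi hM2, hTT, mul_one, hM1]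
    · rw [ht, conjM_det M Mi hM1, hT₀]; exact T0_det
    · intro c hc
      rw [ht] at hc
      have h := conjM_scalar M Mi hM1 hM2 T₀ c hc
      have e00 : (-1 : F) = c := by
        have := congrFun (congrFun h 0) 0
        rw [hT₀] at this
        simpa using this
      have e11 : (0 : F) = c := by
        have := congrFun (congrFun h 1) 1
        rw [hT₀] at this
        simpa using this
      exact one_ne_zero (neg_eq_zero.mp (e00.trans e11.symm))
  · obtain ⟨Y₀, hY₀⟩ : ∃ Y₀ : Matrix (Fin 3) (Fin 3) F, Y₀ = diagonal ![e, e ^ 2, e] :=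
      ⟨_, rfl⟩
    obtain ⟨Yi, hYi⟩ : ∃ Yi : Matrix (Fin 3) (Fin 3) F, Yi = diagonal ![e ^ 2, e, e ^ 2] :=
      ⟨_, rfl⟩
    have hYY : Y₀ * Yi = 1 := by rw [hY₀, hYi]; exact Y0_inv e he3
    have hYY' : Yi * Y₀ = 1 := by rw [hY₀, hYi]; exact Y0_inv' e he3
    obtain ⟨y, hy, hyi⟩ := exists_gl M Mi hM1 hM2 Y₀ Yi hYY hYY'
    have h1 : y * a * y⁻¹ = a :=
      conj_std M Mi hM1 hM2 a Δ haM y Y₀ Yi hy hyi a Δ haM
        (by rw [hY₀, hYi, hΔ]; exact Y0_diag e he3)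
    have h2 : y * b * y⁻¹ = a * b :=
      conj_std M Mi hM1 hM2 b S hbM y Y₀ Yi hy hyi (a * b) (Δ * S) habM
        (by rw [hY₀, hYi, hΔ, hS]; exact Y0_shift e he3)
    refine ⟨y, norm_of R a b hcl y (by rw [h1]; exact ha)
      (by rw [h2]; exact R.mul_mem ha hb), ?_, ?_, ?_⟩
    · rw [hy, conjM_mul M Mi hM2]
      have : M * (Y₀ * Y₀) * Mi + M * Y₀ * Mi + 1 = M * (Y₀ * Y₀ + Y₀ + 1) * Mi := by
        rw [mul_add, mul_add, add_mul, add_mul, mul_one, hM1]
      rw [this, hY₀, Y0_quad e he, mul_zero, zero_mul]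
    · rw [hy, conjM_det M Mi hM1, hY₀, det_diagonal, Fin.prod_univ_three]
      show e * e ^ 2 * e = e
      linear_combination e * he3
    · intro c hc
      rw [hy] at hc
      have h := conjM_scalar M Mi hM1 hM2 Y₀ c hc
      have e00 : e = c := by
        have := congrFun (congrFun h 0) 0
        rw [hY₀] at this
        simpa using this
      have e11 : e ^ 2 = c := by
        have := congrFun (congrFun h 1) 1
        rw [hY₀] at this
        simpa using this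
      have : e * (e - 1) = 0 := by linear_combination e11 - e00
      rcases mul_eq_zero.mp this with h' | h'
      · exact he0 h'
      · exact he1 (sub_eq_zero.mp h')
  · have hb' := of_conjM M Mi hM1 _ _ hbM
    have ha' := of_conjM M Mi hM1 _ _ haM
    refine ⟨?_, ?_, ?_⟩
    · rw [hb', conjM_det M Mi hM1, hS]; exact S_det
    · rw [ha', conjM_det M Mi hM1, hΔ, det_diagonal, Fin.prod_univ_three]
      show 1 * e * e ^ 2 = 1
      linear_combination he3
    · intro c hc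
      rw [hb'] at hc
      have h := conjM_scalar M Mi hM1 hM2 S c hc
      have e00 : (0 : F) = c := by
        have := congrFun (congrFun h 0) 0
        rw [hS] at this
        simpa using this
      have e10 : (1 : F) = 0 := by
        have := congrFun (congrFun h 1) 0
        rw [hS] at this
        simpa using this
      exact one_ne_zero e10
  · intro Y hYa hYb
    have hMia : Mi * (a : Matrix (Fin 3) (Fin 3) F) = Δ * Mi := by
      rw [of_conjM M Mi hM1 _ _ haM, ← mul_assoc, ← mul_assoc, hM2, one_mul]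
    have hMib : Mi * (b : Matrix (Fin 3) (Fin 3) F) = S * Mi := by
      rw [of_conjM M Mi hM1 _ _ hbM, ← mul_assoc, ← mul_assoc, hM2, one_mul]
    have h1 : Mi * Y * M * Δ = Δ * (Mi * Y * M) := by
      calc Mi * Y * M * Δ = Mi * Y * (M * Δ) := by rw [mul_assoc]
        _ = Mi * Y * ((a : Matrix (Fin 3) (Fin 3) F) * M) := by rw [haM]
        _ = Mi * (Y * (a : Matrix (Fin 3) (Fin 3) F)) * M := by simp only [mul_assoc]
        _ = Mi * ((a : Matrix (Fin 3) (Fin 3) F) * Y) * M := by rw [hYa]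
        _ = (Mi * (a : Matrix (Fin 3) (Fin 3) F)) * Y * M := by simp only [mul_assoc]
        _ = Δ * Mi * Y * M := by rw [hMia]
        _ = Δ * (Mi * Y * M) := by simp only [mul_assoc]
    have h2 : Mi * Y * M * S = S * (Mi * Y * M) := by
      calc Mi * Y * M * S = Mi * Y * (M * S) := by rw [mul_assoc]
        _ = Mi * Y * ((b : Matrix (Fin 3) (Fin 3) F) * M) := by rw [hbM]
        _ = Mi * (Y * (b : Matrix (Fin 3) (Fin 3) F)) * M := by simp only [mul_assoc]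
        _ = Mi * ((b : Matrix (Fin 3) (Fin 3) F) * Y) * M := by rw [hYb]
        _ = (Mi * (b : Matrix (Fin 3) (Fin 3) F)) * Y * M := by simp only [mul_assoc]
        _ = S * Mi * Y * M := by rw [hMib]
        _ = S * (Mi * Y * M) := by simp only [mul_assoc]
    rw [hΔ] at h1
    rw [hS] at h2
    have h := comm_std e he h3 (Mi * Y * M) h1 h2
    refine ⟨(Mi * Y * M) 0 0, ?_⟩
    calc Y = (M * Mi) * Y * (M * Mi) := by rw [hM1, one_mul, mul_one]
      _ = M * (Mi * Y * M) * Mi := by simp only [mul_assoc]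
      _ = (Mi * Y * M) 0 0 • 1 := by
          rw [h, Matrix.smul_apply, Matrix.one_apply_eq, smul_eq_mul, mul_one, Matrix.mul_smul,
            mul_one, Matrix.smul_mul, hM1]

end Cfsg.Agent.Lib.helper4.E27
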