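import Mathlib
import Cfsg.Prelude.Def_GeometricClasses
import Cfsg.Agent.Lib.helper4.Singer4

/-!
# Singer cycle normalisers: more on the Frobenius element, and bad elements with a
two-dimensional eigenspace
-/

namespace Cfsg.Agent.Lib.helper4.Singer

open Matrix Polynomial

universe u

variable {F : Type u} [Field F] {n : ℕ}

theorem bad_of_eig (hn : n.Prime) (K : Subalgebra F (Matrix (Fin n) (Fin n) F))
    (hK : Cfsg.Geo.IsFieldSubalgebra n K) (x : SpecialLinearGroup (Fin n) F) (c : F) (hc : c ≠ 0)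
    (w₁ w₂ : Fin n → F)
    (hw₁ : (x : Matrix (Fin n) (Fin n) F) *ᵥ w₁ = c • w₁)
    (hw₂ : (x : Matrix (Fin n) (Fin n) F) *ᵥ w₂ = c • w₂)
    (hli : ∀ a : F, w₂ ≠ a • w₁) (hw₁0 : w₁ ≠ 0)
    (hxc : (x : Matrix (Fin n) (Fin n) F) ≠ c • (1 : Matrix (Fin n) (Fin n) F)) :
    ∀ P : SpecialLinearGroup (Fin n) F, P⁻¹ * x * P
        ∉ (Cfsg.Geo.subalgebraNormalizer K).comap
          (SpecialLinearGroup.toGL : SpecialLinearGroup (Fin n) F →* GL (Fin n) F) := by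
  classical
  intro P hP
  rw [Subgroup.mem_comap] at hP
  obtain ⟨X, hX⟩ : ∃ X : Matrix (Fin n) (Fin n) F, X = (x : Matrix (Fin n) (Fin n) F) :=
    ⟨_, rfl⟩
  rw [← hX] at hw₁ hw₂ hxc
  obtain ⟨Pm, hPm⟩ : ∃ Pm : Matrix (Fin n) (Fin n) F,
      Pm = (P : Matrix (Fin n) (Fin n) F) := ⟨_, rfl⟩
  obtain ⟨Pi', hPi⟩ : ∃ Pi' : Matrix (Fin n) (Fin n) F,
      Pi' = ((P⁻¹ : SpecialLinearGroup (Fin n) F) : Matrix (Fin n) (Fin n) F) := ⟨_, rfl⟩
  have hPP : Pm * Pi' = 1 := by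
    rw [hPm, hPi]
    have := congrArg Subtype.val (mul_inv_cancel P)
    exact this
  have hPP' : Pi' * Pm = 1 := by
    rw [hPm, hPi]
    have := congrArg Subtype.val (inv_mul_cancel P)
    exact this
  obtain ⟨lG, hlG⟩ : ∃ lG : GL (Fin n) F, (lG : Matrix (Fin n) (Fin n) F) = c⁻¹ • 1 :=
    ⟨⟨c⁻¹ • 1, c • 1,
      by rw [smul_mul_smul_comm, mul_one, inv_mul_cancel₀ hc, one_smul],
      by rw [smul_mul_smul_comm, mul_one, mul_inv_cancel₀ hc, one_smul]⟩, rfl⟩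
  have hlN : lG ∈ Cfsg.Geo.subalgebraNormalizer K := by
    apply mem_norm_of_forall
    intro κ hκ
    have e1 : (lG : Matrix (Fin n) (Fin n) F) * κ = κ * (lG : Matrix (Fin n) (Fin n) F) := by
      rw [hlG, Matrix.smul_mul, Matrix.mul_smul, one_mul, mul_one]
    rw [e1, mul_assoc, ← Units.val_mul, mul_inv_cancel, Units.val_one, mul_one]
    exact hκ
  have hmem : lG * SpecialLinearGroup.toGL (P⁻¹ * x * P) ∈ Cfsg.Geo.subalgebraNormalizer K :=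
    Subgroup.mul_mem _ hlN hP
  have hY : ((lG * SpecialLinearGroup.toGL (P⁻¹ * x * P) : GL (Fin n) F) :
      Matrix (Fin n) (Fin n) F) = c⁻¹ • (Pi' * X * Pm) := by
    rw [Units.val_mul, hlG, Matrix.smul_mul, one_mul, hPm, hPi, hX]; rfl
  have hfix' : ∀ w : Fin n → F, X *ᵥ w = c • w →
      (c⁻¹ • (Pi' * X * Pm)) *ᵥ (Pi' *ᵥ w) = Pi' *ᵥ w := by
    intro w hw
    rw [smul_mulVec, mulVec_mulVec, mul_assoc (Pi' * X), hPP, mul_one, ← mulVec_mulVec, hw,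
      mulVec_smul, smul_smul, inv_mul_cancel₀ hc, one_smul]
  have hback : ∀ u : Fin n → F, Pm *ᵥ (Pi' *ᵥ u) = u := by
    intro u
    rw [mulVec_mulVec, hPP, one_mulVec]
  have h1 := no_fix2 hn K hK _ hmem (Pi' *ᵥ w₁) (Pi' *ᵥ w₂)
    (by rw [hY]; exact hfix' w₁ hw₁) (by rw [hY]; exact hfix' w₂ hw₂)
    (by
      intro a ha
      have e1 := congrArg (fun u => Pm *ᵥ u) ha
      simp only [mulVec_smul, hback] at e1
      exact hli a e1)
    (by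
      intro h0
      have e1 := congrArg (fun u => Pm *ᵥ u) h0
      simp only [hback, mulVec_zero] at e1
      exact hw₁0 e1)
  rw [hY] at h1
  apply hxc
  have h2 : Pi' * X * Pm = c • 1 := by
    have := congrArg (fun M => c • M) h1
    simp only [smul_smul, mul_inv_cancel₀ hc, one_smul] at this
    exact this
  calc X = (Pm * Pi') * X * (Pm * Pi') := by rw [hPP, one_mul, mul_one]
    _ = Pm * (Pi' * X * Pm) * Pi' := by simp only [mul_assoc]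
    _ = c • 1 := by rw [h2, Matrix.mul_smul, mul_one, Matrix.smul_mul, hPP]

theorem exists_frob2 [Fintype F] {p : ℕ} [Fact p.Prime] [CharP F p] (hn : n.Prime)
    (K : Subalgebra F (Matrix (Fin n) (Fin n) F)) (hK : Cfsg.Geo.IsFieldSubalgebra n K) :
    ∃ (S : GL (Fin n) F) (v : Fin n → F), S ∈ Cfsg.Geo.subalgebraNormalizer K ∧
      (S : Matrix (Fin n) (Fin n) F) ^ n = 1 ∧ (S : Matrix (Fin n) (Fin n) F) ≠ 1 ∧ v ≠ 0 ∧
      ∀ (j : ℕ) (κ : Matrix (Fin n) (Fin n) F), κ ∈ K →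
        ((S : Matrix (Fin n) (Fin n) F) ^ j) *ᵥ (κ *ᵥ v) = (κ ^ (Fintype.card F ^ j)) *ᵥ v := by
  classical
  haveI : Nonempty (Fin n) := ⟨⟨0, hn.pos⟩⟩
  obtain ⟨q, hq⟩ : ∃ q : ℕ, q = Fintype.card F := ⟨_, rfl⟩
  obtain ⟨f, hp, hf⟩ := FiniteField.card F p
  obtain ⟨hF1, κ₀, hκ₀, hκ₀q⟩ := frob_facts hn.two_le K hK
  rw [← hq] at hF1 hκ₀q
  obtain ⟨v, hv⟩ : ∃ v : Fin n → F, v = Pi.single (⟨0, hn.pos⟩ : Fin n) 1 := ⟨_, rfl⟩
  have hv0 : v ≠ 0 := by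
    intro h
    have := congrFun h ⟨0, hn.pos⟩
    rw [hv, Pi.single_eq_same, Pi.zero_apply] at this
    exact one_ne_zero this
  obtain ⟨φ, hφ⟩ : ∃ φ : ↥K →ₗ[F] (Fin n → F), ∀ κ : ↥K, φ κ = κ.1 *ᵥ v :=
    ⟨{ toFun := fun κ => κ.1 *ᵥ v
       map_add' := fun a b => by
         show (a.1 + b.1) *ᵥ v = a.1 *ᵥ v + b.1 *ᵥ v
         rw [add_mulVec]
       map_smul' := fun a κ => by
         show (a • κ.1) *ᵥ v = a • (κ.1 *ᵥ v)
         rw [smul_mulVec] }, fun _ => rfl⟩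
  have hinj : Function.Injective φ := by
    rw [← LinearMap.ker_eq_bot, LinearMap.ker_eq_bot']
    intro κ hκ
    rw [hφ] at hκ
    exact Subtype.ext (mulVec_inj K n hK κ.1 κ.2 v hv0 hκ)
  have hsurj : Function.Surjective φ :=
    (LinearMap.injective_iff_surjective_of_finrank_eq_finrank
      (by rw [hK.finrank_eq, Module.finrank_fin_fun])).mp hinj
  obtain ⟨φe, hφe⟩ : ∃ φe : ↥K ≃ₗ[F] (Fin n → F), ∀ κ : ↥K, φe κ = κ.1 *ᵥ v :=
    ⟨LinearEquiv.ofBijective φ ⟨hinj, hsurj⟩, fun κ => hφ κ⟩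
  obtain ⟨Fr, hFr⟩ : ∃ Fr : ↥K →ₗ[F] ↥K, ∀ κ : ↥K, (Fr κ).1 = κ.1 ^ q :=
    ⟨{ toFun := fun κ => ⟨κ.1 ^ q, K.pow_mem κ.2 q⟩
       map_add' := fun a b => by
         apply Subtype.ext
         show (a.1 + b.1) ^ q = a.1 ^ q + b.1 ^ q
         rw [hq, hf]
         exact add_pow_char_pow_of_commute p (f : ℕ) (hK.comm a.1 a.2 b.1 b.2)
       map_smul' := fun a κ => by
         apply Subtype.ext
         show (a • κ.1) ^ q = a • κ.1 ^ q
         rw [_root_.smul_pow, hq, FiniteField.pow_card] }, fun _ => rfl⟩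
  obtain ⟨Sm, hSm⟩ : ∃ Sm : Matrix (Fin n) (Fin n) F,
      Sm = LinearMap.toMatrix' (φe.toLinearMap ∘ₗ Fr ∘ₗ φe.symm.toLinearMap) := ⟨_, rfl⟩
  have hkey : ∀ κ : ↥K, Sm *ᵥ (κ.1 *ᵥ v) = (κ.1 ^ q) *ᵥ v := by
    intro κ
    rw [hSm, LinearMap.toMatrix'_mulVec, ← hφe κ]
    show φe (Fr (φe.symm (φe κ))) = _
    rw [LinearEquiv.symm_apply_apply, hφe, hFr]
  have hpow : ∀ (j : ℕ) (κ : ↥K), (Sm ^ j) *ᵥ (κ.1 *ᵥ v) = (κ.1 ^ (q ^ j)) *ᵥ v := by
    intro j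
    induction j with
    | zero => intro κ; simp
    | succ j ih =>
      intro κ
      rw [pow_succ, ← mulVec_mulVec, hkey κ]
      have := ih ⟨κ.1 ^ q, K.pow_mem κ.2 q⟩
      rw [this, ← pow_mul, pow_succ, mul_comm (q ^ j) q]
  have hext : ∀ M N : Matrix (Fin n) (Fin n) F,
      (∀ κ : ↥K, M *ᵥ (κ.1 *ᵥ v) = N *ᵥ (κ.1 *ᵥ v)) → M = N := by
    intro M N h
    apply Matrix.toLin'.injective
    apply LinearMap.ext
    intro u
    obtain ⟨κ, hκ⟩ := φe.surjective u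
    rw [hφe] at hκ
    rw [Matrix.toLin'_apply, Matrix.toLin'_apply, ← hκ, h κ]
  have hSn : Sm ^ n = 1 := by
    apply hext
    intro κ
    rw [hpow n κ, hF1 κ.1 κ.2, one_mulVec]
  have hS1 : Sm ≠ 1 := by
    intro h
    apply hκ₀q
    have e1 := hkey ⟨κ₀, hκ₀⟩
    rw [h, one_mulVec] at e1
    have e2 : (κ₀ ^ q - κ₀) *ᵥ v = 0 := by rw [sub_mulVec, ← e1, sub_self]
    exact sub_eq_zero.mp (mulVec_inj K n hK _ (K.sub_mem (K.pow_mem hκ₀ q) hκ₀) v hv0 e2)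
  have hSκ : ∀ κ ∈ K, Sm * κ = κ ^ q * Sm := by
    intro κ hκ
    apply hext
    intro κ₁
    calc (Sm * κ) *ᵥ (κ₁.1 *ᵥ v) = Sm *ᵥ ((κ * κ₁.1) *ᵥ v) := by
          rw [← mulVec_mulVec, mulVec_mulVec v κ κ₁.1]
      _ = ((κ * κ₁.1) ^ q) *ᵥ v := hkey ⟨κ * κ₁.1, K.mul_mem hκ κ₁.2⟩
      _ = (κ ^ q * κ₁.1 ^ q) *ᵥ v := by
          rw [(show Commute κ κ₁.1 from hK.comm κ hκ κ₁.1 κ₁.2).mul_pow]
      _ = (κ ^ q) *ᵥ (Sm *ᵥ (κ₁.1 *ᵥ v)) := by rw [hkey κ₁, mulVec_mulVec]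
      _ = (κ ^ q * Sm) *ᵥ (κ₁.1 *ᵥ v) := by rw [mulVec_mulVec]
  obtain ⟨m, hm⟩ : ∃ m, n = m + 1 := ⟨n - 1, by have := hn.pos; omega⟩
  obtain ⟨S, hS, hS'⟩ : ∃ S : GL (Fin n) F, (S : Matrix (Fin n) (Fin n) F) = Sm ∧
      ((S⁻¹ : GL (Fin n) F) : Matrix (Fin n) (Fin n) F) = Sm ^ m :=
    ⟨⟨Sm, Sm ^ m, by rw [← pow_succ', ← hm, hSn], by rw [← pow_succ, ← hm, hSn]⟩, rfl, rfl⟩
  refine ⟨S, v, ?_, by rw [hS]; exact hSn, by rw [hS]; exact hS1, hv0,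
    fun j κ hκ => by rw [hS, ← hq]; exact hpow j ⟨κ, hκ⟩⟩
  apply mem_norm_of_forall
  intro κ hκ
  rw [hS, hS', hSκ κ hκ, mul_assoc, ← pow_succ', ← hm, hSn, mul_one]
  exact K.pow_mem hκ q


theorem frob_indep [Fintype F] (hn : 3 ≤ n) (K : Subalgebra F (Matrix (Fin n) (Fin n) F))
    (hK : Cfsg.Geo.IsFieldSubalgebra n K) (a b c : F)
    (h : ∀ κ ∈ K, a • κ ^ (Fintype.card F ^ 2) + b • κ ^ Fintype.card F + c • κ = 0) :
    a = 0 ∧ b = 0 ∧ c = 0 := by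
  classical
  haveI : Nonempty (Fin n) := ⟨⟨0, by omega⟩⟩
  have hIsField : IsField ↥K :=
    { exists_pair_ne := ⟨0, 1, fun h => zero_ne_one (congrArg Subtype.val h)⟩
      mul_comm := fun a b => Subtype.ext (hK.comm a.1 a.2 b.1 b.2)
      mul_inv_cancel := fun {a} ha => by
        obtain ⟨y, hy, hay⟩ := hK.inv a.1 a.2 (fun h => ha (Subtype.ext h))
        exact ⟨⟨y, hy⟩, Subtype.ext hay⟩ }
  letI : Field ↥K := hIsField.toField
  haveI : Finite ↥K := Module.finite_of_finite F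
  haveI : Fintype ↥K := Fintype.ofFinite _
  have hcard : Fintype.card ↥K = Fintype.card F ^ n := by
    rw [Module.card_eq_pow_finrank (K := F) (V := ↥K), hK.finrank_eq]
  obtain ⟨q, hq⟩ : ∃ q : ℕ, q = Fintype.card F := ⟨_, rfl⟩
  rw [← hq] at h hcard
  have hq1 : 1 < q := by rw [hq]; exact Fintype.one_lt_card
  obtain ⟨P, hP⟩ : ∃ P : (↥K)[X], P = C (a • (1 : ↥K)) * X ^ (q ^ 2)
      + C (b • (1 : ↥K)) * X ^ q + C (c • (1 : ↥K)) * X := ⟨_, rfl⟩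
  have hroot : ∀ κ : ↥K, eval κ P = 0 := by
    intro κ
    rw [hP]
    simp only [eval_add, eval_mul, eval_C, eval_pow, eval_X]
    apply Subtype.ext
    have := h κ.1 κ.2
    rw [smul_mul_assoc, smul_mul_assoc, smul_mul_assoc, one_mul, one_mul, one_mul]
    exact this
  have hqq : q < q ^ 2 := by nlinarith
  have hdeg : P.natDegree < Fintype.card ↥K := by
    rw [hcard]
    have h1 : P.natDegree ≤ q ^ 2 := by
      rw [hP]
      refine (natDegree_add_le _ _).trans (max_le ((natDegree_add_le _ _).trans (max_le ?_ ?_)) ?_)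
      · exact natDegree_C_mul_X_pow_le _ _
      · exact (natDegree_C_mul_X_pow_le _ _).trans hqq.le
      · exact (natDegree_C_mul_le _ _).trans (natDegree_X_le.trans (by omega))
    have : q ^ 2 < q ^ n := Nat.pow_lt_pow_right hq1 (by omega)
    omega
  have hP0 : P = 0 :=
    Polynomial.eq_zero_of_natDegree_lt_card_of_eval_eq_zero P (f := fun κ : ↥K => κ)
      (fun _ _ hxy => hxy) hroot hdeg
  have hinj : ∀ t : F, t • (1 : ↥K) = 0 → t = 0 := by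
    intro t ht
    have e1 := congrArg Subtype.val ht
    have e2 : t • (1 : Matrix (Fin n) (Fin n) F) = 0 := e1
    have e3 := congrFun (congrFun e2 ⟨0, by omega⟩) ⟨0, by omega⟩
    rw [Matrix.smul_apply, Matrix.one_apply_eq, Matrix.zero_apply, smul_eq_mul, mul_one] at e3
    exact e3
  have ha := congrArg (fun f => f.coeff (q ^ 2)) hP0
  have hb := congrArg (fun f => f.coeff q) hP0
  have hc := congrArg (fun f => f.coeff 1) hP0
  simp only [hP, coeff_add, coeff_C_mul_X_pow, coeff_C_mul_X, coeff_zero] at ha hb hc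
  rw [if_pos trivial, if_neg (by omega), if_neg (by omega), add_zero, add_zero] at ha
  rw [if_neg (by omega), if_pos trivial, if_neg (by omega), zero_add, add_zero] at hb
  rw [if_neg (by omega), if_neg (by omega), if_pos trivial, zero_add, zero_add] at hc
  exact ⟨hinj a ha, hinj b hb, hinj c hc⟩

end Cfsg.Agent.Lib.helper4.Singer
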