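import Mathlib
import Cfsg.Prelude.Def_GeometricClasses
import Cfsg.Agent.Lib.helper4.Singer5
import Cfsg.Agent.Lib.helper4.Singer7

/-!
# Singer cycle normalisers in dimension three: elements of order three, good case
-/

namespace Cfsg.Agent.Lib.helper4.Singer

open Matrix Polynomial

universe u

variable {F : Type u} [Field F]

theorem cp3 (A : Matrix (Fin 3) (Fin 3) F) :
    ∃ c₂ c₁ : F, A.charpoly = X ^ 3 + C c₂ * X ^ 2 + C c₁ * X - C A.det ∧
      A ^ 3 + c₂ • A ^ 2 + c₁ • A - A.det • (1 : Matrix (Fin 3) (Fin 3) F) = 0 := by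
  have hm := Matrix.charpoly_monic A
  have hd : A.charpoly.natDegree = 3 := by
    rw [Matrix.charpoly_natDegree_eq_dim, Fintype.card_fin]
  have h0 : A.charpoly.coeff 0 = - A.det := by
    have := Matrix.det_eq_sign_charpoly_coeff A
    rw [Fintype.card_fin] at this
    rw [this]; ring
  have hsum := hm.as_sum
  rw [hd, Finset.sum_range_succ, Finset.sum_range_succ, Finset.sum_range_one, h0] at hsum
  obtain ⟨c₂, hc₂⟩ : ∃ c₂ : F, c₂ = A.charpoly.coeff 2 := ⟨_, rfl⟩
  obtain ⟨c₁, hc₁⟩ : ∃ c₁ : F, c₁ = A.charpoly.coeff 1 := ⟨_, rfl⟩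
  rw [← hc₂, ← hc₁] at hsum
  have hcp : A.charpoly = X ^ 3 + C c₂ * X ^ 2 + C c₁ * X - C A.det := by
    rw [hsum, map_neg]; ring
  refine ⟨c₂, c₁, hcp, ?_⟩
  have hCH := Matrix.aeval_self_charpoly A
  rw [hcp] at hCH
  simp only [map_add, map_sub, map_mul, map_pow, aeval_X, aeval_C,
    Algebra.algebraMap_eq_smul_one, smul_mul_assoc, one_mul] at hCH
  exact hCH

theorem charpoly_of_indep (A : Matrix (Fin 3) (Fin 3) F) (hA : A ^ 3 = 1)
    (hind : ∀ a b c : F, a • A ^ 2 + b • A + c • (1 : Matrix (Fin 3) (Fin 3) F) = 0 →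
      a = 0 ∧ b = 0 ∧ c = 0) :
    A.charpoly = X ^ 3 - 1 := by
  obtain ⟨c₂, c₁, hcp, hCH⟩ := cp3 A
  rw [hA] at hCH
  have e : c₂ • A ^ 2 + c₁ • A + (1 - A.det) • (1 : Matrix (Fin 3) (Fin 3) F) = 0 := by
    linear_combination (norm := module) hCH
  obtain ⟨h2, h1, h0⟩ := hind _ _ _ e
  rw [hcp, h2, h1, ← sub_eq_zero.mp h0]
  simp

theorem cube_of_ninth [Fintype F]
    (hq : Fintype.card F % 9 = 4 ∨ Fintype.card F % 9 = 7 ∨ Fintype.card F % 9 = 8)
    (u : F) (hu : u ^ 9 = 1) : u ^ 3 = 1 := by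
  have hu0 : u ≠ 0 := by
    rintro rfl
    rw [zero_pow (by norm_num)] at hu
    exact zero_ne_one hu
  have h1 : u ^ (Fintype.card F - 1) = 1 := FiniteField.pow_card_sub_one_eq_one u hu0
  have hq1 : 1 < Fintype.card F := Fintype.one_lt_card
  obtain ⟨m, hm⟩ : ∃ m, Fintype.card F - 1 = 9 * m + (Fintype.card F - 1) % 9 :=
    ⟨_, (Nat.div_add_mod _ 9).symm⟩
  rw [hm, pow_add, pow_mul, hu, one_pow, one_mul] at h1
  have hr : (Fintype.card F - 1) % 9 = 3 ∨ (Fintype.card F - 1) % 9 = 6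
      ∨ (Fintype.card F - 1) % 9 = 7 := by omega
  rcases hr with hr | hr | hr
  · rw [hr] at h1; exact h1
  · rw [hr] at h1
    have : u ^ 9 = u ^ 6 * u ^ 3 := by ring
    rw [hu, h1, one_mul] at this
    exact this.symm
  · rw [hr] at h1
    have h2 : u ^ 9 = u ^ 7 * u ^ 2 := by ring
    rw [hu, h1, one_mul] at h2
    have h3 : u ^ 7 = (u ^ 2) ^ 3 * u := by ring
    rw [h1, ← h2, one_pow, one_mul] at h3
    rw [← h3, one_pow]

theorem charpoly_x3 [Fintype F]
    (hq : Fintype.card F % 9 = 4 ∨ Fintype.card F % 9 = 7 ∨ Fintype.card F % 9 = 8)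
    (A : Matrix (Fin 3) (Fin 3) F) (hdet : A.det = 1) (z : F)
    (hA : A ^ 3 = z • (1 : Matrix (Fin 3) (Fin 3) F))
    (hns : ∀ a : F, A ≠ a • (1 : Matrix (Fin 3) (Fin 3) F)) :
    z = 1 ∧ A.charpoly = X ^ 3 - 1 := by
  obtain ⟨c₂, c₁, hcp, hCH⟩ := cp3 A
  rw [hdet, one_smul, hA] at hCH
  have hz3 : z ^ 3 = 1 := by
    have := congrArg Matrix.det hA
    rw [det_pow, hdet, one_pow, det_smul, det_one, mul_one, Fintype.card_fin] at this
    exact this.symm
  have hz1 : z = 1 := by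
    by_cases h2 : c₂ = 0
    · rw [h2, zero_smul, add_zero] at hCH
      by_contra hz
      have hc1 : c₁ ≠ 0 := by
        rintro rfl
        rw [zero_smul, add_zero] at hCH
        have e := congrFun (congrFun hCH 0) 0
        simp only [Matrix.sub_apply, Matrix.smul_apply, Matrix.one_apply_eq, smul_eq_mul,
          mul_one, Matrix.zero_apply] at e
        exact hz (sub_eq_zero.mp e)
      apply hns ((1 - z) / c₁)
      have e : c₁ • A = (1 - z) • (1 : Matrix (Fin 3) (Fin 3) F) := by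
        linear_combination (norm := module) hCH
      calc A = c₁⁻¹ • (c₁ • A) := by rw [smul_smul, inv_mul_cancel₀ hc1, one_smul]
        _ = ((1 - z) / c₁) • 1 := by rw [e, smul_smul, div_eq_inv_mul]
    · obtain ⟨a, ha⟩ : ∃ a : F, a = c₂⁻¹ * -c₁ := ⟨_, rfl⟩
      obtain ⟨b, hb⟩ : ∃ b : F, b = c₂⁻¹ * (1 - z) := ⟨_, rfl⟩
      have hsq : A ^ 2 = a • A + b • (1 : Matrix (Fin 3) (Fin 3) F) := by
        have e : c₂ • A ^ 2 = (-c₁) • A + (1 - z) • (1 : Matrix (Fin 3) (Fin 3) F) := by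
          linear_combination (norm := module) hCH
        calc A ^ 2 = c₂⁻¹ • (c₂ • A ^ 2) := by rw [smul_smul, inv_mul_cancel₀ h2, one_smul]
          _ = a • A + b • 1 := by rw [e, smul_add, smul_smul, smul_smul, ha, hb]
      have hcube : A ^ 3 = (a ^ 2 + b) • A + (a * b) • (1 : Matrix (Fin 3) (Fin 3) F) := by
        calc A ^ 3 = A * A ^ 2 := by rw [pow_succ']
          _ = a • A ^ 2 + b • A := by
            rw [hsq, mul_add, Matrix.mul_smul, Matrix.mul_smul, mul_one, ← pow_two, hsq]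
          _ = (a ^ 2 + b) • A + (a * b) • 1 := by rw [hsq]; module
      rw [hA] at hcube
      have hab : a ^ 2 + b = 0 := by
        by_contra h
        apply hns ((z - a * b) / (a ^ 2 + b))
        have e : (a ^ 2 + b) • A = (z - a * b) • (1 : Matrix (Fin 3) (Fin 3) F) := by
          linear_combination (norm := module) -hcube
        calc A = (a ^ 2 + b)⁻¹ • ((a ^ 2 + b) • A) := by
              rw [smul_smul, inv_mul_cancel₀ h, one_smul]
          _ = _ := by rw [e, smul_smul, div_eq_inv_mul]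
      rw [hab, zero_smul, zero_add] at hcube
      have hzab : z = a * b := by
        have e := congrFun (congrFun hcube 0) 0
        simp only [Matrix.smul_apply, Matrix.one_apply_eq, smul_eq_mul, mul_one] at e
        exact e
      have hz' : z = (-a) ^ 3 := by
        rw [hzab]
        have : b = -a ^ 2 := by linear_combination hab
        rw [this]; ring
      have h9 : (-a) ^ 9 = 1 := by
        have : (-a) ^ 9 = ((-a) ^ 3) ^ 3 := by ring
        rw [this, ← hz', hz3]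
      rw [hz']
      exact cube_of_ninth hq _ h9
  refine ⟨hz1, ?_⟩
  rw [hz1, one_smul] at hCH hA
  have e1 : A * (c₂ • A + c₁ • (1 : Matrix (Fin 3) (Fin 3) F)) = 0 := by
    rw [mul_add, Matrix.mul_smul, Matrix.mul_smul, mul_one, ← pow_two]
    linear_combination (norm := module) hCH
  have e2 : c₂ • A + c₁ • (1 : Matrix (Fin 3) (Fin 3) F) = 0 := by
    have := congrArg (fun M => A ^ 2 * M) e1
    simp only [mul_zero] at this
    rwa [← mul_assoc, ← pow_succ, hA, one_mul] at this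
  have hc2 : c₂ = 0 := by
    by_contra h
    apply hns (-c₁ / c₂)
    have e : c₂ • A = (-c₁) • (1 : Matrix (Fin 3) (Fin 3) F) := by
      linear_combination (norm := module) e2
    calc A = c₂⁻¹ • (c₂ • A) := by rw [smul_smul, inv_mul_cancel₀ h, one_smul]
      _ = _ := by rw [e, smul_smul, div_eq_inv_mul]
  rw [hc2, zero_smul, zero_add] at e2
  have hc1 : c₁ = 0 := by
    have e := congrFun (congrFun e2 0) 0
    simp only [Matrix.smul_apply, Matrix.one_apply_eq, smul_eq_mul, mul_one,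
      Matrix.zero_apply] at e
    exact e
  rw [hcp, hc2, hc1, hdet]
  simp

theorem frob3 [Fintype F] {p : ℕ} [Fact p.Prime] [CharP F p]
    (K : Subalgebra F (Matrix (Fin 3) (Fin 3) F)) (hK : Cfsg.Geo.IsFieldSubalgebra 3 K) :
    ∃ S : GL (Fin 3) F, S ∈ Cfsg.Geo.subalgebraNormalizer K ∧
      (S : Matrix (Fin 3) (Fin 3) F) ^ 3 = 1 ∧ (S : Matrix (Fin 3) (Fin 3) F) ≠ 1 ∧
      (S : Matrix (Fin 3) (Fin 3) F).charpoly = X ^ 3 - 1 := by
  obtain ⟨S, v, hSN, hS3, hS1, hv0, hpow⟩ := exists_frob2 Nat.prime_three K hK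
  refine ⟨S, hSN, hS3, hS1, ?_⟩
  apply charpoly_of_indep _ hS3
  intro a b c habc
  apply frob_indep (le_refl 3) K hK a b c
  intro κ hκ
  apply mulVec_inj K 3 hK _ (K.add_mem (K.add_mem (K.smul_mem (K.pow_mem hκ _) a)
    (K.smul_mem (K.pow_mem hκ _) b)) (K.smul_mem hκ c)) v hv0
  have e2 := hpow 2 κ hκ
  have e1 := hpow 1 κ hκ
  rw [pow_one, pow_one] at e1
  rw [add_mulVec, add_mulVec, smul_mulVec, smul_mulVec, smul_mulVec, ← e2, ← e1]
  have := congrArg (fun M => M *ᵥ (κ *ᵥ v)) habc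
  simp only [add_mulVec, smul_mulVec, one_mulVec, zero_mulVec] at this
  exact this

theorem good3 [Fintype F] {p : ℕ} [Fact p.Prime] [CharP F p]
    (hq : Fintype.card F % 9 = 4 ∨ Fintype.card F % 9 = 7 ∨ Fintype.card F % 9 = 8)
    (K : Subalgebra F (Matrix (Fin 3) (Fin 3) F)) (hK : Cfsg.Geo.IsFieldSubalgebra 3 K)
    (x : SpecialLinearGroup (Fin 3) F) (z : F)
    (hx : (x : Matrix (Fin 3) (Fin 3) F) ^ 3 = z • (1 : Matrix (Fin 3) (Fin 3) F))
    (hxns : ∀ z : F, (x : Matrix (Fin 3) (Fin 3) F) ≠ z • (1 : Matrix (Fin 3) (Fin 3) F)) :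
    ∃ P : SpecialLinearGroup (Fin 3) F, P⁻¹ * x * P
      ∈ (Cfsg.Geo.subalgebraNormalizer K).comap
        (SpecialLinearGroup.toGL : SpecialLinearGroup (Fin 3) F →* GL (Fin 3) F) := by
  classical
  have h3F : ((3 : ℕ) : F) ≠ 0 := by
    intro h
    have hq0 : ((Fintype.card F : ℕ) : F) = 0 := FiniteField.cast_card_eq_zero F
    obtain ⟨m, hm⟩ : ∃ m, Fintype.card F = 3 * m + Fintype.card F % 3 :=
      ⟨_, (Nat.div_add_mod _ 3).symm⟩
    rw [hm, Nat.cast_add, Nat.cast_mul, h, zero_mul, zero_add] at hq0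
    have hr : Fintype.card F % 3 = 1 ∨ Fintype.card F % 3 = 2 := by omega
    rcases hr with hr | hr
    · rw [hr, Nat.cast_one] at hq0; exact one_ne_zero hq0
    · rw [hr] at hq0
      have : (1 : F) = 0 := by
        have h3 : (3 : F) = 0 := by exact_mod_cast h
        have h2 : (2 : F) = 0 := by exact_mod_cast hq0
        linear_combination h3 - h2
      exact one_ne_zero this
  obtain ⟨hz1, hcpA⟩ := charpoly_x3 hq x.1 x.2 z hx hxns
  rw [hz1, one_smul] at hx
  obtain ⟨S, hSN, hS3, hS1, hcpS⟩ := frob3 K hK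
  obtain ⟨C, D, hCD, hDC, hCA⟩ := Cfsg.Agent.Lib.helper18.RCF.ss_conj_mat x.1
    (S : Matrix (Fin 3) (Fin 3) F) 3 3 h3F h3F hx hS3 (by rw [hcpA, hcpS])
  obtain ⟨g, hg, hg'⟩ : ∃ g : GL (Fin 3) F, (g : Matrix (Fin 3) (Fin 3) F) = D ∧
      ((g⁻¹ : GL (Fin 3) F) : Matrix (Fin 3) (Fin 3) F) = C := ⟨⟨D, C, hDC, hCD⟩, rfl, rfl⟩
  have hconj : g⁻¹ * SpecialLinearGroup.toGL x * g = S := by
    apply Units.ext
    rw [Units.val_mul, Units.val_mul, hg, hg']
    show C * (x : Matrix (Fin 3) (Fin 3) F) * D = (S : Matrix (Fin 3) (Fin 3) F)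
    rw [hCA, mul_assoc, hCD, mul_one]
  exact ss_sl_conj' _ (by norm_num) x 3 h3F hx g (by rw [hconj]; exact hSN)

end Cfsg.Agent.Lib.helper4.Singer
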