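import Mathlib
import Cfsg.Prelude.Def_GeometricClasses
import Cfsg.Agent.Lib.helper18.RCF3
import Cfsg.Agent.Lib.helper4.Singer5
import Cfsg.Agent.Lib.helper4.Singer8
import Cfsg.Agent.Lib.helper4.E27f
import Cfsg.Agent.Lib.helper12.E27a

/-!
# Conjugating elements of order 2 and 3 of `SL₃(F)` into the normaliser of `3^{1+2}`
-/

namespace Cfsg.Agent.Lib.helper4.E27

open Matrix Polynomial

universe u

variable {F : Type u} [Field F]

theorem cp_inv (A : Matrix (Fin 3) (Fin 3) F) (hA : A * A = 1) (hdet : A.det = 1)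
    (hns : ∀ c : F, A ≠ c • (1 : Matrix (Fin 3) (Fin 3) F)) :
    A.charpoly = X ^ 3 + X ^ 2 - X - 1 := by
  obtain ⟨c₂, c₁, hcp, hCH⟩ := Singer.cp3 A
  have hA2 : A ^ 2 = 1 := by rw [pow_two, hA]
  have hA3 : A ^ 3 = A := by rw [pow_succ, hA2, one_mul]
  rw [hdet, one_smul, hA3, hA2] at hCH
  have e : (1 + c₁) • A = (1 - c₂) • (1 : Matrix (Fin 3) (Fin 3) F) := by
    linear_combination (norm := module) hCH
  have hc1 : 1 + c₁ = 0 := by
    by_contra h
    apply hns ((1 - c₂) / (1 + c₁))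
    calc A = (1 + c₁)⁻¹ • ((1 + c₁) • A) := by rw [smul_smul, inv_mul_cancel₀ h, one_smul]
      _ = _ := by rw [e, smul_smul, div_eq_inv_mul]
  rw [hc1, zero_smul] at e
  have hc2 : 1 - c₂ = 0 := by
    have e0 := congrFun (congrFun e 0) 0
    simp only [Matrix.smul_apply, Matrix.one_apply_eq, smul_eq_mul, mul_one,
      Matrix.zero_apply] at e0
    exact e0.symm
  have h1 : c₁ = -1 := by linear_combination hc1
  have h2 : c₂ = 1 := by linear_combination -hc2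
  rw [hcp, h1, h2, hdet, map_neg, map_one]
  ring

theorem cp_cube (A : Matrix (Fin 3) (Fin 3) F) (hA : A ^ 3 = 1) (hdet : A.det = 1)
    (hns : ∀ c : F, A ≠ c • (1 : Matrix (Fin 3) (Fin 3) F)) :
    A.charpoly = X ^ 3 - 1 := by
  obtain ⟨c₂, c₁, hcp, hCH⟩ := Singer.cp3 A
  rw [hdet, one_smul, hA] at hCH
  have e1 : A * (c₂ • A + c₁ • (1 : Matrix (Fin 3) (Fin 3) F)) = 0 := by
    rw [mul_add, Matrix.mul_smul, Matrix.mul_smul, mul_one, ← pow_two]
    linear_combination (norm := module) hCH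
  have e2 : c₂ • A + c₁ • (1 : Matrix (Fin 3) (Fin 3) F) = 0 := by
    have := congrArg (fun M => A ^ 2 * M) e1
    simp only [mul_zero] at this
    rwa [← mul_assoc, ← pow_succ, hA, one_mul] at this
  have hc2 : c₂ = 0 := by
    by_contra h
    apply hns (-c₁ / c₂)
    have e : c₂ • A = (-c₁) • (1 : Matrix (Fin 3) (Fin 3) F) := by
      linear_combination (norm := module) e2
    calc A = c₂⁻¹ • (c₂ • A) := by rw [smul_smul, inv_mul_cancel₀ h, one_smul]
      _ = _ := by rw [e, smul_smul, div_eq_inv_mul]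
  rw [hc2, zero_smul, zero_add] at e2
  have hc1 : c₁ = 0 := by
    have e := congrFun (congrFun e2 0) 0
    simp only [Matrix.smul_apply, Matrix.one_apply_eq, smul_eq_mul, mul_one,
      Matrix.zero_apply] at e
    exact e
  rw [hcp, hc2, hc1, hdet]
  simp

theorem cp_quad (A : Matrix (Fin 3) (Fin 3) F) (hA : A * A + A + 1 = 0)
    (hns : ∀ c : F, A ≠ c • (1 : Matrix (Fin 3) (Fin 3) F)) :
    A.charpoly = X ^ 3 + C (1 - A.det) * X ^ 2 + C (1 - A.det) * X - C A.det ∧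
      A.det ^ 2 + A.det + 1 = 0 ∧ A ^ 3 = 1 := by
  obtain ⟨c₂, c₁, hcp, hCH⟩ := Singer.cp3 A
  have hA2 : A ^ 2 = -A - 1 := by
    rw [pow_two]
    linear_combination (norm := module) hA
  have hA3 : A ^ 3 = 1 := by
    calc A ^ 3 = A * A ^ 2 := by rw [pow_succ']
      _ = A * (-A - 1) := by rw [hA2]
      _ = -(A * A) - A := by rw [mul_sub, mul_neg, mul_one]
      _ = 1 := by rw [← pow_two, hA2]; abel
  rw [hA3, hA2] at hCH
  obtain ⟨d, hd⟩ : ∃ d : F, d = A.det := ⟨_, rfl⟩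
  rw [← hd] at hCH hcp
  rw [← hd]
  have e : (c₁ - c₂) • A = (c₂ + d - 1) • (1 : Matrix (Fin 3) (Fin 3) F) := by
    linear_combination (norm := module) hCH
  have h12 : c₁ - c₂ = 0 := by
    by_contra h
    apply hns ((c₂ + d - 1) / (c₁ - c₂))
    calc A = (c₁ - c₂)⁻¹ • ((c₁ - c₂) • A) := by rw [smul_smul, inv_mul_cancel₀ h, one_smul]
      _ = _ := by rw [e, smul_smul, div_eq_inv_mul]
  rw [h12, zero_smul] at e
  have hc2 : c₂ + d - 1 = 0 := by
    have e0 := congrFun (congrFun e 0) 0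
    simp only [Matrix.smul_apply, Matrix.one_apply_eq, smul_eq_mul, mul_one,
      Matrix.zero_apply] at e0
    exact e0.symm
  have h2 : c₂ = 1 - d := by linear_combination hc2
  have h1 : c₁ = 1 - d := by linear_combination h12 + hc2
  have hcp' : A.charpoly = X ^ 3 + C (1 - d) * X ^ 2 + C (1 - d) * X - C d := by
    rw [hcp, h1, h2]
  refine ⟨hcp', ?_, hA3⟩
  have hroot : A.charpoly.eval d = 0 := by
    rw [hcp']
    simp only [eval_add, eval_sub, eval_mul, eval_pow, eval_X, eval_C]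
    ring
  rw [Matrix.eval_charpoly] at hroot
  obtain ⟨v, hv0, hv⟩ := (Matrix.exists_mulVec_eq_zero_iff).mpr hroot
  have hAv : A *ᵥ v = d • v := by
    rw [sub_mulVec] at hv
    have h5 := sub_eq_zero.mp hv
    rw [← h5, Matrix.scalar_apply, ← Matrix.smul_one_eq_diagonal, smul_mulVec, one_mulVec]
  have h0 := congrArg (fun X => X *ᵥ v) hA
  simp only [add_mulVec, one_mulVec, zero_mulVec, ← mulVec_mulVec, hAv, mulVec_smul,
    smul_smul] at h0
  have h0' : (d ^ 2 + d + 1) • v = 0 := by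
    rw [add_smul, add_smul, one_smul, pow_two]; exact h0
  rcases smul_eq_zero.mp h0' with h | h
  · exact h
  · exact (hv0 h).elim

theorem quad_sq (Y : Matrix (Fin 3) (Fin 3) F) (h : Y * Y + Y + 1 = 0) :
    (Y * Y) * (Y * Y) + Y * Y + 1 = 0 ∧ Y * Y = -Y - 1 := by
  have h2 : Y * Y = -Y - 1 := by linear_combination (norm := module) h
  refine ⟨?_, h2⟩
  rw [h2]
  calc (-Y - 1) * (-Y - 1) + (-Y - 1) + 1 = Y * Y + Y + 1 := by noncomm_ring
    _ = 0 := h

theorem det_of_mem (x : GL (Fin 3) F) (hx : x ∈ Cfsg.Geo.specialLinear (Fin 3) F) :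
    (x : Matrix (Fin 3) (Fin 3) F).det = 1 := by
  have h1 : Matrix.GeneralLinearGroup.det x = 1 := hx
  exact congrArg Units.val h1

theorem mem_of_det (x : GL (Fin 3) F) (hx : (x : Matrix (Fin 3) (Fin 3) F).det = 1) :
    x ∈ Cfsg.Geo.specialLinear (Fin 3) F := by
  show Matrix.GeneralLinearGroup.det x = 1
  exact Units.ext hx

theorem conj_into [Fintype F] (H : Subgroup (GL (Fin 3) F)) (x : GL (Fin 3) F)
    (hx : x ∈ Cfsg.Geo.specialLinear (Fin 3) F) (m : ℕ) (hm : (m : F) ≠ 0)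
    (hxm : (x : Matrix (Fin 3) (Fin 3) F) ^ m = 1) (g₀ : GL (Fin 3) F)
    (hg : g₀⁻¹ * x * g₀ ∈ H) :
    ∃ g ∈ Cfsg.Geo.specialLinear (Fin 3) F, g⁻¹ * x * g ∈ H := by
  have hdet := det_of_mem x hx
  obtain ⟨x', hx'⟩ : ∃ x' : SpecialLinearGroup (Fin 3) F,
      (x' : Matrix (Fin 3) (Fin 3) F) = (x : Matrix (Fin 3) (Fin 3) F) := ⟨⟨_, hdet⟩, rfl⟩
  have hto : SpecialLinearGroup.toGL x' = x := Units.ext (by rw [← hx']; rfl)
  obtain ⟨P, hP⟩ := Singer.ss_sl_conj' H (by norm_num) x' m hm (by rw [hx']; exact hxm) g₀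
    (by rw [hto]; exact hg)
  rw [Subgroup.mem_comap] at hP
  refine ⟨SpecialLinearGroup.toGL P, mem_of_det _ P.2, ?_⟩
  rw [map_mul, map_mul, map_inv, hto] at hP
  exact hP

theorem scalar_norm (R : Subgroup (GL (Fin 3) F)) (c : F) (hc : c ≠ 0) :
    ∃ s : GL (Fin 3) F, (s : Matrix (Fin 3) (Fin 3) F) = c • (1 : Matrix (Fin 3) (Fin 3) F) ∧
      s ∈ Cfsg.Geo.subgroupNormalizer R := by
  obtain ⟨s, hs⟩ : ∃ s : GL (Fin 3) F,
      (s : Matrix (Fin 3) (Fin 3) F) = c • (1 : Matrix (Fin 3) (Fin 3) F) :=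
    ⟨⟨c • 1, c⁻¹ • 1, by rw [smul_mul_smul_comm, mul_one, mul_inv_cancel₀ hc, one_smul],
      by rw [smul_mul_smul_comm, mul_one, inv_mul_cancel₀ hc, one_smul]⟩, rfl⟩
  refine ⟨s, hs, ?_⟩
  show s ∈ Subgroup.normalizer (R : Set (GL (Fin 3) F))
  rw [Subgroup.mem_set_normalizer_iff]
  intro h
  have hcomm : s * h = h * s := by
    apply Units.ext
    rw [Units.val_mul, Units.val_mul, hs, Matrix.smul_mul, one_mul, Matrix.mul_smul, mul_one]
  rw [hcomm, mul_inv_cancel_right]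

theorem glconj (x : GL (Fin 3) F) (c : F) (hc : c ≠ 0) (Tm C D : Matrix (Fin 3) (Fin 3) F)
    (hCD : C * D = 1) (hDC : D * C = 1)
    (hCX : C * (c • (x : Matrix (Fin 3) (Fin 3) F)) = Tm * C) (t s : GL (Fin 3) F)
    (ht : (t : Matrix (Fin 3) (Fin 3) F) = Tm)
    (hs : (s : Matrix (Fin 3) (Fin 3) F) = c⁻¹ • (1 : Matrix (Fin 3) (Fin 3) F)) :
    ∃ g₀ : GL (Fin 3) F, g₀⁻¹ * x * g₀ = s * t := by
  refine ⟨⟨D, C, hDC, hCD⟩, ?_⟩
  apply Units.ext
  rw [Units.val_mul, Units.val_mul, Units.val_mul, hs, ht]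
  show C * (x : Matrix (Fin 3) (Fin 3) F) * D = c⁻¹ • 1 * Tm
  have h1 : C * (x : Matrix (Fin 3) (Fin 3) F) = c⁻¹ • (Tm * C) := by
    rw [← hCX, Matrix.mul_smul, smul_smul, inv_mul_cancel₀ hc, one_smul]
  rw [h1, Matrix.smul_mul, mul_assoc, hCD, mul_one, Matrix.smul_mul, one_mul]

end Cfsg.Agent.Lib.helper4.E27
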