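import Mathlib
import Cfsg.Prelude.Def_GeometricClasses
import Cfsg.Agent.Lib.helper4.E27g

/-!
# Elements of prime order of `SL₃(F)` and the normaliser of `3^{1+2}`
-/

namespace Cfsg.Agent.Lib.helper4.E27

open Matrix Polynomial

universe u

variable {F : Type u} [Field F]

theorem good2 [Fintype F] (h2 : (2 : F) ≠ 0) (h3 : (3 : F) ≠ 0) (R : Subgroup (GL (Fin 3) F))
    (t : GL (Fin 3) F) (htN : t ∈ Cfsg.Geo.subgroupNormalizer R)
    (htt : (t : Matrix (Fin 3) (Fin 3) F) * (t : Matrix (Fin 3) (Fin 3) F) = 1)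
    (htdet : (t : Matrix (Fin 3) (Fin 3) F).det = 1)
    (htns : ∀ c : F, (t : Matrix (Fin 3) (Fin 3) F) ≠ c • (1 : Matrix (Fin 3) (Fin 3) F))
    (x : GL (Fin 3) F) (hx : x ∈ Cfsg.Geo.specialLinear (Fin 3) F) (z : F)
    (hx2 : ((x ^ 2 : GL (Fin 3) F) : Matrix (Fin 3) (Fin 3) F)
      = z • (1 : Matrix (Fin 3) (Fin 3) F))
    (hxns : ∀ z : F, (x : Matrix (Fin 3) (Fin 3) F) ≠ z • (1 : Matrix (Fin 3) (Fin 3) F)) :
    ∃ g ∈ Cfsg.Geo.specialLinear (Fin 3) F, g⁻¹ * x * g ∈ Cfsg.Geo.subgroupNormalizer R := by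
  classical
  obtain ⟨X, hX⟩ : ∃ X : Matrix (Fin 3) (Fin 3) F, X = (x : Matrix (Fin 3) (Fin 3) F) :=
    ⟨_, rfl⟩
  have hdet : X.det = 1 := by rw [hX]; exact det_of_mem x hx
  have hXX : X * X = z • (1 : Matrix (Fin 3) (Fin 3) F) := by
    rw [hX, ← hx2, Units.val_pow_eq_pow_val, pow_two]
  have hz3 : z ^ 3 = 1 := by
    have := congrArg Matrix.det hXX
    rw [det_mul, hdet, one_mul, det_smul, det_one, mul_one, Fintype.card_fin] at this
    exact this.symm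
  have hz0 : z ≠ 0 := by
    rintro rfl
    rw [zero_pow (by norm_num)] at hz3
    exact zero_ne_one hz3
  obtain ⟨X', hX'⟩ : ∃ X' : Matrix (Fin 3) (Fin 3) F, X' = z • X := ⟨_, rfl⟩
  have hX'2 : X' * X' = 1 := by
    rw [hX', smul_mul_smul_comm, hXX, smul_smul]
    have : z * z * z = 1 := by rw [← hz3]; ring
    rw [this, one_smul]
  have hX'det : X'.det = 1 := by rw [hX', det_smul, hdet, mul_one, Fintype.card_fin, hz3]
  have hX'ns : ∀ c : F, X' ≠ c • (1 : Matrix (Fin 3) (Fin 3) F) := by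
    intro c hc
    apply hxns (z⁻¹ * c)
    rw [← hX]
    calc X = z⁻¹ • (z • X) := by rw [smul_smul, inv_mul_cancel₀ hz0, one_smul]
      _ = (z⁻¹ * c) • 1 := by rw [← hX', hc, smul_smul]
  have hcp : X'.charpoly = (t : Matrix (Fin 3) (Fin 3) F).charpoly := by
    rw [cp_inv X' hX'2 hX'det hX'ns, cp_inv _ htt htdet htns]
  have h2F : ((2 : ℕ) : F) ≠ 0 := by exact_mod_cast h2
  obtain ⟨C, D, hCD, hDC, hCA⟩ := Cfsg.Agent.Lib.helper18.RCF.ss_conj_mat X'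
    (t : Matrix (Fin 3) (Fin 3) F) 2 2 h2F h2F (by rw [pow_two, hX'2]) (by rw [pow_two, htt]) hcp
  obtain ⟨s, hs, hsN⟩ := scalar_norm R z⁻¹ (inv_ne_zero hz0)
  obtain ⟨g₀, hg₀⟩ := glconj x z hz0 (t : Matrix (Fin 3) (Fin 3) F) C D hCD hDC
    (by rw [← hX, ← hX']; exact hCA) t s rfl hs
  have hmem : g₀⁻¹ * x * g₀ ∈ Cfsg.Geo.subgroupNormalizer R := by
    rw [hg₀]; exact Subgroup.mul_mem _ hsN htN
  have h6F : ((6 : ℕ) : F) ≠ 0 := by
    have : ((6 : ℕ) : F) = 2 * 3 := by norm_num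
    rw [this]; exact mul_ne_zero h2 h3
  have hx6 : (x : Matrix (Fin 3) (Fin 3) F) ^ 6 = 1 := by
    rw [← hX]
    have : X ^ 6 = (X * X) ^ 3 := by rw [← pow_two, ← pow_mul]
    rw [this, hXX, _root_.smul_pow, one_pow, hz3, one_smul]
  exact conj_into _ x hx 6 h6F hx6 g₀ hmem

theorem good3 [Fintype F] (h3 : (3 : F) ≠ 0) (R : Subgroup (GL (Fin 3) F)) (e : F)
    (he : e ^ 2 + e + 1 = 0)
    (b : GL (Fin 3) F) (hbN : b ∈ Cfsg.Geo.subgroupNormalizer R)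
    (hb3 : (b : Matrix (Fin 3) (Fin 3) F) ^ 3 = 1)
    (hbdet : (b : Matrix (Fin 3) (Fin 3) F).det = 1)
    (hbns : ∀ c : F, (b : Matrix (Fin 3) (Fin 3) F) ≠ c • (1 : Matrix (Fin 3) (Fin 3) F))
    (y : GL (Fin 3) F) (hyN : y ∈ Cfsg.Geo.subgroupNormalizer R)
    (hyq : (y : Matrix (Fin 3) (Fin 3) F) * (y : Matrix (Fin 3) (Fin 3) F)
        + (y : Matrix (Fin 3) (Fin 3) F) + 1 = 0)
    (hydet : (y : Matrix (Fin 3) (Fin 3) F).det = e)
    (hyns : ∀ c : F, (y : Matrix (Fin 3) (Fin 3) F) ≠ c • (1 : Matrix (Fin 3) (Fin 3) F))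
    (x : GL (Fin 3) F) (hx : x ∈ Cfsg.Geo.specialLinear (Fin 3) F) (z : F)
    (hx3 : ((x ^ 3 : GL (Fin 3) F) : Matrix (Fin 3) (Fin 3) F)
      = z • (1 : Matrix (Fin 3) (Fin 3) F))
    (hxns : ∀ z : F, (x : Matrix (Fin 3) (Fin 3) F) ≠ z • (1 : Matrix (Fin 3) (Fin 3) F)) :
    ∃ g ∈ Cfsg.Geo.specialLinear (Fin 3) F, g⁻¹ * x * g ∈ Cfsg.Geo.subgroupNormalizer R := by
  classical
  have he3 : e ^ 3 = 1 := by linear_combination (e - 1) * he
  obtain ⟨X, hX⟩ : ∃ X : Matrix (Fin 3) (Fin 3) F, X = (x : Matrix (Fin 3) (Fin 3) F) :=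
    ⟨_, rfl⟩
  have hdet : X.det = 1 := by rw [hX]; exact det_of_mem x hx
  have hX3 : X ^ 3 = z • (1 : Matrix (Fin 3) (Fin 3) F) := by
    rw [hX, ← hx3, Units.val_pow_eq_pow_val]
  have hXns : ∀ c : F, X ≠ c • (1 : Matrix (Fin 3) (Fin 3) F) := by rw [hX]; exact hxns
  have hz3 : z ^ 3 = 1 := by
    have := congrArg Matrix.det hX3
    rw [det_pow, hdet, one_pow, det_smul, det_one, mul_one, Fintype.card_fin] at this
    exact this.symm
  have hz0 : z ≠ 0 := by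
    rintro rfl
    rw [zero_pow (by norm_num)] at hz3
    exact zero_ne_one hz3
  have h3F : ((3 : ℕ) : F) ≠ 0 := by exact_mod_cast h3
  have h9F : ((9 : ℕ) : F) ≠ 0 := by
    have : ((9 : ℕ) : F) = 3 * 3 := by norm_num
    rw [this]; exact mul_ne_zero h3 h3
  have hx9 : (x : Matrix (Fin 3) (Fin 3) F) ^ 9 = 1 := by
    rw [← hX]
    have : X ^ 9 = (X ^ 3) ^ 3 := by rw [← pow_mul]
    rw [this, hX3, _root_.smul_pow, one_pow, hz3, one_smul]
  obtain ⟨c₂, c₁, hcp, hCH⟩ := Singer.cp3 X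
  rw [hdet, one_smul, hX3] at hCH
  -- the final step, common to both cases
  have hfin : ∀ (c : F) (hc : c ≠ 0) (X₁ : Matrix (Fin 3) (Fin 3) F) (hX₁ : X₁ = c • X)
      (hX₁3 : X₁ ^ 3 = 1) (w : GL (Fin 3) F) (hwN : w ∈ Cfsg.Geo.subgroupNormalizer R)
      (hw3 : (w : Matrix (Fin 3) (Fin 3) F) ^ 3 = 1)
      (hcpw : X₁.charpoly = (w : Matrix (Fin 3) (Fin 3) F).charpoly),
      ∃ g ∈ Cfsg.Geo.specialLinear (Fin 3) F,
        g⁻¹ * x * g ∈ Cfsg.Geo.subgroupNormalizer R := by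
    intro c hc X₁ hX₁ hX₁3 w hwN hw3 hcpw
    obtain ⟨C, D, hCD, hDC, hCA⟩ := Cfsg.Agent.Lib.helper18.RCF.ss_conj_mat X₁
      (w : Matrix (Fin 3) (Fin 3) F) 3 3 h3F h3F hX₁3 hw3 hcpw
    obtain ⟨s, hs, hsN⟩ := scalar_norm R c⁻¹ (inv_ne_zero hc)
    obtain ⟨g₀, hg₀⟩ := glconj x c hc (w : Matrix (Fin 3) (Fin 3) F) C D hCD hDC
      (by rw [← hX, ← hX₁]; exact hCA) w s rfl hs
    have hmem : g₀⁻¹ * x * g₀ ∈ Cfsg.Geo.subgroupNormalizer R := by
      rw [hg₀]; exact Subgroup.mul_mem _ hsN hwN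
    exact conj_into _ x hx 9 h9F hx9 g₀ hmem
  by_cases h2 : c₂ = 0
  · rw [h2, zero_smul, add_zero] at hCH
    have hz1 : z = 1 := by
      by_contra hz
      have hc1 : c₁ ≠ 0 := by
        rintro rfl
        rw [zero_smul, add_zero] at hCH
        have e0 := congrFun (congrFun hCH 0) 0
        simp only [Matrix.sub_apply, Matrix.smul_apply, Matrix.one_apply_eq, smul_eq_mul,
          mul_one, Matrix.zero_apply] at e0
        exact hz (sub_eq_zero.mp e0)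
      apply hXns ((1 - z) / c₁)
      have e' : c₁ • X = (1 - z) • (1 : Matrix (Fin 3) (Fin 3) F) := by
        linear_combination (norm := module) hCH
      calc X = c₁⁻¹ • (c₁ • X) := by rw [smul_smul, inv_mul_cancel₀ hc1, one_smul]
        _ = ((1 - z) / c₁) • 1 := by rw [e', smul_smul, div_eq_inv_mul]
    rw [hz1, one_smul] at hX3
    exact hfin 1 one_ne_zero X (by rw [one_smul]) hX3 b hbN hb3
      (by rw [cp_cube X hX3 hdet hXns, cp_cube _ hb3 hbdet hbns])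
  · obtain ⟨a', ha'⟩ : ∃ a' : F, a' = c₂⁻¹ * -c₁ := ⟨_, rfl⟩
    obtain ⟨b', hb'⟩ : ∃ b' : F, b' = c₂⁻¹ * (1 - z) := ⟨_, rfl⟩
    have hsq : X ^ 2 = a' • X + b' • (1 : Matrix (Fin 3) (Fin 3) F) := by
      have e' : c₂ • X ^ 2 = (-c₁) • X + (1 - z) • (1 : Matrix (Fin 3) (Fin 3) F) := by
        linear_combination (norm := module) hCH
      calc X ^ 2 = c₂⁻¹ • (c₂ • X ^ 2) := by rw [smul_smul, inv_mul_cancel₀ h2, one_smul]
        _ = a' • X + b' • 1 := by rw [e', smul_add, smul_smul, smul_smul, ha', hb']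
    have hcube : X ^ 3 = (a' ^ 2 + b') • X + (a' * b') • (1 : Matrix (Fin 3) (Fin 3) F) := by
      calc X ^ 3 = X * X ^ 2 := by rw [pow_succ']
        _ = a' • X ^ 2 + b' • X := by
          rw [hsq, mul_add, Matrix.mul_smul, Matrix.mul_smul, mul_one, ← pow_two, hsq]
        _ = (a' ^ 2 + b') • X + (a' * b') • 1 := by rw [hsq]; module
    rw [hX3] at hcube
    have hab : a' ^ 2 + b' = 0 := by
      by_contra h
      apply hXns ((z - a' * b') / (a' ^ 2 + b'))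
      have e' : (a' ^ 2 + b') • X = (z - a' * b') • (1 : Matrix (Fin 3) (Fin 3) F) := by
        linear_combination (norm := module) -hcube
      calc X = (a' ^ 2 + b')⁻¹ • ((a' ^ 2 + b') • X) := by
            rw [smul_smul, inv_mul_cancel₀ h, one_smul]
        _ = _ := by rw [e', smul_smul, div_eq_inv_mul]
    rw [hab, zero_smul, zero_add] at hcube
    have hzab : z = a' * b' := by
      have e0 := congrFun (congrFun hcube 0) 0
      simp only [Matrix.smul_apply, Matrix.one_apply_eq, smul_eq_mul, mul_one] at e0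
      exact e0
    have hb'' : b' = -a' ^ 2 := by linear_combination hab
    have ha0 : a' ≠ 0 := by
      rintro rfl
      rw [zero_mul] at hzab
      exact hz0 hzab
    -- X₁ = (-a')⁻¹ • X satisfies X₁² + X₁ + 1 = 0
    obtain ⟨u, hu⟩ : ∃ u : F, u = -a' := ⟨_, rfl⟩
    have hu0 : u ≠ 0 := by rw [hu]; exact neg_ne_zero.mpr ha0
    obtain ⟨X₁, hX₁⟩ : ∃ X₁ : Matrix (Fin 3) (Fin 3) F, X₁ = u⁻¹ • X := ⟨_, rfl⟩
    have hX₁q : X₁ * X₁ + X₁ + 1 = 0 := by
      have hXX : X * X = a' • X + b' • (1 : Matrix (Fin 3) (Fin 3) F) := by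
        rw [← pow_two]; exact hsq
      rw [hX₁, smul_mul_smul_comm, hXX, hb'']
      have e1 : a' = -u := by rw [hu]; ring
      rw [e1]
      have e2 : u⁻¹ * u⁻¹ * -u = -u⁻¹ := by field_simp
      have e3 : u⁻¹ * u⁻¹ * -(-u) ^ 2 = -1 := by field_simp
      rw [smul_add, smul_smul, smul_smul, e2, e3]
      module
    have hX₁ns : ∀ c : F, X₁ ≠ c • (1 : Matrix (Fin 3) (Fin 3) F) := by
      intro c hc
      apply hXns (u * c)
      calc X = u • (u⁻¹ • X) := by rw [smul_smul, mul_inv_cancel₀ hu0, one_smul]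
        _ = (u * c) • 1 := by rw [← hX₁, hc, smul_smul]
    obtain ⟨hcp₁, hd, hX₁3⟩ := cp_quad X₁ hX₁q hX₁ns
    obtain ⟨d, hdd⟩ : ∃ d : F, d = X₁.det := ⟨_, rfl⟩
    rw [← hdd] at hcp₁ hd
    -- a normalising element with the same characteristic polynomial
    have hw : ∃ w : GL (Fin 3) F, w ∈ Cfsg.Geo.subgroupNormalizer R ∧
        (w : Matrix (Fin 3) (Fin 3) F) * (w : Matrix (Fin 3) (Fin 3) F)
          + (w : Matrix (Fin 3) (Fin 3) F) + 1 = 0 ∧
        (w : Matrix (Fin 3) (Fin 3) F).det = d ∧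
        ∀ c : F, (w : Matrix (Fin 3) (Fin 3) F) ≠ c • (1 : Matrix (Fin 3) (Fin 3) F) := by
      have hfac : (d - e) * (d - e ^ 2) = 0 := by
        linear_combination hd - d * he + he3 - 1 * he + he
      rcases mul_eq_zero.mp hfac with h | h
      · exact ⟨y, hyN, hyq, by rw [hydet]; exact (sub_eq_zero.mp h).symm, hyns⟩
      · obtain ⟨hq2, hyy⟩ := quad_sq _ hyq
        refine ⟨y * y, Subgroup.mul_mem _ hyN hyN, ?_, ?_, ?_⟩
        · rw [Units.val_mul]; exact hq2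
        · rw [Units.val_mul, det_mul, hydet, ← pow_two]; exact (sub_eq_zero.mp h).symm
        · intro c hc
          rw [Units.val_mul, hyy] at hc
          apply hyns (-1 - c)
          have : (y : Matrix (Fin 3) (Fin 3) F)
              = -(-(y : Matrix (Fin 3) (Fin 3) F) - 1) - 1 := by abel
          rw [this, hc]
          module
    obtain ⟨w, hwN, hwq, hwdet, hwns⟩ := hw
    obtain ⟨hcpw, -, hw3⟩ := cp_quad _ hwq hwns
    rw [hwdet] at hcpw
    exact hfin u⁻¹ (inv_ne_zero hu0) X₁ hX₁ hX₁3 w hwN hw3 (by rw [hcp₁, hcpw])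

theorem bad5 [Fintype F] (R : Subgroup (GL (Fin 3) F)) (hR : Nat.card R = 27)
    (a b z : GL (Fin 3) F) (ha : a ∈ R) (hb : b ∈ R) (hz : z ∈ R) (e : F) (he1 : e ≠ 1)
    (hze : (z : Matrix (Fin 3) (Fin 3) F) = e • (1 : Matrix (Fin 3) (Fin 3) F))
    (hcent : ∀ Y : Matrix (Fin 3) (Fin 3) F, Y * (a : Matrix (Fin 3) (Fin 3) F)
        = (a : Matrix (Fin 3) (Fin 3) F) * Y →
      Y * (b : Matrix (Fin 3) (Fin 3) F) = (b : Matrix (Fin 3) (Fin 3) F) * Y →
      ∃ c : F, Y = c • (1 : Matrix (Fin 3) (Fin 3) F))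
    (r : ℕ) [Fact r.Prime] (hr5 : 5 ≤ r)
    (hΩ : r ∣ (Cfsg.Geo.subgroupNormalizer R).relIndex (Cfsg.Geo.specialLinear (Fin 3) F))
    (h : ∀ x ∈ Cfsg.Geo.specialLinear (Fin 3) F,
      (∃ z : F, ((x ^ r : GL (Fin 3) F) : Matrix (Fin 3) (Fin 3) F)
        = z • (1 : Matrix (Fin 3) (Fin 3) F)) →
      (∀ z : F, (x : Matrix (Fin 3) (Fin 3) F) ≠ z • (1 : Matrix (Fin 3) (Fin 3) F)) →
      ∃ g ∈ Cfsg.Geo.specialLinear (Fin 3) F,
        g⁻¹ * x * g ∈ Cfsg.Geo.subgroupNormalizer R) : False := by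
  classical
  obtain ⟨x, hxS, hxr, hxns⟩ :=
    Cfsg.Agent.Lib.helper12.E27.exists_order_r (Cfsg.Geo.subgroupNormalizer R) r hr5 hΩ
  obtain ⟨g, hgS, hg⟩ := h x hxS ⟨1, by rw [hxr, one_smul]; rfl⟩ hxns
  obtain ⟨y, hy⟩ : ∃ y : GL (Fin 3) F, y = g⁻¹ * x * g := ⟨_, rfl⟩
  rw [← hy] at hg
  have hyr : y ^ r = 1 := by
    have := conj_pow (a := g⁻¹) (b := x) (i := r)
    rw [inv_inv] at this
    rw [hy, this, hxr]
    group
  have hynorm : ∀ w ∈ R, y * w * y⁻¹ ∈ R := fun w hw =>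
    ((Subgroup.mem_set_normalizer_iff (S := (R : Set (GL (Fin 3) F)))).mp hg w).mp hw
  have hz1 : z ≠ 1 := by
    intro h1
    apply he1
    have h2 := congrArg (fun t : GL (Fin 3) F => (t : Matrix (Fin 3) (Fin 3) F) 0 0) h1
    simp only [hze, Matrix.smul_apply, Matrix.one_apply_eq, smul_eq_mul, mul_one,
      Units.val_one] at h2
    exact h2
  have hzy : y * z = z * y := by
    apply Units.ext
    rw [Units.val_mul, Units.val_mul, hze, Matrix.smul_mul, one_mul, Matrix.mul_smul, mul_one]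
  have hc := Cfsg.Agent.Lib.helper12.E27.centralizes_of_pow R hR y z hynorm hz hz1 hzy r
    Fact.out hr5 (by intro w _; rw [hyr, one_mul, mul_one])
  have hya := congrArg (fun t : GL (Fin 3) F => (t : Matrix (Fin 3) (Fin 3) F)) (hc a ha)
  have hyb := congrArg (fun t : GL (Fin 3) F => (t : Matrix (Fin 3) (Fin 3) F)) (hc b hb)
  simp only [Units.val_mul] at hya hyb
  obtain ⟨c, hc'⟩ := hcent _ hya hyb
  apply hxns c
  have hx : x = g * y * g⁻¹ := by rw [hy]; group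
  rw [hx, Units.val_mul, Units.val_mul, hc', Matrix.mul_smul, mul_one, Matrix.smul_mul,
    ← Units.val_mul, mul_inv_cancel, Units.val_one]

end Cfsg.Agent.Lib.helper4.E27
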