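import Mathlib

set_option autoImplicit false

/-!
# The norm form `a² - ab + b²` over a finite field with `q ≡ 2 (mod 3)`

It is anisotropic, represents every element, and each nonzero value is taken `q + 1` times.
-/

namespace Cfsg.Agent.Lib.helper4

section Fpf3Norm

variable {F : Type*} [Field F]

/-- the norm form of `F[ω]`, `ω² + ω + 1 = 0` -/
def nrm3 (z : F × F) : F := z.1 ^ 2 - z.1 * z.2 + z.2 ^ 2

/-- multiplication of `F[ω]` -/
def mul3 (z w : F × F) : F × F :=
  (z.1 * w.1 - z.2 * w.2, z.1 * w.2 + z.2 * w.1 - z.2 * w.2)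

lemma nrm3_mul3 (z w : F × F) : nrm3 (mul3 z w) = nrm3 z * nrm3 w := by
  unfold nrm3 mul3
  ring

lemma mul3_sub (z w w' : F × F) : mul3 z (w - w') = mul3 z w - mul3 z w' := by
  unfold mul3
  ext
  · simp only [Prod.fst_sub, Prod.snd_sub]
    ring
  · simp only [Prod.fst_sub, Prod.snd_sub]
    ring

lemma nrm3_zero : nrm3 (0 : F × F) = 0 := by
  unfold nrm3
  simp

variable [Fintype F]

lemma three_ne_zero_of_card (hq : Fintype.card F % 3 = 2) : (3 : F) ≠ 0 := by
  intro h3
  have h1 : ((Fintype.card F : ℕ) : F) = 0 := Nat.cast_card_eq_zero F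
  have h2 : Fintype.card F = 3 * (Fintype.card F / 3) + 2 := by omega
  rw [h2] at h1
  push_cast at h1
  rw [h3, zero_mul, zero_add] at h1
  have : (1 : F) = 0 := by
    have h4 : (3 : F) - 2 = 1 := by norm_num
    rw [← h4, h3, h1, sub_zero]
  exact one_ne_zero this

lemma nrm3_eq_zero (hq : Fintype.card F % 3 = 2) (z : F × F) (hz : nrm3 z = 0) : z = 0 := by
  classical
  have h3 := three_ne_zero_of_card hq
  by_cases hb : z.2 = 0
  · unfold nrm3 at hz
    rw [hb, mul_zero, sub_zero, zero_pow (by norm_num), add_zero] at hz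
    exact Prod.ext (pow_eq_zero_iff (by norm_num) |>.mp hz) hb
  · exfalso
    obtain ⟨s, hs⟩ : ∃ s : F, s = -z.1 / z.2 := ⟨_, rfl⟩
    have hs2 : s ^ 2 + s + 1 = 0 := by
      rw [hs]
      unfold nrm3 at hz
      field_simp
      linear_combination hz
    have hs3 : s ^ 3 = 1 := by linear_combination (s - 1) * hs2
    have hs1 : s ≠ 1 := by
      rintro rfl
      apply h3
      linear_combination hs2
    have hs0 : s ≠ 0 := by
      rintro rfl
      rw [zero_pow (by norm_num)] at hs3
      exact zero_ne_one hs3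
    haveI : Fact (Nat.Prime 3) := ⟨Nat.prime_three⟩
    have hord : orderOf (Units.mk0 s hs0) = 3 := by
      apply orderOf_eq_prime
      · apply Units.ext
        rw [Units.val_pow_eq_pow_val, Units.val_mk0, hs3, Units.val_one]
      · intro h
        apply hs1
        have := congrArg Units.val h
        rw [Units.val_mk0, Units.val_one] at this
        exact this
    have hdvd : 3 ∣ Fintype.card Fˣ := by
      rw [← hord]
      exact orderOf_dvd_card
    rw [Fintype.card_units] at hdvd
    have hpos := Fintype.card_pos (α := F)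
    omega

lemma nrm3_surj (hq : Fintype.card F % 3 = 2) (c : F) : ∃ z : F × F, nrm3 z = c := by
  have h3 := three_ne_zero_of_card hq
  by_cases h2 : (2 : F) = 0
  · have hchar : ringChar F = 2 := by
      haveI : CharP F 2 := CharTwo.of_one_ne_zero_of_two_eq_zero one_ne_zero h2
      exact ringChar.eq F 2
    obtain ⟨a, ha⟩ := FiniteField.isSquare_of_char_two hchar c
    refine ⟨(a, 0), ?_⟩
    unfold nrm3
    rw [ha]
    ring
  · have hodd : Fintype.card F % 2 = 1 := by
      apply FiniteField.odd_card_of_char_ne_two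
      intro h
      haveI : CharP F 2 := ringChar.of_eq h
      exact h2 CharTwo.two_eq_zero
    have hf : (Polynomial.X ^ 2 : Polynomial F).degree = 2 := Polynomial.degree_X_pow 2
    have hg : (Polynomial.C 3 * Polynomial.X ^ 2 - Polynomial.C (4 * c) : Polynomial F).degree
        = 2 := by
      rw [Polynomial.degree_sub_C (by
        rw [Polynomial.degree_C_mul_X_pow 2 h3]
        norm_num), Polynomial.degree_C_mul_X_pow 2 h3]
      rfl
    obtain ⟨s, b, hsb⟩ := FiniteField.exists_root_sum_quadratic hf hg hodd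
    simp only [Polynomial.eval_pow, Polynomial.eval_X, Polynomial.eval_sub, Polynomial.eval_mul,
      Polynomial.eval_C] at hsb
    refine ⟨((s + b) / 2, b), ?_⟩
    unfold nrm3
    field_simp
    linear_combination hsb

lemma mul3_inj (hq : Fintype.card F % 3 = 2) (z : F × F) (hz : nrm3 z ≠ 0) :
    Function.Injective (mul3 z) := by
  intro w w' h
  have h1 : mul3 z (w - w') = 0 := by rw [mul3_sub, h, sub_self]
  have h2 : nrm3 (w - w') = 0 := by
    have := nrm3_mul3 z (w - w')
    rw [h1, nrm3_zero] at this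
    rcases mul_eq_zero.mp this.symm with h | h
    · exact absurd h hz
    · exact h
  exact sub_eq_zero.mp (nrm3_eq_zero hq _ h2)

lemma card_nrm3_le (hq : Fintype.card F % 3 = 2) (c d : F) (hc : c ≠ 0) (hd : d ≠ 0) :
    Nat.card {z : F × F // nrm3 z = c} ≤ Nat.card {z : F × F // nrm3 z = d} := by
  obtain ⟨z₀, hz₀⟩ := nrm3_surj hq (d / c)
  have hz₀' : nrm3 z₀ ≠ 0 := by
    rw [hz₀]
    exact div_ne_zero hd hc
  apply Nat.card_le_card_of_injective (fun z : {z : F × F // nrm3 z = c} =>
    (⟨mul3 z₀ z.1, by rw [nrm3_mul3, hz₀, z.2, div_mul_cancel₀ _ hc]⟩ :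
      {z : F × F // nrm3 z = d}))
  intro z z' h
  exact Subtype.ext (mul3_inj hq z₀ hz₀' (congrArg Subtype.val h))

lemma card_nrm3_zero (hq : Fintype.card F % 3 = 2) :
    Nat.card {z : F × F // nrm3 z = 0} = 1 := by
  have : Subsingleton {z : F × F // nrm3 z = 0} :=
    ⟨fun a b => Subtype.ext ((nrm3_eq_zero hq a.1 a.2).trans (nrm3_eq_zero hq b.1 b.2).symm)⟩
  exact Nat.card_of_subsingleton (⟨0, nrm3_zero⟩ : {z : F × F // nrm3 z = 0})

lemma card_nrm3 (hq : Fintype.card F % 3 = 2) (c : F) (hc : c ≠ 0) :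
    Nat.card {z : F × F // nrm3 z = c} = Fintype.card F + 1 := by
  classical
  have hs : ∀ d : F, d ≠ 0 →
      Nat.card {z : F × F // nrm3 z = d} = Nat.card {z : F × F // nrm3 z = c} :=
    fun d hd => le_antisymm (card_nrm3_le hq d c hd hc) (card_nrm3_le hq c d hc hd)
  have htot : Fintype.card (F × F) = ∑ d : F, Nat.card {z : F × F // nrm3 z = d} := by
    rw [← Finset.card_univ, Finset.card_eq_sum_card_fiberwise (f := nrm3) (t := Finset.univ)
      (fun x _ => Finset.mem_univ _)]
    apply Finset.sum_congr rfl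
    intro d _
    rw [Nat.card_eq_fintype_card, Fintype.card_subtype]
  rw [Fintype.card_prod, ← Finset.add_sum_erase Finset.univ _ (Finset.mem_univ (0 : F)),
    card_nrm3_zero hq, Finset.sum_congr rfl (fun d hd => hs d (Finset.ne_of_mem_erase hd)),
    Finset.sum_const, Finset.card_erase_of_mem (Finset.mem_univ _), Finset.card_univ,
    smul_eq_mul] at htot
  have hq2 : 2 ≤ Fintype.card F := Fintype.one_lt_card
  obtain ⟨n, hn⟩ : ∃ n, Fintype.card F = n + 2 := ⟨Fintype.card F - 2, by omega⟩
  rw [hn] at htot ⊢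
  have h5 : (n + 1) * Nat.card {z : F × F // nrm3 z = c} = (n + 1) * (n + 3) := by
    have e : n + 2 - 1 = n + 1 := by omega
    rw [e] at htot
    nlinarith
  exact Nat.eq_of_mul_eq_mul_left (by omega) h5

end Fpf3Norm

end Cfsg.Agent.Lib.helper4
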