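import Mathlib
import Cfsg.Agent.Lib.helper4.SpCard

set_option autoImplicit false

/-!
# Counting truncated polynomials with `p(-X) p(X) ≡ 1 mod X^l`

`IsRegSol l p`: `p` has degree `< l` and `p(-X) p(X) ≡ 1 mod X^l`.
`card_regSol`: over a finite field of odd order `q` there are `2 q^m` such polynomials for
`l = 2m`, `m ≥ 1`.
-/

namespace Cfsg.Agent.Lib.helper4

open Polynomial

section RegCount

variable {F : Type*} [Field F]

lemma coeff_comp_neg_X (p : F[X]) (k : ℕ) : (p.comp (-X)).coeff k = (-1) ^ k * p.coeff k := by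
  induction p using Polynomial.induction_on' with
  | add p q hp hq => rw [add_comp, coeff_add, coeff_add, hp, hq, mul_add]
  | monomial n a =>
    rw [monomial_comp, neg_pow, coeff_monomial]
    have h1 : ((-1 : F[X]) ^ n) = C ((-1 : F) ^ n) := by
      rw [C_pow, C_neg, C_1]
    rw [h1, ← mul_assoc, ← C_mul, coeff_C_mul_X_pow]
    by_cases h : k = n
    · subst h
      rw [if_pos rfl, if_pos rfl, mul_comm]
    · rw [if_neg h, if_neg (fun h' => h h'.symm), mul_zero]

/-- truncated solutions of `p(-X) p(X) = 1` -/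
def IsRegSol (l : ℕ) (p : F[X]) : Prop :=
  (∀ k, l ≤ k → p.coeff k = 0) ∧
    ∀ k, k < l → (p.comp (-X) * p).coeff k = if k = 0 then 1 else 0

lemma ext_mul (q : F[X]) (x : F) (l : ℕ) :
    (q + C x * X ^ l).comp (-X) * (q + C x * X ^ l)
      = q.comp (-X) * q + X ^ l * (C x * q.comp (-X) + C ((-1) ^ l) * C x * q
          + C ((-1) ^ l) * C x * C x * X ^ l) := by
  have h1 : ((-X : F[X]) ^ l) = C ((-1 : F) ^ l) * X ^ l := by
    rw [neg_pow, C_pow, C_neg, C_1]
  simp only [add_comp, mul_comp, C_comp, pow_comp, X_comp]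
  rw [h1]
  ring

lemma ext_coeff_lt (q : F[X]) (x : F) (l k : ℕ) (hk : k < l) :
    ((q + C x * X ^ l).comp (-X) * (q + C x * X ^ l)).coeff k = (q.comp (-X) * q).coeff k := by
  rw [ext_mul, coeff_add, coeff_X_pow_mul', if_neg (by omega), add_zero]

lemma ext_coeff_eq (q : F[X]) (x : F) (l : ℕ) :
    ((q + C x * X ^ l).comp (-X) * (q + C x * X ^ l)).coeff l
      = (q.comp (-X) * q).coeff l + (x * q.coeff 0 + (-1) ^ l * x * q.coeff 0
          + if l = 0 then (-1) ^ l * x * x else 0) := by
  rw [ext_mul, coeff_add, coeff_X_pow_mul', if_pos le_rfl, Nat.sub_self, coeff_add, coeff_add,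
    coeff_C_mul, coeff_comp_neg_X, pow_zero, one_mul, ← C_mul, coeff_C_mul, ← C_mul,
    coeff_C_mul_X_pow]
  congr 2
  by_cases h : l = 0
  · rw [if_pos h, if_pos h.symm]
  · rw [if_neg h, if_neg (fun h' => h h'.symm)]

lemma regSol_even (q : F[X]) (h2 : (2 : F) ≠ 0) (k : ℕ) (hk : Odd k) :
    (q.comp (-X) * q).coeff k = 0 := by
  have h1 : (q.comp (-X) * q).comp (-X) = q.comp (-X) * q := by
    rw [mul_comp, comp_neg_X_comp_neg_X, mul_comm]
  have h3 := coeff_comp_neg_X (q.comp (-X) * q) k
  rw [h1, hk.neg_one_pow, neg_one_mul] at h3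
  have h4 : (2 : F) * (q.comp (-X) * q).coeff k = 0 := by
    rw [two_mul]
    nth_rewrite 1 [h3]
    exact neg_add_cancel _
  rcases mul_eq_zero.mp h4 with h5 | h5
  · exact absurd h5 h2
  · exact h5

lemma regSol_zero (p : F[X]) (h : IsRegSol 0 p) : p = 0 := by
  ext k
  rw [h.1 k (Nat.zero_le k), coeff_zero]

lemma regSol_trunc (l : ℕ) (p : F[X]) (h : IsRegSol (l + 1) p) :
    IsRegSol l (p - C (p.coeff l) * X ^ l) := by
  have hp : p = (p - C (p.coeff l) * X ^ l) + C (p.coeff l) * X ^ l := by ring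
  refine ⟨fun k hk => ?_, fun k hk => ?_⟩
  · rw [coeff_sub, coeff_C_mul_X_pow]
    by_cases hkl : k = l
    · rw [if_pos hkl, hkl, sub_self]
    · rw [if_neg hkl, sub_zero]
      exact h.1 k (by omega)
  · rw [← ext_coeff_lt _ (p.coeff l) l k hk, ← hp]
    exact h.2 k (by omega)

lemma regSol_ext (l : ℕ) (q : F[X]) (hq : IsRegSol l q) (x : F)
    (hx : (q.comp (-X) * q).coeff l + (x * q.coeff 0 + (-1) ^ l * x * q.coeff 0
          + if l = 0 then (-1) ^ l * x * x else 0) = if l = 0 then 1 else 0) :
    IsRegSol (l + 1) (q + C x * X ^ l) := by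
  refine ⟨fun k hk => ?_, fun k hk => ?_⟩
  · rw [coeff_add, coeff_C_mul_X_pow, if_neg (by omega), add_zero]
    exact hq.1 k (by omega)
  · by_cases hkl : k = l
    · subst hkl
      rw [ext_coeff_eq]
      exact hx
    · rw [ext_coeff_lt _ _ _ _ (by omega)]
      exact hq.2 k (by omega)

lemma regSol_finite [Finite F] (l : ℕ) : Finite {p : F[X] // IsRegSol l p} := by
  apply Finite.of_injective (fun p : {p : F[X] // IsRegSol l p} => fun k : Fin l => p.1.coeff k)
  intro p p' h
  apply Subtype.ext
  ext k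
  by_cases hk : k < l
  · exact congrFun h ⟨k, hk⟩
  · rw [p.2.1 k (by omega), p'.2.1 k (by omega)]

/-- the recursion for the number of truncated solutions -/
theorem card_regSol_succ [Fintype F] (l : ℕ) :
    ∀ q : {p : F[X] // IsRegSol l p},
      Nat.card {p : {p : F[X] // IsRegSol (l + 1) p} // p.1 - C (p.1.coeff l) * X ^ l = q.1}
        = Nat.card {x : F // (q.1.comp (-X) * q.1).coeff l + (x * q.1.coeff 0
          + (-1) ^ l * x * q.1.coeff 0 + if l = 0 then (-1) ^ l * x * x else 0)
            = if l = 0 then 1 else 0} := by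
  intro q
  have hpq : ∀ p : {p : {p : F[X] // IsRegSol (l + 1) p} // p.1 - C (p.1.coeff l) * X ^ l = q.1},
      p.1.1 = q.1 + C (p.1.1.coeff l) * X ^ l := by
    intro p
    have h := p.2
    rw [sub_eq_iff_eq_add] at h
    exact h
  obtain ⟨ψ, hψ⟩ : ∃ ψ : {p : {p : F[X] // IsRegSol (l + 1) p} //
        p.1 - C (p.1.coeff l) * X ^ l = q.1} →
      {x : F // (q.1.comp (-X) * q.1).coeff l + (x * q.1.coeff 0
          + (-1) ^ l * x * q.1.coeff 0 + if l = 0 then (-1) ^ l * x * x else 0)
            = if l = 0 then 1 else 0}, ∀ p, (ψ p).1 = p.1.1.coeff l := by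
    refine ⟨fun p => ⟨p.1.1.coeff l, ?_⟩, fun p => rfl⟩
    rw [← ext_coeff_eq, ← hpq p]
    exact p.1.2.2 l (by omega)
  refine Nat.card_congr (Equiv.ofBijective ψ ⟨?_, ?_⟩)
  · intro p p' h
    have h1 : p.1.1.coeff l = p'.1.1.coeff l := by rw [← hψ, ← hψ, h]
    apply Subtype.ext
    apply Subtype.ext
    rw [hpq p, hpq p', h1]
  · intro x
    have hsol := regSol_ext l q.1 q.2 x.1 x.2
    have hc : (q.1 + C x.1 * X ^ l).coeff l = x.1 := by
      rw [coeff_add, coeff_C_mul_X_pow, if_pos rfl, q.2.1 l le_rfl, zero_add]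
    refine ⟨⟨⟨q.1 + C x.1 * X ^ l, hsol⟩, ?_⟩, ?_⟩
    · show q.1 + C x.1 * X ^ l - C ((q.1 + C x.1 * X ^ l).coeff l) * X ^ l = q.1
      rw [hc]
      ring
    · apply Subtype.ext
      rw [hψ]
      exact hc

theorem card_regSol_step [Fintype F] {q : ℕ} (hF : Fintype.card F = q) (h2 : (2 : F) ≠ 0)
    (l : ℕ) :
    Nat.card {p : F[X] // IsRegSol (l + 1) p}
      = Nat.card {p : F[X] // IsRegSol l p} * (if l = 0 then 2 else if Odd l then q else 1) := by
  classical
  haveI := regSol_finite (F := F) l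
  haveI := regSol_finite (F := F) (l + 1)
  obtain ⟨ρ, hρ⟩ : ∃ ρ : {p : F[X] // IsRegSol (l + 1) p} → {p : F[X] // IsRegSol l p},
      ∀ p, (ρ p).1 = p.1 - C (p.1.coeff l) * X ^ l :=
    ⟨fun p => ⟨p.1 - C (p.1.coeff l) * X ^ l, regSol_trunc l p.1 p.2⟩, fun p => rfl⟩
  have hfib : ∀ b, Nat.card {a // ρ a = b}
      = if l = 0 then 2 else if Odd l then q else 1 := by
    intro b
    have h1 : Nat.card {a // ρ a = b}
        = Nat.card {p : {p : F[X] // IsRegSol (l + 1) p} //
            p.1 - C (p.1.coeff l) * X ^ l = b.1} := by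
      apply Nat.card_congr
      apply Equiv.subtypeEquivRight
      intro p
      rw [Subtype.ext_iff, hρ]
    rw [h1, card_regSol_succ l b]
    by_cases hl0 : l = 0
    · subst hl0
      have hb0 : b.1 = 0 := regSol_zero b.1 b.2
      refine (Nat.card_congr (Equiv.subtypeEquivRight
        (q := fun x : F => x = 1 ∨ x = -1) ?_)).trans ?_
      · intro x
        rw [hb0]
        simp only [zero_comp, coeff_zero, mul_zero, zero_add, if_true, pow_zero, one_mul]
        exact mul_self_eq_one_iff
      have hne : (1 : F) ≠ -1 := by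
        intro h
        apply h2
        have : (1 : F) + 1 = 0 := by
          nth_rewrite 2 [h]
          exact add_neg_cancel 1
        rw [← one_add_one_eq_two]
        exact this
      rw [Nat.card_eq_fintype_card, Fintype.card_subtype]
      have h4 : (Finset.univ.filter (fun x : F => x = 1 ∨ x = -1)) = {1, -1} := by
        ext x
        simp
      rw [h4, Finset.card_pair hne, if_pos rfl]
    · by_cases hodd : Odd l
      · have hall : ∀ x : F, (b.1.comp (-X) * b.1).coeff l + (x * b.1.coeff 0
            + (-1) ^ l * x * b.1.coeff 0 + if l = 0 then (-1) ^ l * x * x else 0)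
              = if l = 0 then 1 else 0 := by
          intro x
          rw [if_neg hl0, if_neg hl0, regSol_even b.1 h2 l hodd, hodd.neg_one_pow]
          ring
        refine (Nat.card_congr (Equiv.subtypeUnivEquiv hall)).trans ?_
        rw [if_neg hl0, if_pos hodd, ← hF, Nat.card_eq_fintype_card]
      · have heven : Even l := Nat.not_odd_iff_even.mp hodd
        have hb0 : b.1.coeff 0 * b.1.coeff 0 = 1 := by
          have h3 := b.2.2 0 (by omega)
          rw [if_pos rfl, mul_coeff_zero, coeff_comp_neg_X, pow_zero, one_mul] at h3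
          exact h3
        have hb0' : b.1.coeff 0 ≠ 0 := by
          intro h
          rw [h, mul_zero] at hb0
          exact zero_ne_one hb0
        refine (Nat.card_congr (Equiv.subtypeEquivRight
          (q := fun x : F => x = -(b.1.comp (-X) * b.1).coeff l / (2 * b.1.coeff 0)) ?_)).trans ?_
        · intro x
          rw [if_neg hl0, if_neg hl0, heven.neg_one_pow, one_mul, add_zero]
          constructor
          · intro h
            field_simp
            linear_combination h
          · intro h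
            rw [h]
            field_simp
            ring
        rw [if_neg hl0, if_neg hodd, Nat.card_eq_fintype_card, Fintype.card_subtype_eq]
  rw [card_fiber_count ρ _ hfib]

theorem card_regSol_zero : Nat.card {p : F[X] // IsRegSol 0 p} = 1 := by
  have : Subsingleton {p : F[X] // IsRegSol 0 p} :=
    ⟨fun a b => Subtype.ext ((regSol_zero a.1 a.2).trans (regSol_zero b.1 b.2).symm)⟩
  exact Nat.card_of_subsingleton (⟨0, fun k _ => coeff_zero k, fun k hk => absurd hk (by omega)⟩ :
    {p : F[X] // IsRegSol 0 p})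

/-- the number of truncated solutions -/
theorem card_regSol [Fintype F] {q : ℕ} (hF : Fintype.card F = q) (h2 : (2 : F) ≠ 0) :
    ∀ m : ℕ, Nat.card {p : F[X] // IsRegSol (2 * (m + 1)) p} = 2 * q ^ (m + 1)
  | 0 => by
    have h1 := card_regSol_step hF h2 0
    have h3 := card_regSol_step hF h2 1
    rw [card_regSol_zero, if_pos rfl, one_mul] at h1
    rw [h1, if_neg (by norm_num), if_pos (by decide)] at h3
    rw [show 2 * (0 + 1) = 1 + 1 by norm_num, h3, pow_one]
  | m + 1 => by
    have ih := card_regSol hF h2 m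
    have h1 := card_regSol_step hF h2 (2 * (m + 1))
    have h3 := card_regSol_step hF h2 (2 * (m + 1) + 1)
    rw [ih, if_neg (by omega), if_neg (by
      rw [Nat.not_odd_iff_even]
      exact even_two_mul _), mul_one] at h1
    rw [h1, if_neg (by omega), if_pos (odd_two_mul_add_one _)] at h3
    rw [show 2 * (m + 1 + 1) = 2 * (m + 1) + 1 + 1 by ring, h3]
    ring

end RegCount

end Cfsg.Agent.Lib.helper4
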