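import Mathlib
import Cfsg.Agent.Lib.helper4.RegUnipCount

set_option autoImplicit false

/-!
# Regular nilpotent matrices: cyclic vectors and the commutant

For a nilpotent `n × n` matrix `N` of rank `n - 1`: `N ^ (n - 1) ≠ 0`; a matrix `Y` with
`Y ^ n = 0`, `Y ^ (n - 1) ≠ 0` has a cyclic vector; its commutant consists of the polynomials in
`Y`; a polynomial in `Y` vanishes iff its first `n` coefficients vanish.
-/

namespace Cfsg.Agent.Lib.helper4

open Polynomial Matrix

section RegLin

variable {F : Type*} [Field F]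

lemma finrank_ker_comp_le {V : Type*} [AddCommGroup V] [Module F V] [FiniteDimensional F V]
    (f g : V →ₗ[F] V) :
    Module.finrank F (LinearMap.ker (g ∘ₗ f))
      ≤ Module.finrank F (LinearMap.ker g) + Module.finrank F (LinearMap.ker f) := by
  obtain ⟨h, hh⟩ : ∃ h : LinearMap.ker (g ∘ₗ f) →ₗ[F] LinearMap.ker g,
      ∀ x, (h x).1 = f x.1 := by
    refine ⟨(f.domRestrict _).codRestrict _ (fun x => ?_), fun x => rfl⟩
    have := x.2
    rw [LinearMap.mem_ker] at this ⊢
    exact this
  have h1 := h.finrank_range_add_finrank_ker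
  have h2 : Module.finrank F (LinearMap.range h) ≤ Module.finrank F (LinearMap.ker g) :=
    Submodule.finrank_le _
  have h3 : Module.finrank F (LinearMap.ker h) ≤ Module.finrank F (LinearMap.ker f) := by
    obtain ⟨j, hj⟩ : ∃ j : LinearMap.ker h →ₗ[F] LinearMap.ker f, ∀ x, (j x).1 = x.1.1 := by
      refine ⟨((LinearMap.ker (g ∘ₗ f)).subtype ∘ₗ (LinearMap.ker h).subtype).codRestrict _
        (fun x => ?_), fun x => rfl⟩
      have := x.2
      rw [LinearMap.mem_ker] at this ⊢
      have h4 := congrArg Subtype.val this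
      rw [hh] at h4
      exact h4
    apply LinearMap.finrank_le_finrank_of_injective (f := j)
    intro x y hxy
    apply Subtype.ext
    apply Subtype.ext
    rw [← hj, ← hj, hxy]
  omega

lemma finrank_ker_pow_le {V : Type*} [AddCommGroup V] [Module F V] [FiniteDimensional F V]
    (f : V →ₗ[F] V) (k : ℕ) :
    Module.finrank F (LinearMap.ker (f ^ k)) ≤ k * Module.finrank F (LinearMap.ker f) := by
  induction k with
  | zero =>
    rw [pow_zero, zero_mul, Module.End.one_eq_id, LinearMap.ker_id, finrank_bot]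
  | succ k ih =>
    rw [pow_succ, Module.End.mul_eq_comp, add_mul, one_mul]
    have := finrank_ker_comp_le f (f ^ k)
    omega

lemma pow_pred_ne_zero_of_rank {ι : Type*} [Fintype ι] [DecidableEq ι] (N : Matrix ι ι F)
    (hn : 1 ≤ Fintype.card ι) (hr : N.rank = Fintype.card ι - 1) :
    N ^ (Fintype.card ι - 1) ≠ 0 := by
  intro h0
  have h1 := finrank_ker_pow_le (Matrix.toLin' N) (Fintype.card ι - 1)
  have h2 : Matrix.toLin' N ^ (Fintype.card ι - 1) = 0 := by
    have := map_pow (Matrix.toLinAlgEquiv' (R := F) (n := ι)) N (Fintype.card ι - 1)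
    rw [h0, map_zero] at this
    exact this.symm
  rw [h2, LinearMap.ker_zero, finrank_top, Module.finrank_fintype_fun_eq_card] at h1
  have h3 := (Matrix.toLin' N).finrank_range_add_finrank_ker
  rw [Module.finrank_fintype_fun_eq_card] at h3
  have h4 : Module.finrank F (LinearMap.range (Matrix.toLin' N)) = N.rank := rfl
  rw [h4, hr] at h3
  have h5 : Module.finrank F (LinearMap.ker (Matrix.toLin' N)) = 1 := by omega
  rw [h5, mul_one] at h1
  omega

lemma cyc_linInd {ι : Type*} [Fintype ι] [DecidableEq ι] (Y : Matrix ι ι F) (n : ℕ)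
    (hn : 1 ≤ n) (hY : Y ^ n = 0) (v : ι → F) (hv : (Y ^ (n - 1)).mulVec v ≠ 0) :
    LinearIndependent F (fun k : Fin n => (Y ^ (k : ℕ)).mulVec v) := by
  rw [Fintype.linearIndependent_iff]
  intro c hc
  have key : ∀ k : ℕ, ∀ hk : k < n, c ⟨k, hk⟩ = 0 := by
    intro k
    induction k using Nat.strong_induction_on with
    | _ k ih =>
      intro hk
      have h1 := congrArg (fun w => (Y ^ (n - 1 - k)).mulVec w) hc
      simp only [Matrix.mulVec_sum, Matrix.mulVec_smul, Matrix.mulVec_mulVec, ← pow_add,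
        Matrix.mulVec_zero] at h1
      rw [Finset.sum_eq_single ⟨k, hk⟩] at h1
      · rw [show n - 1 - k + k = n - 1 by omega] at h1
        rcases smul_eq_zero.mp h1 with h | h
        · exact h
        · exact absurd h hv
      · intro j _ hj
        by_cases hjk : (j : ℕ) < k
        · have := ih j hjk j.2
          rw [Fin.eta] at this
          rw [this, zero_smul]
        · have hjk' : (j : ℕ) ≠ k := fun h => hj (Fin.ext h)
          have hj2 := j.2
          rw [show n - 1 - k + (j : ℕ) = n + ((j : ℕ) - k - 1) by omega, pow_add, hY, zero_mul,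
            Matrix.zero_mulVec, smul_zero]
      · intro h
        exact absurd (Finset.mem_univ _) h
  intro k
  exact key k k.2

lemma exists_cyc_vec {ι : Type*} [Fintype ι] [DecidableEq ι] (Y : Matrix ι ι F) (n : ℕ)
    (hn : 1 ≤ n) (hY : Y ^ n = 0) (hY' : Y ^ (n - 1) ≠ 0) :
    ∃ v : ι → F, LinearIndependent F (fun k : Fin n => (Y ^ (k : ℕ)).mulVec v) := by
  have : ∃ v, (Y ^ (n - 1)).mulVec v ≠ 0 := by
    by_contra hcon
    rw [not_exists] at hcon
    apply hY'
    ext i j
    have := congrFun (not_not.mp (hcon (Pi.single j 1))) i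
    rw [Matrix.mulVec_single_one] at this
    exact this
  obtain ⟨v, hv⟩ := this
  exact ⟨v, cyc_linInd Y n hn hY v hv⟩

lemma aeval_of_pow_zero {ι : Type*} [Fintype ι] [DecidableEq ι] (Y : Matrix ι ι F) (n : ℕ)
    (hY : Y ^ n = 0) (r : F[X]) :
    aeval Y r = ∑ k : Fin n, r.coeff (k : ℕ) • Y ^ (k : ℕ) := by
  rw [aeval_eq_sum_range' (n := max n (r.natDegree + 1))
    (lt_max_of_lt_right (Nat.lt_succ_self _)) Y]
  rw [← Finset.sum_range (fun i => r.coeff i • Y ^ i)]
  symm
  apply Finset.sum_subset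
  · intro i hi
    rw [Finset.mem_range] at hi ⊢
    exact lt_max_of_lt_left hi
  · intro i _ hi
    rw [Finset.mem_range, not_lt] at hi
    obtain ⟨d, rfl⟩ := Nat.exists_eq_add_of_le hi
    rw [pow_add, hY, zero_mul, smul_zero]

lemma aeval_eq_zero_iff_coeff {ι : Type*} [Fintype ι] [DecidableEq ι] (Y : Matrix ι ι F)
    (n : ℕ) (hY : Y ^ n = 0) (v : ι → F)
    (hli : LinearIndependent F (fun k : Fin n => (Y ^ (k : ℕ)).mulVec v)) (r : F[X]) :
    aeval Y r = 0 ↔ ∀ k, k < n → r.coeff k = 0 := by
  rw [aeval_of_pow_zero Y n hY r]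
  constructor
  · intro h k hk
    have h1 := congrArg (fun M : Matrix ι ι F => M.mulVec v) h
    simp only [Matrix.sum_mulVec, Matrix.smul_mulVec, Matrix.zero_mulVec] at h1
    exact Fintype.linearIndependent_iff.mp hli (fun k => r.coeff (k : ℕ)) h1 ⟨k, hk⟩
  · intro h
    apply Finset.sum_eq_zero
    intro k _
    rw [h k k.2, zero_smul]

lemma commutant_eq_aeval {ι : Type*} [Fintype ι] [DecidableEq ι] (Y : Matrix ι ι F) (n : ℕ)
    (hn : Fintype.card ι = n) (hn1 : 1 ≤ n) (v : ι → F)
    (hli : LinearIndependent F (fun k : Fin n => (Y ^ (k : ℕ)).mulVec v))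
    (g : Matrix ι ι F) (hg : g * Y = Y * g) :
    ∃ p : F[X], (∀ k, n ≤ k → p.coeff k = 0) ∧ g = aeval Y p := by
  classical
  haveI : Nonempty (Fin n) := ⟨⟨0, by omega⟩⟩
  have hcard : Fintype.card (Fin n) = Module.finrank F (ι → F) := by
    rw [Fintype.card_fin, Module.finrank_fintype_fun_eq_card, hn]
  obtain ⟨b, hb⟩ : ∃ b : Module.Basis (Fin n) F (ι → F), ∀ k, b k = (Y ^ (k : ℕ)).mulVec v :=
    ⟨basisOfLinearIndependentOfCardEqFinrank hli hcard, fun k => by
      rw [coe_basisOfLinearIndependentOfCardEqFinrank]⟩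
  obtain ⟨p, hp⟩ : ∃ p : F[X], p = ∑ k : Fin n, monomial (k : ℕ) (b.repr (g.mulVec v) k) :=
    ⟨_, rfl⟩
  have hpv : (aeval Y p).mulVec v = g.mulVec v := by
    refine Eq.trans ?_ (b.sum_repr (g.mulVec v))
    rw [hp, map_sum, Matrix.sum_mulVec]
    apply Finset.sum_congr rfl
    intro k _
    rw [aeval_monomial, ← Algebra.smul_def, Matrix.smul_mulVec, hb]
  have hgk : ∀ k : ℕ, g * Y ^ k = Y ^ k * g := by
    intro k
    induction k with
    | zero => rw [pow_zero, mul_one, one_mul]
    | succ k ih => rw [pow_succ, ← mul_assoc, ih, mul_assoc, hg, ← mul_assoc]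
  have hcomm : ∀ k : ℕ, aeval Y p * Y ^ k = Y ^ k * aeval Y p := by
    intro k
    have : Y ^ k = aeval Y (X ^ k : F[X]) := by rw [aeval_X_pow]
    rw [this, ← map_mul, ← map_mul, mul_comm]
  refine ⟨p, ?_, ?_⟩
  · intro k hk
    rw [hp, finsetSum_coeff]
    apply Finset.sum_eq_zero
    intro j _
    rw [coeff_monomial, if_neg (by have := j.2; omega)]
  · apply Matrix.toLin'.injective
    apply b.ext
    intro k
    rw [Matrix.toLin'_apply, Matrix.toLin'_apply, hb, Matrix.mulVec_mulVec, Matrix.mulVec_mulVec,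
      hgk, hcomm, ← Matrix.mulVec_mulVec, ← Matrix.mulVec_mulVec, hpv]

lemma commute_aeval {ι : Type*} [Fintype ι] [DecidableEq ι] (U Y : Matrix ι ι F)
    (h : U * Y = Y * U) (p : F[X]) : U * aeval Y p = aeval Y p * U := by
  induction p using Polynomial.induction_on' with
  | add p q hp hq => rw [map_add, mul_add, add_mul, hp, hq]
  | monomial k a =>
    rw [aeval_monomial, ← Algebra.smul_def, Matrix.mul_smul, Matrix.smul_mul]
    congr 1
    induction k with
    | zero => rw [pow_zero, mul_one, one_mul]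
    | succ k ih => rw [pow_succ, ← mul_assoc, ih, mul_assoc, h, ← mul_assoc]

lemma aeval_transpose_mul {ι : Type*} [Fintype ι] [DecidableEq ι] (Y J : Matrix ι ι F)
    (h : Yᵀ * J = -(J * Y)) (p : F[X]) :
    (aeval Y p)ᵀ * J = J * aeval Y (p.comp (-X)) := by
  rw [aeval_comp, map_neg, aeval_X]
  induction p using Polynomial.induction_on' with
  | add p q hp hq => rw [map_add, map_add, Matrix.transpose_add, add_mul, mul_add, hp, hq]
  | monomial k a =>
    rw [aeval_monomial, aeval_monomial, ← Algebra.smul_def, ← Algebra.smul_def,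
      Matrix.transpose_smul, Matrix.smul_mul, Matrix.mul_smul]
    congr 1
    induction k with
    | zero => rw [pow_zero, pow_zero, Matrix.transpose_one, one_mul, mul_one]
    | succ k ih =>
      rw [pow_succ, Matrix.transpose_mul, mul_assoc, ih, ← mul_assoc, h, pow_succ', ← mul_assoc,
        mul_neg]

end RegLin

end Cfsg.Agent.Lib.helper4
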