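import Mathlib
import Cfsg.Agent.Lib.helper4.RegUnipLin

set_option autoImplicit false

/-!
# The centraliser of a regular unipotent element of `Sp_2m(q)`, `q` odd

With `Y = u - u⁻¹` (skew-adjoint, regular nilpotent) the centraliser of `u` in `Sp` is
`{p(Y) : p(-X) p(X) ≡ 1 mod X^(2m)}`, of order `2 q^m`.
-/

namespace Cfsg.Agent.Lib.helper4

open Polynomial Matrix

section RegSp

variable {F : Type*} [Field F]

theorem sp_card_centralizer_regular [Fintype F] {q : ℕ} (hF : Fintype.card F = q)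
    (h2 : (2 : F) ≠ 0) {m : ℕ} (hm : 1 ≤ m) (u : Matrix.symplecticGroup (Fin m) F)
    (hnil : ((u : Matrix (Fin m ⊕ Fin m) (Fin m ⊕ Fin m) F) - 1) ^ (2 * m) = 0)
    (hreg : ((u : Matrix (Fin m ⊕ Fin m) (Fin m ⊕ Fin m) F) - 1).rank = 2 * m - 1) :
    Nat.card ↥(Subgroup.centralizer ({u} : Set ↥(Matrix.symplecticGroup (Fin m) F)))
      = 2 * q ^ m := by
  classical
  have hcard : Fintype.card (Fin m ⊕ Fin m) = 2 * m := by
    rw [Fintype.card_sum, Fintype.card_fin]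
    ring
  have coe_mul : ∀ a b : Matrix.symplecticGroup (Fin m) F,
      ((a * b : Matrix.symplecticGroup (Fin m) F) : Matrix (Fin m ⊕ Fin m) (Fin m ⊕ Fin m) F)
        = (a : Matrix (Fin m ⊕ Fin m) (Fin m ⊕ Fin m) F) * b := fun a b => rfl
  have coe_one : ((1 : Matrix.symplecticGroup (Fin m) F) :
      Matrix (Fin m ⊕ Fin m) (Fin m ⊕ Fin m) F) = 1 := rfl
  obtain ⟨U, hU⟩ : ∃ U : Matrix (Fin m ⊕ Fin m) (Fin m ⊕ Fin m) F, U = u.1 := ⟨_, rfl⟩
  obtain ⟨V, hV⟩ : ∃ V : Matrix (Fin m ⊕ Fin m) (Fin m ⊕ Fin m) F, V = (u⁻¹).1 := ⟨_, rfl⟩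
  have hUV : U * V = 1 := by rw [hU, hV, ← coe_mul, mul_inv_cancel, coe_one]
  have hVU : V * U = 1 := by rw [hU, hV, ← coe_mul, inv_mul_cancel, coe_one]
  obtain ⟨J, hJ⟩ : ∃ J : Matrix (Fin m ⊕ Fin m) (Fin m ⊕ Fin m) F, J = Matrix.J (Fin m) F :=
    ⟨_, rfl⟩
  have hUJ : Uᵀ * J * U = J := by
    rw [hU, hJ]
    exact SymplecticGroup.mem_iff'.mp u.2
  have hVJ : Vᵀ * J * V = J := by
    rw [hV, hJ]
    exact SymplecticGroup.mem_iff'.mp (u⁻¹).2
  have hUJ' : Uᵀ * J = J * V := by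
    calc Uᵀ * J = Uᵀ * J * (U * V) := by rw [hUV, mul_one]
      _ = (Uᵀ * J * U) * V := by rw [← mul_assoc]
      _ = J * V := by rw [hUJ]
  have hVJ' : Vᵀ * J = J * U := by
    calc Vᵀ * J = Vᵀ * J * (V * U) := by rw [hVU, mul_one]
      _ = (Vᵀ * J * V) * U := by rw [← mul_assoc]
      _ = J * U := by rw [hVJ]
  obtain ⟨Y, hYdef⟩ : ∃ Y : Matrix (Fin m ⊕ Fin m) (Fin m ⊕ Fin m) F, Y = U - V := ⟨_, rfl⟩
  have hYJ : Yᵀ * J = -(J * Y) := by
    rw [hYdef, Matrix.transpose_sub, sub_mul, hUJ', hVJ', mul_sub, neg_sub]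
  obtain ⟨N, hN⟩ : ∃ N : Matrix (Fin m ⊕ Fin m) (Fin m ⊕ Fin m) F, N = U - 1 := ⟨_, rfl⟩
  have hnil' : N ^ (2 * m) = 0 := by
    rw [hN, hU]
    exact hnil
  have hreg' : N.rank = 2 * m - 1 := by
    rw [hN, hU]
    exact hreg
  have hNU : N * U = U * N := by rw [hN, sub_mul, mul_sub, one_mul, mul_one]
  have hNV : N * V = V * N := by rw [hN, sub_mul, mul_sub, one_mul, mul_one, hUV, hVU]
  obtain ⟨W, hW⟩ : ∃ W : Matrix (Fin m ⊕ Fin m) (Fin m ⊕ Fin m) F, W = (U + 1) * V := ⟨_, rfl⟩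
  have hYNW : Y = N * W := by
    rw [hYdef, hN, hW, ← mul_assoc]
    have : (U - 1) * (U + 1) = U * U - 1 := by
      rw [sub_mul, mul_add, mul_add, one_mul, mul_one, mul_one]
      abel
    rw [this, sub_mul, mul_assoc, hUV, mul_one, one_mul]
  have hNW : Commute N W := by
    rw [hW]
    exact (Commute.add_right hNU (Commute.one_right N)).mul_right hNV
  have h2u : IsUnit (2 : Matrix (Fin m ⊕ Fin m) (Fin m ⊕ Fin m) F) := by
    have := (IsUnit.mk0 (2 : F) h2).map (algebraMap F (Matrix (Fin m ⊕ Fin m) (Fin m ⊕ Fin m) F))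
    rwa [map_ofNat] at this
  have hWunit : IsUnit W := by
    rw [hW]
    apply IsUnit.mul
    · have h3 : U + 1 = 2 + N := by
        rw [hN, ← one_add_one_eq_two]
        abel
      rw [h3]
      refine IsNilpotent.isUnit_add_left_of_commute ⟨2 * m, hnil'⟩ h2u ?_
      rw [← one_add_one_eq_two]
      exact (Commute.one_right N).add_right (Commute.one_right N)
    · exact ⟨⟨V, U, hVU, hUV⟩, rfl⟩
  have hY0 : Y ^ (2 * m) = 0 := by rw [hYNW, hNW.mul_pow, hnil', zero_mul]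
  have hN1 : N ^ (2 * m - 1) ≠ 0 := by
    have := pow_pred_ne_zero_of_rank N (by rw [hcard]; omega) (by rw [hcard]; exact hreg')
    rwa [hcard] at this
  have hY1 : Y ^ (2 * m - 1) ≠ 0 := by
    rw [hYNW, hNW.mul_pow]
    intro h
    exact hN1 ((hWunit.pow _).mul_left_eq_zero.mp h)
  obtain ⟨v, hv⟩ := exists_cyc_vec Y (2 * m) (by omega) hY0 hY1
  have hUY : U * Y = Y * U := by rw [hYdef, mul_sub, sub_mul, hUV, hVU]
  have hJinv : J * J = -1 := by
    rw [hJ]
    exact Matrix.J_squared (Fin m) F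
  have hmem : ∀ p : F[X], aeval Y p ∈ Matrix.symplecticGroup (Fin m) F ↔
      ∀ k, k < 2 * m → (p.comp (-X) * p).coeff k = if k = 0 then 1 else 0 := by
    intro p
    rw [SymplecticGroup.mem_iff', ← hJ, aeval_transpose_mul Y J hYJ p, mul_assoc,
      ← map_mul]
    have h1 : J * aeval Y (p.comp (-X) * p) = J ↔ aeval Y (p.comp (-X) * p - 1) = 0 := by
      rw [map_sub, map_one, sub_eq_zero]
      constructor
      · intro h
        have h3 := congrArg (fun M => -(J * M)) h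
        simp only [← mul_assoc, hJinv, neg_mul, one_mul, neg_neg] at h3
        exact h3
      · intro h
        rw [h, mul_one]
    rw [h1, aeval_eq_zero_iff_coeff Y (2 * m) hY0 v hv]
    apply forall_congr'
    intro k
    apply imp_congr_right
    intro hk
    rw [coeff_sub, coeff_one, sub_eq_zero]
  obtain ⟨Φ, hΦ⟩ : ∃ Φ : {p : F[X] // IsRegSol (2 * m) p} →
      ↥(Subgroup.centralizer ({u} : Set ↥(Matrix.symplecticGroup (Fin m) F))),
      ∀ p, ((Φ p).1 : Matrix (Fin m ⊕ Fin m) (Fin m ⊕ Fin m) F) = aeval Y p.1 := by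
    refine ⟨fun p => ⟨⟨aeval Y p.1, (hmem p.1).mpr p.2.2⟩, ?_⟩, fun p => rfl⟩
    rw [Subgroup.mem_centralizer_singleton_iff]
    apply Subtype.ext
    rw [coe_mul, coe_mul]
    show aeval Y p.1 * u.1 = u.1 * aeval Y p.1
    rw [← hU]
    exact (commute_aeval U Y hUY p.1).symm
  have hinj : Function.Injective Φ := by
    intro p p' h
    have h1 : aeval Y (p.1 - p'.1) = 0 := by rw [map_sub, ← hΦ, ← hΦ, h, sub_self]
    rw [aeval_eq_zero_iff_coeff Y (2 * m) hY0 v hv] at h1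
    apply Subtype.ext
    ext k
    by_cases hk : k < 2 * m
    · have := h1 k hk
      rw [coeff_sub, sub_eq_zero] at this
      exact this
    · rw [p.2.1 k (by omega), p'.2.1 k (by omega)]
  have hsurj : Function.Surjective Φ := by
    intro g
    have hg := g.2
    rw [Subgroup.mem_centralizer_singleton_iff] at hg
    have hgU : g.1.1 * U = U * g.1.1 := by
      rw [hU, ← coe_mul, ← coe_mul, hg]
    have hgV : g.1.1 * V = V * g.1.1 := by
      calc g.1.1 * V = V * U * (g.1.1 * V) := by rw [hVU, one_mul]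
        _ = V * (U * g.1.1) * V := by simp only [mul_assoc]
        _ = V * (g.1.1 * U) * V := by rw [hgU]
        _ = V * g.1.1 * (U * V) := by simp only [mul_assoc]
        _ = V * g.1.1 := by rw [hUV, mul_one]
    have hgY : g.1.1 * Y = Y * g.1.1 := by rw [hYdef, mul_sub, sub_mul, hgU, hgV]
    obtain ⟨p, hp1, hp2⟩ := commutant_eq_aeval Y (2 * m) hcard (by omega) v hv g.1.1 hgY
    have hp3 : IsRegSol (2 * m) p := ⟨hp1, (hmem p).mp (by rw [← hp2]; exact g.1.2)⟩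
    refine ⟨⟨p, hp3⟩, ?_⟩
    apply Subtype.ext
    apply Subtype.ext
    rw [hΦ]
    exact hp2.symm
  rw [← Nat.card_congr (Equiv.ofBijective Φ ⟨hinj, hsurj⟩)]
  obtain ⟨m', rfl⟩ : ∃ m', m = m' + 1 := ⟨m - 1, by omega⟩
  exact card_regSol hF h2 m'

end RegSp

end Cfsg.Agent.Lib.helper4
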