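import Mathlib
import Cfsg.Agent.Lib.helper4.RegUnipSp
import Cfsg.Agent.Lib.helper4.SpTI

set_option autoImplicit false

/-!
# Regular unipotent elements of `Sp_2m(q)`, `q` odd: the two classes

For `Y` skew-adjoint with `Y ^ (2m) = 0` and a cyclic vector `v`, the class of
`κ = ω(v, Y^(2m-1) v)` modulo squares is an invariant; cyclic vectors can be normalised so that
the Gram matrix of `(Y^i v)` only depends on `κ`.
-/

namespace Cfsg.Agent.Lib.helper4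

open Polynomial Matrix
open Cfsg.Agent.S0776 Cfsg.Agent.S0766 Cfsg.Agent.S0765

section RegClass

variable {F : Type*} [Field F] {m : ℕ}

lemma sf_zero_right (x : Fin m ⊕ Fin m → F) : Cfsg.sympForm m F x 0 = 0 := by
  have := sf_smul_right (0 : F) x 0
  rw [zero_smul, zero_mul] at this
  exact this

lemma sf_sum_left {ι : Type*} (s : Finset ι) (c : ι → F) (x : ι → (Fin m ⊕ Fin m → F))
    (z : Fin m ⊕ Fin m → F) :
    Cfsg.sympForm m F (∑ i ∈ s, c i • x i) z = ∑ i ∈ s, c i * Cfsg.sympForm m F (x i) z := by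
  classical
  induction s using Finset.induction_on with
  | empty =>
    rw [Finset.sum_empty, Finset.sum_empty]
    have := sf_smul_left (0 : F) (0 : Fin m ⊕ Fin m → F) z
    rw [zero_smul, zero_mul] at this
    exact this
  | insert a s ha ih => rw [Finset.sum_insert ha, Finset.sum_insert ha, sf_add_left, sf_smul_left, ih]

lemma sf_skew (Y : Matrix (Fin m ⊕ Fin m) (Fin m ⊕ Fin m) F)
    (hYJ : Yᵀ * J (Fin m) F = -(J (Fin m) F * Y)) (x y : Fin m ⊕ Fin m → F) :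
    Cfsg.sympForm m F (Y *ᵥ x) y = -Cfsg.sympForm m F x (Y *ᵥ y) := by
  unfold Cfsg.sympForm
  rw [← Matrix.vecMul_transpose, ← Matrix.dotProduct_mulVec, Matrix.mulVec_mulVec, hYJ,
    Matrix.neg_mulVec, dotProduct_neg, ← Matrix.mulVec_mulVec]

lemma sf_skew_pow (Y : Matrix (Fin m ⊕ Fin m) (Fin m ⊕ Fin m) F)
    (hYJ : Yᵀ * J (Fin m) F = -(J (Fin m) F * Y)) (i : ℕ) (x y : Fin m ⊕ Fin m → F) :
    Cfsg.sympForm m F ((Y ^ i) *ᵥ x) y = (-1) ^ i * Cfsg.sympForm m F x ((Y ^ i) *ᵥ y) := by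
  induction i generalizing x y with
  | zero => rw [pow_zero, pow_zero, Matrix.one_mulVec, Matrix.one_mulVec, one_mul]
  | succ i ih =>
    have e1 : (Y ^ (i + 1)) *ᵥ x = (Y ^ i) *ᵥ (Y *ᵥ x) := by
      rw [pow_succ, Matrix.mulVec_mulVec]
    have e2 : (Y ^ (i + 1)) *ᵥ y = Y *ᵥ ((Y ^ i) *ᵥ y) := by
      rw [pow_succ', Matrix.mulVec_mulVec]
    rw [e1, e2, ih, sf_skew Y hYJ, pow_succ]
    ring

lemma sf_gram_pow (Y : Matrix (Fin m ⊕ Fin m) (Fin m ⊕ Fin m) F)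
    (hYJ : Yᵀ * J (Fin m) F = -(J (Fin m) F * Y)) (i j : ℕ) (w : Fin m ⊕ Fin m → F) :
    Cfsg.sympForm m F ((Y ^ i) *ᵥ w) ((Y ^ j) *ᵥ w)
      = (-1) ^ i * Cfsg.sympForm m F w ((Y ^ (i + j)) *ᵥ w) := by
  rw [sf_skew_pow Y hYJ, Matrix.mulVec_mulVec, ← pow_add]

lemma sf_pow_zero_of_le (Y : Matrix (Fin m ⊕ Fin m) (Fin m ⊕ Fin m) F)
    (hY0 : Y ^ (2 * m) = 0) (n : ℕ) (hn : 2 * m ≤ n) (w z : Fin m ⊕ Fin m → F) :
    Cfsg.sympForm m F w ((Y ^ n) *ᵥ z) = 0 := by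
  obtain ⟨d, rfl⟩ := Nat.exists_eq_add_of_le hn
  rw [pow_add, hY0, zero_mul, Matrix.zero_mulVec, sf_zero_right]

lemma sf_lam_even (h2 : (2 : F) ≠ 0) (Y : Matrix (Fin m ⊕ Fin m) (Fin m ⊕ Fin m) F)
    (hYJ : Yᵀ * J (Fin m) F = -(J (Fin m) F * Y)) (k : ℕ) (hk : Even k)
    (w : Fin m ⊕ Fin m → F) : Cfsg.sympForm m F w ((Y ^ k) *ᵥ w) = 0 := by
  have h1 := sf_anti w ((Y ^ k) *ᵥ w)
  rw [sf_skew_pow Y hYJ, hk.neg_one_pow, one_mul] at h1
  have h3 : (2 : F) * Cfsg.sympForm m F w ((Y ^ k) *ᵥ w) = 0 := by linear_combination h1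
  rcases mul_eq_zero.mp h3 with h | h
  · exact absurd h h2
  · exact h

/-- the value `κ` of a combination of the `Y^i v` -/
lemma kappa_sum (hm : 1 ≤ m) (Y : Matrix (Fin m ⊕ Fin m) (Fin m ⊕ Fin m) F)
    (hYJ : Yᵀ * J (Fin m) F = -(J (Fin m) F * Y)) (hY0 : Y ^ (2 * m) = 0)
    (v : Fin m ⊕ Fin m → F) (c : Fin (2 * m) → F) :
    Cfsg.sympForm m F (∑ i, c i • (Y ^ (i : ℕ)) *ᵥ v)
        ((Y ^ (2 * m - 1)) *ᵥ (∑ i, c i • (Y ^ (i : ℕ)) *ᵥ v))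
      = c ⟨0, by omega⟩ ^ 2 * Cfsg.sympForm m F v ((Y ^ (2 * m - 1)) *ᵥ v) := by
  have hA : (Y ^ (2 * m - 1)) *ᵥ (∑ i, c i • (Y ^ (i : ℕ)) *ᵥ v)
      = c ⟨0, by omega⟩ • (Y ^ (2 * m - 1)) *ᵥ v := by
    simp only [Matrix.mulVec_sum, Matrix.mulVec_smul, Matrix.mulVec_mulVec, ← pow_add]
    rw [Finset.sum_eq_single ⟨0, by omega⟩]
    · rfl
    · intro i _ hi
      have hi0 : (i : ℕ) ≠ 0 := fun h => hi (Fin.ext h)
      rw [show 2 * m - 1 + (i : ℕ) = 2 * m + ((i : ℕ) - 1) by omega, pow_add, hY0, zero_mul,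
        Matrix.zero_mulVec, smul_zero]
    · intro h
      exact absurd (Finset.mem_univ _) h
  rw [hA, sf_smul_right, sf_sum_left, Finset.sum_eq_single ⟨0, by omega⟩]
  · show c ⟨0, by omega⟩ * (c ⟨0, by omega⟩ * Cfsg.sympForm m F ((Y ^ 0) *ᵥ v) _) = _
    rw [pow_zero, Matrix.one_mulVec]
    ring
  · intro i _ hi
    have hi0 : (i : ℕ) ≠ 0 := fun h => hi (Fin.ext h)
    rw [sf_gram_pow Y hYJ, sf_pow_zero_of_le Y hY0 _ (by omega), mul_zero, mul_zero]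
  · intro h
    exact absurd (Finset.mem_univ _) h

/-- `κ ≠ 0` for a cyclic vector -/
lemma kappa_ne_zero (hm : 1 ≤ m) (Y : Matrix (Fin m ⊕ Fin m) (Fin m ⊕ Fin m) F)
    (hYJ : Yᵀ * J (Fin m) F = -(J (Fin m) F * Y)) (hY0 : Y ^ (2 * m) = 0)
    (v : Fin m ⊕ Fin m → F) (hv : (Y ^ (2 * m - 1)) *ᵥ v ≠ 0) :
    Cfsg.sympForm m F v ((Y ^ (2 * m - 1)) *ᵥ v) ≠ 0 := by
  classical
  intro h0
  have hli := cyc_linInd Y (2 * m) (by omega) hY0 v hv
  haveI : Nonempty (Fin (2 * m)) := ⟨⟨0, by omega⟩⟩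
  have hcard : Fintype.card (Fin (2 * m)) = Module.finrank F (Fin m ⊕ Fin m → F) := by
    rw [Fintype.card_fin, Module.finrank_fintype_fun_eq_card, Fintype.card_sum, Fintype.card_fin]
    ring
  obtain ⟨b, hb⟩ : ∃ b : Module.Basis (Fin (2 * m)) F (Fin m ⊕ Fin m → F),
      ∀ k, b k = (Y ^ (k : ℕ)) *ᵥ v :=
    ⟨basisOfLinearIndependentOfCardEqFinrank hli hcard, fun k => by
      rw [coe_basisOfLinearIndependentOfCardEqFinrank]⟩
  apply hv
  apply sB_nondeg.2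
  intro x
  rw [sB_apply, ← b.sum_repr x, sf_sum_left]
  apply Finset.sum_eq_zero
  intro i _
  rw [hb, sf_gram_pow Y hYJ]
  by_cases hi : (i : ℕ) = 0
  · rw [hi, zero_add, h0, mul_zero, mul_zero]
  · rw [sf_pow_zero_of_le Y hY0 _ (by omega), mul_zero, mul_zero]

/-- `κ` of any vector is a square multiple of `κ` of a cyclic vector -/
lemma kappa_sq (hm : 1 ≤ m) (Y : Matrix (Fin m ⊕ Fin m) (Fin m ⊕ Fin m) F)
    (hYJ : Yᵀ * J (Fin m) F = -(J (Fin m) F * Y)) (hY0 : Y ^ (2 * m) = 0)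
    (v : Fin m ⊕ Fin m → F) (hv : (Y ^ (2 * m - 1)) *ᵥ v ≠ 0) (v' : Fin m ⊕ Fin m → F) :
    ∃ a : F, Cfsg.sympForm m F v' ((Y ^ (2 * m - 1)) *ᵥ v')
      = a ^ 2 * Cfsg.sympForm m F v ((Y ^ (2 * m - 1)) *ᵥ v) := by
  classical
  have hli := cyc_linInd Y (2 * m) (by omega) hY0 v hv
  haveI : Nonempty (Fin (2 * m)) := ⟨⟨0, by omega⟩⟩
  have hcard : Fintype.card (Fin (2 * m)) = Module.finrank F (Fin m ⊕ Fin m → F) := by
    rw [Fintype.card_fin, Module.finrank_fintype_fun_eq_card, Fintype.card_sum, Fintype.card_fin]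
    ring
  obtain ⟨b, hb⟩ : ∃ b : Module.Basis (Fin (2 * m)) F (Fin m ⊕ Fin m → F),
      ∀ k, b k = (Y ^ (k : ℕ)) *ᵥ v :=
    ⟨basisOfLinearIndependentOfCardEqFinrank hli hcard, fun k => by
      rw [coe_basisOfLinearIndependentOfCardEqFinrank]⟩
  have h1 := kappa_sum hm Y hYJ hY0 v (fun i => b.repr v' i)
  have h2 : (∑ i, b.repr v' i • (Y ^ (i : ℕ)) *ᵥ v) = v' := by
    refine Eq.trans ?_ (b.sum_repr v')
    apply Finset.sum_congr rfl
    intro i _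
    rw [hb]
  rw [h2] at h1
  exact ⟨_, h1⟩

lemma kappa_expand (Y : Matrix (Fin m ⊕ Fin m) (Fin m ⊕ Fin m) F)
    (hYJ : Yᵀ * J (Fin m) F = -(J (Fin m) F * Y)) (w : Fin m ⊕ Fin m → F) (t : F) (j k : ℕ) :
    Cfsg.sympForm m F (w + t • (Y ^ j) *ᵥ w) ((Y ^ k) *ᵥ (w + t • (Y ^ j) *ᵥ w))
      = Cfsg.sympForm m F w ((Y ^ k) *ᵥ w) + t * Cfsg.sympForm m F w ((Y ^ (k + j)) *ᵥ w)
        + t * ((-1) ^ j * Cfsg.sympForm m F w ((Y ^ (j + k)) *ᵥ w))
        + t * (t * ((-1) ^ j * Cfsg.sympForm m F w ((Y ^ (j + (k + j))) *ᵥ w))) := by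
  have e : (Y ^ k) *ᵥ (w + t • (Y ^ j) *ᵥ w) = (Y ^ k) *ᵥ w + t • (Y ^ (k + j)) *ᵥ w := by
    rw [Matrix.mulVec_add, Matrix.mulVec_smul, Matrix.mulVec_mulVec, ← pow_add]
  rw [e, sf_add_left, sf_add_right, sf_add_right, sf_smul_right, sf_smul_left, sf_smul_left,
    sf_smul_right, sf_gram_pow Y hYJ j k, sf_gram_pow Y hYJ j (k + j)]
  ring

/-- normalisation of a cyclic vector -/
lemma exists_normalized (h2 : (2 : F) ≠ 0) (hm : 1 ≤ m)
    (Y : Matrix (Fin m ⊕ Fin m) (Fin m ⊕ Fin m) F)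
    (hYJ : Yᵀ * J (Fin m) F = -(J (Fin m) F * Y)) (hY0 : Y ^ (2 * m) = 0)
    (v : Fin m ⊕ Fin m → F) (hκ : Cfsg.sympForm m F v ((Y ^ (2 * m - 1)) *ᵥ v) ≠ 0) :
    ∃ w, Cfsg.sympForm m F w ((Y ^ (2 * m - 1)) *ᵥ w)
        = Cfsg.sympForm m F v ((Y ^ (2 * m - 1)) *ᵥ v) ∧
      ∀ k, k < 2 * m - 1 → Cfsg.sympForm m F w ((Y ^ k) *ᵥ w) = 0 := by
  have key : ∀ s : ℕ, ∃ w, Cfsg.sympForm m F w ((Y ^ (2 * m - 1)) *ᵥ w)
        = Cfsg.sympForm m F v ((Y ^ (2 * m - 1)) *ᵥ v) ∧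
      ∀ k, 2 * m - 1 - s ≤ k → k < 2 * m - 1 → Cfsg.sympForm m F w ((Y ^ k) *ᵥ w) = 0 := by
    intro s
    induction s with
    | zero => exact ⟨v, rfl, fun k hk1 hk2 => absurd hk1 (by omega)⟩
    | succ s ih =>
      obtain ⟨w, hw1, hw2⟩ := ih
      by_cases hs : s + 1 ≤ 2 * m - 1
      · by_cases hj : Even (s + 1)
        · obtain ⟨t, ht⟩ : ∃ t : F, t = -(Cfsg.sympForm m F w ((Y ^ (2 * m - 1 - (s + 1))) *ᵥ w))
              / (2 * Cfsg.sympForm m F v ((Y ^ (2 * m - 1)) *ᵥ v)) := ⟨_, rfl⟩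
          refine ⟨w + t • (Y ^ (s + 1)) *ᵥ w, ?_, ?_⟩
          · rw [kappa_expand Y hYJ, sf_pow_zero_of_le Y hY0 (2 * m - 1 + (s + 1)) (by omega),
              sf_pow_zero_of_le Y hY0 (s + 1 + (2 * m - 1)) (by omega),
              sf_pow_zero_of_le Y hY0 (s + 1 + (2 * m - 1 + (s + 1))) (by omega), hw1]
            ring
          · intro k hk1 hk2
            rw [kappa_expand Y hYJ]
            by_cases hk : k = 2 * m - 1 - (s + 1)
            · have e1 : k + (s + 1) = 2 * m - 1 := by omega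
              have e2 : s + 1 + k = 2 * m - 1 := by omega
              rw [e1, e2, sf_pow_zero_of_le Y hY0 (s + 1 + (2 * m - 1)) (by omega), hw1,
                hj.neg_one_pow, hk, ht]
              field_simp
              ring
            · rw [hw2 k (by omega) hk2, sf_pow_zero_of_le Y hY0 (k + (s + 1)) (by omega),
                sf_pow_zero_of_le Y hY0 (s + 1 + k) (by omega),
                sf_pow_zero_of_le Y hY0 (s + 1 + (k + (s + 1))) (by omega)]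
              ring
        · refine ⟨w, hw1, fun k hk1 hk2 => ?_⟩
          by_cases hk : k = 2 * m - 1 - (s + 1)
          · apply sf_lam_even h2 Y hYJ
            rw [hk]
            obtain ⟨r, hr⟩ := Nat.not_even_iff_odd.mp hj
            exact ⟨m - 1 - r, by omega⟩
          · exact hw2 k (by omega) hk2
      · exact ⟨w, hw1, fun k hk1 hk2 => hw2 k (by omega) hk2⟩
  obtain ⟨w, hw1, hw2⟩ := key (2 * m - 1)
  exact ⟨w, hw1, fun k hk => hw2 k (by omega) hk⟩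

lemma gram_normalized (Y : Matrix (Fin m ⊕ Fin m) (Fin m ⊕ Fin m) F)
    (hYJ : Yᵀ * J (Fin m) F = -(J (Fin m) F * Y)) (hY0 : Y ^ (2 * m) = 0)
    (w : Fin m ⊕ Fin m → F)
    (hw : ∀ k, k < 2 * m - 1 → Cfsg.sympForm m F w ((Y ^ k) *ᵥ w) = 0) (i j : ℕ) :
    Cfsg.sympForm m F ((Y ^ i) *ᵥ w) ((Y ^ j) *ᵥ w)
      = (-1) ^ i * (if i + j = 2 * m - 1 then Cfsg.sympForm m F w ((Y ^ (2 * m - 1)) *ᵥ w)
          else 0) := by
  rw [sf_gram_pow Y hYJ]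
  by_cases h : i + j = 2 * m - 1
  · rw [if_pos h, h]
  · rw [if_neg h]
    by_cases h' : i + j < 2 * m - 1
    · rw [hw _ h']
    · rw [sf_pow_zero_of_le Y hY0 _ (by omega)]

/-- a unipotent `u` is determined by `u - u⁻¹` among commuting unipotents -/
lemma unip_unique {ι : Type*} [Fintype ι] [DecidableEq ι] (h2 : (2 : F) ≠ 0)
    (U₁ V₁ U₂ V₂ : Matrix ι ι F)
    (h11 : U₁ * V₁ = 1) (h12 : V₁ * U₁ = 1) (h21 : U₂ * V₂ = 1) (h22 : V₂ * U₂ = 1)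
    (hY : U₁ - V₁ = U₂ - V₂) (hn1 : IsNilpotent (U₁ - 1)) (hn2 : IsNilpotent (U₂ - 1))
    (hcomm : Commute U₁ U₂) : U₁ = U₂ := by
  have c21 : Commute V₂ U₁ := by
    show V₂ * U₁ = U₁ * V₂
    calc V₂ * U₁ = V₂ * U₁ * (U₂ * V₂) := by rw [h21, mul_one]
      _ = V₂ * (U₁ * U₂) * V₂ := by simp only [mul_assoc]
      _ = V₂ * (U₂ * U₁) * V₂ := by rw [hcomm.eq]
      _ = (V₂ * U₂) * U₁ * V₂ := by simp only [mul_assoc]
      _ = U₁ * V₂ := by rw [h22, one_mul]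
  have cVV : Commute V₁ V₂ := by
    show V₁ * V₂ = V₂ * V₁
    calc V₁ * V₂ = V₁ * V₂ * (U₁ * V₁) := by rw [h11, mul_one]
      _ = V₁ * (V₂ * U₁) * V₁ := by simp only [mul_assoc]
      _ = V₁ * (U₁ * V₂) * V₁ := by rw [c21.eq]
      _ = (V₁ * U₁) * V₂ * V₁ := by simp only [mul_assoc]
      _ = V₂ * V₁ := by rw [h12, one_mul]
  have hD : U₁ - U₂ = V₁ - V₂ := by
    have := hY
    rw [sub_eq_iff_eq_add] at this
    rw [this]
    abel
  have hD2 : V₁ * V₂ * (U₁ - U₂) = -(V₁ - V₂) := by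
    rw [mul_sub, mul_assoc, c21.eq, ← mul_assoc, h12, one_mul, mul_assoc, h22, mul_one]
    abel
  have hkey : (1 + V₁ * V₂) * (U₁ - U₂) = 0 := by
    rw [add_mul, one_mul, hD2, hD]
    abel
  have n1 : IsNilpotent (V₁ - 1) := by
    have e : V₁ - 1 = -(V₁ * (U₁ - 1)) := by
      rw [mul_sub, h12, mul_one]
      abel
    rw [e]
    apply IsNilpotent.neg
    have c : Commute V₁ (U₁ - 1) :=
      Commute.sub_right (show V₁ * U₁ = U₁ * V₁ by rw [h12, h11]) (Commute.one_right _)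
    exact c.isNilpotent_mul_left hn1
  have n2 : IsNilpotent (V₂ - 1) := by
    have e : V₂ - 1 = -(V₂ * (U₂ - 1)) := by
      rw [mul_sub, h22, mul_one]
      abel
    rw [e]
    apply IsNilpotent.neg
    have c : Commute V₂ (U₂ - 1) :=
      Commute.sub_right (show V₂ * U₂ = U₂ * V₂ by rw [h22, h21]) (Commute.one_right _)
    exact c.isNilpotent_mul_left hn2
  have hnil : IsNilpotent (V₁ * V₂ - 1) := by
    have e : V₁ * V₂ - 1 = (V₁ - 1) * V₂ + (V₂ - 1) := by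
      rw [sub_mul, one_mul]
      abel
    rw [e]
    have c1 : Commute (V₁ - 1) V₂ := cVV.sub_left (Commute.one_left _)
    exact Commute.isNilpotent_add ((c1.mul_left (Commute.refl V₂)).sub_right (Commute.one_right _))
      (c1.isNilpotent_mul_right n1) n2
  have h2u : IsUnit (2 : Matrix ι ι F) := by
    have := (IsUnit.mk0 (2 : F) h2).map (algebraMap F (Matrix ι ι F))
    rwa [map_ofNat] at this
  have hunit : IsUnit (1 + V₁ * V₂) := by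
    have e : 1 + V₁ * V₂ = 2 + (V₁ * V₂ - 1) := by
      rw [← one_add_one_eq_two]
      abel
    rw [e]
    refine IsNilpotent.isUnit_add_left_of_commute hnil h2u ?_
    rw [← one_add_one_eq_two]
    exact (Commute.one_right _).add_right (Commute.one_right _)
  exact sub_eq_zero.mp (hunit.mul_right_eq_zero.mp hkey)

lemma rank_of_pow_pred_ne_zero {ι : Type*} [Fintype ι] [DecidableEq ι] (N : Matrix ι ι F)
    (n : ℕ) (hn : Fintype.card ι = n) (hn1 : 1 ≤ n) (hN : N ^ n = 0) (hN' : N ^ (n - 1) ≠ 0) :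
    N.rank = n - 1 := by
  obtain ⟨v, hv⟩ := exists_cyc_vec N n hn1 hN hN'
  have h3 := (Matrix.toLin' N).finrank_range_add_finrank_ker
  rw [Module.finrank_fintype_fun_eq_card, hn] at h3
  have h4 : Module.finrank F (LinearMap.range (Matrix.toLin' N)) = N.rank := rfl
  have h5 : 1 ≤ Module.finrank F (LinearMap.ker (Matrix.toLin' N)) := by
    have hz : (N ^ (n - 1)).mulVec v ≠ 0 := hv.ne_zero ⟨n - 1, by omega⟩
    rw [Nat.succ_le_iff, Module.finrank_pos_iff_exists_ne_zero]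
    refine ⟨⟨(N ^ (n - 1)).mulVec v, ?_⟩, fun h => hz (congrArg Subtype.val h)⟩
    rw [LinearMap.mem_ker, Matrix.toLin'_apply, Matrix.mulVec_mulVec, ← pow_succ',
      show n - 1 + 1 = n by omega, hN, Matrix.zero_mulVec]
  have h6 : n - 1 ≤ Module.finrank F (LinearMap.range (Matrix.toLin' N)) := by
    have hli' : LinearIndependent F (fun k : Fin (n - 1) => (N ^ ((k : ℕ) + 1)).mulVec v) := by
      have := hv.comp (fun k : Fin (n - 1) => (⟨(k : ℕ) + 1, by have := k.2; omega⟩ : Fin n))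
        (fun a b h => by
          apply Fin.ext
          have := congrArg Fin.val h
          simp only at this
          omega)
      exact this
    have h7 := finrank_span_eq_card hli'
    rw [Fintype.card_fin] at h7
    rw [← h7]
    apply Submodule.finrank_mono
    rw [Submodule.span_le]
    rintro _ ⟨k, rfl⟩
    refine ⟨(N ^ (k : ℕ)).mulVec v, ?_⟩
    rw [Matrix.toLin'_apply, Matrix.mulVec_mulVec, ← pow_succ']
  omega

/-- `Y = u - u⁻¹` -/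
def spY (u : Matrix.symplecticGroup (Fin m) F) : Matrix (Fin m ⊕ Fin m) (Fin m ⊕ Fin m) F :=
  (u : Matrix (Fin m ⊕ Fin m) (Fin m ⊕ Fin m) F)
    - ((u⁻¹ : Matrix.symplecticGroup (Fin m) F) : Matrix (Fin m ⊕ Fin m) (Fin m ⊕ Fin m) F)

lemma sp_mul_inv_val (u : Matrix.symplecticGroup (Fin m) F) :
    (u : Matrix (Fin m ⊕ Fin m) (Fin m ⊕ Fin m) F)
      * ((u⁻¹ : Matrix.symplecticGroup (Fin m) F) : Matrix (Fin m ⊕ Fin m) (Fin m ⊕ Fin m) F)
      = 1 := by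
  rw [← val_mul, mul_inv_cancel]
  rfl

lemma sp_inv_mul_val (u : Matrix.symplecticGroup (Fin m) F) :
    ((u⁻¹ : Matrix.symplecticGroup (Fin m) F) : Matrix (Fin m ⊕ Fin m) (Fin m ⊕ Fin m) F)
      * (u : Matrix (Fin m ⊕ Fin m) (Fin m ⊕ Fin m) F) = 1 := by
  rw [← val_mul, inv_mul_cancel]
  rfl

lemma spY_skew (u : Matrix.symplecticGroup (Fin m) F) :
    (spY u)ᵀ * J (Fin m) F = -(J (Fin m) F * spY u) := by
  have hUV := sp_mul_inv_val u
  have hVU := sp_inv_mul_val u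
  have hUJ := SymplecticGroup.mem_iff'.mp u.2
  have hVJ := SymplecticGroup.mem_iff'.mp (u⁻¹).2
  obtain ⟨U, hU⟩ : ∃ U : Matrix (Fin m ⊕ Fin m) (Fin m ⊕ Fin m) F, U = u.1 := ⟨_, rfl⟩
  obtain ⟨V, hV⟩ : ∃ V : Matrix (Fin m ⊕ Fin m) (Fin m ⊕ Fin m) F, V = (u⁻¹).1 := ⟨_, rfl⟩
  have e : spY u = U - V := by rw [hU, hV]; rfl
  rw [← hU] at hUJ hUV hVU
  rw [← hV] at hVJ hUV hVU
  have hUJ' : Uᵀ * J (Fin m) F = J (Fin m) F * V := by
    calc Uᵀ * J (Fin m) F = Uᵀ * J (Fin m) F * (U * V) := by rw [hUV, mul_one]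
      _ = (Uᵀ * J (Fin m) F * U) * V := by rw [← mul_assoc]
      _ = J (Fin m) F * V := by rw [hUJ]
  have hVJ' : Vᵀ * J (Fin m) F = J (Fin m) F * U := by
    calc Vᵀ * J (Fin m) F = Vᵀ * J (Fin m) F * (V * U) := by rw [hVU, mul_one]
      _ = (Vᵀ * J (Fin m) F * V) * U := by rw [← mul_assoc]
      _ = J (Fin m) F * U := by rw [hVJ]
  rw [e, Matrix.transpose_sub, sub_mul, hUJ', hVJ', mul_sub, neg_sub]

lemma spY_regular (h2 : (2 : F) ≠ 0) (hm : 1 ≤ m) (u : Matrix.symplecticGroup (Fin m) F)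
    (hnil : ((u : Matrix (Fin m ⊕ Fin m) (Fin m ⊕ Fin m) F) - 1) ^ (2 * m) = 0)
    (hreg : ((u : Matrix (Fin m ⊕ Fin m) (Fin m ⊕ Fin m) F) - 1).rank = 2 * m - 1) :
    spY u ^ (2 * m) = 0 ∧ spY u ^ (2 * m - 1) ≠ 0 := by
  classical
  have hcard : Fintype.card (Fin m ⊕ Fin m) = 2 * m := by
    rw [Fintype.card_sum, Fintype.card_fin]
    ring
  have hUV := sp_mul_inv_val u
  have hVU := sp_inv_mul_val u
  obtain ⟨U, hU⟩ : ∃ U : Matrix (Fin m ⊕ Fin m) (Fin m ⊕ Fin m) F, U = u.1 := ⟨_, rfl⟩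
  obtain ⟨V, hV⟩ : ∃ V : Matrix (Fin m ⊕ Fin m) (Fin m ⊕ Fin m) F, V = (u⁻¹).1 := ⟨_, rfl⟩
  have e : spY u = U - V := by rw [hU, hV]; rfl
  rw [← hU] at hUV hVU hnil hreg
  rw [← hV] at hUV hVU
  obtain ⟨N, hN⟩ : ∃ N : Matrix (Fin m ⊕ Fin m) (Fin m ⊕ Fin m) F, N = U - 1 := ⟨_, rfl⟩
  rw [← hN] at hnil hreg
  have hNU : N * U = U * N := by rw [hN, sub_mul, mul_sub, one_mul, mul_one]
  have hNV : N * V = V * N := by rw [hN, sub_mul, mul_sub, one_mul, mul_one, hUV, hVU]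
  obtain ⟨W, hW⟩ : ∃ W : Matrix (Fin m ⊕ Fin m) (Fin m ⊕ Fin m) F, W = (U + 1) * V := ⟨_, rfl⟩
  have hYNW : U - V = N * W := by
    rw [hN, hW, ← mul_assoc]
    have : (U - 1) * (U + 1) = U * U - 1 := by
      rw [sub_mul, mul_add, mul_add, one_mul, mul_one, mul_one]
      abel
    rw [this, sub_mul, mul_assoc, hUV, mul_one, one_mul]
  have hNW : Commute N W := by
    rw [hW]
    exact (Commute.add_right hNU (Commute.one_right N)).mul_right hNV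
  have h2u : IsUnit (2 : Matrix (Fin m ⊕ Fin m) (Fin m ⊕ Fin m) F) := by
    have := (IsUnit.mk0 (2 : F) h2).map (algebraMap F (Matrix (Fin m ⊕ Fin m) (Fin m ⊕ Fin m) F))
    rwa [map_ofNat] at this
  have hWunit : IsUnit W := by
    rw [hW]
    apply IsUnit.mul
    · have h3 : U + 1 = 2 + N := by
        rw [hN, ← one_add_one_eq_two]
        abel
      rw [h3]
      refine IsNilpotent.isUnit_add_left_of_commute ⟨2 * m, hnil⟩ h2u ?_
      rw [← one_add_one_eq_two]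
      exact (Commute.one_right N).add_right (Commute.one_right N)
    · exact ⟨⟨V, U, hVU, hUV⟩, rfl⟩
  have hN1 : N ^ (2 * m - 1) ≠ 0 := by
    have := pow_pred_ne_zero_of_rank N (by rw [hcard]; omega) (by rw [hcard]; exact hreg)
    rwa [hcard] at this
  rw [e, hYNW, hNW.mul_pow, hNW.mul_pow, hnil, zero_mul]
  refine ⟨rfl, fun h => hN1 ((hWunit.pow _).mul_left_eq_zero.mp h)⟩

lemma conj_pow_mat {ι : Type*} [Fintype ι] [DecidableEq ι] (G G' M : Matrix ι ι F)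
    (h1 : G * G' = 1) (h2 : G' * G = 1) (k : ℕ) : (G * M * G') ^ k = G * M ^ k * G' := by
  induction k with
  | zero => rw [pow_zero, pow_zero, mul_one, h1]
  | succ k ih =>
    rw [pow_succ, ih, pow_succ]
    calc G * M ^ k * G' * (G * M * G') = G * M ^ k * (G' * G) * M * G' := by
          simp only [mul_assoc]
      _ = G * (M ^ k * M) * G' := by rw [h2, mul_one, mul_assoc G]

lemma spY_conj (g u : Matrix.symplecticGroup (Fin m) F) :
    spY (g * u * g⁻¹) = (g : Matrix (Fin m ⊕ Fin m) (Fin m ⊕ Fin m) F) * spY u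
      * ((g⁻¹ : Matrix.symplecticGroup (Fin m) F) : Matrix (Fin m ⊕ Fin m) (Fin m ⊕ Fin m) F) := by
  have h : (g * u * g⁻¹)⁻¹ = g * u⁻¹ * g⁻¹ := by group
  unfold spY
  rw [h, mul_sub, sub_mul]
  rfl

lemma kappa_conj (g u : Matrix.symplecticGroup (Fin m) F) (v : Fin m ⊕ Fin m → F) (k : ℕ) :
    Cfsg.sympForm m F ((g : Matrix (Fin m ⊕ Fin m) (Fin m ⊕ Fin m) F) *ᵥ v)
        ((spY (g * u * g⁻¹) ^ k) *ᵥ ((g : Matrix (Fin m ⊕ Fin m) (Fin m ⊕ Fin m) F) *ᵥ v))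
      = Cfsg.sympForm m F v ((spY u ^ k) *ᵥ v) := by
  rw [spY_conj, conj_pow_mat _ _ _ (sp_mul_inv_val g) (sp_inv_mul_val g), Matrix.mulVec_mulVec,
    mul_assoc, mul_assoc, sp_inv_mul_val, mul_one, ← Matrix.mulVec_mulVec, sp_pres]

lemma exists_mulVec_ne_zero {ι : Type*} [Fintype ι] [DecidableEq ι] (M : Matrix ι ι F)
    (hM : M ≠ 0) : ∃ v : ι → F, M *ᵥ v ≠ 0 := by
  by_contra hcon
  rw [not_exists] at hcon
  apply hM
  ext i j
  have := congrFun (not_not.mp (hcon (Pi.single j 1))) i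
  rw [Matrix.mulVec_single_one] at this
  exact this

/-- two regular unipotent elements with normalised cyclic vectors of the same `κ` are conjugate -/
lemma conj_of_normalized (h2 : (2 : F) ≠ 0) (hm : 1 ≤ m)
    (u u' : Matrix.symplecticGroup (Fin m) F)
    (hnil : ((u : Matrix (Fin m ⊕ Fin m) (Fin m ⊕ Fin m) F) - 1) ^ (2 * m) = 0)
    (hnil' : ((u' : Matrix (Fin m ⊕ Fin m) (Fin m ⊕ Fin m) F) - 1) ^ (2 * m) = 0)
    (hY0 : spY u ^ (2 * m) = 0) (hY0' : spY u' ^ (2 * m) = 0)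
    (w w' : Fin m ⊕ Fin m → F)
    (hw : ∀ k, k < 2 * m - 1 → Cfsg.sympForm m F w ((spY u ^ k) *ᵥ w) = 0)
    (hw' : ∀ k, k < 2 * m - 1 → Cfsg.sympForm m F w' ((spY u' ^ k) *ᵥ w') = 0)
    (hκ : Cfsg.sympForm m F w ((spY u ^ (2 * m - 1)) *ᵥ w) ≠ 0)
    (hκκ : Cfsg.sympForm m F w' ((spY u' ^ (2 * m - 1)) *ᵥ w')
      = Cfsg.sympForm m F w ((spY u ^ (2 * m - 1)) *ᵥ w)) : IsConj u u' := by
  classical
  have hcard2 : Fintype.card (Fin m ⊕ Fin m) = 2 * m := by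
    rw [Fintype.card_sum, Fintype.card_fin]
    ring
  obtain ⟨Y, hY⟩ : ∃ Y : Matrix (Fin m ⊕ Fin m) (Fin m ⊕ Fin m) F, Y = spY u := ⟨_, rfl⟩
  obtain ⟨Y', hY'⟩ : ∃ Y' : Matrix (Fin m ⊕ Fin m) (Fin m ⊕ Fin m) F, Y' = spY u' := ⟨_, rfl⟩
  have hYJ : Yᵀ * J (Fin m) F = -(J (Fin m) F * Y) := by rw [hY]; exact spY_skew u
  have hYJ' : Y'ᵀ * J (Fin m) F = -(J (Fin m) F * Y') := by rw [hY']; exact spY_skew u'
  rw [← hY] at hY0 hw hκ hκκ
  rw [← hY'] at hY0' hw' hκκ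
  have hv : (Y ^ (2 * m - 1)) *ᵥ w ≠ 0 := by
    intro h
    apply hκ
    rw [h, sf_zero_right]
  have hv' : (Y' ^ (2 * m - 1)) *ᵥ w' ≠ 0 := by
    intro h
    apply hκ
    rw [← hκκ, h, sf_zero_right]
  have hli := cyc_linInd Y (2 * m) (by omega) hY0 w hv
  have hli' := cyc_linInd Y' (2 * m) (by omega) hY0' w' hv'
  obtain ⟨A, hA⟩ := witt_frames (fun i : Fin (2 * m) => (Y ^ (i : ℕ)) *ᵥ w)
    (fun i : Fin (2 * m) => (Y' ^ (i : ℕ)) *ᵥ w') hli hli' (fun i j => by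
      rw [gram_normalized Y' hYJ' hY0' w' hw', gram_normalized Y hYJ hY0 w hw, hκκ])
  haveI : Nonempty (Fin (2 * m)) := ⟨⟨0, by omega⟩⟩
  have hcard : Fintype.card (Fin (2 * m)) = Module.finrank F (Fin m ⊕ Fin m → F) := by
    rw [Fintype.card_fin, Module.finrank_fintype_fun_eq_card, hcard2]
  obtain ⟨b, hb⟩ : ∃ b : Module.Basis (Fin (2 * m)) F (Fin m ⊕ Fin m → F),
      ∀ k, b k = (Y ^ (k : ℕ)) *ᵥ w :=
    ⟨basisOfLinearIndependentOfCardEqFinrank hli hcard, fun k => by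
      rw [coe_basisOfLinearIndependentOfCardEqFinrank]⟩
  have hAY : (A : Matrix (Fin m ⊕ Fin m) (Fin m ⊕ Fin m) F) * Y
      = Y' * (A : Matrix (Fin m ⊕ Fin m) (Fin m ⊕ Fin m) F) := by
    apply Matrix.toLin'.injective
    apply b.ext
    intro k
    rw [Matrix.toLin'_apply, Matrix.toLin'_apply, hb, ← Matrix.mulVec_mulVec,
      ← Matrix.mulVec_mulVec, hA k, Matrix.mulVec_mulVec _ Y, ← pow_succ',
      Matrix.mulVec_mulVec _ Y', ← pow_succ']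
    by_cases hk : (k : ℕ) + 1 < 2 * m
    · exact hA ⟨(k : ℕ) + 1, hk⟩
    · rw [show (k : ℕ) + 1 = 2 * m by have := k.2; omega, hY0, hY0', Matrix.zero_mulVec,
        Matrix.zero_mulVec, Matrix.mulVec_zero]
  -- the conjugate
  obtain ⟨u₁, hu₁⟩ : ∃ u₁ : Matrix.symplecticGroup (Fin m) F, u₁ = A * u * A⁻¹ := ⟨_, rfl⟩
  have hY1 : spY u₁ = Y' := by
    rw [hu₁, spY_conj, ← hY, hAY, mul_assoc, sp_mul_inv_val, mul_one]
  have hn1 : IsNilpotent ((u₁ : Matrix (Fin m ⊕ Fin m) (Fin m ⊕ Fin m) F) - 1) := by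
    have e : (u₁ : Matrix (Fin m ⊕ Fin m) (Fin m ⊕ Fin m) F) - 1
        = (A : Matrix (Fin m ⊕ Fin m) (Fin m ⊕ Fin m) F)
          * ((u : Matrix (Fin m ⊕ Fin m) (Fin m ⊕ Fin m) F) - 1)
          * ((A⁻¹ : Matrix.symplecticGroup (Fin m) F) :
              Matrix (Fin m ⊕ Fin m) (Fin m ⊕ Fin m) F) := by
      rw [mul_sub, sub_mul, mul_one, sp_mul_inv_val, hu₁]
      rfl
    refine ⟨2 * m, ?_⟩
    rw [e, conj_pow_mat _ _ _ (sp_mul_inv_val A) (sp_inv_mul_val A), hnil, mul_zero, zero_mul]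
  have hcU1 : (u₁ : Matrix (Fin m ⊕ Fin m) (Fin m ⊕ Fin m) F) * Y'
      = Y' * (u₁ : Matrix (Fin m ⊕ Fin m) (Fin m ⊕ Fin m) F) := by
    rw [← hY1]
    unfold spY
    rw [mul_sub, sub_mul, sp_mul_inv_val, sp_inv_mul_val]
  have hcU2 : (u' : Matrix (Fin m ⊕ Fin m) (Fin m ⊕ Fin m) F) * Y'
      = Y' * (u' : Matrix (Fin m ⊕ Fin m) (Fin m ⊕ Fin m) F) := by
    rw [hY']
    unfold spY
    rw [mul_sub, sub_mul, sp_mul_inv_val, sp_inv_mul_val]
  obtain ⟨p₁, -, hp₁⟩ := commutant_eq_aeval Y' (2 * m) hcard2 (by omega) w' hli' _ hcU1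
  obtain ⟨p₂, -, hp₂⟩ := commutant_eq_aeval Y' (2 * m) hcard2 (by omega) w' hli' _ hcU2
  have hcomm : Commute (u₁ : Matrix (Fin m ⊕ Fin m) (Fin m ⊕ Fin m) F)
      (u' : Matrix (Fin m ⊕ Fin m) (Fin m ⊕ Fin m) F) := by
    show _ * _ = _ * _
    rw [hp₁, hp₂, ← map_mul, ← map_mul, mul_comm]
  have hfin := unip_unique h2 _ _ _ _ (sp_mul_inv_val u₁) (sp_inv_mul_val u₁) (sp_mul_inv_val u')
    (sp_inv_mul_val u') (by
      have := hY1
      rw [hY'] at this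
      exact this) hn1 ⟨2 * m, hnil'⟩ hcomm
  rw [isConj_iff]
  refine ⟨A, ?_⟩
  rw [← hu₁]
  exact Subtype.ext hfin

end RegClass

end Cfsg.Agent.Lib.helper4
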