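import Mathlib
import Cfsg.Agent.Lib.helper4.RegUnipClass

set_option autoImplicit false

/-!
# Regular unipotent elements of `Sp_2m(q)`, `q` odd: existence and the class count
-/

namespace Cfsg.Agent.Lib.helper4

open Polynomial Matrix
open Cfsg.Agent.S0776 Cfsg.Agent.S0766 Cfsg.Agent.S0765

section RegExist

variable {F : Type*} [Field F] {m : ℕ}

lemma sf_zero_left (z : Fin m ⊕ Fin m → F) : Cfsg.sympForm m F 0 z = 0 := by
  have := sf_smul_left (0 : F) (0 : Fin m ⊕ Fin m → F) z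
  rw [zero_smul, zero_mul] at this
  exact this

lemma sf_sum_right {ι : Type*} (s : Finset ι) (c : ι → F) (x : ι → (Fin m ⊕ Fin m → F))
    (z : Fin m ⊕ Fin m → F) :
    Cfsg.sympForm m F z (∑ i ∈ s, c i • x i) = ∑ i ∈ s, c i * Cfsg.sympForm m F z (x i) := by
  classical
  induction s using Finset.induction_on with
  | empty => rw [Finset.sum_empty, Finset.sum_empty, sf_zero_right]
  | insert a s ha ih =>
    rw [Finset.sum_insert ha, Finset.sum_insert ha, sf_add_right, sf_smul_right, ih]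

lemma J_ll (a b : Fin m) : J (Fin m) F (Sum.inl a) (Sum.inl b) = 0 := by
  simp [Matrix.J]

lemma J_rr (a b : Fin m) : J (Fin m) F (Sum.inr a) (Sum.inr b) = 0 := by
  simp [Matrix.J]

lemma J_lr (a b : Fin m) : J (Fin m) F (Sum.inl a) (Sum.inr b) = if a = b then -1 else 0 := by
  by_cases h : a = b <;> simp [Matrix.J, h]

lemma J_rl (a b : Fin m) : J (Fin m) F (Sum.inr a) (Sum.inl b) = if a = b then 1 else 0 := by
  by_cases h : a = b <;> simp [Matrix.J, h]

/-- the standard chain with Gram matrix `(-1)^i c δ_{i+j,2m-1}` -/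
lemma exists_chain (c : F) :
    ∃ w : Fin (2 * m) → (Fin m ⊕ Fin m → F), ∀ i j : Fin (2 * m),
      Cfsg.sympForm m F (w i) (w j)
        = (-1) ^ (i : ℕ) * (if (i : ℕ) + j = 2 * m - 1 then c else 0) := by
  classical
  refine ⟨fun i => if h : (i : ℕ) < m then
        ((-1) ^ ((i : ℕ) + 1) * c) • Pi.single (Sum.inl ⟨i, h⟩) 1
      else Pi.single (Sum.inr ⟨2 * m - 1 - i, by have := i.2; omega⟩) 1, ?_⟩
  intro i j
  have hi2 := i.2
  have hj2 := j.2
  by_cases hi : (i : ℕ) < m <;> by_cases hj : (j : ℕ) < m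
  · simp only [dif_pos hi, dif_pos hj]
    rw [sf_smul_left, sf_smul_right, sf_single, J_ll, if_neg (by omega)]
    ring
  · simp only [dif_pos hi, dif_neg hj]
    rw [sf_smul_left, sf_single, J_lr]
    by_cases h : (i : ℕ) + j = 2 * m - 1
    · rw [if_pos h, if_pos (Fin.ext (by show (i : ℕ) = 2 * m - 1 - j; omega)), pow_succ]
      ring
    · rw [if_neg h, if_neg (fun h' => h (by
        have h'' : (i : ℕ) = 2 * m - 1 - j := congrArg Fin.val h'
        omega))]
      ring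
  · simp only [dif_neg hi, dif_pos hj]
    rw [sf_smul_right, sf_single, J_rl]
    by_cases h : (i : ℕ) + j = 2 * m - 1
    · have hpar : (-1 : F) ^ ((j : ℕ) + 1) = (-1) ^ (i : ℕ) := by
        rw [neg_one_pow_eq_pow_mod_two, neg_one_pow_eq_pow_mod_two (i : ℕ)]
        congr 1
        omega
      rw [if_pos h, if_pos (Fin.ext (by show 2 * m - 1 - (i : ℕ) = j; omega)), hpar]
      ring
    · rw [if_neg h, if_neg (fun h' => h (by
        have h'' : 2 * m - 1 - (i : ℕ) = j := congrArg Fin.val h'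
        omega))]
      ring
  · simp only [dif_neg hi, dif_neg hj]
    rw [sf_single, J_rr, if_neg (by omega)]
    ring

lemma chain_linInd (c : F) (hc : c ≠ 0) (w : Fin (2 * m) → (Fin m ⊕ Fin m → F))
    (hw : ∀ i j : Fin (2 * m), Cfsg.sympForm m F (w i) (w j)
        = (-1) ^ (i : ℕ) * (if (i : ℕ) + j = 2 * m - 1 then c else 0)) :
    LinearIndependent F w := by
  rw [Fintype.linearIndependent_iff]
  intro a ha i
  have hi2 := i.2
  have h1 := congrArg
    (fun x => Cfsg.sympForm m F x (w ⟨2 * m - 1 - i, by omega⟩)) ha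
  rw [sf_sum_left, sf_zero_left, Finset.sum_eq_single i] at h1
  · rw [hw, if_pos (by show (i : ℕ) + (2 * m - 1 - i) = 2 * m - 1; omega)] at h1
    rcases mul_eq_zero.mp h1 with h | h
    · exact h
    · exfalso
      rcases mul_eq_zero.mp h with h' | h'
      · exact (pow_ne_zero _ (neg_ne_zero.mpr one_ne_zero)) h'
      · exact hc h'
  · intro k _ hk
    have hk2 := k.2
    rw [hw, if_neg (fun h => hk (Fin.ext (by
      have h' : (k : ℕ) + (2 * m - 1 - i) = 2 * m - 1 := h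
      omega))), mul_zero, mul_zero]
  · intro h
    exact absurd (Finset.mem_univ _) h

/-- existence of a regular unipotent element with prescribed `κ` (up to the square `4^(2m-1)`) -/
lemma exists_regular (h2 : (2 : F) ≠ 0) (hm : 1 ≤ m) (c : F) (hc : c ≠ 0) :
    ∃ u : Matrix.symplecticGroup (Fin m) F,
      ((u : Matrix (Fin m ⊕ Fin m) (Fin m ⊕ Fin m) F) - 1) ^ (2 * m) = 0 ∧
      ((u : Matrix (Fin m ⊕ Fin m) (Fin m ⊕ Fin m) F) - 1).rank = 2 * m - 1 ∧
      ∃ v, Cfsg.sympForm m F v ((spY u ^ (2 * m - 1)) *ᵥ v) = 4 ^ (2 * m - 1) * c := by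
  classical
  have hcard2 : Fintype.card (Fin m ⊕ Fin m) = 2 * m := by
    rw [Fintype.card_sum, Fintype.card_fin]
    ring
  obtain ⟨w, hw⟩ := exists_chain (m := m) c
  have hli := chain_linInd c hc w hw
  haveI : Nonempty (Fin (2 * m)) := ⟨⟨0, by omega⟩⟩
  have hcard : Fintype.card (Fin (2 * m)) = Module.finrank F (Fin m ⊕ Fin m → F) := by
    rw [Fintype.card_fin, Module.finrank_fintype_fun_eq_card, hcard2]
  obtain ⟨b, hb⟩ : ∃ b : Module.Basis (Fin (2 * m)) F (Fin m ⊕ Fin m → F), ∀ k, b k = w k :=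
    ⟨basisOfLinearIndependentOfCardEqFinrank hli hcard, fun k => by
      rw [coe_basisOfLinearIndependentOfCardEqFinrank]⟩
  obtain ⟨f, hf⟩ : ∃ f : (Fin m ⊕ Fin m → F) →ₗ[F] (Fin m ⊕ Fin m → F), ∀ i : Fin (2 * m),
      f (w i) = if h : (i : ℕ) + 1 < 2 * m then w ⟨(i : ℕ) + 1, h⟩ else 0 :=
    ⟨b.constr F (fun i => if h : (i : ℕ) + 1 < 2 * m then w ⟨(i : ℕ) + 1, h⟩ else 0), fun i => by
      rw [← hb, Module.Basis.constr_basis]⟩
  obtain ⟨Y, hYdef⟩ : ∃ Y : Matrix (Fin m ⊕ Fin m) (Fin m ⊕ Fin m) F,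
      Y = LinearMap.toMatrix' f := ⟨_, rfl⟩
  have hYf : ∀ x, Y *ᵥ x = f x := fun x => by rw [hYdef, LinearMap.toMatrix'_mulVec]
  have hYw : ∀ i : Fin (2 * m),
      Y *ᵥ w i = if h : (i : ℕ) + 1 < 2 * m then w ⟨(i : ℕ) + 1, h⟩ else 0 :=
    fun i => by rw [hYf, hf]
  have hshift : ∀ (k : ℕ) (i : Fin (2 * m)),
      (Y ^ k) *ᵥ w i = if h : (i : ℕ) + k < 2 * m then w ⟨(i : ℕ) + k, h⟩ else 0 := by
    intro k
    induction k with
    | zero =>
      intro i
      rw [pow_zero, Matrix.one_mulVec, dif_pos (by have := i.2; omega)]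
      rfl
    | succ k ih =>
      intro i
      rw [pow_succ', ← Matrix.mulVec_mulVec, ih]
      by_cases h : (i : ℕ) + k < 2 * m
      · rw [dif_pos h, hYw]
        by_cases h' : (i : ℕ) + (k + 1) < 2 * m
        · rw [dif_pos h', dif_pos (by show (i : ℕ) + k + 1 < 2 * m; omega)]
          rfl
        · rw [dif_neg h', dif_neg (by show ¬ ((i : ℕ) + k + 1 < 2 * m); omega)]
      · rw [dif_neg h, Matrix.mulVec_zero, dif_neg (by omega)]
  have hY0 : Y ^ (2 * m) = 0 := by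
    apply Matrix.toLin'.injective
    apply b.ext
    intro i
    rw [Matrix.toLin'_apply, hb, hshift, dif_neg (by omega), map_zero, LinearMap.zero_apply]
  have hbb : ∀ i j : Fin (2 * m), Cfsg.sympForm m F (Y *ᵥ w i) (w j)
      = -Cfsg.sympForm m F (w i) (Y *ᵥ w j) := by
    intro i j
    rw [hYw, hYw]
    have hi2 := i.2
    have hj2 := j.2
    by_cases hi : (i : ℕ) + 1 < 2 * m
    · rw [dif_pos hi]
      by_cases hj : (j : ℕ) + 1 < 2 * m
      · rw [dif_pos hj, hw, hw]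
        by_cases h : (i : ℕ) + 1 + j = 2 * m - 1
        · rw [if_pos h, if_pos (by show (i : ℕ) + ((j : ℕ) + 1) = 2 * m - 1; omega)]
          show (-1 : F) ^ ((i : ℕ) + 1) * c = -((-1) ^ (i : ℕ) * c)
          rw [pow_succ]
          ring
        · rw [if_neg h, if_neg (by show ¬ ((i : ℕ) + ((j : ℕ) + 1) = 2 * m - 1); omega)]
          ring
      · rw [dif_neg hj, sf_zero_right, hw,
          if_neg (by show ¬ ((i : ℕ) + 1 + j = 2 * m - 1); omega)]
        ring
    · rw [dif_neg hi, sf_zero_left]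
      by_cases hj : (j : ℕ) + 1 < 2 * m
      · rw [dif_pos hj, hw, if_neg (by show ¬ ((i : ℕ) + ((j : ℕ) + 1) = 2 * m - 1); omega)]
        ring
      · rw [dif_neg hj, sf_zero_right, neg_zero]
  have hskew : ∀ a a' : Fin (2 * m) → F,
      Cfsg.sympForm m F (Y *ᵥ ∑ i, a i • w i) (∑ j, a' j • w j)
        = -Cfsg.sympForm m F (∑ i, a i • w i) (Y *ᵥ ∑ j, a' j • w j) := by
    intro a a'
    simp only [Matrix.mulVec_sum, Matrix.mulVec_smul, sf_sum_left, sf_sum_right, hbb, mul_neg,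
      Finset.sum_neg_distrib]
  have hYJ : Yᵀ * J (Fin m) F = -(J (Fin m) F * Y) := by
    have h3 : ∀ x y : Fin m ⊕ Fin m → F,
        x ⬝ᵥ ((Yᵀ * J (Fin m) F) *ᵥ y) = x ⬝ᵥ ((-(J (Fin m) F * Y)) *ᵥ y) := by
      intro x y
      have h4 := hskew (fun i => b.repr x i) (fun i => b.repr y i)
      have ex : (∑ i, b.repr x i • w i) = x := by
        refine Eq.trans ?_ (b.sum_repr x)
        apply Finset.sum_congr rfl
        intro i _
        rw [hb]
      have ey : (∑ i, b.repr y i • w i) = y := by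
        refine Eq.trans ?_ (b.sum_repr y)
        apply Finset.sum_congr rfl
        intro i _
        rw [hb]
      rw [ex, ey] at h4
      unfold Cfsg.sympForm at h4
      rw [← Matrix.vecMul_transpose, ← Matrix.dotProduct_mulVec, Matrix.mulVec_mulVec] at h4
      rw [h4, Matrix.neg_mulVec, dotProduct_neg, Matrix.mulVec_mulVec]
    ext i j
    have := h3 (Pi.single i 1) (Pi.single j 1)
    rw [single_one_dotProduct, single_one_dotProduct, Matrix.mulVec_single_one,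
      Matrix.mulVec_single_one] at this
    exact this
  -- polynomials
  obtain ⟨g, hg⟩ : ∃ g : F[X], g = ∑ i ∈ Finset.range (2 * m), X ^ i := ⟨_, rfl⟩
  have e1 : (1 - X) * g = 1 - X ^ (2 * m) := by
    rw [hg]
    exact mul_neg_geom_sum X (2 * m)
  obtain ⟨g', hg'⟩ : ∃ g' : F[X], g' = g.comp (-X) := ⟨_, rfl⟩
  have e2 : (1 + X) * g' = 1 - X ^ (2 * m) := by
    have := congrArg (fun p : F[X] => p.comp (-X)) e1
    simp only [mul_comp, sub_comp, one_comp, X_comp, pow_comp, sub_neg_eq_add] at this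
    rw [← hg', Even.neg_pow (even_two_mul m)] at this
    exact this
  have hg0 : g.eval 0 = 1 := by
    rw [hg, eval_geom_sum, zero_geom_sum, if_neg (by omega)]
  have hg0' : g'.eval 0 = 1 := by
    rw [hg', eval_comp, eval_neg, eval_X, neg_zero, hg0]
  obtain ⟨r, hr⟩ : ∃ r : F[X], r = (1 + X) * g := ⟨_, rfl⟩
  obtain ⟨r', hr'⟩ : ∃ r' : F[X], r' = (1 - X) * g' := ⟨_, rfl⟩
  have hcomp : r.comp (-X) = r' := by
    rw [hr, hr', hg']
    simp only [mul_comp, add_comp, one_comp, X_comp]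
    ring
  have hrr : r' * r = (1 - X ^ (2 * m)) * (1 - X ^ (2 * m)) := by
    rw [hr, hr']
    linear_combination ((1 + X) * g') * e1 + (1 - X ^ (2 * m)) * e2
  have hpow0 : aeval Y (X ^ (2 * m) : F[X]) = 0 := by rw [map_pow, aeval_X, hY0]
  have hone : aeval Y (r' * r) = 1 := by
    rw [hrr, map_mul, map_sub, map_one, hpow0, sub_zero, mul_one]
  obtain ⟨U, hU⟩ : ∃ U : Matrix (Fin m ⊕ Fin m) (Fin m ⊕ Fin m) F, U = aeval Y r := ⟨_, rfl⟩
  have hUmem : U ∈ Matrix.symplecticGroup (Fin m) F := by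
    rw [SymplecticGroup.mem_iff', hU, aeval_transpose_mul Y _ hYJ r, hcomp, mul_assoc, ← map_mul,
      hone, mul_one]
  obtain ⟨u, hu⟩ : ∃ u : Matrix.symplecticGroup (Fin m) F,
      (u : Matrix (Fin m ⊕ Fin m) (Fin m ⊕ Fin m) F) = U := ⟨⟨U, hUmem⟩, rfl⟩
  have hV : ((u⁻¹ : Matrix.symplecticGroup (Fin m) F) :
      Matrix (Fin m ⊕ Fin m) (Fin m ⊕ Fin m) F) = aeval Y r' := by
    have h5 : aeval Y r' * (u : Matrix (Fin m ⊕ Fin m) (Fin m ⊕ Fin m) F) = 1 := by
      rw [hu, hU, ← map_mul, hone]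
    calc ((u⁻¹ : Matrix.symplecticGroup (Fin m) F) : Matrix (Fin m ⊕ Fin m) (Fin m ⊕ Fin m) F)
        = (aeval Y r' * (u : Matrix (Fin m ⊕ Fin m) (Fin m ⊕ Fin m) F))
          * ((u⁻¹ : Matrix.symplecticGroup (Fin m) F) :
            Matrix (Fin m ⊕ Fin m) (Fin m ⊕ Fin m) F) := by rw [h5, one_mul]
      _ = aeval Y r' := by rw [mul_assoc, sp_mul_inv_val, mul_one]
  have hN : (u : Matrix (Fin m ⊕ Fin m) (Fin m ⊕ Fin m) F) - 1 = aeval Y (2 * X * g) := by
    have h6 : r - 1 = 2 * X * g - X ^ (2 * m) := by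
      rw [hr]
      linear_combination e1
    have h6' : aeval Y (r - 1) = aeval Y (2 * X * g) := by
      rw [h6, map_sub, hpow0, sub_zero]
    rw [map_sub, map_one] at h6'
    rw [hu, hU]
    exact h6'
  have hspY : spY u = aeval Y (4 * X * g * g') := by
    have h7 : r - r' = 4 * X * g * g' + X ^ (2 * m) * (r - r') := by
      rw [hr, hr']
      linear_combination (-(1 + X) * g) * e2 + ((1 - X) * g') * e1
    unfold spY
    rw [hV, hu, hU, ← map_sub, h7, map_add, map_mul (aeval Y) (X ^ (2 * m)), hpow0, zero_mul,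
      add_zero]
  -- the chain ends
  obtain ⟨wl, hwl⟩ : ∃ wl, wl = w ⟨2 * m - 1, by omega⟩ := ⟨_, rfl⟩
  obtain ⟨w0, hw0⟩ : ∃ w0, w0 = w ⟨0, by omega⟩ := ⟨_, rfl⟩
  have hpw : (Y ^ (2 * m - 1)) *ᵥ w0 = wl := by
    rw [hw0, hshift, dif_pos (by show 0 + (2 * m - 1) < 2 * m; omega), hwl]
    congr 1
    apply Fin.ext
    show 0 + (2 * m - 1) = 2 * m - 1
    omega
  have hYwl : ∀ k, 1 ≤ k → (Y ^ k) *ᵥ wl = 0 := by
    intro k hk
    rw [hwl, hshift, dif_neg (by show ¬ (2 * m - 1 + k < 2 * m); omega)]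
  have hW : ∀ ρ : F[X], (aeval Y ρ) *ᵥ wl = ρ.eval 0 • wl := by
    intro ρ
    induction ρ using Polynomial.induction_on' with
    | add p q hp hq => rw [map_add, Matrix.add_mulVec, hp, hq, eval_add, add_smul]
    | monomial n a =>
      rw [aeval_monomial, ← Algebra.smul_def, Matrix.smul_mulVec, eval_monomial]
      by_cases hn : n = 0
      · rw [hn, pow_zero, pow_zero, Matrix.one_mulVec, mul_one]
      · rw [hYwl n (by omega), smul_zero, zero_pow hn, mul_zero, zero_smul]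
  have hB : ∀ ρ : F[X],
      (aeval Y ((X * ρ) ^ (2 * m - 1))) *ᵥ w0 = (ρ.eval 0) ^ (2 * m - 1) • wl := by
    intro ρ
    have hX : aeval Y (X ^ (2 * m - 1) : F[X]) = Y ^ (2 * m - 1) := by rw [map_pow, aeval_X]
    rw [mul_pow, mul_comm, map_mul, ← Matrix.mulVec_mulVec, hX, hpw, hW, eval_pow]
  have hwl0 : wl ≠ 0 := by
    rw [hwl]
    exact hli.ne_zero _
  have hnil : ((u : Matrix (Fin m ⊕ Fin m) (Fin m ⊕ Fin m) F) - 1) ^ (2 * m) = 0 := by
    rw [hN, ← map_pow,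
      show (2 * X * g : F[X]) ^ (2 * m) = X ^ (2 * m) * (2 * g) ^ (2 * m) by ring, map_mul,
      hpow0, zero_mul]
  refine ⟨u, hnil, ?_, w0, ?_⟩
  · apply rank_of_pow_pred_ne_zero _ (2 * m) hcard2 (by omega) hnil
    intro h
    have h8 := congrArg (fun M : Matrix (Fin m ⊕ Fin m) (Fin m ⊕ Fin m) F => M *ᵥ w0) h
    rw [hN, ← map_pow, show (2 * X * g : F[X]) = X * (2 * g) by ring, hB, Matrix.zero_mulVec,
      eval_mul, hg0, mul_one, eval_ofNat] at h8
    rcases smul_eq_zero.mp h8 with h9 | h9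
    · exact (pow_ne_zero _ h2) h9
    · exact hwl0 h9
  · rw [hspY, ← map_pow, show (4 * X * g * g' : F[X]) = X * (4 * g * g') by ring, hB,
      sf_smul_right, hw0, hwl, hw, eval_mul, eval_mul, hg0, hg0', mul_one, mul_one, eval_ofNat,
      if_pos (by show 0 + (2 * m - 1) = 2 * m - 1; omega)]
    show (4 : F) ^ (2 * m - 1) * ((-1) ^ 0 * c) = 4 ^ (2 * m - 1) * c
    rw [pow_zero, one_mul]

lemma ringChar_ne_two_of [Fintype F] (h2 : (2 : F) ≠ 0) : ringChar F ≠ 2 := by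
  intro h
  haveI : CharP F 2 := ringChar.of_eq h
  exact h2 CharTwo.two_eq_zero

lemma nonsq_ratio [Fintype F] (h2 : (2 : F) ≠ 0) (x y : F) (hx : x ≠ 0) (hy : y ≠ 0)
    (hxs : ¬IsSquare x) (hys : ¬IsSquare y) : ∃ a : F, y = a * a * x := by
  have hchar := ringChar_ne_two_of h2
  have hx1 := (FiniteField.pow_dichotomy hchar hx).resolve_left
    (fun h => hxs ((FiniteField.isSquare_iff hchar hx).mpr h))
  have hy1 := (FiniteField.pow_dichotomy hchar hy).resolve_left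
    (fun h => hys ((FiniteField.isSquare_iff hchar hy).mpr h))
  have hq : IsSquare (y / x) := by
    rw [FiniteField.isSquare_iff hchar (div_ne_zero hy hx), div_pow, hx1, hy1,
      div_self (neg_ne_zero.mpr one_ne_zero)]
  obtain ⟨a, ha⟩ := hq
  refine ⟨a, ?_⟩
  rw [← ha, div_mul_cancel₀ _ hx]

/-- the regular unipotent elements of `Sp_2m(q)`, `q` odd, form exactly two classes -/
theorem sp_regular_unipotent_two_classes [Fintype F] (h2 : (2 : F) ≠ 0) (hm : 1 ≤ m) :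
    Nat.card {C : ConjClasses ↥(Matrix.symplecticGroup (Fin m) F) //
      ∃ u : Matrix.symplecticGroup (Fin m) F, ConjClasses.mk u = C ∧
        ((u : Matrix (Fin m ⊕ Fin m) (Fin m ⊕ Fin m) F) - 1) ^ (2 * m) = 0 ∧
        ((u : Matrix (Fin m ⊕ Fin m) (Fin m ⊕ Fin m) F) - 1).rank = 2 * m - 1} = 2 := by
  classical
  obtain ⟨sq, hsq⟩ : ∃ sq : Matrix.symplecticGroup (Fin m) F → Prop, ∀ u, sq u ↔
      ∃ v, Cfsg.sympForm m F v ((spY u ^ (2 * m - 1)) *ᵥ v) ≠ 0 ∧
        IsSquare (Cfsg.sympForm m F v ((spY u ^ (2 * m - 1)) *ᵥ v)) := ⟨_, fun u => Iff.rfl⟩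
  have hB : ∀ u u' : Matrix.symplecticGroup (Fin m) F, IsConj u u' → sq u → sq u' := by
    intro u u' hc hs
    rw [isConj_iff] at hc
    obtain ⟨g, rfl⟩ := hc
    rw [hsq] at hs ⊢
    obtain ⟨v, hv1, hv2⟩ := hs
    refine ⟨(g : Matrix (Fin m ⊕ Fin m) (Fin m ⊕ Fin m) F) *ᵥ v, ?_, ?_⟩
    · rw [kappa_conj]
      exact hv1
    · rw [kappa_conj]
      exact hv2
  have hscale : ∀ (Y : Matrix (Fin m ⊕ Fin m) (Fin m ⊕ Fin m) F) (a : F)
      (v : Fin m ⊕ Fin m → F),
      Cfsg.sympForm m F (a • v) ((Y ^ (2 * m - 1)) *ᵥ (a • v))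
        = a * a * Cfsg.sympForm m F v ((Y ^ (2 * m - 1)) *ᵥ v) := by
    intro Y a v
    rw [Matrix.mulVec_smul, sf_smul_left, sf_smul_right, mul_assoc]
  have hA : ∀ u u' : Matrix.symplecticGroup (Fin m) F,
      ((u : Matrix (Fin m ⊕ Fin m) (Fin m ⊕ Fin m) F) - 1) ^ (2 * m) = 0 →
      ((u : Matrix (Fin m ⊕ Fin m) (Fin m ⊕ Fin m) F) - 1).rank = 2 * m - 1 →
      ((u' : Matrix (Fin m ⊕ Fin m) (Fin m ⊕ Fin m) F) - 1) ^ (2 * m) = 0 →
      ((u' : Matrix (Fin m ⊕ Fin m) (Fin m ⊕ Fin m) F) - 1).rank = 2 * m - 1 →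
      (sq u ↔ sq u') → IsConj u u' := by
    intro u u' hnil hreg hnil' hreg' hiff
    obtain ⟨hY0, hY1⟩ := spY_regular h2 hm u hnil hreg
    obtain ⟨hY0', hY1'⟩ := spY_regular h2 hm u' hnil' hreg'
    have hYJ := spY_skew u
    have hYJ' := spY_skew u'
    have hfin : ∀ v v' : Fin m ⊕ Fin m → F,
        Cfsg.sympForm m F v ((spY u ^ (2 * m - 1)) *ᵥ v) ≠ 0 →
        Cfsg.sympForm m F v' ((spY u' ^ (2 * m - 1)) *ᵥ v')
          = Cfsg.sympForm m F v ((spY u ^ (2 * m - 1)) *ᵥ v) → IsConj u u' := by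
      intro v v' hκ hκκ
      obtain ⟨w, hw1, hw2⟩ := exists_normalized h2 hm (spY u) hYJ hY0 v hκ
      obtain ⟨w', hw1', hw2'⟩ := exists_normalized h2 hm (spY u') hYJ' hY0' v' (by
        rw [hκκ]
        exact hκ)
      exact conj_of_normalized h2 hm u u' hnil hnil' hY0 hY0' w w' hw2 hw2' (by
        rw [hw1]
        exact hκ) (by rw [hw1', hw1, hκκ])
    by_cases hs : sq u
    · have hs' := hiff.mp hs
      rw [hsq] at hs hs'
      obtain ⟨v, hv1, a, ha⟩ := hs
      obtain ⟨v', hv1', a', ha'⟩ := hs'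
      have ha0 : a ≠ 0 := by
        rintro rfl
        rw [mul_zero] at ha
        exact hv1 ha
      have ha0' : a' ≠ 0 := by
        rintro rfl
        rw [mul_zero] at ha'
        exact hv1' ha'
      have e1 : Cfsg.sympForm m F (a⁻¹ • v) ((spY u ^ (2 * m - 1)) *ᵥ (a⁻¹ • v)) = 1 := by
        rw [hscale, ha]
        field_simp
      have e2 : Cfsg.sympForm m F (a'⁻¹ • v') ((spY u' ^ (2 * m - 1)) *ᵥ (a'⁻¹ • v')) = 1 := by
        rw [hscale, ha']
        field_simp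
      apply hfin (a⁻¹ • v) (a'⁻¹ • v')
      · rw [e1]
        exact one_ne_zero
      · rw [e1, e2]
    · have hs' : ¬sq u' := fun h => hs (hiff.mpr h)
      obtain ⟨v, hv⟩ := exists_mulVec_ne_zero _ hY1
      obtain ⟨v', hv'⟩ := exists_mulVec_ne_zero _ hY1'
      have hκ := kappa_ne_zero hm (spY u) hYJ hY0 v hv
      have hκ' := kappa_ne_zero hm (spY u') hYJ' hY0' v' hv'
      have hns : ¬IsSquare (Cfsg.sympForm m F v ((spY u ^ (2 * m - 1)) *ᵥ v)) :=
        fun h => hs ((hsq u).mpr ⟨v, hκ, h⟩)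
      have hns' : ¬IsSquare (Cfsg.sympForm m F v' ((spY u' ^ (2 * m - 1)) *ᵥ v')) :=
        fun h => hs' ((hsq u').mpr ⟨v', hκ', h⟩)
      obtain ⟨a, ha⟩ := nonsq_ratio h2 _ _ hκ hκ' hns hns'
      apply hfin (a • v) v'
      · rw [hscale, ← ha]
        exact hκ'
      · rw [hscale, ← ha]
  -- existence
  obtain ⟨up, hup1, hup2, vp, hvp⟩ := exists_regular h2 hm (1 : F) one_ne_zero
  obtain ⟨ε, hε⟩ := FiniteField.exists_nonsquare (ringChar_ne_two_of h2)
  have hε0 : ε ≠ 0 := by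
    rintro rfl
    exact hε ⟨0, by rw [mul_zero]⟩
  obtain ⟨un, hun1, hun2, vn, hvn⟩ := exists_regular h2 hm ε hε0
  have h4 : (4 : F) ^ (2 * m - 1) = 2 ^ (2 * m - 1) * 2 ^ (2 * m - 1) := by
    rw [← mul_pow]
    norm_num
  have h40 : (2 : F) ^ (2 * m - 1) ≠ 0 := pow_ne_zero _ h2
  have hsp : sq up := by
    rw [hsq]
    refine ⟨vp, ?_, ?_⟩
    · rw [hvp, mul_one, h4]
      exact mul_ne_zero h40 h40
    · rw [hvp, mul_one, h4]
      exact ⟨_, rfl⟩
  have hsn : ¬sq un := by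
    rw [hsq]
    rintro ⟨v, hv1, s, hs⟩
    obtain ⟨hY0, hY1⟩ := spY_regular h2 hm un hun1 hun2
    have hcyc : (spY un ^ (2 * m - 1)) *ᵥ vn ≠ 0 := by
      intro h
      rw [h, sf_zero_right, h4] at hvn
      exact (mul_ne_zero (mul_ne_zero h40 h40) hε0) hvn.symm
    obtain ⟨a, ha⟩ := kappa_sq hm (spY un) (spY_skew un) hY0 vn hcyc v
    have ha0 : a ≠ 0 := by
      rintro rfl
      rw [ha] at hv1
      apply hv1
      ring
    rw [hvn, hs, h4] at ha
    apply hε
    refine ⟨s / (a * 2 ^ (2 * m - 1)), ?_⟩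
    field_simp
    linear_combination -ha
  rw [Nat.card_eq_two_iff]
  refine ⟨⟨ConjClasses.mk up, up, rfl, hup1, hup2⟩, ⟨ConjClasses.mk un, un, rfl, hun1, hun2⟩,
    ?_, ?_⟩
  · intro h
    have h1 : ConjClasses.mk up = ConjClasses.mk un := congrArg Subtype.val h
    rw [ConjClasses.mk_eq_mk_iff_isConj] at h1
    exact hsn (hB _ _ h1 hsp)
  · ext x
    obtain ⟨C, u, rfl, hnil, hreg⟩ := x
    simp only [Set.mem_insert_iff, Set.mem_singleton_iff, Set.mem_univ, iff_true]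
    by_cases hs : sq u
    · left
      apply Subtype.ext
      show ConjClasses.mk u = ConjClasses.mk up
      rw [ConjClasses.mk_eq_mk_iff_isConj]
      exact hA u up hnil hreg hup1 hup2 ⟨fun _ => hsp, fun _ => hs⟩
    · right
      apply Subtype.ext
      show ConjClasses.mk u = ConjClasses.mk un
      rw [ConjClasses.mk_eq_mk_iff_isConj]
      exact hA u un hnil hreg hun1 hun2 ⟨fun h => absurd h hs, fun h => absurd h hsn⟩

end RegExist

end Cfsg.Agent.Lib.helper4
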