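import Mathlib
import Cfsg.Agent.Lib.helper4.Fpf3Norm
import Cfsg.Agent.Lib.helper4.RegUnipClass2

set_option autoImplicit false

/-!
# Frames adapted to a fixed-point-free element of order 3 of `Sp_2m(q)`, `q ≡ 2 (mod 3)`

`X` preserves the form and `X² + X + 1 = 0`; `φ(v) = ω(v, X v)`. A partial frame is a family
`e_i` with `φ(e_i) = 1` and the planes `⟨e_i, X e_i⟩` pairwise orthogonal. We count them.
-/

namespace Cfsg.Agent.Lib.helper4

open Matrix
open Cfsg.Agent.S0776 Cfsg.Agent.S0766 Cfsg.Agent.S0765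

section Fpf3

variable {F : Type*} [Field F] {m : ℕ}

/-- `X` preserves the form and `X² + X + 1 = 0` -/
structure IsF3 (X : Matrix (Fin m ⊕ Fin m) (Fin m ⊕ Fin m) F) : Prop where
  sq : ∀ v, X *ᵥ (X *ᵥ v) = -(X *ᵥ v) - v
  pres : ∀ v w, Cfsg.sympForm m F (X *ᵥ v) (X *ᵥ w) = Cfsg.sympForm m F v w

/-- `φ(v) = ω(v, X v)` -/
def phi3 (X : Matrix (Fin m ⊕ Fin m) (Fin m ⊕ Fin m) F) (v : Fin m ⊕ Fin m → F) : F :=
  Cfsg.sympForm m F v (X *ᵥ v)

/-- orthogonal to all `e i`, `X e i` -/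
def InW (X : Matrix (Fin m ⊕ Fin m) (Fin m ⊕ Fin m) F) {k : ℕ}
    (e : Fin k → (Fin m ⊕ Fin m → F)) (v : Fin m ⊕ Fin m → F) : Prop :=
  ∀ i, Cfsg.sympForm m F (e i) v = 0 ∧ Cfsg.sympForm m F (X *ᵥ e i) v = 0

/-- partial adapted frames -/
def IsPF (X : Matrix (Fin m ⊕ Fin m) (Fin m ⊕ Fin m) F) {k : ℕ}
    (e : Fin k → (Fin m ⊕ Fin m → F)) : Prop :=
  (∀ i, phi3 X (e i) = 1) ∧
    ∀ i j, i ≠ j → Cfsg.sympForm m F (e i) (e j) = 0 ∧ Cfsg.sympForm m F (X *ᵥ e i) (e j) = 0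

variable {X : Matrix (Fin m ⊕ Fin m) (Fin m ⊕ Fin m) F}

lemma sf_neg_right (u v : Fin m ⊕ Fin m → F) :
    Cfsg.sympForm m F u (-v) = -Cfsg.sympForm m F u v := by
  rw [← neg_one_smul F v, sf_smul_right, neg_one_mul]

lemma sf_sub_left (u u' v : Fin m ⊕ Fin m → F) :
    Cfsg.sympForm m F (u - u') v = Cfsg.sympForm m F u v - Cfsg.sympForm m F u' v := by
  rw [sub_eq_add_neg, sf_add_left, ← neg_one_smul F u', sf_smul_left]
  ring

lemma f3_d1 (hX : IsF3 X) (v w : Fin m ⊕ Fin m → F) :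
    Cfsg.sympForm m F (X *ᵥ v) w = -Cfsg.sympForm m F v w - Cfsg.sympForm m F v (X *ᵥ w) := by
  have h := hX.pres v (X *ᵥ w)
  rw [hX.sq, sf_sub_right, sf_neg_right, hX.pres] at h
  linear_combination -h

lemma f3_d2 (hX : IsF3 X) (v w : Fin m ⊕ Fin m → F) :
    Cfsg.sympForm m F v (X *ᵥ w) = -Cfsg.sympForm m F v w - Cfsg.sympForm m F (X *ᵥ v) w := by
  have h := f3_d1 hX v w
  linear_combination h

lemma phi3_zero : phi3 X (0 : Fin m ⊕ Fin m → F) = 0 := by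
  unfold phi3
  exact sf_zero_left _

lemma phi3_scale (hX : IsF3 X) (v : Fin m ⊕ Fin m → F) (a b : F) :
    phi3 X (a • v + b • X *ᵥ v) = nrm3 (a, b) * phi3 X v := by
  unfold phi3
  have e : -(X *ᵥ v) - v = (-1 : F) • (X *ᵥ v) + (-1 : F) • v := by
    rw [neg_one_smul, neg_one_smul]
    abel
  have h1 : Cfsg.sympForm m F (X *ᵥ v) v = -Cfsg.sympForm m F v (X *ᵥ v) := sf_anti _ _
  rw [Matrix.mulVec_add, Matrix.mulVec_smul, Matrix.mulVec_smul, hX.sq, e]
  simp only [sf_add_left, sf_add_right, sf_smul_left, sf_smul_right, sf_self, h1]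
  unfold nrm3
  ring

lemma phi3_dec (hX : IsF3 X) (v : Fin m ⊕ Fin m → F) (hφ : phi3 X v = 1) (a b : F)
    (w : Fin m ⊕ Fin m → F) (h1 : Cfsg.sympForm m F v w = 0)
    (h2 : Cfsg.sympForm m F (X *ᵥ v) w = 0) :
    phi3 X (a • v + b • X *ᵥ v + w) = nrm3 (a, b) + phi3 X w := by
  have hs := phi3_scale hX v a b
  rw [hφ, mul_one] at hs
  unfold phi3 at hs ⊢
  have h3 : Cfsg.sympForm m F v (X *ᵥ w) = 0 := by rw [f3_d2 hX, h1, h2]; ring
  have h4 : Cfsg.sympForm m F (X *ᵥ v) (X *ᵥ w) = 0 := by rw [hX.pres, h1]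
  have h5 : Cfsg.sympForm m F w (X *ᵥ (a • v + b • X *ᵥ v)) = 0 := by
    rw [sf_anti, Matrix.mulVec_add, Matrix.mulVec_smul, Matrix.mulVec_smul, hX.sq, sf_add_left,
      sf_smul_left, sf_smul_left, sf_sub_left, h2]
    have h6 : Cfsg.sympForm m F (-(X *ᵥ v)) w = 0 := by
      rw [← neg_one_smul F (X *ᵥ v), sf_smul_left, h2, mul_zero]
    rw [h6, h1]
    ring
  rw [Matrix.mulVec_add (X) (a • v + b • X *ᵥ v) w, sf_add_left, sf_add_right, sf_add_right, hs,
    h5, sf_add_left, sf_smul_left, sf_smul_left, h3, h4]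
  ring

lemma inW_zero {k : ℕ} (e : Fin k → (Fin m ⊕ Fin m → F)) : InW X e 0 :=
  fun i => ⟨sf_zero_right _, sf_zero_right _⟩

lemma inW_add {k : ℕ} {e : Fin k → (Fin m ⊕ Fin m → F)} {v w : Fin m ⊕ Fin m → F}
    (hv : InW X e v) (hw : InW X e w) : InW X e (v + w) := by
  intro i
  rw [sf_add_right, sf_add_right, (hv i).1, (hv i).2, (hw i).1, (hw i).2, add_zero]
  exact ⟨rfl, rfl⟩

lemma inW_smul {k : ℕ} {e : Fin k → (Fin m ⊕ Fin m → F)} {v : Fin m ⊕ Fin m → F} (a : F)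
    (hv : InW X e v) : InW X e (a • v) := by
  intro i
  rw [sf_smul_right, sf_smul_right, (hv i).1, (hv i).2, mul_zero]
  exact ⟨rfl, rfl⟩

lemma inW_sub {k : ℕ} {e : Fin k → (Fin m ⊕ Fin m → F)} {v w : Fin m ⊕ Fin m → F}
    (hv : InW X e v) (hw : InW X e w) : InW X e (v - w) := by
  intro i
  rw [sf_sub_right, sf_sub_right, (hv i).1, (hv i).2, (hw i).1, (hw i).2, sub_zero]
  exact ⟨rfl, rfl⟩

lemma inW_X (hX : IsF3 X) {k : ℕ} {e : Fin k → (Fin m ⊕ Fin m → F)} {v : Fin m ⊕ Fin m → F}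
    (hv : InW X e v) : InW X e (X *ᵥ v) := by
  intro i
  rw [f3_d2 hX, hX.pres, (hv i).1, (hv i).2]
  exact ⟨by ring, rfl⟩

lemma inW_cons {k : ℕ} (e : Fin k → (Fin m ⊕ Fin m → F)) (v w : Fin m ⊕ Fin m → F) :
    InW X (Fin.cons v e : Fin (k + 1) → (Fin m ⊕ Fin m → F)) w ↔
      (Cfsg.sympForm m F v w = 0 ∧ Cfsg.sympForm m F (X *ᵥ v) w = 0) ∧ InW X e w := by
  unfold InW
  rw [Fin.forall_fin_succ]
  simp only [Fin.cons_zero, Fin.cons_succ]

/-- splitting off the plane `⟨v, X v⟩` -/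
lemma dec_equiv (hX : IsF3 X) {k : ℕ} (e : Fin k → (Fin m ⊕ Fin m → F))
    (v : Fin m ⊕ Fin m → F) (hv : InW X e v) (hφ : phi3 X v = 1) :
    ∃ Ψ : {w : Fin m ⊕ Fin m → F // InW X e w} ≃
        {w : Fin m ⊕ Fin m → F // InW X (Fin.cons v e : Fin (k + 1) → (Fin m ⊕ Fin m → F)) w}
          × (F × F),
      ∀ a, phi3 X a.1 = nrm3 (Ψ a).2 + phi3 X (Ψ a).1.1 := by
  have hXv := inW_X hX hv
  have g1 : Cfsg.sympForm m F v (X *ᵥ v) = 1 := hφ
  have g2 : Cfsg.sympForm m F (X *ᵥ v) v = -1 := by rw [sf_anti, g1]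
  have g3 : Cfsg.sympForm m F v v = 0 := sf_self v
  have g4 : Cfsg.sympForm m F (X *ᵥ v) (X *ᵥ v) = 0 := sf_self _
  obtain ⟨ψ, hψ⟩ : ∃ ψ : {w : Fin m ⊕ Fin m → F // InW X e w} →
        {w : Fin m ⊕ Fin m → F // InW X (Fin.cons v e : Fin (k + 1) → (Fin m ⊕ Fin m → F)) w}
          × (F × F),
      ∀ a, (ψ a).2 = (-Cfsg.sympForm m F (X *ᵥ v) a.1, Cfsg.sympForm m F v a.1) ∧
        ((ψ a).1 : Fin m ⊕ Fin m → F) = a.1 - (-Cfsg.sympForm m F (X *ᵥ v) a.1) • v
          - (Cfsg.sympForm m F v a.1) • X *ᵥ v := by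
    refine ⟨fun a => (⟨a.1 - (-Cfsg.sympForm m F (X *ᵥ v) a.1) • v
      - (Cfsg.sympForm m F v a.1) • X *ᵥ v, ?_⟩,
      (-Cfsg.sympForm m F (X *ᵥ v) a.1, Cfsg.sympForm m F v a.1)), fun a => ⟨rfl, rfl⟩⟩
    rw [inW_cons]
    refine ⟨⟨?_, ?_⟩, ?_⟩
    · rw [sf_sub_right, sf_sub_right, sf_smul_right, sf_smul_right, g3, g1]
      ring
    · rw [sf_sub_right, sf_sub_right, sf_smul_right, sf_smul_right, g2, g4]
      ring
    · exact inW_sub (inW_sub a.2 (inW_smul _ hv)) (inW_smul _ hXv)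
  have hrec : ∀ a : {w : Fin m ⊕ Fin m → F // InW X e w},
      a.1 = (ψ a).2.1 • v + (ψ a).2.2 • X *ᵥ v + ((ψ a).1 : Fin m ⊕ Fin m → F) := by
    intro a
    rw [(hψ a).2, (hψ a).1]
    abel
  have hbij : Function.Bijective ψ := by
    constructor
    · intro a a' h
      apply Subtype.ext
      rw [hrec a, hrec a', h]
    · rintro ⟨w', z⟩
      have hw' := (inW_cons e v w'.1).mp w'.2
      have hA : -Cfsg.sympForm m F (X *ᵥ v) (z.1 • v + z.2 • X *ᵥ v + w'.1) = z.1 := by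
        rw [sf_add_right, sf_add_right, sf_smul_right, sf_smul_right, g2, g4, hw'.1.2]
        ring
      have hB : Cfsg.sympForm m F v (z.1 • v + z.2 • X *ᵥ v + w'.1) = z.2 := by
        rw [sf_add_right, sf_add_right, sf_smul_right, sf_smul_right, g3, g1, hw'.1.1]
        ring
      refine ⟨⟨z.1 • v + z.2 • X *ᵥ v + w'.1,
        inW_add (inW_add (inW_smul _ hv) (inW_smul _ hXv)) hw'.2⟩, ?_⟩
      apply Prod.ext
      · apply Subtype.ext
        rw [(hψ _).2]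
        show z.1 • v + z.2 • X *ᵥ v + w'.1
          - (-Cfsg.sympForm m F (X *ᵥ v) (z.1 • v + z.2 • X *ᵥ v + w'.1)) • v
          - (Cfsg.sympForm m F v (z.1 • v + z.2 • X *ᵥ v + w'.1)) • X *ᵥ v = w'.1
        rw [hA, hB]
        abel
      · rw [(hψ _).1]
        show (-Cfsg.sympForm m F (X *ᵥ v) (z.1 • v + z.2 • X *ᵥ v + w'.1),
          Cfsg.sympForm m F v (z.1 • v + z.2 • X *ᵥ v + w'.1)) = z
        rw [hA, hB]
  refine ⟨Equiv.ofBijective ψ hbij, fun a => ?_⟩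
  show phi3 X a.1 = nrm3 (ψ a).2 + phi3 X (ψ a).1.1
  have hw' := (inW_cons e v (ψ a).1.1).mp (ψ a).1.2
  have h := phi3_dec hX v hφ (ψ a).2.1 (ψ a).2.2 (ψ a).1.1 hw'.1.1 hw'.1.2
  rw [← hrec a] at h
  exact h

lemma dec_card [Fintype F] (hX : IsF3 X) {k : ℕ} (e : Fin k → (Fin m ⊕ Fin m → F))
    (v : Fin m ⊕ Fin m → F) (hv : InW X e v) (hφ : phi3 X v = 1) :
    Nat.card {w : Fin m ⊕ Fin m → F // InW X e w}
      = Fintype.card F ^ 2 * Nat.card {w : Fin m ⊕ Fin m → F //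
          InW X (Fin.cons v e : Fin (k + 1) → (Fin m ⊕ Fin m → F)) w} := by
  obtain ⟨Ψ, -⟩ := dec_equiv hX e v hv hφ
  rw [Nat.card_congr Ψ, Nat.card_prod, Nat.card_eq_fintype_card (α := F × F), Fintype.card_prod,
    mul_comm, sq]

lemma dec_card_phi [Fintype F] (hq : Fintype.card F % 3 = 2) (hX : IsF3 X) {k : ℕ}
    (e : Fin k → (Fin m ⊕ Fin m → F)) (v : Fin m ⊕ Fin m → F) (hv : InW X e v)
    (hφ : phi3 X v = 1) (c : F) :
    (Nat.card {a : {w : Fin m ⊕ Fin m → F // InW X e w} // phi3 X a.1 = c} : ℤ)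
      = ((Fintype.card F : ℤ) + 1) * Nat.card {w : Fin m ⊕ Fin m → F //
          InW X (Fin.cons v e : Fin (k + 1) → (Fin m ⊕ Fin m → F)) w}
        - (Fintype.card F : ℤ) * Nat.card {a : {w : Fin m ⊕ Fin m → F //
          InW X (Fin.cons v e : Fin (k + 1) → (Fin m ⊕ Fin m → F)) w} // phi3 X a.1 = c} := by
  classical
  obtain ⟨Ψ, hΨ⟩ := dec_equiv hX e v hv hφ
  have h1 : Nat.card {a : {w : Fin m ⊕ Fin m → F // InW X e w} // phi3 X a.1 = c}
      = Nat.card {t : {w : Fin m ⊕ Fin m → F //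
          InW X (Fin.cons v e : Fin (k + 1) → (Fin m ⊕ Fin m → F)) w} × (F × F) //
            nrm3 t.2 + phi3 X t.1.1 = c} := by
    apply Nat.card_congr
    apply Equiv.subtypeEquiv Ψ
    intro a
    rw [hΨ a]
  rw [h1, Nat.card_congr (Equiv.subtypeProdEquivSigmaSubtype
    (fun (w' : {w : Fin m ⊕ Fin m → F //
      InW X (Fin.cons v e : Fin (k + 1) → (Fin m ⊕ Fin m → F)) w}) (z : F × F) =>
        nrm3 z + phi3 X w'.1 = c)), Nat.card_sigma]
  have h2 : ∀ w' : {w : Fin m ⊕ Fin m → F //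
      InW X (Fin.cons v e : Fin (k + 1) → (Fin m ⊕ Fin m → F)) w},
      Nat.card {z : F × F // nrm3 z + phi3 X w'.1 = c}
        = if phi3 X w'.1 = c then 1 else Fintype.card F + 1 := by
    intro w'
    have h3 : Nat.card {z : F × F // nrm3 z + phi3 X w'.1 = c}
        = Nat.card {z : F × F // nrm3 z = c - phi3 X w'.1} := by
      apply Nat.card_congr
      apply Equiv.subtypeEquivRight
      intro z
      exact eq_sub_iff_add_eq.symm
    rw [h3]
    by_cases h : phi3 X w'.1 = c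
    · rw [if_pos h, h, sub_self, card_nrm3_zero hq]
    · rw [if_neg h, card_nrm3 hq _ (sub_ne_zero.mpr (fun h' => h h'.symm))]
  rw [Finset.sum_congr rfl (fun w' _ => h2 w')]
  have hW : Nat.card {w : Fin m ⊕ Fin m → F //
      InW X (Fin.cons v e : Fin (k + 1) → (Fin m ⊕ Fin m → F)) w}
      = Fintype.card {w : Fin m ⊕ Fin m → F //
        InW X (Fin.cons v e : Fin (k + 1) → (Fin m ⊕ Fin m → F)) w} := Nat.card_eq_fintype_card
  have hn : Nat.card {a : {w : Fin m ⊕ Fin m → F //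
        InW X (Fin.cons v e : Fin (k + 1) → (Fin m ⊕ Fin m → F)) w} // phi3 X a.1 = c}
      = (Finset.univ.filter (fun a : {w : Fin m ⊕ Fin m → F //
        InW X (Fin.cons v e : Fin (k + 1) → (Fin m ⊕ Fin m → F)) w} => phi3 X a.1 = c)).card := by
    rw [Nat.card_eq_fintype_card, Fintype.card_subtype]
  rw [hW, hn]
  push_cast
  have h4 : ∀ w' : {w : Fin m ⊕ Fin m → F //
      InW X (Fin.cons v e : Fin (k + 1) → (Fin m ⊕ Fin m → F)) w},
      ((if phi3 X w'.1 = c then (1 : ℤ) else (Fintype.card F : ℤ) + 1))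
        = ((Fintype.card F : ℤ) + 1) - (if phi3 X w'.1 = c then (Fintype.card F : ℤ) else 0) := by
    intro w'
    split_ifs <;> ring
  rw [Finset.sum_congr rfl (fun w' _ => h4 w'), Finset.sum_sub_distrib, Finset.sum_const,
    Finset.card_univ, nsmul_eq_mul, Finset.sum_ite, Finset.sum_const, Finset.sum_const_zero,
    add_zero, nsmul_eq_mul]
  ring

lemma pf_gram1 {k : ℕ} {e : Fin k → (Fin m ⊕ Fin m → F)} (hpf : IsPF X e) (i j : Fin k) :
    Cfsg.sympForm m F (e i) (e j) = 0 := by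
  by_cases h : i = j
  · rw [h]
    exact sf_self _
  · exact (hpf.2 i j h).1

lemma pf_gram2 {k : ℕ} {e : Fin k → (Fin m ⊕ Fin m → F)} (hpf : IsPF X e) (i j : Fin k) :
    Cfsg.sympForm m F (e i) (X *ᵥ e j) = if i = j then 1 else 0 := by
  by_cases h : i = j
  · rw [if_pos h, h]
    exact hpf.1 j
  · rw [if_neg h, sf_anti, (hpf.2 j i (fun h' => h h'.symm)).2, neg_zero]

lemma pf_gram3 {k : ℕ} {e : Fin k → (Fin m ⊕ Fin m → F)} (hpf : IsPF X e) (i j : Fin k) :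
    Cfsg.sympForm m F (X *ᵥ e i) (e j) = if i = j then -1 else 0 := by
  rw [sf_anti, pf_gram2 hpf j i]
  by_cases h : i = j
  · rw [if_pos h, if_pos h.symm]
  · rw [if_neg h, if_neg (fun h' => h h'.symm), neg_zero]

lemma pf_gram4 (hX : IsF3 X) {k : ℕ} {e : Fin k → (Fin m ⊕ Fin m → F)} (hpf : IsPF X e)
    (i j : Fin k) : Cfsg.sympForm m F (X *ᵥ e i) (X *ᵥ e j) = 0 := by
  rw [hX.pres, pf_gram1 hpf]

lemma isPF_cons (hX : IsF3 X) {k : ℕ} (e : Fin k → (Fin m ⊕ Fin m → F))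
    (v : Fin m ⊕ Fin m → F) (hpf : IsPF X e) (hv : InW X e v) (hφ : phi3 X v = 1) :
    IsPF X (Fin.cons v e : Fin (k + 1) → (Fin m ⊕ Fin m → F)) := by
  constructor
  · intro i
    induction i using Fin.cases with
    | zero =>
      rw [Fin.cons_zero]
      exact hφ
    | succ i =>
      rw [Fin.cons_succ]
      exact hpf.1 i
  · intro i j
    induction i using Fin.cases with
    | zero =>
      induction j using Fin.cases with
      | zero =>
        intro h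
        exact absurd rfl h
      | succ j =>
        intro _
        rw [Fin.cons_zero, Fin.cons_succ]
        constructor
        · rw [sf_anti, (hv j).1, neg_zero]
        · rw [sf_anti, f3_d2 hX, (hv j).1, (hv j).2]
          ring
    | succ i =>
      induction j using Fin.cases with
      | zero =>
        intro _
        rw [Fin.cons_zero, Fin.cons_succ]
        exact hv i
      | succ j =>
        intro h
        rw [Fin.cons_succ, Fin.cons_succ]
        exact hpf.2 i j (fun h' => h (by rw [h']))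

lemma isPF_tail {k : ℕ} (e' : Fin (k + 1) → (Fin m ⊕ Fin m → F)) (hpf : IsPF X e') :
    IsPF X (Fin.tail e') ∧ InW X (Fin.tail e') (e' 0) ∧ phi3 X (e' 0) = 1 :=
  ⟨⟨fun i => hpf.1 i.succ, fun i j h => hpf.2 i.succ j.succ
    (fun h' => h (Fin.succ_injective _ h'))⟩,
    fun i => hpf.2 i.succ 0 (Fin.succ_ne_zero i), hpf.1 0⟩

lemma card_W [Fintype F] (hX : IsF3 X) : ∀ (k : ℕ) (e : Fin k → (Fin m ⊕ Fin m → F)),
    IsPF X e → k ≤ m →
    Nat.card {w : Fin m ⊕ Fin m → F // InW X e w} = Fintype.card F ^ (2 * (m - k))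
  | 0, e, _, _ => by
    have : Nat.card {w : Fin m ⊕ Fin m → F // InW X e w} = Nat.card (Fin m ⊕ Fin m → F) := by
      apply Nat.card_congr
      exact Equiv.subtypeUnivEquiv (fun w i => Fin.elim0 i)
    rw [this, Nat.card_eq_fintype_card, Fintype.card_fun, Fintype.card_sum, Fintype.card_fin]
    congr 1
    omega
  | k + 1, e', hpf, hk => by
    obtain ⟨hpf0, hv, hφ⟩ := isPF_tail e' hpf
    have ih := card_W hX k (Fin.tail e') hpf0 (by omega)
    have hd := dec_card hX (Fin.tail e') (e' 0) hv hφ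
    rw [Fin.cons_self_tail, ih] at hd
    have hq0 : 0 < Fintype.card F := Fintype.card_pos
    have e2 : 2 * (m - k) = 2 + 2 * (m - (k + 1)) := by omega
    rw [e2, pow_add] at hd
    exact (Nat.eq_of_mul_eq_mul_left (pow_pos hq0 2) hd).symm

/-- a partial frame of length `< m` extends -/
lemma exists_ext [Fintype F] (hq : Fintype.card F % 3 = 2) (hX : IsF3 X) {k : ℕ}
    (e : Fin k → (Fin m ⊕ Fin m → F)) (hpf : IsPF X e) (hk : k < m) :
    ∃ v, InW X e v ∧ phi3 X v = 1 := by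
  classical
  have h3 := three_ne_zero_of_card hq
  have hcard := card_W hX k e hpf (by omega)
  have hq2 : 2 ≤ Fintype.card F := Fintype.one_lt_card
  have hgt : 1 < Nat.card {w : Fin m ⊕ Fin m → F // InW X e w} := by
    rw [hcard]
    exact Nat.one_lt_pow (by omega) (by omega)
  haveI : Nontrivial {w : Fin m ⊕ Fin m → F // InW X e w} :=
    Finite.one_lt_card_iff_nontrivial.mp hgt
  obtain ⟨a, ha⟩ := exists_ne (⟨0, inW_zero e⟩ : {w : Fin m ⊕ Fin m → F // InW X e w})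
  obtain ⟨w, hw⟩ : ∃ w, w = a.1 := ⟨_, rfl⟩
  have hw0 : w ≠ 0 := by
    intro h
    apply ha
    apply Subtype.ext
    rw [← hw]
    exact h
  have hwW : InW X e w := by
    rw [hw]
    exact a.2
  -- a vector pairing nontrivially
  obtain ⟨u₁, hu₁⟩ : ∃ u₁, Cfsg.sympForm m F u₁ w ≠ 0 := by
    by_contra hcon
    rw [not_exists] at hcon
    apply hw0
    apply sB_nondeg.2
    intro x
    rw [sB_apply]
    exact not_not.mp (hcon x)
  obtain ⟨Dw, hDw⟩ : ∃ Dw, Dw = (2 : F) • X *ᵥ w + w := ⟨_, rfl⟩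
  have hDwW : InW X e Dw := by
    rw [hDw]
    exact inW_add (inW_smul _ (inW_X hX hwW)) hwW
  obtain ⟨u, hu⟩ : ∃ u, u = (2 : F) • X *ᵥ u₁ + u₁ := ⟨_, rfl⟩
  have hpol : Cfsg.sympForm m F u Dw = 3 * Cfsg.sympForm m F u₁ w := by
    rw [hu, hDw, sf_add_left, sf_add_right, sf_add_right, sf_smul_left, sf_smul_left,
      sf_smul_right, sf_smul_right, hX.pres, f3_d1 hX u₁ w]
    ring
  -- project to W
  obtain ⟨u', hu'⟩ : ∃ u', u' = u - (∑ i, (-Cfsg.sympForm m F (X *ᵥ e i) u) • e i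
      + ∑ i, (Cfsg.sympForm m F (e i) u) • X *ᵥ e i) := ⟨_, rfl⟩
  have hu'W : InW X e u' := by
    intro j
    rw [hu']
    constructor
    · rw [sf_sub_right, sf_add_right, sf_sum_right, sf_sum_right]
      simp only [pf_gram1 hpf, pf_gram2 hpf, mul_zero, Finset.sum_const_zero, mul_ite, mul_one,
        Finset.sum_ite_eq, Finset.mem_univ, if_true, zero_add, sub_self]
    · rw [sf_sub_right, sf_add_right, sf_sum_right, sf_sum_right]
      simp only [pf_gram3 hpf, pf_gram4 hX hpf, mul_zero, Finset.sum_const_zero, mul_ite, mul_neg,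
        mul_one, Finset.sum_ite_eq, Finset.mem_univ, if_true, add_zero, neg_neg, sub_self]
  have hpol' : Cfsg.sympForm m F u' Dw = Cfsg.sympForm m F u Dw := by
    rw [hu', sf_sub_left, sf_add_left, sf_sum_left, sf_sum_left]
    have h1 : ∀ i, Cfsg.sympForm m F (e i) Dw = 0 := fun i => (hDwW i).1
    have h2 : ∀ i, Cfsg.sympForm m F (X *ᵥ e i) Dw = 0 := fun i => (hDwW i).2
    simp only [h1, h2, mul_zero, Finset.sum_const_zero, add_zero, sub_zero]
  have hne : Cfsg.sympForm m F u' Dw ≠ 0 := by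
    rw [hpol', hpol]
    exact mul_ne_zero h3 hu₁
  -- polar identity
  have hadd : phi3 X (u' + w) = phi3 X u' + phi3 X w + Cfsg.sympForm m F u' Dw := by
    unfold phi3
    rw [hDw, Matrix.mulVec_add, sf_add_left, sf_add_right, sf_add_right, sf_add_right,
      sf_smul_right, sf_anti w (X *ᵥ u'), f3_d1 hX u' w]
    ring
  obtain ⟨z, hzW, hz⟩ : ∃ z, InW X e z ∧ phi3 X z ≠ 0 := by
    by_cases h1 : phi3 X u' = 0
    · by_cases h2 : phi3 X w = 0
      · refine ⟨u' + w, inW_add hu'W hwW, ?_⟩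
        rw [hadd, h1, h2, zero_add, zero_add]
        exact hne
      · exact ⟨w, hwW, h2⟩
    · exact ⟨u', hu'W, h1⟩
  obtain ⟨y, hy⟩ := nrm3_surj hq (phi3 X z)⁻¹
  refine ⟨y.1 • z + y.2 • X *ᵥ z, inW_add (inW_smul _ hzW) (inW_smul _ (inW_X hX hzW)), ?_⟩
  rw [phi3_scale hX, hy, inv_mul_cancel₀ hz]

/-- the counts of `φ = c` on the orthogonal complement of a partial frame -/
def nu3 (q z : ℤ) : ℕ → ℤ
  | 0 => z
  | j + 1 => (q + 1) * q ^ (2 * j) - q * nu3 q z j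

lemma nu3_closed (q : ℤ) (j : ℕ) :
    nu3 q 0 (j + 1) = q ^ j * (q ^ (j + 1) - (-1) ^ (j + 1)) := by
  induction j with
  | zero =>
    show (q + 1) * q ^ (2 * 0) - q * 0 = _
    ring
  | succ j ih =>
    show (q + 1) * q ^ (2 * (j + 1)) - q * nu3 q 0 (j + 1) = _
    rw [ih]
    ring

lemma nu3_nonneg (q : ℤ) (hq : 1 ≤ q) (j : ℕ) : 0 ≤ nu3 q 0 j := by
  cases j with
  | zero => exact le_refl _
  | succ j =>
    rw [nu3_closed]
    apply mul_nonneg (pow_nonneg (by omega) _)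
    have h1 : (1 : ℤ) ≤ q ^ (j + 1) := one_le_pow₀ hq
    rcases neg_one_pow_eq_or ℤ (j + 1) with h | h <;> rw [h] <;> omega

lemma card_phi_W [Fintype F] [DecidableEq F] (hq : Fintype.card F % 3 = 2) (hX : IsF3 X) :
    ∀ (j k : ℕ) (e : Fin k → (Fin m ⊕ Fin m → F)), IsPF X e → k + j = m → ∀ c : F,
    (Nat.card {a : {w : Fin m ⊕ Fin m → F // InW X e w} // phi3 X a.1 = c} : ℤ)
      = nu3 (Fintype.card F) (if c = 0 then 1 else 0) j
  | 0, k, e, hpf, hkj, c => by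
    have hcard := card_W hX k e hpf (by omega)
    rw [show m - k = 0 by omega, mul_zero, pow_zero] at hcard
    haveI hsub : Subsingleton {w : Fin m ⊕ Fin m → F // InW X e w} :=
      Finite.card_le_one_iff_subsingleton.mp hcard.le
    show _ = (if c = 0 then 1 else 0 : ℤ)
    by_cases hc : c = 0
    · rw [if_pos hc, hc]
      have : Nat.card {a : {w : Fin m ⊕ Fin m → F // InW X e w} // phi3 X a.1 = 0} = 1 :=
        Nat.card_of_subsingleton (⟨⟨0, inW_zero e⟩, phi3_zero⟩ :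
          {a : {w : Fin m ⊕ Fin m → F // InW X e w} // phi3 X a.1 = 0})
      rw [this]
      rfl
    · rw [if_neg hc]
      haveI : IsEmpty {a : {w : Fin m ⊕ Fin m → F // InW X e w} // phi3 X a.1 = c} :=
        ⟨fun a => hc (by
          have h0 : a.1 = ⟨0, inW_zero e⟩ := Subsingleton.elim _ _
          rw [← a.2, h0]
          exact phi3_zero)⟩
      rw [Nat.card_of_isEmpty]
      rfl
  | j + 1, k, e, hpf, hkj, c => by
    obtain ⟨v, hv, hφ⟩ := exists_ext hq hX e hpf (by omega)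
    have hpf' := isPF_cons hX e v hpf hv hφ
    have ih := card_phi_W hq hX j (k + 1) (Fin.cons v e) hpf' (by omega) c
    have hsz := card_W hX (k + 1) (Fin.cons v e) hpf' (by omega)
    rw [dec_card_phi hq hX e v hv hφ c, ih, hsz, show m - (k + 1) = j by omega]
    show _ = ((Fintype.card F : ℤ) + 1) * (Fintype.card F : ℤ) ^ (2 * j)
      - (Fintype.card F : ℤ) * nu3 _ _ j
    push_cast
    ring

lemma card_PF_succ [Fintype F] (hq : Fintype.card F % 3 = 2) (hX : IsF3 X) (k : ℕ)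
    (hk : k < m) :
    (Nat.card {e : Fin (k + 1) → (Fin m ⊕ Fin m → F) // IsPF X e} : ℤ)
      = Nat.card {e : Fin k → (Fin m ⊕ Fin m → F) // IsPF X e}
        * nu3 (Fintype.card F) 0 (m - k) := by
  classical
  obtain ⟨ρ, hρ⟩ : ∃ ρ : {e : Fin (k + 1) → (Fin m ⊕ Fin m → F) // IsPF X e} →
      {e : Fin k → (Fin m ⊕ Fin m → F) // IsPF X e}, ∀ a, (ρ a).1 = Fin.tail a.1 :=
    ⟨fun a => ⟨Fin.tail a.1, (isPF_tail a.1 a.2).1⟩, fun a => rfl⟩
  have hq1 : (1 : ℤ) ≤ (Fintype.card F : ℤ) := by exact_mod_cast Fintype.card_pos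
  have hfib : ∀ b, Nat.card {a // ρ a = b} = (nu3 (Fintype.card F) 0 (m - k)).toNat := by
    intro b
    have h1 := card_phi_W hq hX (m - k) k b.1 b.2 (by omega) 1
    rw [if_neg one_ne_zero] at h1
    rw [← h1, Int.toNat_natCast]
    obtain ⟨ψ, hψ⟩ : ∃ ψ : {a // ρ a = b} →
        {a : {w : Fin m ⊕ Fin m → F // InW X b.1 w} // phi3 X a.1 = 1},
        ∀ a, ((ψ a).1 : Fin m ⊕ Fin m → F) = a.1.1 0 := by
      refine ⟨fun a => ⟨⟨a.1.1 0, ?_⟩, ?_⟩, fun a => rfl⟩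
      · have h2 := (isPF_tail a.1.1 a.1.2).2.1
        have h3 : Fin.tail a.1.1 = b.1 := by rw [← hρ, a.2]
        rw [h3] at h2
        exact h2
      · exact (isPF_tail a.1.1 a.1.2).2.2
    refine Nat.card_congr (Equiv.ofBijective ψ ⟨?_, ?_⟩)
    · intro a a' h
      have h1 : a.1.1 0 = a'.1.1 0 := by rw [← hψ, ← hψ, h]
      have h2 : Fin.tail a.1.1 = Fin.tail a'.1.1 := by rw [← hρ, ← hρ, a.2, a'.2]
      apply Subtype.ext
      apply Subtype.ext
      rw [← Fin.cons_self_tail a.1.1, ← Fin.cons_self_tail a'.1.1, h1, h2]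
    · intro a
      have hpf' := isPF_cons hX b.1 a.1.1 b.2 a.1.2 a.2
      refine ⟨⟨⟨Fin.cons a.1.1 b.1, hpf'⟩, ?_⟩, ?_⟩
      · apply Subtype.ext
        rw [hρ]
        exact Fin.tail_cons _ _
      · apply Subtype.ext
        apply Subtype.ext
        rw [hψ]
        rfl
  rw [card_fiber_count ρ _ hfib]
  push_cast
  rw [Int.toNat_of_nonneg (nu3_nonneg _ hq1 _)]

lemma card_PF [Fintype F] (hq : Fintype.card F % 3 = 2) (hX : IsF3 X) :
    ∀ k, k ≤ m → (Nat.card {e : Fin k → (Fin m ⊕ Fin m → F) // IsPF X e} : ℤ)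
      = ∏ i ∈ Finset.range k, nu3 (Fintype.card F) 0 (m - i)
  | 0, _ => by
    rw [Finset.prod_range_zero]
    have : Nat.card {e : Fin 0 → (Fin m ⊕ Fin m → F) // IsPF X e} = 1 := by
      haveI : Subsingleton {e : Fin 0 → (Fin m ⊕ Fin m → F) // IsPF X e} :=
        ⟨fun a b => Subtype.ext (Subsingleton.elim _ _)⟩
      exact Nat.card_of_subsingleton (⟨fun i => Fin.elim0 i, fun i => Fin.elim0 i,
        fun i => Fin.elim0 i⟩ : {e : Fin 0 → (Fin m ⊕ Fin m → F) // IsPF X e})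
    rw [this]
    rfl
  | k + 1, hk => by
    rw [card_PF_succ hq hX k (by omega), card_PF hq hX k (by omega), Finset.prod_range_succ]

lemma prod_nu3 (q : ℤ) (m : ℕ) :
    ∏ i ∈ Finset.range m, nu3 q 0 (m - i)
      = q ^ (m * (m - 1) / 2) * ∏ i : Fin m, (q ^ ((i : ℕ) + 1) - (-1) ^ ((i : ℕ) + 1)) := by
  have h1 : ∏ i ∈ Finset.range m, nu3 q 0 (m - i) = ∏ j ∈ Finset.range m, nu3 q 0 (j + 1) := by
    rw [← Finset.prod_range_reflect (fun j => nu3 q 0 (j + 1)) m]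
    apply Finset.prod_congr rfl
    intro i hi
    rw [Finset.mem_range] at hi
    congr 1
    omega
  rw [h1, Finset.prod_congr rfl (fun j _ => nu3_closed q j), Finset.prod_mul_distrib,
    Finset.prod_pow_eq_pow_sum, Finset.sum_range_id, Finset.prod_range]

lemma exists_PF [Fintype F] (hq : Fintype.card F % 3 = 2) (hX : IsF3 X) :
    ∀ k, k ≤ m → ∃ e : Fin k → (Fin m ⊕ Fin m → F), IsPF X e
  | 0, _ => ⟨fun i => Fin.elim0 i, fun i => Fin.elim0 i, fun i => Fin.elim0 i⟩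
  | k + 1, hk => by
    obtain ⟨e, he⟩ := exists_PF hq hX k (by omega)
    obtain ⟨v, hv, hφ⟩ := exists_ext hq hX e he (by omega)
    exact ⟨Fin.cons v e, isPF_cons hX e v he hv hφ⟩

end Fpf3

end Cfsg.Agent.Lib.helper4
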