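import Mathlib
import Cfsg.Agent.Lib.helper4.Fpf3Frames

set_option autoImplicit false

/-!
# The centraliser of a fixed-point-free element of order 3 in `Sp_2m(q)`, `q ≡ 2 (mod 3)`

The centraliser acts simply transitively on the adapted frames, so it has the order of `GU_m(q)`.
-/

namespace Cfsg.Agent.Lib.helper4

open Matrix
open Cfsg.Agent.S0776 Cfsg.Agent.S0766 Cfsg.Agent.S0765

section Fpf3Cent

variable {F : Type*} [Field F] {m : ℕ}

/-- the family `e_i, X e_i` -/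
def frm3 (X : Matrix (Fin m ⊕ Fin m) (Fin m ⊕ Fin m) F) (e : Fin m → (Fin m ⊕ Fin m → F)) :
    Fin m ⊕ Fin m → (Fin m ⊕ Fin m → F) :=
  Sum.elim e (fun i => X *ᵥ e i)

/-- its Gram matrix -/
def gram3 (F : Type*) [Field F] (m : ℕ) (a b : Fin m ⊕ Fin m) : F :=
  match a, b with
  | Sum.inl _, Sum.inl _ => 0
  | Sum.inl i, Sum.inr j => if i = j then 1 else 0
  | Sum.inr i, Sum.inl j => if i = j then -1 else 0
  | Sum.inr _, Sum.inr _ => 0

variable {X : Matrix (Fin m ⊕ Fin m) (Fin m ⊕ Fin m) F}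

lemma frm3_gram (hX : IsF3 X) (e : Fin m → (Fin m ⊕ Fin m → F)) (hpf : IsPF X e)
    (a b : Fin m ⊕ Fin m) :
    Cfsg.sympForm m F (frm3 X e a) (frm3 X e b) = gram3 F m a b := by
  rcases a with i | i <;> rcases b with j | j
  · exact pf_gram1 hpf i j
  · exact pf_gram2 hpf i j
  · exact pf_gram3 hpf i j
  · exact pf_gram4 hX hpf i j

lemma frm3_linInd (hX : IsF3 X) (e : Fin m → (Fin m ⊕ Fin m → F)) (hpf : IsPF X e) :
    LinearIndependent F (frm3 X e) := by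
  classical
  rw [Fintype.linearIndependent_iff]
  intro c hc
  have key : ∀ b, ∑ a, c a * gram3 F m a b = 0 := by
    intro b
    have h1 := congrArg (fun x => Cfsg.sympForm m F x (frm3 X e b)) hc
    rw [sf_sum_left, sf_zero_left] at h1
    rw [← h1]
    apply Finset.sum_congr rfl
    intro a _
    rw [frm3_gram hX e hpf]
  intro a
  rcases a with i | i
  · have h := key (Sum.inr i)
    rw [Fintype.sum_sum_type] at h
    simp only [gram3, mul_zero, Finset.sum_const_zero, add_zero, mul_ite, mul_one,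
      Finset.sum_ite_eq', Finset.mem_univ, if_true] at h
    exact h
  · have h := key (Sum.inl i)
    rw [Fintype.sum_sum_type] at h
    simp only [gram3, mul_zero, Finset.sum_const_zero, zero_add, mul_ite, mul_neg, mul_one,
      Finset.sum_ite_eq', Finset.mem_univ, if_true, neg_eq_zero] at h
    exact h

theorem sp_card_centralizer_fpf3 [Fintype F] {q : ℕ} (hF : Fintype.card F = q)
    (hq : q % 3 = 2) (hm : 1 ≤ m) (x : Matrix.symplecticGroup (Fin m) F) (hx3 : x ^ 3 = 1)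
    (hfpf : IsUnit ((x : Matrix (Fin m ⊕ Fin m) (Fin m ⊕ Fin m) F) - 1)) :
    (Nat.card ↥(Subgroup.centralizer ({x} : Set ↥(Matrix.symplecticGroup (Fin m) F))) : ℤ)
      = (q : ℤ) ^ (m * (m - 1) / 2)
        * ∏ i : Fin m, ((q : ℤ) ^ ((i : ℕ) + 1) - (-1) ^ ((i : ℕ) + 1)) := by
  classical
  have hq' : Fintype.card F % 3 = 2 := by rw [hF]; exact hq
  obtain ⟨X, hXdef⟩ : ∃ X : Matrix (Fin m ⊕ Fin m) (Fin m ⊕ Fin m) F, X = x.1 := ⟨_, rfl⟩
  have h3 : X * X * X = 1 := by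
    have := congrArg Subtype.val hx3
    rw [pow_succ, pow_two] at this
    rw [hXdef]
    exact this
  have hpoly : X * X + X + 1 = 0 := by
    have h4 : (X - 1) * (X * X + X + 1) = 0 := by
      have : (X - 1) * (X * X + X + 1) = X * X * X - 1 := by
        rw [sub_mul, mul_add, mul_add, one_mul, mul_one, ← mul_assoc]
        abel
      rw [this, h3, sub_self]
    rw [← hXdef] at hfpf
    exact hfpf.mul_right_eq_zero.mp h4
  have hXX : X * X = -X - 1 := by
    have := hpoly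
    rw [add_assoc, add_eq_zero_iff_eq_neg] at this
    rw [this]
    abel
  have hX : IsF3 X := by
    constructor
    · intro v
      rw [Matrix.mulVec_mulVec, hXX, Matrix.sub_mulVec, Matrix.neg_mulVec, Matrix.one_mulVec]
    · intro v w
      rw [hXdef]
      exact sp_pres x v w
  have hcard2 : Fintype.card (Fin m ⊕ Fin m) = 2 * m := by
    rw [Fintype.card_sum, Fintype.card_fin]
    ring
  obtain ⟨e₀, he₀⟩ := exists_PF hq' hX m le_rfl
  have hli₀ := frm3_linInd hX e₀ he₀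
  haveI : Nonempty (Fin m ⊕ Fin m) := ⟨Sum.inl ⟨0, by omega⟩⟩
  have hcard : Fintype.card (Fin m ⊕ Fin m) = Module.finrank F (Fin m ⊕ Fin m → F) := by
    rw [Module.finrank_fintype_fun_eq_card]
  obtain ⟨b, hb⟩ : ∃ b : Module.Basis (Fin m ⊕ Fin m) F (Fin m ⊕ Fin m → F),
      ∀ a, b a = frm3 X e₀ a :=
    ⟨basisOfLinearIndependentOfCardEqFinrank hli₀ hcard, fun a => by
      rw [coe_basisOfLinearIndependentOfCardEqFinrank]⟩
  -- commuting with x
  have hcomm : ∀ g : Matrix.symplecticGroup (Fin m) F,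
      g ∈ Subgroup.centralizer ({x} : Set ↥(Matrix.symplecticGroup (Fin m) F)) ↔
        (g : Matrix (Fin m ⊕ Fin m) (Fin m ⊕ Fin m) F) * X
          = X * (g : Matrix (Fin m ⊕ Fin m) (Fin m ⊕ Fin m) F) := by
    intro g
    rw [Subgroup.mem_centralizer_singleton_iff, hXdef]
    constructor
    · intro h
      exact congrArg Subtype.val h
    · intro h
      exact Subtype.ext h
  obtain ⟨Φ, hΦ⟩ : ∃ Φ : ↥(Subgroup.centralizer ({x} : Set ↥(Matrix.symplecticGroup (Fin m) F)))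
      → {e : Fin m → (Fin m ⊕ Fin m → F) // IsPF X e},
      ∀ g i, (Φ g).1 i = (g.1 : Matrix (Fin m ⊕ Fin m) (Fin m ⊕ Fin m) F) *ᵥ e₀ i := by
    refine ⟨fun g => ⟨fun i => (g.1 : Matrix (Fin m ⊕ Fin m) (Fin m ⊕ Fin m) F) *ᵥ e₀ i, ?_⟩,
      fun g i => rfl⟩
    have hg := (hcomm g.1).mp g.2
    have hXg : ∀ v, X *ᵥ ((g.1 : Matrix (Fin m ⊕ Fin m) (Fin m ⊕ Fin m) F) *ᵥ v)
        = (g.1 : Matrix (Fin m ⊕ Fin m) (Fin m ⊕ Fin m) F) *ᵥ (X *ᵥ v) := by
      intro v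
      rw [Matrix.mulVec_mulVec, Matrix.mulVec_mulVec, hg]
    constructor
    · intro i
      show Cfsg.sympForm m F _ (X *ᵥ _) = 1
      rw [hXg, sp_pres]
      exact he₀.1 i
    · intro i j hij
      show Cfsg.sympForm m F _ _ = 0 ∧ Cfsg.sympForm m F (X *ᵥ _) _ = 0
      rw [hXg, sp_pres, sp_pres]
      exact he₀.2 i j hij
  have hinj : Function.Injective Φ := by
    intro g g' h
    have hg := (hcomm g.1).mp g.2
    have hg' := (hcomm g'.1).mp g'.2
    have h1 : ∀ i, (g.1 : Matrix (Fin m ⊕ Fin m) (Fin m ⊕ Fin m) F) *ᵥ e₀ i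
        = (g'.1 : Matrix (Fin m ⊕ Fin m) (Fin m ⊕ Fin m) F) *ᵥ e₀ i := by
      intro i
      rw [← hΦ, ← hΦ, h]
    apply Subtype.ext
    apply Subtype.ext
    apply Matrix.toLin'.injective
    apply b.ext
    intro a
    rw [Matrix.toLin'_apply, Matrix.toLin'_apply, hb]
    rcases a with i | i
    · exact h1 i
    · show (g.1 : Matrix (Fin m ⊕ Fin m) (Fin m ⊕ Fin m) F) *ᵥ (X *ᵥ e₀ i)
        = (g'.1 : Matrix (Fin m ⊕ Fin m) (Fin m ⊕ Fin m) F) *ᵥ (X *ᵥ e₀ i)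
      rw [Matrix.mulVec_mulVec, Matrix.mulVec_mulVec, hg, hg', ← Matrix.mulVec_mulVec,
        ← Matrix.mulVec_mulVec, h1 i]
  have hsurj : Function.Surjective Φ := by
    intro e
    have hli := frm3_linInd hX e.1 e.2
    obtain ⟨A, hA⟩ := witt_frames (fun t : Fin (m + m) => frm3 X e₀ (finSumFinEquiv.symm t))
      (fun t : Fin (m + m) => frm3 X e.1 (finSumFinEquiv.symm t))
      (hli₀.comp _ finSumFinEquiv.symm.injective) (hli.comp _ finSumFinEquiv.symm.injective)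
      (fun t t' => by rw [frm3_gram hX e.1 e.2, frm3_gram hX e₀ he₀])
    have hA' : ∀ a, (A : Matrix (Fin m ⊕ Fin m) (Fin m ⊕ Fin m) F) *ᵥ frm3 X e₀ a
        = frm3 X e.1 a := by
      intro a
      have := hA (finSumFinEquiv a)
      rw [Equiv.symm_apply_apply] at this
      exact this
    have hA1 : ∀ i, (A : Matrix (Fin m ⊕ Fin m) (Fin m ⊕ Fin m) F) *ᵥ e₀ i = e.1 i :=
      fun i => hA' (Sum.inl i)
    have hA2 : ∀ i, (A : Matrix (Fin m ⊕ Fin m) (Fin m ⊕ Fin m) F) *ᵥ (X *ᵥ e₀ i)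
        = X *ᵥ e.1 i := fun i => hA' (Sum.inr i)
    have hAX : (A : Matrix (Fin m ⊕ Fin m) (Fin m ⊕ Fin m) F) * X
        = X * (A : Matrix (Fin m ⊕ Fin m) (Fin m ⊕ Fin m) F) := by
      apply Matrix.toLin'.injective
      apply b.ext
      intro a
      rw [Matrix.toLin'_apply, Matrix.toLin'_apply, hb, ← Matrix.mulVec_mulVec,
        ← Matrix.mulVec_mulVec]
      rcases a with i | i
      · show (A : Matrix (Fin m ⊕ Fin m) (Fin m ⊕ Fin m) F) *ᵥ (X *ᵥ e₀ i)
          = X *ᵥ ((A : Matrix (Fin m ⊕ Fin m) (Fin m ⊕ Fin m) F) *ᵥ e₀ i)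
        rw [hA2, hA1]
      · show (A : Matrix (Fin m ⊕ Fin m) (Fin m ⊕ Fin m) F) *ᵥ (X *ᵥ (X *ᵥ e₀ i))
          = X *ᵥ ((A : Matrix (Fin m ⊕ Fin m) (Fin m ⊕ Fin m) F) *ᵥ (X *ᵥ e₀ i))
        rw [hA2, hX.sq, hX.sq, Matrix.mulVec_sub, Matrix.mulVec_neg, hA2, hA1]
    refine ⟨⟨A, (hcomm A).mpr hAX⟩, ?_⟩
    apply Subtype.ext
    funext i
    rw [hΦ]
    exact hA1 i
  rw [Nat.card_congr (Equiv.ofBijective Φ ⟨hinj, hsurj⟩), card_PF hq' hX m le_rfl, prod_nu3, hF]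

end Fpf3Cent

end Cfsg.Agent.Lib.helper4
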