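import Mathlib
import Cfsg.Agent.Lib.helper4.SpCard
import Cfsg.Agent.S0751

set_option autoImplicit false
set_option linter.unusedSectionVars false

/-!
# Orthonormal frames for the dot product in characteristic two

The number of matrices `A` with `A Aᵀ = 1` over a finite field of characteristic two.
-/

namespace Cfsg.Agent.Lib.helper4

open Matrix

section OrthDot

variable {F : Type*} [Field F]

/-- orthonormal families for the dot product -/
def IsON {s k : ℕ} (a : Fin k → (Fin s → F)) : Prop :=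
  ∀ i j, a i ⬝ᵥ a j = if i = j then 1 else 0

theorem dot_self_char2 [CharP F 2] {s : ℕ} (x : Fin s → F) :
    x ⬝ᵥ x = (∑ i, x i) * (∑ i, x i) :=
  (CharTwo.sum_mul_self Finset.univ x).symm

theorem ones_dot {s : ℕ} (x : Fin s → F) : (fun _ => (1 : F)) ⬝ᵥ x = ∑ i, x i := by
  simp [dotProduct]

theorem dot_self_eq_one_iff [CharP F 2] {s : ℕ} (x : Fin s → F) :
    x ⬝ᵥ x = 1 ↔ (fun _ => (1 : F)) ⬝ᵥ x = 1 := by
  rw [dot_self_char2, ones_dot]
  constructor
  · intro h
    have h1 : (∑ i, x i + 1) * (∑ i, x i + 1) = 0 := by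
      have h2 := CharTwo.add_self_eq_zero (∑ i, x i)
      have h3 := CharTwo.add_self_eq_zero (1 : F)
      linear_combination h + h2 + h3
    have h4 := mul_self_eq_zero.mp h1
    exact CharTwo.add_eq_zero.mp h4
  · intro h
    rw [h, mul_one]

theorem natCast_char2 [CharP F 2] (n : ℕ) : ((n : ℕ) : F) = if Odd n then 1 else 0 := by
  have h2 : (2 : F) = 0 := CharTwo.two_eq_zero
  rcases Nat.even_or_odd' n with ⟨c, rfl | rfl⟩
  · have h : ¬ Odd (2 * c) := by
      rw [Nat.not_odd_iff_even]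
      exact even_two_mul c
    rw [if_neg h]
    push_cast
    rw [h2, zero_mul]
  · have h : Odd (2 * c + 1) := odd_two_mul_add_one c
    rw [if_pos h]
    push_cast
    rw [h2, zero_mul, zero_add]

theorem card_dot_fiber [Fintype F] {q : ℕ} (hF : Fintype.card F = q) {s r : ℕ}
    (w : Fin r → (Fin s → F)) (hw : LinearIndependent F w) (c : Fin r → F) :
    Nat.card {x : Fin s → F // ∀ i, w i ⬝ᵥ x = c i} * q ^ r = q ^ s := by
  classical
  obtain ⟨T, hT⟩ : ∃ T : (Fin s → F) →ₗ[F] (Fin r → F), ∀ x i, T x i = w i ⬝ᵥ x :=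
    ⟨Matrix.mulVecLin (Matrix.of w), fun x i => rfl⟩
  have hsurj : ∀ b : Fin r → F, ∃ x, T x = b := by
    intro b
    have hB : (Matrix.toBilin' (1 : Matrix (Fin s) (Fin s) F)).Nondegenerate :=
      Matrix.nondegenerate_toBilin'_iff.mpr
        (Matrix.nondegenerate_of_det_ne_zero (by rw [Matrix.det_one]; exact one_ne_zero))
    obtain ⟨v, hv⟩ := Cfsg.Agent.S0751.L_surj (RingHom.id F)
      (Matrix.toBilin' (1 : Matrix (Fin s) (Fin s) F)) (fun a => rfl) hB w hw b
    refine ⟨v, funext fun i => ?_⟩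
    rw [hT, ← hv i, Matrix.toBilin'_apply', Matrix.one_mulVec]
  have hfib : ∀ b, Nat.card {x // T x = b} = Nat.card {x // T x = 0} := by
    intro b
    obtain ⟨x₀, hx₀⟩ := hsurj b
    exact Nat.card_congr ⟨fun x => ⟨x.1 - x₀, by rw [map_sub, x.2, hx₀, sub_self]⟩,
      fun y => ⟨y.1 + x₀, by rw [map_add, y.2, hx₀, zero_add]⟩,
      fun x => Subtype.ext (sub_add_cancel _ _), fun y => Subtype.ext (add_sub_cancel_right _ _)⟩
  have h1 := card_fiber_count (fun x => T x) _ hfib
  rw [Nat.card_eq_fintype_card, Nat.card_eq_fintype_card, Fintype.card_fun, Fintype.card_fun,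
    Fintype.card_fin, Fintype.card_fin, hF] at h1
  have h2 : Nat.card {x : Fin s → F // ∀ i, w i ⬝ᵥ x = c i} = Nat.card {x // T x = c} := by
    apply Nat.card_congr
    apply Equiv.subtypeEquivRight
    intro x
    constructor
    · intro h
      funext i
      rw [hT, h]
    · intro h i
      rw [← hT, h]
  rw [h2, hfib c, h1, mul_comm]

theorem on_cons_iff {s k : ℕ} (x : Fin s → F) (b : Fin k → (Fin s → F)) :
    IsON (Fin.cons x b : Fin (k + 1) → (Fin s → F)) ↔
      x ⬝ᵥ x = 1 ∧ (∀ i, b i ⬝ᵥ x = 0) ∧ IsON b := by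
  unfold IsON
  constructor
  · intro h
    refine ⟨?_, fun i => ?_, fun i j => ?_⟩
    · have h1 := h 0 0
      simpa using h1
    · have h1 := h i.succ 0
      simpa [Fin.succ_ne_zero] using h1
    · have h1 := h i.succ j.succ
      simpa using h1
  · rintro ⟨hx, hbx, hb⟩ i j
    refine Fin.cases ?_ (fun i => ?_) i
    · refine Fin.cases ?_ (fun j => ?_) j
      · simpa using hx
      · have h1 : (0 : Fin (k + 1)) ≠ j.succ := (Fin.succ_ne_zero j).symm
        rw [if_neg h1, Fin.cons_zero, Fin.cons_succ, dotProduct_comm]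
        exact hbx j
    · refine Fin.cases ?_ (fun j => ?_) j
      · rw [if_neg (Fin.succ_ne_zero i), Fin.cons_zero, Fin.cons_succ]
        exact hbx i
      · rw [Fin.cons_succ, Fin.cons_succ, hb i j]
        simp

theorem on_ones {s k : ℕ} [CharP F 2] (a : Fin k → (Fin s → F)) (h : IsON a) (i : Fin k) :
    (fun _ => (1 : F)) ⬝ᵥ a i = 1 :=
  (dot_self_eq_one_iff _).mp (by rw [h i i, if_pos rfl])

theorem li_cons_ones [CharP F 2] {s k : ℕ} (b : Fin k → (Fin s → F)) (hb : IsON b)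
    (hne : ∑ i, b i ≠ fun _ => (1 : F)) :
    LinearIndependent F (Fin.cons (fun _ => (1 : F)) b : Fin (k + 1) → (Fin s → F)) := by
  classical
  rw [Fintype.linearIndependent_iff]
  intro c hc
  rw [Fin.sum_univ_succ] at hc
  simp only [Fin.cons_zero, Fin.cons_succ] at hc
  have h1 : ∀ j : Fin k, c j.succ = c 0 := by
    intro j
    have h2 := congrArg (fun v => v ⬝ᵥ b j) hc
    simp only [add_dotProduct, smul_dotProduct, sum_dotProduct, zero_dotProduct, smul_eq_mul]
      at h2
    rw [on_ones b hb j, mul_one] at h2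
    have h3 : ∑ i, c i.succ * (b i ⬝ᵥ b j) = c j.succ := by
      rw [Finset.sum_eq_single j]
      · rw [hb j j, if_pos rfl, mul_one]
      · intro i _ hi
        rw [hb i j, if_neg hi, mul_zero]
      · intro h
        exact absurd (Finset.mem_univ _) h
    rw [h3] at h2
    exact (CharTwo.add_eq_zero.mp h2).symm
  have h3 : c 0 • ((fun _ => (1 : F)) + ∑ i, b i) = 0 := by
    rw [smul_add, Finset.smul_sum, ← hc]
    congr 1
    apply Finset.sum_congr rfl
    intro i _
    rw [h1]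
  have h4 : c 0 = 0 := by
    rcases smul_eq_zero.mp h3 with h | h
    · exact h
    · exfalso
      apply hne
      funext i
      have h5 := congrFun h i
      simp only [Pi.add_apply, Pi.zero_apply] at h5
      exact (CharTwo.add_eq_zero.mp h5).symm
  intro i
  refine Fin.cases h4 (fun j => ?_) i
  rw [h1, h4]

theorem on_tail {s k : ℕ} (a : Fin (k + 1) → (Fin s → F)) (h : IsON a) :
    a 0 ⬝ᵥ a 0 = 1 ∧ (∀ i, Fin.tail a i ⬝ᵥ a 0 = 0) ∧ IsON (Fin.tail a) := by
  apply (on_cons_iff (a 0) (Fin.tail a)).mp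
  rw [Fin.cons_self_tail]
  exact h

theorem on_card_succ [Fintype F] [CharP F 2] {q : ℕ} (hF : Fintype.card F = q) {s k : ℕ}
    (hk : k < s) :
    Nat.card {a : Fin (k + 1) → (Fin s → F) // IsON a}
      = Nat.card {b : Fin k → (Fin s → F) // IsON b ∧ ∑ i, b i ≠ fun _ => (1 : F)}
        * q ^ (s - k - 1) := by
  classical
  obtain ⟨ρ, hρ⟩ : ∃ ρ : {a : Fin (k + 1) → (Fin s → F) // IsON a} →
      {b : Fin k → (Fin s → F) // IsON b ∧ ∑ i, b i ≠ fun _ => (1 : F)},
      ∀ a, (ρ a).1 = Fin.tail a.1 := by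
    refine ⟨fun a => ⟨Fin.tail a.1, (on_tail a.1 a.2).2.2, ?_⟩, fun a => rfl⟩
    intro h
    have h0 := on_tail a.1 a.2
    have h1 : (fun _ => (1 : F)) ⬝ᵥ a.1 0 = 1 := (dot_self_eq_one_iff _).mp h0.1
    rw [← h, sum_dotProduct, Finset.sum_eq_zero (fun i _ => h0.2.1 i)] at h1
    exact zero_ne_one h1
  have hq : 0 < q := by
    rw [← hF]
    exact Fintype.card_pos
  have hfib : ∀ b, Nat.card {a // ρ a = b} = q ^ (s - k - 1) := by
    intro b
    have hli := li_cons_ones b.1 b.2.1 b.2.2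
    have h1 := card_dot_fiber hF (Fin.cons (fun _ => (1 : F)) b.1 : Fin (k + 1) → (Fin s → F))
      hli (Fin.cons 1 0)
    have h2 : Nat.card {a // ρ a = b} = Nat.card {x : Fin s → F // ∀ i : Fin (k + 1),
        (Fin.cons (fun _ => (1 : F)) b.1 : Fin (k + 1) → (Fin s → F)) i ⬝ᵥ x
          = (Fin.cons 1 0 : Fin (k + 1) → F) i} := by
      have htail : ∀ a : {a // ρ a = b}, Fin.tail a.1.1 = b.1 := by
        intro a
        rw [← hρ, a.2]
      obtain ⟨ψ, hψ⟩ : ∃ ψ : {a // ρ a = b} → {x : Fin s → F // ∀ i : Fin (k + 1),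
          (Fin.cons (fun _ => (1 : F)) b.1 : Fin (k + 1) → (Fin s → F)) i ⬝ᵥ x
            = (Fin.cons 1 0 : Fin (k + 1) → F) i}, ∀ a, (ψ a).1 = a.1.1 0 := by
        refine ⟨fun a => ⟨a.1.1 0, ?_⟩, fun a => rfl⟩
        have h0 := on_tail a.1.1 a.1.2
        intro i
        refine Fin.cases ?_ (fun j => ?_) i
        · rw [Fin.cons_zero, Fin.cons_zero]
          exact (dot_self_eq_one_iff _).mp h0.1
        · rw [Fin.cons_succ, Fin.cons_succ, ← htail a]
          exact h0.2.1 j
      refine Nat.card_congr (Equiv.ofBijective ψ ⟨?_, ?_⟩)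
      · intro a a' h
        have h3 : a.1.1 0 = a'.1.1 0 := by rw [← hψ, ← hψ, h]
        apply Subtype.ext
        apply Subtype.ext
        rw [← Fin.cons_self_tail a.1.1, ← Fin.cons_self_tail a'.1.1, h3, htail a, htail a']
      · intro x
        have hx0 := x.2 0
        rw [Fin.cons_zero, Fin.cons_zero] at hx0
        have hxs : ∀ j, b.1 j ⬝ᵥ x.1 = 0 := by
          intro j
          have h3 := x.2 j.succ
          rw [Fin.cons_succ, Fin.cons_succ] at h3
          exact h3
        have hon : IsON (Fin.cons x.1 b.1 : Fin (k + 1) → (Fin s → F)) :=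
          (on_cons_iff x.1 b.1).mpr ⟨(dot_self_eq_one_iff _).mpr hx0, hxs, b.2.1⟩
        refine ⟨⟨⟨Fin.cons x.1 b.1, hon⟩, ?_⟩, ?_⟩
        · apply Subtype.ext
          rw [hρ]
          exact Fin.tail_cons _ _
        · apply Subtype.ext
          rw [hψ]
          rfl
    rw [h2]
    have h3 : q ^ s = q ^ (s - k - 1) * q ^ (k + 1) := by
      rw [← pow_add]
      congr 1
      omega
    rw [h3] at h1
    exact Nat.eq_of_mul_eq_mul_right (pow_pos hq _) h1
  rw [card_fiber_count ρ _ hfib]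

theorem on_sum_key [CharP F 2] {s k : ℕ} (b : Fin k → (Fin s → F)) (hb : IsON b) :
    (∀ i, b i ⬝ᵥ ((fun _ => (1 : F)) + ∑ j, b j) = 0) ∧
    (fun _ => (1 : F)) ⬝ᵥ ((fun _ => (1 : F)) + ∑ j, b j) = ((s + k : ℕ) : F) := by
  classical
  constructor
  · intro i
    rw [dotProduct_add, dotProduct_sum, dotProduct_comm, on_ones b hb i]
    have h1 : ∑ j, b i ⬝ᵥ b j = 1 := by
      rw [Finset.sum_eq_single i]
      · rw [hb i i, if_pos rfl]
      · intro j _ hj
        rw [hb i j, if_neg (Ne.symm hj)]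
      · intro h
        exact absurd (Finset.mem_univ _) h
    rw [h1]
    exact CharTwo.add_self_eq_zero 1
  · rw [dotProduct_add, dotProduct_sum, ones_dot]
    have h1 : ∑ j, (fun _ => (1 : F)) ⬝ᵥ b j = (k : F) := by
      rw [Finset.sum_congr rfl (fun j _ => on_ones b hb j)]
      simp
    rw [h1]
    simp

theorem on_sum_card_succ [Fintype F] [CharP F 2] {s k : ℕ} :
    Nat.card {a : Fin (k + 1) → (Fin s → F) // IsON a ∧ ∑ i, a i = fun _ => (1 : F)}
      = if Odd (s + k) then Nat.card {b : Fin k → (Fin s → F) // IsON b} else 0 := by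
  classical
  have hhead : ∀ a : Fin (k + 1) → (Fin s → F), ∑ i, a i = (fun _ => (1 : F)) →
      a 0 = (fun _ => (1 : F)) + ∑ j, Fin.tail a j := by
    intro a h
    rw [Fin.sum_univ_succ] at h
    funext i
    have h1 := congrFun h i
    have h3 : (∑ j, Fin.tail a j) i = (∑ j : Fin k, a j.succ) i := rfl
    simp only [Pi.add_apply] at h1 ⊢
    rw [h3]
    have h2 := CharTwo.add_self_eq_zero ((∑ j : Fin k, a j.succ) i)
    linear_combination h1 - h2
  split_ifs with hodd
  · obtain ⟨ψ, hψ⟩ : ∃ ψ : {a : Fin (k + 1) → (Fin s → F) //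
          IsON a ∧ ∑ i, a i = fun _ => (1 : F)} → {b : Fin k → (Fin s → F) // IsON b},
        ∀ a, (ψ a).1 = Fin.tail a.1 :=
      ⟨fun a => ⟨Fin.tail a.1, (on_tail a.1 a.2.1).2.2⟩, fun a => rfl⟩
    refine Nat.card_congr (Equiv.ofBijective ψ ⟨?_, ?_⟩)
    · intro a a' h
      have h1 : Fin.tail a.1 = Fin.tail a'.1 := by rw [← hψ, ← hψ, h]
      apply Subtype.ext
      rw [← Fin.cons_self_tail a.1, ← Fin.cons_self_tail a'.1, hhead a.1 a.2.2,
        hhead a'.1 a'.2.2, h1]
    · intro b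
      obtain ⟨hk1, hk2⟩ := on_sum_key b.1 b.2
      rw [natCast_char2, if_pos hodd] at hk2
      have hon : IsON (Fin.cons ((fun _ => (1 : F)) + ∑ j, b.1 j) b.1 :
          Fin (k + 1) → (Fin s → F)) :=
        (on_cons_iff _ b.1).mpr ⟨(dot_self_eq_one_iff _).mpr hk2, hk1, b.2⟩
      refine ⟨⟨Fin.cons ((fun _ => (1 : F)) + ∑ j, b.1 j) b.1, hon, ?_⟩, ?_⟩
      · rw [Fin.sum_univ_succ]
        simp only [Fin.cons_zero, Fin.cons_succ]
        funext i
        simp only [Pi.add_apply]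
        have h5 := CharTwo.add_self_eq_zero ((∑ j, b.1 j) i)
        linear_combination h5
      · apply Subtype.ext
        rw [hψ]
        exact Fin.tail_cons _ _
  · rw [Nat.card_eq_zero]
    left
    constructor
    rintro ⟨a, ha, hsum⟩
    have h0 := on_tail a ha
    obtain ⟨hk1, hk2⟩ := on_sum_key (Fin.tail a) h0.2.2
    rw [← hhead a hsum, natCast_char2, if_neg hodd] at hk2
    have h1 := (dot_self_eq_one_iff _).mp h0.1
    rw [hk2] at h1
    exact zero_ne_one h1

theorem on_card_zero {s : ℕ} : Nat.card {a : Fin 0 → (Fin s → F) // IsON a} = 1 := by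
  haveI : Subsingleton {a : Fin 0 → (Fin s → F) // IsON a} :=
    ⟨fun a b => Subtype.ext (Subsingleton.elim _ _)⟩
  exact Nat.card_of_subsingleton
    (⟨fun i => i.elim0, fun i => i.elim0⟩ : {a : Fin 0 → (Fin s → F) // IsON a})

theorem on_ne_card_zero {s : ℕ} (hs : 1 ≤ s) :
    Nat.card {a : Fin 0 → (Fin s → F) // IsON a ∧ ∑ i, a i ≠ fun _ => (1 : F)} = 1 := by
  haveI : Subsingleton {a : Fin 0 → (Fin s → F) // IsON a ∧ ∑ i, a i ≠ fun _ => (1 : F)} :=
    ⟨fun a b => Subtype.ext (Subsingleton.elim _ _)⟩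
  refine Nat.card_of_subsingleton (⟨fun i => i.elim0, fun i => i.elim0, ?_⟩ :
    {a : Fin 0 → (Fin s → F) // IsON a ∧ ∑ i, a i ≠ fun _ => (1 : F)})
  intro h
  have h1 := congrFun h ⟨0, hs⟩
  simp at h1

theorem on_partition [Fintype F] {s k : ℕ} :
    Nat.card {b : Fin k → (Fin s → F) // IsON b ∧ ∑ i, b i ≠ fun _ => (1 : F)}
      + Nat.card {b : Fin k → (Fin s → F) // IsON b ∧ ∑ i, b i = fun _ => (1 : F)}
      = Nat.card {b : Fin k → (Fin s → F) // IsON b} := by
  classical
  rw [Nat.card_eq_fintype_card, Nat.card_eq_fintype_card, Nat.card_eq_fintype_card,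
    Fintype.card_subtype, Fintype.card_subtype, Fintype.card_subtype,
    ← Finset.filter_filter, ← Finset.filter_filter, add_comm]
  exact Finset.card_filter_add_card_filter_not _

/-- two steps of the recursion for the number of orthonormal frames -/
theorem on_two_step [Fintype F] [CharP F 2] {q : ℕ} (hF : Fintype.card F = q) {s k : ℕ}
    (hk : k + 2 ≤ s) (hev : Even (s + k)) :
    Nat.card {a : Fin (k + 2) → (Fin s → F) // IsON a}
      = Nat.card {b : Fin k → (Fin s → F) // IsON b ∧ ∑ i, b i ≠ fun _ => (1 : F)}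
        * q ^ (s - k - 1) * q ^ (s - k - 2) ∧
    Nat.card {b : Fin (k + 2) → (Fin s → F) // IsON b ∧ ∑ i, b i ≠ fun _ => (1 : F)}
      = Nat.card {b : Fin k → (Fin s → F) // IsON b ∧ ∑ i, b i ≠ fun _ => (1 : F)}
        * q ^ (s - k - 1) * (q ^ (s - k - 2) - 1) := by
  have hX1 := on_card_succ hF (s := s) (k := k) (by omega)
  have hY1 := on_sum_card_succ (F := F) (s := s) (k := k)
  rw [if_neg (Nat.not_odd_iff_even.mpr hev)] at hY1
  have hP1 := on_partition (F := F) (s := s) (k := k + 1)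
  rw [hY1, add_zero] at hP1
  have hX2 := on_card_succ hF (s := s) (k := k + 1) (by omega)
  rw [hP1, hX1] at hX2
  have hY2 := on_sum_card_succ (F := F) (s := s) (k := k + 1)
  have hodd : Odd (s + (k + 1)) := by
    rw [← add_assoc]
    exact hev.add_one
  rw [if_pos hodd, hX1] at hY2
  have hP2 := on_partition (F := F) (s := s) (k := k + 1 + 1)
  rw [hY2, hX2] at hP2
  have e1 : s - (k + 1) - 1 = s - k - 2 := by omega
  rw [e1] at hX2 hP2
  refine ⟨hX2, ?_⟩
  rw [Nat.mul_sub, mul_one]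
  exact Nat.eq_sub_of_add_eq hP2

theorem on_chain [Fintype F] [CharP F 2] {q : ℕ} (hF : Fintype.card F = q) {s : ℕ} :
    ∀ (ν k₀ : ℕ), k₀ + 2 * (ν + 1) = s →
      Nat.card {a : Fin s → (Fin s → F) // IsON a}
        = Nat.card {b : Fin k₀ → (Fin s → F) // IsON b ∧ ∑ i, b i ≠ fun _ => (1 : F)}
          * (q ^ (2 * ν + 1) * (q ^ (ν ^ 2) * ∏ i ∈ Finset.range ν, (q ^ (2 * (i + 1)) - 1))) := by
  intro ν
  induction ν with
  | zero =>
    intro k₀ h
    have hev : Even (s + k₀) := ⟨k₀ + 1, by omega⟩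
    obtain ⟨h1, -⟩ := on_two_step hF (s := s) (k := k₀) (by omega) hev
    have e1 : s - k₀ - 1 = 1 := by omega
    have e2 : s - k₀ - 2 = 0 := by omega
    rw [e1, e2] at h1
    have e3 : k₀ + 2 = s := by omega
    subst e3
    rw [h1]
    simp
  | succ ν ih =>
    intro k₀ h
    have hev : Even (s + k₀) := ⟨k₀ + (ν + 2), by omega⟩
    obtain ⟨-, h2⟩ := on_two_step hF (s := s) (k := k₀) (by omega) hev
    have e1 : s - k₀ - 1 = 2 * ν + 3 := by omega
    have e2 : s - k₀ - 2 = 2 * (ν + 1) := by omega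
    rw [e1, e2] at h2
    rw [ih (k₀ + 2) (by omega), h2, Finset.prod_range_succ]
    generalize q ^ (2 * (ν + 1)) - 1 = t
    generalize ∏ i ∈ Finset.range ν, (q ^ (2 * (i + 1)) - 1) = P
    ring

/-- the number of orthonormal bases for the dot product, odd dimension -/
theorem card_on_odd [Fintype F] [CharP F 2] {q : ℕ} (hF : Fintype.card F = q) (n : ℕ) :
    Nat.card {a : Fin (2 * n + 1) → (Fin (2 * n + 1) → F) // IsON a}
      = q ^ (n ^ 2) * ∏ i ∈ Finset.range n, (q ^ (2 * (i + 1)) - 1) := by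
  have hX1 := on_card_succ hF (s := 2 * n + 1) (k := 0) (by omega)
  rw [on_ne_card_zero (by omega), one_mul] at hX1
  rcases Nat.eq_zero_or_pos n with rfl | hn
  · rw [hX1]
    simp
  · obtain ⟨ν, rfl⟩ : ∃ ν, n = ν + 1 := ⟨n - 1, by omega⟩
    have hY1 := on_sum_card_succ (F := F) (s := 2 * (ν + 1) + 1) (k := 0)
    rw [if_pos (by rw [add_zero]; exact odd_two_mul_add_one _), on_card_zero] at hY1
    have hP1 := on_partition (F := F) (s := 2 * (ν + 1) + 1) (k := 0 + 1)
    rw [hY1, hX1] at hP1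
    have e1 : 2 * (ν + 1) + 1 - 0 - 1 = 2 * (ν + 1) := by omega
    rw [e1] at hP1
    have hZ1 := Nat.eq_sub_of_add_eq hP1
    rw [on_chain hF ν (0 + 1) (by omega), hZ1, Finset.prod_range_succ]
    generalize q ^ (2 * (ν + 1)) - 1 = t
    generalize ∏ i ∈ Finset.range ν, (q ^ (2 * (i + 1)) - 1) = P
    ring

/-- the number of orthonormal bases for the dot product, even dimension -/
theorem card_on_even [Fintype F] [CharP F 2] {q : ℕ} (hF : Fintype.card F = q) (n : ℕ) :
    Nat.card {a : Fin (2 * n + 2) → (Fin (2 * n + 2) → F) // IsON a}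
      = q ^ (2 * n + 1) * (q ^ (n ^ 2) * ∏ i ∈ Finset.range n, (q ^ (2 * (i + 1)) - 1)) := by
  rw [on_chain hF n 0 (by omega), on_ne_card_zero (by omega), one_mul]

theorem card_orth_dot_eq {s : ℕ} :
    Nat.card {A : Matrix (Fin s) (Fin s) F // A * Aᵀ = 1}
      = Nat.card {a : Fin s → (Fin s → F) // IsON a} := by
  apply Nat.card_congr
  apply Equiv.subtypeEquivRight
  intro A
  rw [← Matrix.ext_iff]
  constructor
  · intro h i j
    have h1 := h i j
    rw [Matrix.one_apply] at h1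
    rw [← h1]
    rfl
  · intro h i j
    rw [Matrix.one_apply, ← h i j]
    rfl

end OrthDot

end Cfsg.Agent.Lib.helper4
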