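import Mathlib
import Cfsg.Agent.Lib.helper13.Dickson
import Cfsg.Prelude.Def_SporadicB

set_option autoImplicit false

/-!
# Rank one isometries are reflections; orthogonal transvections over `F₂` are 3-transpositions

`rank_refl_sub_one`, `rank_one_isom_is_refl`, `braid3`, `three_transp_f2`.
-/

namespace Cfsg.Agent.Lib.helper4

open Cfsg.Agent.Lib.helper13

section OrthF2

variable {F : Type*} [Field F] {ι : Type} [Fintype ι] [DecidableEq ι]

theorem rank_refl_sub_one (Q : QuadraticForm F (ι → F))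
    (hQ : (QuadraticMap.polarBilin Q).Nondegenerate) (v : ι → F) (hv : Q v ≠ 0) :
    (((reflEl Q v : Matrix.GeneralLinearGroup ι F) : Matrix ι ι F) - 1).rank = 1 := by
  rw [reflEl_coe Q v hv]
  have h0 : Cfsg.reflectionMatrix (⇑Q) v - 1
      = Matrix.vecMulVec ((-(Q v)⁻¹) • v) (Cfsg.polarVec (⇑Q) v) := by
    unfold Cfsg.reflectionMatrix
    rw [Matrix.smul_vecMulVec, neg_smul]
    abel
  apply le_antisymm
  · rw [h0]
    exact Matrix.rank_vecMulVec_le _ _
  · rw [Nat.one_le_iff_ne_zero]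
    intro h
    have h1 : LinearMap.range (Cfsg.reflectionMatrix (⇑Q) v - 1).mulVecLin = ⊥ :=
      Submodule.finrank_eq_zero.mp h
    have h2 := LinearMap.range_eq_bot.mp h1
    have hv0 : v ≠ 0 := by
      rintro rfl
      exact hv (map_zero Q)
    obtain ⟨x, hx⟩ : ∃ x, QuadraticMap.polar (⇑Q) v x ≠ 0 := by
      by_contra hcon
      push Not at hcon
      exact hv0 (hQ.1 v hcon)
    have h3 := congrArg (fun f => f x) h2
    simp only [Matrix.mulVecLin_apply, LinearMap.zero_apply, Matrix.sub_mulVec,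
      Matrix.one_mulVec, refl_mulVec] at h3
    have h4 : ((Q v)⁻¹ * QuadraticMap.polar (⇑Q) v x) • v = 0 := by
      rw [← neg_eq_zero, ← h3]
      abel
    rcases smul_eq_zero.mp h4 with h5 | h5
    · exact (mul_ne_zero (inv_ne_zero hv) hx) h5
    · exact hv0 h5

/-- an isometry `g` with `g - 1` of rank one is a reflection. -/
theorem rank_one_isom_is_refl (Q : QuadraticForm F (ι → F))
    (hQ : (QuadraticMap.polarBilin Q).Nondegenerate) (g : ↥(Cfsg.isometryGroup F ⇑Q))
    (hg : (((g : Matrix.GeneralLinearGroup ι F) : Matrix ι ι F) - 1).rank = 1) :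
    ∃ a : ι → F, Q a ≠ 0 ∧ g = reflEl Q a := by
  classical
  have hr : Module.finrank F (LinearMap.range
      (((g : Matrix.GeneralLinearGroup ι F) : Matrix ι ι F) - 1).mulVecLin) = 1 := hg
  obtain ⟨x', hx'0, hx'⟩ := finrank_eq_one_iff'.mp hr
  obtain ⟨a, ha⟩ : ∃ a : ι → F, a = x'.1 := ⟨_, rfl⟩
  have ha0 : a ≠ 0 := by
    intro h
    apply hx'0
    apply Subtype.ext
    rw [← ha, h]
    rfl
  have hℓ : ∀ v : ι → F, ∃ c : F,
      ((g : Matrix.GeneralLinearGroup ι F) : Matrix ι ι F).mulVec v = v + c • a := by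
    intro v
    obtain ⟨c, hc⟩ := hx' ⟨(((g : Matrix.GeneralLinearGroup ι F) : Matrix ι ι F) - 1).mulVecLin v,
      LinearMap.mem_range_self _ v⟩
    refine ⟨c, ?_⟩
    have h1 := congrArg Subtype.val hc
    simp only [Submodule.coe_smul, Matrix.mulVecLin_apply, Matrix.sub_mulVec,
      Matrix.one_mulVec] at h1
    rw [ha, h1]
    abel
  choose ℓ hℓ' using hℓ
  have hpres : ∀ v, ℓ v * (QuadraticMap.polar (⇑Q) v a + ℓ v * Q a) = 0 := by
    intro v
    have h1 := isom_pres Q g v
    rw [hℓ' v] at h1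
    have h2 : Q (v + ℓ v • a) = Q v + ℓ v * ℓ v * Q a + ℓ v * QuadraticMap.polar (⇑Q) v a := by
      rw [QuadraticMap.map_add Q v (ℓ v • a), QuadraticMap.map_smul, QuadraticMap.polar_smul_right]
      simp only [smul_eq_mul]
    rw [h2] at h1
    linear_combination h1
  have hadd : ∀ v w, ℓ (v + w) = ℓ v + ℓ w := by
    intro v w
    have h1 := hℓ' (v + w)
    rw [Matrix.mulVec_add, hℓ' v, hℓ' w] at h1
    have h2 : (ℓ v + ℓ w - ℓ (v + w)) • a = 0 := by
      rw [sub_smul, add_smul]
      have h3 : ℓ v • a + ℓ w • a = ℓ (v + w) • a := by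
        have h4 : v + ℓ v • a + (w + ℓ w • a) = (v + w) + (ℓ v • a + ℓ w • a) := by abel
        rw [h4] at h1
        exact add_left_cancel h1
      rw [h3, sub_self]
    rcases smul_eq_zero.mp h2 with h3 | h3
    · linear_combination -h3
    · exact absurd h3 ha0
  have hy : ∃ y, ℓ y ≠ 0 := by
    by_contra hcon
    push Not at hcon
    have h1 : g = 1 := by
      apply isom_ext
      rw [isom_coe_one]
      apply Matrix.mulVec_injective
      funext v
      rw [hℓ' v, hcon v, zero_smul, add_zero, Matrix.one_mulVec]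
    rw [h1] at hg
    simp at hg
  obtain ⟨y, hy⟩ := hy
  have hkey : ∀ v, QuadraticMap.polar (⇑Q) v a + ℓ v * Q a = 0 := by
    intro v
    by_cases hv : ℓ v = 0
    · have h1 : ℓ (v + y) ≠ 0 := by
        rw [hadd, hv, zero_add]
        exact hy
      have h2 := (mul_eq_zero.mp (hpres (v + y))).resolve_left h1
      have h3 := (mul_eq_zero.mp (hpres y)).resolve_left hy
      rw [QuadraticMap.polar_add_left, hadd] at h2
      linear_combination h2 - h3
    · exact (mul_eq_zero.mp (hpres v)).resolve_left hv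
  have hQa : Q a ≠ 0 := by
    intro h0
    apply ha0
    apply hQ.1 a
    intro b
    have h1 := hkey b
    rw [h0, mul_zero, add_zero] at h1
    show QuadraticMap.polar (⇑Q) a b = 0
    rw [QuadraticMap.polar_comm]
    exact h1
  refine ⟨a, hQa, ?_⟩
  apply isom_ext
  rw [reflEl_coe Q a hQa]
  apply Matrix.mulVec_injective
  funext v
  rw [hℓ' v, refl_mulVec]
  have h1 := hkey v
  have h2 : ℓ v = -((Q a)⁻¹ * QuadraticMap.polar (⇑Q) a v) := by
    rw [QuadraticMap.polar_comm]
    field_simp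
    linear_combination h1
  rw [h2, neg_smul, sub_eq_add_neg]

theorem braid3 {G : Type*} [Group G] (d e T : G) (hd : d * d = 1) (he : e * e = 1)
    (hT : T * T = 1) (h3 : d * e = T * d) (h4 : e * d = T * e) : (d * e) ^ 3 = 1 := by
  have hT1 : T = d * e * d := by
    calc T = T * (d * d) := by rw [hd, mul_one]
      _ = T * d * d := by rw [mul_assoc]
      _ = d * e * d := by rw [← h3]
  have hT2 : T = e * d * e := by
    calc T = T * (e * e) := by rw [he, mul_one]
      _ = T * e * e := by rw [mul_assoc]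
      _ = e * d * e := by rw [← h4]
  have h5 : (d * e) ^ 3 = (d * e * d) * (e * d * e) := by
    simp only [pow_succ, pow_zero, one_mul, mul_assoc]
  rw [h5, ← hT1, ← hT2, hT]

/-- Over `F₂`, the rank one isometries of a nondegenerate quadratic form (dimension ≠ 4, some
nonsingular vector) form a generating conjugacy class of 3-transpositions. -/
theorem three_transp_f2 (hι : Fintype.card ι ≠ 4) (Q : QuadraticForm (ZMod 2) (ι → ZMod 2))
    (hQ : (QuadraticMap.polarBilin Q).Nondegenerate) (e₀ : ι → ZMod 2) (he₀ : Q e₀ ≠ 0) :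
    Cfsg.IsThreeTranspositionClass {g : ↥(Cfsg.isometryGroup (ZMod 2) ⇑Q) |
      (((g : Matrix.GeneralLinearGroup ι (ZMod 2)) : Matrix ι ι (ZMod 2)) - 1).rank = 1} := by
  classical
  have h2 : ∀ c : ZMod 2, c ≠ 0 → c = 1 := by decide
  have hD : ∀ g : ↥(Cfsg.isometryGroup (ZMod 2) ⇑Q),
      g ∈ {g : ↥(Cfsg.isometryGroup (ZMod 2) ⇑Q) |
        (((g : Matrix.GeneralLinearGroup ι (ZMod 2)) : Matrix ι ι (ZMod 2)) - 1).rank = 1}
      ↔ ∃ u : ι → ZMod 2, Q u ≠ 0 ∧ g = reflEl Q u := by
    intro g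
    constructor
    · intro hg
      exact rank_one_isom_is_refl Q hQ g hg
    · rintro ⟨u, hu, rfl⟩
      exact rank_refl_sub_one Q hQ u hu
  have hsq : ∀ u : ι → ZMod 2, reflEl Q u * reflEl Q u = 1 := fun u => reflEl_mul_self Q u
  have hinv : ∀ u : ι → ZMod 2, (reflEl Q u)⁻¹ = reflEl Q u := fun u =>
    inv_eq_of_mul_eq_one_left (hsq u)
  have hconj : ∀ u v : ι → ZMod 2, Q u ≠ 0 → Q v ≠ 0 →
      reflEl Q u * reflEl Q v
        = reflEl Q (v - ((Q u)⁻¹ * QuadraticMap.polar (⇑Q) u v) • u) * reflEl Q u := by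
    intro u v hu hv
    have h1 := reflEl_conj Q (reflEl Q u) v hv
    rw [reflEl_coe Q u hu, refl_mulVec] at h1
    rw [← h1, hinv u, mul_assoc, hsq, mul_one]
  refine ⟨⟨?_, ?_⟩, ⟨reflEl Q e₀, (hD _).mpr ⟨e₀, he₀, rfl⟩, ?_⟩, ?_⟩
  · intro d hd
    obtain ⟨u, hu, rfl⟩ := (hD d).mp hd
    apply orderOf_eq_prime
    · rw [sq]
      exact hsq u
    · intro h1
      have h3 := rank_refl_sub_one Q hQ u hu
      rw [h1] at h3
      simp at h3
  · intro d hd e he
    obtain ⟨u, hu, rfl⟩ := (hD d).mp hd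
    obtain ⟨v, hv, rfl⟩ := (hD e).mp he
    have hu1 : Q u = 1 := h2 _ hu
    have hv1 : Q v = 1 := h2 _ hv
    by_cases huv : QuadraticMap.polar (⇑Q) u v = 0
    · left
      have hcomm : reflEl Q u * reflEl Q v = reflEl Q v * reflEl Q u := by
        rw [hconj u v hu hv, huv, mul_zero, zero_smul, sub_zero]
      rw [sq]
      calc reflEl Q u * reflEl Q v * (reflEl Q u * reflEl Q v)
          = reflEl Q u * reflEl Q v * (reflEl Q v * reflEl Q u) := by rw [hcomm]
        _ = reflEl Q u * (reflEl Q v * reflEl Q v) * reflEl Q u := by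
          simp only [mul_assoc]
        _ = 1 := by rw [hsq, mul_one, hsq]
    · right
      have huv1 : QuadraticMap.polar (⇑Q) u v = 1 := h2 _ huv
      have hvu1 : QuadraticMap.polar (⇑Q) v u = 1 := by
        rw [QuadraticMap.polar_comm]
        exact huv1
      have hneg : ∀ w : ι → ZMod 2, -w = w := by
        intro w
        funext i
        have : ∀ c : ZMod 2, -c = c := by decide
        exact this (w i)
      apply braid3 _ _ (reflEl Q (u + v)) (hsq u) (hsq v) (hsq (u + v))
      · rw [hconj u v hu hv, huv1, hu1]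
        congr 2
        rw [inv_one, mul_one, one_smul, sub_eq_add_neg, hneg, add_comm]
      · rw [hconj v u hv hu, hvu1, hv1]
        congr 2
        rw [inv_one, mul_one, one_smul, sub_eq_add_neg, hneg]
  · ext g
    rw [hD]
    show _ ↔ IsConj (reflEl Q e₀) g
    rw [isConj_iff]
    constructor
    · rintro ⟨u, hu, rfl⟩
      obtain ⟨c, hc⟩ := c2_refl_conj (Or.inr hι) Q hQ e₀ u he₀ hu
      exact ⟨c, hc.symm⟩
    · rintro ⟨c, rfl⟩
      refine ⟨((c : Matrix.GeneralLinearGroup ι (ZMod 2)) : Matrix ι ι (ZMod 2)).mulVec e₀, ?_, ?_⟩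
      · rw [isom_pres]
        exact he₀
      · exact reflEl_conj Q c e₀ he₀
  · rw [eq_top_iff]
    intro g _
    have h1 := cd_all (Or.inr hι) Q hQ g
    unfold reflGroup at h1
    refine Subgroup.closure_mono ?_ h1
    rintro x ⟨v, hv, rfl⟩
    exact (hD _).mpr ⟨v, hv, rfl⟩

end OrthF2

end Cfsg.Agent.Lib.helper4
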