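import Mathlib
import Cfsg.Agent.Lib.helper4.SpInvNF

set_option autoImplicit false
set_option linter.unusedSectionVars false

/-!
# Centralizers of involutions of `Sp_2m(q)`, `q` even

For an involution in normal form `v ↦ v + ∑ f(u y, v) u (σ y)` the centralizer is an extension of
the pointwise stabilizer of the frame `u` by the group of matrices `A` with `A P Aᵀ = P`,
`P` the permutation matrix of `σ`.
-/

namespace Cfsg.Agent.Lib.helper4

open Matrix
open Cfsg.Agent.S0776 Cfsg.Agent.S0766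

section SpInvCent

variable {F : Type*} [Field F] {m : ℕ}

/-- the matrix with columns `u y` -/
def colMat {κ : Type} (u : κ → (Fin m ⊕ Fin m → F)) : Matrix (Fin m ⊕ Fin m) κ F :=
  Matrix.of (fun i y => u y i)

theorem colMat_mulVec {κ : Type} [Fintype κ] (u : κ → (Fin m ⊕ Fin m → F)) (c : κ → F) :
    colMat u *ᵥ c = ∑ y, c y • u y := by
  funext i
  simp [colMat, Matrix.mulVec, dotProduct, mul_comm]

theorem mul_colMat {κ : Type} (g : Matrix (Fin m ⊕ Fin m) (Fin m ⊕ Fin m) F)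
    (u : κ → (Fin m ⊕ Fin m → F)) : g * colMat u = colMat (fun y => g *ᵥ u y) := by
  ext i y
  simp [colMat, Matrix.mul_apply, Matrix.mulVec, dotProduct]

theorem colMat_inj {κ : Type} (u u' : κ → (Fin m ⊕ Fin m → F)) (h : colMat u = colMat u') :
    u = u' := by
  funext y i
  exact congrFun (congrFun h i) y

theorem colMat_mul {κ : Type} [Fintype κ] (u : κ → (Fin m ⊕ Fin m → F)) (A : Matrix κ κ F) :
    colMat u * A = colMat (fun y => ∑ x, A x y • u x) := by
  ext i y
  simp [colMat, Matrix.mul_apply, mul_comm]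

/-- the permutation matrix of `σ` -/
def permMat (F : Type*) [Field F] {κ : Type} [DecidableEq κ] (σ : κ → κ) : Matrix κ κ F :=
  Matrix.of (fun x y => if x = σ y then 1 else 0)

theorem permMat_sq {κ : Type} [Fintype κ] [DecidableEq κ] (σ : κ → κ) (hσ : ∀ x, σ (σ x) = x) :
    permMat F σ * permMat F σ = 1 := by
  ext x z
  rw [Matrix.mul_apply, Finset.sum_eq_single (σ z)]
  · by_cases h : x = z
    · subst h
      simp [permMat, hσ]
    · have h' : ¬ x = σ (σ z) := by rw [hσ]; exact h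
      simp [permMat, h, h']
  · intro y _ hy
    simp [permMat, hy]
  · intro h
    exact absurd (Finset.mem_univ _) h

theorem permMat_transpose {κ : Type} [DecidableEq κ] (σ : κ → κ) (hσ : ∀ x, σ (σ x) = x) :
    (permMat F σ)ᵀ = permMat F σ := by
  ext x y
  simp only [permMat, Matrix.transpose_apply, Matrix.of_apply]
  by_cases h : x = σ y
  · have h' : y = σ x := by rw [h, hσ]
    rw [if_pos h, if_pos h']
  · have h' : ¬ y = σ x := by
      intro h2
      apply h
      rw [h2, hσ]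
    rw [if_neg h, if_neg h']

theorem colMat_mul_permMat {κ : Type} [Fintype κ] [DecidableEq κ]
    (u : κ → (Fin m ⊕ Fin m → F)) (σ : κ → κ) :
    colMat u * permMat F σ = colMat (fun y => u (σ y)) := by
  ext i y
  simp [colMat, permMat, Matrix.mul_apply]

theorem nf_matrix {κ : Type} [Fintype κ] [DecidableEq κ] (σ : κ → κ)
    (t : Matrix (Fin m ⊕ Fin m) (Fin m ⊕ Fin m) F) (u : κ → (Fin m ⊕ Fin m → F))
    (htf : ∀ v, t *ᵥ v = v + ∑ y, Cfsg.sympForm m F (u y) v • u (σ y)) :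
    t = 1 + colMat u * permMat F σ * (colMat u)ᵀ * J (Fin m) F := by
  apply Matrix.ext_of_mulVec_single
  intro i
  rw [htf, Matrix.add_mulVec, Matrix.one_mulVec, ← Matrix.mulVec_mulVec, ← Matrix.mulVec_mulVec,
    colMat_mul_permMat, colMat_mulVec]
  rfl

theorem card_centralizer_nf [Fintype F] {κ : Type} [Fintype κ] [DecidableEq κ] (σ : κ → κ)
    (hσ : ∀ x, σ (σ x) = x) (t : Matrix.symplecticGroup (Fin m) F)
    (u : κ → (Fin m ⊕ Fin m → F)) (hli : LinearIndependent F u)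
    (hti : ∀ x y, Cfsg.sympForm m F (u x) (u y) = 0)
    (htf : ∀ v, (t : Matrix (Fin m ⊕ Fin m) (Fin m ⊕ Fin m) F).mulVec v
      = v + ∑ y, Cfsg.sympForm m F (u y) v • u (σ y)) :
    Nat.card ↥(Subgroup.centralizer ({t} : Set ↥(Matrix.symplecticGroup (Fin m) F)))
      = Nat.card {A : Matrix κ κ F // A * permMat F σ * Aᵀ = permMat F σ}
        * Nat.card {g : Matrix.symplecticGroup (Fin m) F //
            ∀ y, (g : Matrix (Fin m ⊕ Fin m) (Fin m ⊕ Fin m) F) *ᵥ u y = u y} := by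
  classical
  obtain ⟨U, hU⟩ : ∃ U, U = colMat u := ⟨_, rfl⟩
  obtain ⟨P, hP⟩ : ∃ P : Matrix κ κ F, P = permMat F σ := ⟨_, rfl⟩
  have hPP : P * P = 1 := by rw [hP]; exact permMat_sq σ hσ
  have ht : (t : Matrix (Fin m ⊕ Fin m) (Fin m ⊕ Fin m) F)
      = 1 + U * P * Uᵀ * J (Fin m) F := by
    rw [hU, hP]
    exact nf_matrix σ _ u htf
  obtain ⟨L, hL⟩ : ∃ L : Matrix κ (Fin m ⊕ Fin m) F, L * U = 1 := by
    have hker : LinearMap.ker (Matrix.toLin' U) = ⊥ := by
      rw [LinearMap.ker_eq_bot']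
      intro c hc
      rw [Matrix.toLin'_apply, hU, colMat_mulVec] at hc
      funext y
      exact Fintype.linearIndependent_iff.mp hli c hc y
    obtain ⟨gl, hgl⟩ := LinearMap.exists_leftInverse_of_injective (Matrix.toLin' U) hker
    refine ⟨LinearMap.toMatrix' gl, ?_⟩
    have h1 : LinearMap.toMatrix' (gl.comp (Matrix.toLin' U)) = 1 := by
      rw [hgl, LinearMap.toMatrix'_id]
    rw [LinearMap.toMatrix'_comp, LinearMap.toMatrix'_toLin'] at h1
    exact h1
  have hLt : Uᵀ * Lᵀ = 1 := by rw [← Matrix.transpose_mul, hL, Matrix.transpose_one]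
  have hJJ : J (Fin m) F * J (Fin m) F = -1 := Matrix.J_squared (Fin m) F
  have hfixU : ∀ X : Matrix (Fin m ⊕ Fin m) (Fin m ⊕ Fin m) F,
      X * U = U ↔ ∀ y, X *ᵥ u y = u y := by
    intro X
    rw [hU, mul_colMat]
    constructor
    · intro h y
      exact congrFun (colMat_inj _ _ h) y
    · intro h
      congr 1
      funext y
      exact h y
  have key1 : ∀ g : Matrix.symplecticGroup (Fin m) F,
      g ∈ Subgroup.centralizer ({t} : Set ↥(Matrix.symplecticGroup (Fin m) F)) ↔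
      ((g : Matrix (Fin m ⊕ Fin m) (Fin m ⊕ Fin m) F) * U) * P
        * ((g : Matrix (Fin m ⊕ Fin m) (Fin m ⊕ Fin m) F) * U)ᵀ = U * P * Uᵀ := by
    intro g
    obtain ⟨gM, hgM⟩ : ∃ gM, gM = (g : Matrix (Fin m ⊕ Fin m) (Fin m ⊕ Fin m) F) := ⟨_, rfl⟩
    obtain ⟨gi, hgi⟩ : ∃ gi, gi = ((g⁻¹ : Matrix.symplecticGroup (Fin m) F) :
        Matrix (Fin m ⊕ Fin m) (Fin m ⊕ Fin m) F) := ⟨_, rfl⟩
    have h1 : gM * gi = 1 := by rw [hgM, hgi, ← sp_coe_mul, mul_inv_cancel, sp_coe_one]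
    have h2 : gi * gM = 1 := by rw [hgM, hgi, ← sp_coe_mul, inv_mul_cancel, sp_coe_one]
    have h3 : J (Fin m) F * gM = giᵀ * J (Fin m) F := by
      have h4 := SymplecticGroup.mem_iff'.mp (g⁻¹).2
      rw [← hgi] at h4
      calc J (Fin m) F * gM = (giᵀ * J (Fin m) F * gi) * gM := by rw [h4]
        _ = giᵀ * J (Fin m) F * (gi * gM) := by simp only [Matrix.mul_assoc]
        _ = giᵀ * J (Fin m) F := by rw [h2, Matrix.mul_one]
    rw [← hgM, Subgroup.mem_centralizer_iff]
    constructor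
    · intro h
      have h5 : t * g = g * t := h t (Set.mem_singleton t)
      have h6 : (t : Matrix (Fin m ⊕ Fin m) (Fin m ⊕ Fin m) F) * gM
          = gM * (t : Matrix (Fin m ⊕ Fin m) (Fin m ⊕ Fin m) F) := by
        rw [hgM, ← sp_coe_mul, ← sp_coe_mul, h5]
      rw [ht, add_mul, mul_add, one_mul, mul_one] at h6
      have h7 : U * P * Uᵀ * J (Fin m) F * gM = gM * (U * P * Uᵀ * J (Fin m) F) :=
        add_left_cancel h6
      have h8 : U * P * Uᵀ * giᵀ * J (Fin m) F = gM * U * P * Uᵀ * J (Fin m) F := by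
        calc U * P * Uᵀ * giᵀ * J (Fin m) F = U * P * Uᵀ * (giᵀ * J (Fin m) F) := by
              simp only [Matrix.mul_assoc]
          _ = U * P * Uᵀ * (J (Fin m) F * gM) := by rw [h3]
          _ = U * P * Uᵀ * J (Fin m) F * gM := by simp only [Matrix.mul_assoc]
          _ = gM * (U * P * Uᵀ * J (Fin m) F) := h7
          _ = gM * U * P * Uᵀ * J (Fin m) F := by simp only [Matrix.mul_assoc]
      have h9 : U * P * Uᵀ * giᵀ = gM * U * P * Uᵀ := by
        have h10 := congrArg (fun X => X * J (Fin m) F) h8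
        simp only [Matrix.mul_assoc, hJJ, Matrix.mul_neg, Matrix.mul_one, neg_inj] at h10
        simp only [Matrix.mul_assoc]
        exact h10
      calc gM * U * P * (gM * U)ᵀ = (gM * U * P * Uᵀ) * gMᵀ := by
            rw [Matrix.transpose_mul]
            simp only [Matrix.mul_assoc]
        _ = U * P * Uᵀ * giᵀ * gMᵀ := by rw [h9]
        _ = U * P * Uᵀ * (gM * gi)ᵀ := by
            rw [Matrix.transpose_mul]
            simp only [Matrix.mul_assoc]
        _ = U * P * Uᵀ := by rw [h1, Matrix.transpose_one, Matrix.mul_one]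
    · intro h x hx
      rw [Set.mem_singleton_iff] at hx
      rw [hx]
      apply Subtype.ext
      rw [sp_coe_mul, sp_coe_mul, ← hgM, ht, add_mul, mul_add, one_mul, mul_one]
      congr 1
      have h9 : gM * U * P * Uᵀ = U * P * Uᵀ * giᵀ := by
        calc gM * U * P * Uᵀ = gM * U * P * Uᵀ * (gi * gM)ᵀ := by
              rw [h2, Matrix.transpose_one, Matrix.mul_one]
          _ = (gM * U * P * (gM * U)ᵀ) * giᵀ := by
              rw [Matrix.transpose_mul, Matrix.transpose_mul]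
              simp only [Matrix.mul_assoc]
          _ = U * P * Uᵀ * giᵀ := by rw [h]
      calc U * P * Uᵀ * J (Fin m) F * gM = U * P * Uᵀ * (J (Fin m) F * gM) := by
            simp only [Matrix.mul_assoc]
        _ = U * P * Uᵀ * (giᵀ * J (Fin m) F) := by rw [h3]
        _ = (U * P * Uᵀ * giᵀ) * J (Fin m) F := by simp only [Matrix.mul_assoc]
        _ = (gM * U * P * Uᵀ) * J (Fin m) F := by rw [h9]
        _ = gM * (U * P * Uᵀ * J (Fin m) F) := by simp only [Matrix.mul_assoc]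
  have hAinv : ∀ A : Matrix κ κ F, A * P * Aᵀ = P → (P * Aᵀ * P) * A = 1 := by
    intro A h1
    have h2 : A * (P * Aᵀ * P) = 1 := by
      calc A * (P * Aᵀ * P) = (A * P * Aᵀ) * P := by simp only [Matrix.mul_assoc]
        _ = 1 := by rw [h1, hPP]
    exact mul_eq_one_comm.mp h2
  have key2 : ∀ g : Matrix.symplecticGroup (Fin m) F,
      g ∈ Subgroup.centralizer ({t} : Set ↥(Matrix.symplecticGroup (Fin m) F)) →
      (L * ((g : Matrix (Fin m ⊕ Fin m) (Fin m ⊕ Fin m) F) * U)) * P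
        * (L * ((g : Matrix (Fin m ⊕ Fin m) (Fin m ⊕ Fin m) F) * U))ᵀ = P ∧
      (g : Matrix (Fin m ⊕ Fin m) (Fin m ⊕ Fin m) F) * U
        = U * (L * ((g : Matrix (Fin m ⊕ Fin m) (Fin m ⊕ Fin m) F) * U)) := by
    intro g hg
    have h := (key1 g).mp hg
    obtain ⟨gM, hgM⟩ : ∃ gM, gM = (g : Matrix (Fin m ⊕ Fin m) (Fin m ⊕ Fin m) F) := ⟨_, rfl⟩
    rw [← hgM] at h ⊢
    obtain ⟨A, hA⟩ : ∃ A, A = L * (gM * U) := ⟨_, rfl⟩
    rw [← hA]
    have hAt : Aᵀ = (gM * U)ᵀ * Lᵀ := by rw [hA, Matrix.transpose_mul]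
    have h1 : A * P * Aᵀ = P := by
      calc A * P * Aᵀ = L * ((gM * U) * P * (gM * U)ᵀ) * Lᵀ := by
            rw [hAt, hA]
            simp only [Matrix.mul_assoc]
        _ = L * (U * P * Uᵀ) * Lᵀ := by rw [h]
        _ = (L * U) * P * (Uᵀ * Lᵀ) := by simp only [Matrix.mul_assoc]
        _ = P := by rw [hL, hLt, Matrix.one_mul, Matrix.mul_one]
    refine ⟨h1, ?_⟩
    have h3 := hAinv A h1
    have h4 : (gM * U) * (P * Aᵀ * P) = U := by
      calc (gM * U) * (P * Aᵀ * P) = ((gM * U) * P * (gM * U)ᵀ) * Lᵀ * P := by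
            rw [hAt]
            simp only [Matrix.mul_assoc]
        _ = U * P * Uᵀ * Lᵀ * P := by rw [h]
        _ = U * (P * (Uᵀ * Lᵀ) * P) := by simp only [Matrix.mul_assoc]
        _ = U := by rw [hLt, Matrix.mul_one, hPP, Matrix.mul_one]
    calc gM * U = (gM * U) * ((P * Aᵀ * P) * A) := by rw [h3, Matrix.mul_one]
      _ = ((gM * U) * (P * Aᵀ * P)) * A := by simp only [Matrix.mul_assoc]
      _ = U * A := by rw [h4]
  have key3 : ∀ (g : Matrix.symplecticGroup (Fin m) F) (A : Matrix κ κ F), A * P * Aᵀ = P →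
      (g : Matrix (Fin m ⊕ Fin m) (Fin m ⊕ Fin m) F) * U = U * A →
      g ∈ Subgroup.centralizer ({t} : Set ↥(Matrix.symplecticGroup (Fin m) F)) := by
    intro g A hA hgU
    apply (key1 g).mpr
    rw [hgU, Matrix.transpose_mul]
    calc U * A * P * (Aᵀ * Uᵀ) = U * (A * P * Aᵀ) * Uᵀ := by simp only [Matrix.mul_assoc]
      _ = U * P * Uᵀ := by rw [hA]
  obtain ⟨φ, hφ⟩ : ∃ φ : ↥(Subgroup.centralizer ({t} : Set ↥(Matrix.symplecticGroup (Fin m) F)))
      → {A : Matrix κ κ F // A * permMat F σ * Aᵀ = permMat F σ},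
      ∀ g, (φ g).1 = L * ((g.1 : Matrix (Fin m ⊕ Fin m) (Fin m ⊕ Fin m) F) * U) :=
    ⟨fun g => ⟨L * ((g.1 : Matrix (Fin m ⊕ Fin m) (Fin m ⊕ Fin m) F) * U), by
      rw [← hP]
      exact (key2 g.1 g.2).1⟩, fun g => rfl⟩
  have hfib : ∀ A, Nat.card {g // φ g = A}
      = Nat.card {g : Matrix.symplecticGroup (Fin m) F //
          ∀ y, (g : Matrix (Fin m ⊕ Fin m) (Fin m ⊕ Fin m) F) *ᵥ u y = u y} := by
    intro A
    have hAP : A.1 * P * A.1ᵀ = P := by
      rw [hP]
      exact A.2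
    have hAi := hAinv A.1 hAP
    obtain ⟨g₀, hg₀⟩ : ∃ g₀ : Matrix.symplecticGroup (Fin m) F,
        (g₀ : Matrix (Fin m ⊕ Fin m) (Fin m ⊕ Fin m) F) * U = U * A.1 := by
      have hu' : U * A.1 = colMat (fun y => ∑ x, A.1 x y • u x) := by rw [hU, colMat_mul]
      have hli' : LinearIndependent F (fun y => ∑ x, A.1 x y • u x) := by
        rw [Fintype.linearIndependent_iff]
        intro c hc
        have h1 : (U * A.1) *ᵥ c = 0 := by
          rw [hu', colMat_mulVec]
          exact hc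
        have h2 : A.1 *ᵥ c = 0 := by
          have h3 := congrArg (fun w => L *ᵥ w) h1
          simp only [Matrix.mulVec_mulVec, Matrix.mulVec_zero] at h3
          rw [← Matrix.mul_assoc, hL, Matrix.one_mul] at h3
          exact h3
        have h3 : c = 0 := by
          have h4 := congrArg (fun w => (P * A.1ᵀ * P) *ᵥ w) h2
          simp only [Matrix.mulVec_mulVec, Matrix.mulVec_zero] at h4
          rw [hAi, Matrix.one_mulVec] at h4
          exact h4
        intro y
        rw [h3]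
        rfl
      have hti' : ∀ y y', Cfsg.sympForm m F (∑ x, A.1 x y • u x) (∑ x, A.1 x y' • u x) = 0 := by
        intro y y'
        rw [sf_sum_left]
        apply Finset.sum_eq_zero
        intro x _
        rw [sf_smul_left, sf_anti, sf_sum_left]
        have h1 : ∑ x', Cfsg.sympForm m F (A.1 x' y' • u x') (u x) = 0 := by
          apply Finset.sum_eq_zero
          intro x' _
          rw [sf_smul_left, hti, mul_zero]
        rw [h1, neg_zero, mul_zero]
      obtain ⟨g₀, hg₀⟩ := witt_frames_fintype u (fun y => ∑ x, A.1 x y • u x) hli hli'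
        (fun i j => by rw [hti', hti])
      refine ⟨g₀, ?_⟩
      rw [hu', hU, mul_colMat]
      congr 1
      funext y
      exact hg₀ y
    obtain ⟨ψ, hψ⟩ : ∃ ψ : {g // φ g = A} → {g : Matrix.symplecticGroup (Fin m) F //
          ∀ y, (g : Matrix (Fin m ⊕ Fin m) (Fin m ⊕ Fin m) F) *ᵥ u y = u y},
        ∀ g, (ψ g).1 = g₀⁻¹ * g.1.1 := by
      refine ⟨fun g => ⟨g₀⁻¹ * g.1.1, ?_⟩, fun g => rfl⟩
      rw [← hfixU, sp_coe_mul, Matrix.mul_assoc, (key2 g.1.1 g.1.2).2, ← hφ, g.2, ← hg₀,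
        ← Matrix.mul_assoc, ← sp_coe_mul, inv_mul_cancel, sp_coe_one, Matrix.one_mul]
    refine Nat.card_congr (Equiv.ofBijective ψ ⟨?_, ?_⟩)
    · intro g g' h
      have h1 : g₀⁻¹ * g.1.1 = g₀⁻¹ * g'.1.1 := by rw [← hψ, ← hψ, h]
      exact Subtype.ext (Subtype.ext (mul_left_cancel h1))
    · intro h
      have h1 : ((g₀ * h.1 : Matrix.symplecticGroup (Fin m) F) :
          Matrix (Fin m ⊕ Fin m) (Fin m ⊕ Fin m) F) * U = U * A.1 := by
        rw [sp_coe_mul, Matrix.mul_assoc, (hfixU _).mpr h.2, hg₀]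
      have h2 := key3 (g₀ * h.1) A.1 hAP h1
      refine ⟨⟨⟨g₀ * h.1, h2⟩, ?_⟩, ?_⟩
      · apply Subtype.ext
        rw [hφ]
        show L * (((g₀ * h.1 : Matrix.symplecticGroup (Fin m) F) :
          Matrix (Fin m ⊕ Fin m) (Fin m ⊕ Fin m) F) * U) = A.1
        rw [h1, ← Matrix.mul_assoc, hL, Matrix.one_mul]
      · apply Subtype.ext
        rw [hψ]
        show g₀⁻¹ * (g₀ * h.1) = h.1
        rw [inv_mul_cancel_left]
  rw [card_fiber_count φ _ hfib]

theorem card_fix_frame [Fintype F] {q : ℕ} (hF : Fintype.card F = q) {κ : Type} [Fintype κ]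
    (k : ℕ) (hκ : Fintype.card κ = k) (hk : k ≤ m) (u : κ → (Fin m ⊕ Fin m → F))
    (hli : LinearIndependent F u) (hti : ∀ x y, Cfsg.sympForm m F (u x) (u y) = 0) :
    Nat.card {g : Matrix.symplecticGroup (Fin m) F //
        ∀ y, (g : Matrix (Fin m ⊕ Fin m) (Fin m ⊕ Fin m) F) *ᵥ u y = u y}
      = q ^ (k * (k + 1) / 2 + 2 * k * (m - k))
        * (q ^ ((m - k) ^ 2) * ∏ i ∈ Finset.range (m - k), (q ^ (2 * (i + 1)) - 1)) := by
  classical
  obtain ⟨e⟩ : Nonempty (Fin k ≃ κ) := ⟨(Fintype.equivFinOfCardEq hκ).symm⟩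
  have h2 := card_sp_eq_frames_mul (u ∘ e) (hli.comp e e.injective) (fun i j => hti _ _)
  rw [card_sp hF m, card_ti hF m k] at h2
  have hcongr : Nat.card {g : Matrix.symplecticGroup (Fin m) F //
        ∀ i, (g : Matrix (Fin m ⊕ Fin m) (Fin m ⊕ Fin m) F) *ᵥ (u ∘ e) i = (u ∘ e) i}
      = Nat.card {g : Matrix.symplecticGroup (Fin m) F //
        ∀ y, (g : Matrix (Fin m ⊕ Fin m) (Fin m ⊕ Fin m) F) *ᵥ u y = u y} := by
    apply Nat.card_congr
    apply Equiv.subtypeEquivRight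
    intro g
    constructor
    · intro h y
      have h3 := h (e.symm y)
      rw [Function.comp_apply, Equiv.apply_symm_apply] at h3
      exact h3
    · intro h i
      exact h (e i)
  rw [hcongr] at h2
  obtain ⟨d, rfl⟩ := Nat.exists_eq_add_of_le hk
  have h3 := sp_arith q k d
  have hq : 1 < q := by
    rw [← hF]
    exact Fintype.one_lt_card
  have hpos : 0 < ∏ i ∈ Finset.range k, (q ^ (2 * (k + d) - i) - q ^ i) := by
    apply Finset.prod_pos
    intro i hi
    rw [Finset.mem_range] at hi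
    exact Nat.sub_pos_of_lt (Nat.pow_lt_pow_right hq (by omega))
  have h4 := Nat.eq_of_mul_eq_mul_left hpos (h2.symm.trans h3)
  rw [h4, Nat.add_sub_cancel_left]

theorem cent_exp_arith (m s : ℕ) (h : s ≤ m) :
    2 * m * s - (3 * s ^ 2 - s) / 2 = s * (s + 1) / 2 + 2 * s * (m - s) := by
  obtain ⟨d, rfl⟩ := Nat.exists_eq_add_of_le h
  obtain ⟨a, ha⟩ : ∃ a, a = s * (s + 1) / 2 := ⟨_, rfl⟩
  have h1 : 2 * a = s ^ 2 + s := by
    rw [ha, Nat.two_mul_div_two_of_even (Nat.even_mul_succ_self s)]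
    ring
  have hX : s ≤ s ^ 2 := Nat.le_self_pow (by norm_num) s
  have h2 : (3 * s ^ 2 - s) / 2 = 2 * s ^ 2 - a := by
    have h3 : 3 * s ^ 2 - s = 2 * (2 * s ^ 2 - a) := by omega
    rw [h3, Nat.mul_div_cancel_left _ (by norm_num)]
  have e2 : 2 * (s + d) * s = 2 * s ^ 2 + 2 * (s * d) := by ring
  have e3 : 2 * s * (s + d - s) = 2 * (s * d) := by
    rw [Nat.add_sub_cancel_left]
    ring
  rw [h2, ← ha, e2, e3]
  omega

/-- centralizer order of an involution of alternating type -/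
theorem sp_cent_alt [Fintype F] [CharP F 2] {q : ℕ} (hF : Fintype.card F = q) {s : ℕ}
    (t : Matrix.symplecticGroup (Fin m) F) (ht : t ^ 2 = 1) (ht1 : t ≠ 1)
    (hs : ((t : Matrix (Fin m ⊕ Fin m) (Fin m ⊕ Fin m) F) - 1).rank = s)
    (halt : ∀ v : Fin m ⊕ Fin m → F, Cfsg.sympForm m F v
      ((t : Matrix (Fin m ⊕ Fin m) (Fin m ⊕ Fin m) F).mulVec v) = 0) :
    ∃ k, s = k + k ∧ s ≤ m ∧
      Nat.card ↥(Subgroup.centralizer ({t} : Set ↥(Matrix.symplecticGroup (Fin m) F)))
        = (q ^ (k ^ 2) * ∏ i ∈ Finset.range k, (q ^ (2 * (i + 1)) - 1))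
          * (q ^ (s * (s + 1) / 2 + 2 * s * (m - s))
            * (q ^ ((m - s) ^ 2) * ∏ i ∈ Finset.range (m - s), (q ^ (2 * (i + 1)) - 1))) := by
  classical
  haveI : Fact (Nat.Prime 2) := ⟨Nat.prime_two⟩
  have ho : orderOf t = 2 := orderOf_eq_prime ht ht1
  rcases spnf_of_invol t ho with ⟨s', hs', h⟩ | ⟨k, hk, h⟩
  · exfalso
    haveI : Nonempty (Fin s') := ⟨⟨0, hs'⟩⟩
    exact spnf_not_alt id (fun x => rfl) t h halt
  · have hrank := spnf_rank Sum.swap (fun x => Sum.swap_swap x) t h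
    rw [hs, Fintype.card_sum, Fintype.card_fin] at hrank
    have hle := spnf_card_le Sum.swap t h
    rw [Fintype.card_sum, Fintype.card_fin, ← hrank] at hle
    obtain ⟨u, hli, hti, htf⟩ := spnf_formula Sum.swap t h
    have hc := card_centralizer_nf Sum.swap (fun x => Sum.swap_swap x) t u hli hti htf
    have hfix := card_fix_frame hF s (by rw [Fintype.card_sum, Fintype.card_fin, hrank]) hle u
      hli hti
    have hG : Nat.card {A : Matrix (Fin k ⊕ Fin k) (Fin k ⊕ Fin k) F //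
          A * permMat F Sum.swap * Aᵀ = permMat F Sum.swap}
        = Nat.card (Matrix.symplecticGroup (Fin k) F) := by
      have hPJ : permMat F (Sum.swap : Fin k ⊕ Fin k → Fin k ⊕ Fin k) = J (Fin k) F := by
        ext x y
        rcases x with i | i <;> rcases y with j | j <;>
          simp [permMat, Matrix.J, Matrix.one_apply, CharTwo.neg_eq]
      rw [hPJ]
      exact Nat.card_congr (Equiv.subtypeEquivRight (fun A => SymplecticGroup.mem_iff.symm))
    refine ⟨k, hrank, hle, ?_⟩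
    rw [hc, hG, card_sp hF k, hfix]

end SpInvCent

end Cfsg.Agent.Lib.helper4
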