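import Mathlib
import Cfsg.Agent.Lib.helper4.SpInvCent
import Cfsg.Agent.Lib.helper4.OrthInvClass

set_option autoImplicit false

/-!
# Centralizers of involutions of orthogonal groups in characteristic two

`sigStd_trans`: the orthogonal group is transitive on standard families of a given shape (Witt).
`card_centralizer_nf_gen`: the fibration of the centralizer of an involution in normal form over
`{A : A P Aᵀ = P}` for a group realised by symplectic matrices.
`orth_card_centralizer_nf`: its instance for the orthogonal group of the hyperbolic form.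
`card_orth_eq_frames_mul`: orbit-stabiliser for standard families.
-/

namespace Cfsg.Agent.Lib.helper4

open Matrix
open Cfsg.Agent.Lib.helper13
open Cfsg.Agent.S0776 Cfsg.Agent.S0766

section Trans

variable {F : Type*} [Field F] {ι : Type} [Fintype ι] [DecidableEq ι]

/-- the orthogonal group is transitive on standard families of a given shape -/
theorem sigStd_trans (Q : QuadraticForm F (ι → F)) (hQ : (QuadraticMap.polarBilin Q).Nondegenerate)
    {κ : Type} [Fintype κ] [DecidableEq κ] (σ : κ → κ) (u u' : κ → ι → F)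
    (hu : SigStd Q σ u) (hu' : SigStd Q σ u') :
    ∃ h : ↥(Cfsg.isometryGroup F ⇑Q), ∀ y, (mat Q h).mulVec (u y) = u' y := by
  obtain ⟨hli, hu, hQu⟩ := hu
  obtain ⟨hli', hu', hQu'⟩ := hu'
  obtain ⟨b, hb⟩ : ∃ b : Module.Basis κ F ↥(Submodule.span F (Set.range u)),
      ∀ i, (b i : ι → F) = u i :=
    ⟨Module.Basis.span hli, fun i => congrArg Subtype.val (Module.Basis.span_apply hli i)⟩
  obtain ⟨b', hb'⟩ : ∃ b' : Module.Basis κ F ↥(Submodule.span F (Set.range u')),
      ∀ i, (b' i : ι → F) = u' i :=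
    ⟨Module.Basis.span hli', fun i => congrArg Subtype.val (Module.Basis.span_apply hli' i)⟩
  obtain ⟨φ, hφdef⟩ : ∃ φ : ↥(Submodule.span F (Set.range u))
      ≃ₗ[F] ↥(Submodule.span F (Set.range u')), φ = b.equiv b' (Equiv.refl κ) := ⟨_, rfl⟩
  have hx : ∀ x : ↥(Submodule.span F (Set.range u)),
      (x : ι → F) = ∑ i, b.repr x i • u i := by
    intro x
    conv_lhs => rw [← b.sum_repr x]
    rw [Submodule.coe_sum]
    apply Finset.sum_congr rfl
    intro i _
    rw [Submodule.coe_smul, hb]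
  have hφx : ∀ x : ↥(Submodule.span F (Set.range u)),
      ((φ x : ↥(Submodule.span F (Set.range u'))) : ι → F) = ∑ i, b.repr x i • u' i := by
    intro x
    have h1 : φ x = ∑ i, b.repr x i • b' i := by
      conv_lhs => rw [← b.sum_repr x]
      rw [map_sum]
      apply Finset.sum_congr rfl
      intro i _
      rw [map_smul, hφdef, Module.Basis.equiv_apply]
      rfl
    rw [h1, Submodule.coe_sum]
    apply Finset.sum_congr rfl
    intro i _
    rw [Submodule.coe_smul, hb']
  have hφQ : ∀ x : ↥(Submodule.span F (Set.range u)),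
      Q ((φ x : ↥(Submodule.span F (Set.range u'))) : ι → F) = Q (x : ι → F) := by
    intro x
    rw [hφx, hx x, Q_sum_orth Q _ _ u' (fun a c _ => hu' a c),
      Q_sum_orth Q _ _ u (fun a c _ => hu a c)]
    apply Finset.sum_congr rfl
    intro i _
    rw [hQu, hQu']
  obtain ⟨g, hgQ, hgx⟩ := witt_ext Q hQ _ _ φ hφQ
  have hgu : ∀ i, g (u i) = u' i := by
    intro i
    have h1 := hgx (b i)
    rw [hb i] at h1
    rw [h1, hφdef, Module.Basis.equiv_apply, Equiv.refl_apply, hb']
  obtain ⟨h, hh⟩ := exists_isom_of_linear Q g.toLinearMap g.symm.toLinearMap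
    (fun v => g.symm_apply_apply v) (fun v => g.apply_symm_apply v) hgQ
  refine ⟨h, fun y => ?_⟩
  rw [hh]
  exact hgu y

/-- orbit-stabiliser for standard families -/
theorem card_orth_eq_frames_mul [Fintype F] (Q : QuadraticForm F (ι → F))
    (hQ : (QuadraticMap.polarBilin Q).Nondegenerate)
    {κ : Type} [Fintype κ] [DecidableEq κ] (σ : κ → κ) (u : κ → ι → F) (hu : SigStd Q σ u) :
    Nat.card ↥(Cfsg.isometryGroup F ⇑Q)
      = Nat.card {u' : κ → ι → F // SigStd Q σ u'}
        * Nat.card {g : ↥(Cfsg.isometryGroup F ⇑Q) // ∀ y, (mat Q g).mulVec (u y) = u y} := by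
  classical
  have hpres : ∀ g : ↥(Cfsg.isometryGroup F ⇑Q), SigStd Q σ (fun y => (mat Q g).mulVec (u y)) := by
    intro g
    refine ⟨?_, fun x y => ?_, fun x => ?_⟩
    · have h1 : (fun y => (mat Q g).mulVec (u y)) = (Matrix.toLin' (mat Q g)) ∘ u := by
        funext y
        rfl
      rw [h1]
      apply hu.1.map'
      rw [LinearMap.ker_eq_bot]
      intro a b hab
      have h2 := congrArg (fun w => (mat Q g⁻¹).mulVec w) hab
      simp only [Matrix.toLin'_apply, mat_inv_mulVec] at h2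
      exact h2
    · rw [isom_polar]
      exact hu.2.1 x y
    · have h1 := isom_pres Q g (u x)
      rw [← hu.2.2 x]
      exact h1
  obtain ⟨φ, hφ⟩ : ∃ φ : ↥(Cfsg.isometryGroup F ⇑Q) → {u' : κ → ι → F // SigStd Q σ u'},
      ∀ g, (φ g).1 = fun y => (mat Q g).mulVec (u y) :=
    ⟨fun g => ⟨fun y => (mat Q g).mulVec (u y), hpres g⟩, fun g => rfl⟩
  have hfib : ∀ x, Nat.card {g // φ g = x}
      = Nat.card {g : ↥(Cfsg.isometryGroup F ⇑Q) // ∀ y, (mat Q g).mulVec (u y) = u y} := by
    intro x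
    obtain ⟨A, hA⟩ := sigStd_trans Q hQ σ u x.1 hu x.2
    obtain ⟨ψ, hψ⟩ : ∃ ψ : {g // φ g = x} →
        {g : ↥(Cfsg.isometryGroup F ⇑Q) // ∀ y, (mat Q g).mulVec (u y) = u y},
        ∀ g, (ψ g).1 = A⁻¹ * g.1 := by
      refine ⟨fun g => ⟨A⁻¹ * g.1, ?_⟩, fun g => rfl⟩
      intro y
      have h1 : (mat Q g.1).mulVec (u y) = x.1 y := by
        have h2 := congrFun (congrArg Subtype.val g.2) y
        rw [hφ] at h2
        exact h2
      rw [mat_mul, ← Matrix.mulVec_mulVec, h1, ← hA, mat_inv_mulVec]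
    refine Nat.card_congr (Equiv.ofBijective ψ ⟨?_, ?_⟩)
    · intro g g' h
      have h1 : A⁻¹ * g.1 = A⁻¹ * g'.1 := by rw [← hψ, ← hψ, h]
      exact Subtype.ext (mul_left_cancel h1)
    · intro s
      refine ⟨⟨A * s.1, ?_⟩, ?_⟩
      · apply Subtype.ext
        rw [hφ]
        funext y
        rw [mat_mul, ← Matrix.mulVec_mulVec, s.2 y, hA]
      · apply Subtype.ext
        rw [hψ]
        show A⁻¹ * (A * s.1) = s.1
        rw [inv_mul_cancel_left]
  rw [card_fiber_count φ _ hfib]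

end Trans

section Gen

variable {F : Type*} [Field F] {m : ℕ}

/-- the fibration of the centralizer of an involution in normal form, for a group realised by
symplectic matrices in which the relevant families are conjugate -/
theorem card_centralizer_nf_gen {H : Type*} [Group H] [Finite H] [Finite F]
    (ρ : H → Matrix (Fin m ⊕ Fin m) (Fin m ⊕ Fin m) F)
    (hmul : ∀ a b, ρ (a * b) = ρ a * ρ b) (hone : ρ 1 = 1) (hinj : Function.Injective ρ)
    (hJ : ∀ g, (ρ g)ᵀ * J (Fin m) F * ρ g = J (Fin m) F)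
    {κ : Type} [Fintype κ] [DecidableEq κ] (σ : κ → κ) (hσ : ∀ x, σ (σ x) = x) (t : H)
    (u : κ → (Fin m ⊕ Fin m → F)) (hli : LinearIndependent F u)
    (htf : ∀ v, (ρ t).mulVec v = v + ∑ y, Cfsg.sympForm m F (u y) v • u (σ y))
    (hwitt : ∀ A : Matrix κ κ F, A * permMat F σ * Aᵀ = permMat F σ →
      ∃ g₀ : H, ρ g₀ * colMat u = colMat u * A) :
    Nat.card {g : H // g * t = t * g}
      = Nat.card {A : Matrix κ κ F // A * permMat F σ * Aᵀ = permMat F σ}
        * Nat.card {g : H // ∀ y, ρ g *ᵥ u y = u y} := by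
  classical
  obtain ⟨U, hU⟩ : ∃ U, U = colMat u := ⟨_, rfl⟩
  obtain ⟨P, hP⟩ : ∃ P : Matrix κ κ F, P = permMat F σ := ⟨_, rfl⟩
  have hPP : P * P = 1 := by rw [hP]; exact permMat_sq σ hσ
  have ht : ρ t = 1 + U * P * Uᵀ * J (Fin m) F := by
    rw [hU, hP]
    exact nf_matrix σ _ u htf
  obtain ⟨L, hL⟩ : ∃ L : Matrix κ (Fin m ⊕ Fin m) F, L * U = 1 := by
    have hker : LinearMap.ker (Matrix.toLin' U) = ⊥ := by
      rw [LinearMap.ker_eq_bot']
      intro c hc
      rw [Matrix.toLin'_apply, hU, colMat_mulVec] at hc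
      funext y
      exact Fintype.linearIndependent_iff.mp hli c hc y
    obtain ⟨gl, hgl⟩ := LinearMap.exists_leftInverse_of_injective (Matrix.toLin' U) hker
    refine ⟨LinearMap.toMatrix' gl, ?_⟩
    have h1 : LinearMap.toMatrix' (gl.comp (Matrix.toLin' U)) = 1 := by
      rw [hgl, LinearMap.toMatrix'_id]
    rw [LinearMap.toMatrix'_comp, LinearMap.toMatrix'_toLin'] at h1
    exact h1
  have hLt : Uᵀ * Lᵀ = 1 := by rw [← Matrix.transpose_mul, hL, Matrix.transpose_one]
  have hJJ : J (Fin m) F * J (Fin m) F = -1 := Matrix.J_squared (Fin m) F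
  have hfixU : ∀ X : Matrix (Fin m ⊕ Fin m) (Fin m ⊕ Fin m) F,
      X * U = U ↔ ∀ y, X *ᵥ u y = u y := by
    intro X
    rw [hU, mul_colMat]
    constructor
    · intro h y
      exact congrFun (colMat_inj _ _ h) y
    · intro h
      congr 1
      funext y
      exact h y
  have hinv1 : ∀ g : H, ρ g * ρ g⁻¹ = 1 := fun g => by rw [← hmul, mul_inv_cancel, hone]
  have hinv2 : ∀ g : H, ρ g⁻¹ * ρ g = 1 := fun g => by rw [← hmul, inv_mul_cancel, hone]
  have key1 : ∀ g : H, g * t = t * g ↔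
      (ρ g * U) * P * (ρ g * U)ᵀ = U * P * Uᵀ := by
    intro g
    obtain ⟨gM, hgM⟩ : ∃ gM, gM = ρ g := ⟨_, rfl⟩
    obtain ⟨gi, hgi⟩ : ∃ gi, gi = ρ g⁻¹ := ⟨_, rfl⟩
    have h1 : gM * gi = 1 := by rw [hgM, hgi, hinv1]
    have h2 : gi * gM = 1 := by rw [hgM, hgi, hinv2]
    have h3 : J (Fin m) F * gM = giᵀ * J (Fin m) F := by
      have h4 := hJ g⁻¹
      rw [← hgi] at h4
      calc J (Fin m) F * gM = (giᵀ * J (Fin m) F * gi) * gM := by rw [h4]
        _ = giᵀ * J (Fin m) F * (gi * gM) := by simp only [Matrix.mul_assoc]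
        _ = giᵀ * J (Fin m) F := by rw [h2, Matrix.mul_one]
    rw [← hgM]
    constructor
    · intro h5
      have h6 : ρ t * gM = gM * ρ t := by
        rw [hgM, ← hmul, ← hmul, h5]
      rw [ht, add_mul, mul_add, one_mul, mul_one] at h6
      have h7 : U * P * Uᵀ * J (Fin m) F * gM = gM * (U * P * Uᵀ * J (Fin m) F) :=
        add_left_cancel h6
      have h8 : U * P * Uᵀ * giᵀ * J (Fin m) F = gM * U * P * Uᵀ * J (Fin m) F := by
        calc U * P * Uᵀ * giᵀ * J (Fin m) F = U * P * Uᵀ * (giᵀ * J (Fin m) F) := by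
              simp only [Matrix.mul_assoc]
          _ = U * P * Uᵀ * (J (Fin m) F * gM) := by rw [h3]
          _ = U * P * Uᵀ * J (Fin m) F * gM := by simp only [Matrix.mul_assoc]
          _ = gM * (U * P * Uᵀ * J (Fin m) F) := h7
          _ = gM * U * P * Uᵀ * J (Fin m) F := by simp only [Matrix.mul_assoc]
      have h9 : U * P * Uᵀ * giᵀ = gM * U * P * Uᵀ := by
        have h10 := congrArg (fun X => X * J (Fin m) F) h8
        simp only [Matrix.mul_assoc, hJJ, Matrix.mul_neg, Matrix.mul_one, neg_inj] at h10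
        simp only [Matrix.mul_assoc]
        exact h10
      calc gM * U * P * (gM * U)ᵀ = (gM * U * P * Uᵀ) * gMᵀ := by
            rw [Matrix.transpose_mul]
            simp only [Matrix.mul_assoc]
        _ = U * P * Uᵀ * giᵀ * gMᵀ := by rw [h9]
        _ = U * P * Uᵀ * (gM * gi)ᵀ := by
            rw [Matrix.transpose_mul]
            simp only [Matrix.mul_assoc]
        _ = U * P * Uᵀ := by rw [h1, Matrix.transpose_one, Matrix.mul_one]
    · intro h
      apply hinj
      rw [hmul, hmul, ← hgM, ht, add_mul, mul_add, one_mul, mul_one]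
      congr 1
      have h9 : gM * U * P * Uᵀ = U * P * Uᵀ * giᵀ := by
        calc gM * U * P * Uᵀ = gM * U * P * Uᵀ * (gi * gM)ᵀ := by
              rw [h2, Matrix.transpose_one, Matrix.mul_one]
          _ = (gM * U * P * (gM * U)ᵀ) * giᵀ := by
              rw [Matrix.transpose_mul, Matrix.transpose_mul]
              simp only [Matrix.mul_assoc]
          _ = U * P * Uᵀ * giᵀ := by rw [h]
      symm
      calc U * P * Uᵀ * J (Fin m) F * gM = U * P * Uᵀ * (J (Fin m) F * gM) := by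
            simp only [Matrix.mul_assoc]
        _ = U * P * Uᵀ * (giᵀ * J (Fin m) F) := by rw [h3]
        _ = (U * P * Uᵀ * giᵀ) * J (Fin m) F := by simp only [Matrix.mul_assoc]
        _ = (gM * U * P * Uᵀ) * J (Fin m) F := by rw [h9]
        _ = gM * (U * P * Uᵀ * J (Fin m) F) := by simp only [Matrix.mul_assoc]
  have hAinv : ∀ A : Matrix κ κ F, A * P * Aᵀ = P → (P * Aᵀ * P) * A = 1 := by
    intro A h1
    have h2 : A * (P * Aᵀ * P) = 1 := by
      calc A * (P * Aᵀ * P) = (A * P * Aᵀ) * P := by simp only [Matrix.mul_assoc]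
        _ = 1 := by rw [h1, hPP]
    exact mul_eq_one_comm.mp h2
  have key2 : ∀ g : H, g * t = t * g →
      (L * (ρ g * U)) * P * (L * (ρ g * U))ᵀ = P ∧ ρ g * U = U * (L * (ρ g * U)) := by
    intro g hg
    have h := (key1 g).mp hg
    obtain ⟨gM, hgM⟩ : ∃ gM, gM = ρ g := ⟨_, rfl⟩
    rw [← hgM] at h ⊢
    obtain ⟨A, hA⟩ : ∃ A, A = L * (gM * U) := ⟨_, rfl⟩
    rw [← hA]
    have hAt : Aᵀ = (gM * U)ᵀ * Lᵀ := by rw [hA, Matrix.transpose_mul]
    have h1 : A * P * Aᵀ = P := by
      calc A * P * Aᵀ = L * ((gM * U) * P * (gM * U)ᵀ) * Lᵀ := by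
            rw [hAt, hA]
            simp only [Matrix.mul_assoc]
        _ = L * (U * P * Uᵀ) * Lᵀ := by rw [h]
        _ = (L * U) * P * (Uᵀ * Lᵀ) := by simp only [Matrix.mul_assoc]
        _ = P := by rw [hL, hLt, Matrix.one_mul, Matrix.mul_one]
    refine ⟨h1, ?_⟩
    have h3 := hAinv A h1
    have h4 : (gM * U) * (P * Aᵀ * P) = U := by
      calc (gM * U) * (P * Aᵀ * P) = ((gM * U) * P * (gM * U)ᵀ) * Lᵀ * P := by
            rw [hAt]
            simp only [Matrix.mul_assoc]
        _ = U * P * Uᵀ * Lᵀ * P := by rw [h]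
        _ = U * (P * (Uᵀ * Lᵀ) * P) := by simp only [Matrix.mul_assoc]
        _ = U := by rw [hLt, Matrix.mul_one, hPP, Matrix.mul_one]
    calc gM * U = (gM * U) * ((P * Aᵀ * P) * A) := by rw [h3, Matrix.mul_one]
      _ = ((gM * U) * (P * Aᵀ * P)) * A := by simp only [Matrix.mul_assoc]
      _ = U * A := by rw [h4]
  have key3 : ∀ (g : H) (A : Matrix κ κ F), A * P * Aᵀ = P →
      ρ g * U = U * A → g * t = t * g := by
    intro g A hA hgU
    apply (key1 g).mpr
    rw [hgU, Matrix.transpose_mul]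
    calc U * A * P * (Aᵀ * Uᵀ) = U * (A * P * Aᵀ) * Uᵀ := by simp only [Matrix.mul_assoc]
      _ = U * P * Uᵀ := by rw [hA]
  obtain ⟨φ, hφ⟩ : ∃ φ : {g : H // g * t = t * g}
      → {A : Matrix κ κ F // A * permMat F σ * Aᵀ = permMat F σ},
      ∀ g, (φ g).1 = L * (ρ g.1 * U) :=
    ⟨fun g => ⟨L * (ρ g.1 * U), by
      rw [← hP]
      exact (key2 g.1 g.2).1⟩, fun g => rfl⟩
  have hfib : ∀ A, Nat.card {g // φ g = A}
      = Nat.card {g : H // ∀ y, ρ g *ᵥ u y = u y} := by
    intro A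
    have hAP : A.1 * P * A.1ᵀ = P := by
      rw [hP]
      exact A.2
    obtain ⟨g₀, hg₀⟩ : ∃ g₀ : H, ρ g₀ * U = U * A.1 := by
      rw [hU]
      exact hwitt A.1 A.2
    obtain ⟨ψ, hψ⟩ : ∃ ψ : {g // φ g = A} → {g : H // ∀ y, ρ g *ᵥ u y = u y},
        ∀ g, (ψ g).1 = g₀⁻¹ * g.1.1 := by
      refine ⟨fun g => ⟨g₀⁻¹ * g.1.1, ?_⟩, fun g => rfl⟩
      rw [← hfixU, hmul, Matrix.mul_assoc, (key2 g.1.1 g.1.2).2, ← hφ, g.2, ← hg₀,
        ← Matrix.mul_assoc, hinv2, Matrix.one_mul]
    refine Nat.card_congr (Equiv.ofBijective ψ ⟨?_, ?_⟩)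
    · intro g g' h
      have h1 : g₀⁻¹ * g.1.1 = g₀⁻¹ * g'.1.1 := by rw [← hψ, ← hψ, h]
      exact Subtype.ext (Subtype.ext (mul_left_cancel h1))
    · intro h
      have h1 : ρ (g₀ * h.1) * U = U * A.1 := by
        rw [hmul, Matrix.mul_assoc, (hfixU _).mpr h.2, hg₀]
      have h2 := key3 (g₀ * h.1) A.1 hAP h1
      refine ⟨⟨⟨g₀ * h.1, h2⟩, ?_⟩, ?_⟩
      · apply Subtype.ext
        rw [hφ]
        show L * (ρ (g₀ * h.1) * U) = A.1
        rw [h1, ← Matrix.mul_assoc, hL, Matrix.one_mul]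
      · apply Subtype.ext
        rw [hψ]
        show g₀⁻¹ * (g₀ * h.1) = h.1
        rw [inv_mul_cancel_left]
  haveI : Finite {A : Matrix κ κ F // A * permMat F σ * Aᵀ = permMat F σ} := by
    haveI := Fintype.ofFinite F
    infer_instance
  rw [card_fiber_count φ _ hfib]

end Gen

section OrthInst

variable {F : Type*} [Field F] {m : ℕ}

/-- an isometry of a quadratic form whose polar form is the symplectic form is a symplectic
matrix -/
lemma orth_mat_sp (Q : QuadraticForm F (Fin m ⊕ Fin m → F))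
    (hpol : ∀ a b, QuadraticMap.polar (⇑Q) a b = Cfsg.sympForm m F a b)
    (g : ↥(Cfsg.isometryGroup F ⇑Q)) :
    (mat Q g)ᵀ * J (Fin m) F * mat Q g = J (Fin m) F := by
  classical
  have h1 : mat Q g * mat Q g⁻¹ = 1 := by
    rw [← mat_mul, mul_inv_cancel, mat_one]
  have h2 : mat Q g⁻¹ * mat Q g = 1 := by
    rw [← mat_mul, inv_mul_cancel, mat_one]
  obtain ⟨g', hg'⟩ : ∃ g' : (Fin m ⊕ Fin m → F) ≃ₗ[F] (Fin m ⊕ Fin m → F),
      ∀ v, g' v = (mat Q g).mulVec v :=
    ⟨LinearEquiv.ofLinearMap (Matrix.toLin' (mat Q g))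
      (Matrix.toLin' (mat Q g⁻¹))
      (by rw [← Matrix.toLin'_mul, h1, Matrix.toLin'_one])
      (by rw [← Matrix.toLin'_mul, h2, Matrix.toLin'_one]), fun v => rfl⟩
  obtain ⟨A, hA⟩ := sp_of_linearEquiv g' (fun u v => by
    rw [hg', hg', ← hpol, ← hpol]
    exact isom_polar _ g u v)
  have hmat : mat Q g
      = (A : Matrix (Fin m ⊕ Fin m) (Fin m ⊕ Fin m) F) := by
    apply Matrix.mulVec_injective
    funext v
    rw [hA, hg']
  rw [hmat]
  exact SymplecticGroup.mem_iff'.mp A.2

/-- the centralizer of an involution in normal form in the orthogonal group of a quadratic form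
whose polar form is the symplectic form -/
theorem orth_card_centralizer_nf [Fintype F] (Q : QuadraticForm F (Fin m ⊕ Fin m → F))
    (hQ : (QuadraticMap.polarBilin Q).Nondegenerate)
    (hpol : ∀ a b, QuadraticMap.polar (⇑Q) a b = Cfsg.sympForm m F a b)
    {κ : Type} [Fintype κ] [DecidableEq κ] (σ : κ → κ)
    (hσ : ∀ x, σ (σ x) = x) (t : ↥(Cfsg.isometryGroup F ⇑Q))
    (u : κ → (Fin m ⊕ Fin m → F)) (hstd : SigStd Q σ u)
    (htf : ∀ v, (mat Q t).mulVec v
      = v + ∑ y, QuadraticMap.polar (⇑Q) (u y) v • u (σ y))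
    (hQA : ∀ A : Matrix κ κ F, A * permMat F σ * Aᵀ = permMat F σ → ∀ y,
      ∑ x, A x y * A x y * Q (u x) = Q (u y)) :
    Nat.card {g : ↥(Cfsg.isometryGroup F ⇑Q) // g * t = t * g}
      = Nat.card {A : Matrix κ κ F // A * permMat F σ * Aᵀ = permMat F σ}
        * Nat.card {g : ↥(Cfsg.isometryGroup F ⇑Q) //
            ∀ y, (mat Q g).mulVec (u y) = u y} := by
  classical
  obtain ⟨hli, hu, hQu⟩ := hstd
  apply card_centralizer_nf_gen (mat Q) (mat_mul Q) (mat_one Q) (fun a b h => isom_ext Q a b h)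
    (fun g => orth_mat_sp Q hpol g) σ hσ t u hli
  · intro v
    rw [htf]
    congr 1
    apply Finset.sum_congr rfl
    intro y _
    rw [hpol]
  · intro A hA
    obtain ⟨P, hP⟩ : ∃ P : Matrix κ κ F, P = permMat F σ := ⟨_, rfl⟩
    rw [← hP] at hA
    have hPP : P * P = 1 := by rw [hP]; exact permMat_sq σ hσ
    have hAi : (P * Aᵀ * P) * A = 1 := by
      have h2 : A * (P * Aᵀ * P) = 1 := by
        calc A * (P * Aᵀ * P) = (A * P * Aᵀ) * P := by simp only [Matrix.mul_assoc]
          _ = 1 := by rw [hA, hPP]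
      exact mul_eq_one_comm.mp h2
    have hstd' : SigStd Q σ (fun y => ∑ x, A x y • u x) := by
      refine ⟨?_, ?_, ?_⟩
      · rw [Fintype.linearIndependent_iff]
        intro c hc
        have h1 : (colMat u * A) *ᵥ c = 0 := by
          rw [colMat_mul, colMat_mulVec]
          exact hc
        rw [← Matrix.mulVec_mulVec, colMat_mulVec] at h1
        have h2 := Fintype.linearIndependent_iff.mp hli _ h1
        have h3 : A *ᵥ c = 0 := funext h2
        have h4 : c = 0 := by
          have h5 := congrArg (fun w => (P * Aᵀ * P) *ᵥ w) h3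
          simp only [Matrix.mulVec_mulVec, Matrix.mulVec_zero] at h5
          rw [hAi, Matrix.one_mulVec] at h5
          exact h5
        intro y
        rw [h4]
        rfl
      · intro y z
        show QuadraticMap.polarBilin Q (∑ x, A x y • u x) (∑ x, A x z • u x) = 0
        rw [map_sum]
        apply Finset.sum_eq_zero
        intro x' _
        rw [map_sum, LinearMap.sum_apply]
        apply Finset.sum_eq_zero
        intro x _
        show QuadraticMap.polar (⇑Q) (A x y • u x) (A x' z • u x') = 0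
        rw [QuadraticMap.polar_smul_left, QuadraticMap.polar_smul_right, hu, smul_zero, smul_zero]
      · intro y
        rw [Q_sum_orth Q Finset.univ (fun x => A x y) u (fun a b _ => hu a b),
          hQA A (by rw [← hP]; exact hA) y]
        exact hQu y
    obtain ⟨g₀, hg₀⟩ := sigStd_trans Q hQ σ u _ ⟨hli, hu, hQu⟩ hstd'
    refine ⟨g₀, ?_⟩
    rw [colMat_mul, mul_colMat]
    congr 1
    funext y
    exact hg₀ y

end OrthInst

end Cfsg.Agent.Lib.helper4
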