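import Mathlib
import Cfsg.Agent.Lib.helper4.OrthInvCent
import Cfsg.Agent.Lib.helper4.OrthDotCount

set_option autoImplicit false

/-!
# Counting orthogonal frames of vectors with `Q = 1` in characteristic two

`card_ext_id`: the number of ways of extending such a frame by one vector.
`card_sigStd_id_succ`, `card_sigStd_id_one`, `card_plus_Q_one`, `card_plus_sigStd_id`.
-/

namespace Cfsg.Agent.Lib.helper4

open Cfsg.Agent.Lib.helper13

section FrameCount

variable {F : Type*} [Field F] [CharP F 2] {ι : Type} [Fintype ι] [DecidableEq ι]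

omit [Fintype ι] [DecidableEq ι] in
lemma polar_self_c2 (Q : QuadraticForm F (ι → F)) (x : ι → F) :
    QuadraticMap.polar (⇑Q) x x = 0 := by
  rw [QuadraticMap.polar_self, two_smul]
  exact CharTwo.add_self_eq_zero _

lemma exists_sqrt_c2 [Finite F] (a : F) : ∃ c : F, c * c = a := by
  have hinj : Function.Injective (frobenius F 2) := frobenius_inj F 2
  have hsurj := Finite.injective_iff_surjective.mp hinj
  obtain ⟨c, hc⟩ := hsurj a
  exact ⟨c, by rw [← hc, frobenius_def, pow_two]⟩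

lemma sq_inj_c2 (a b : F) (h : a * a = b * b) : a = b := by
  have h1 : (a + b) * (a + b) = 0 := by
    rw [CharTwo.add_mul_self, h]
    exact CharTwo.add_self_eq_zero _
  exact CharTwo.add_eq_zero.mp (mul_self_eq_zero.mp h1)

omit [Fintype ι] [DecidableEq ι] in
lemma sigStd_id_cons_iff (Q : QuadraticForm F (ι → F)) {k : ℕ} (x : ι → F) (b : Fin k → ι → F) :
    SigStd Q (id : Fin (k + 1) → Fin (k + 1)) (Fin.cons x b : Fin (k + 1) → ι → F) ↔
      (Q x = 1 ∧ (∀ i, QuadraticMap.polar (⇑Q) (b i) x = 0)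
        ∧ x ∉ Submodule.span F (Set.range b)) ∧ SigStd Q (id : Fin k → Fin k) b := by
  unfold SigStd
  rw [linearIndependent_finCons]
  constructor
  · rintro ⟨⟨hli, hx⟩, hpol, hQ⟩
    refine ⟨⟨?_, fun i => ?_, hx⟩, hli, fun i j => ?_, fun i => ?_⟩
    · have h := hQ 0
      simpa using h
    · have h := hpol i.succ 0
      simpa using h
    · have h := hpol i.succ j.succ
      simpa using h
    · have h := hQ i.succ
      simpa using h
  · rintro ⟨⟨hQx, hpx, hx⟩, hli, hpol, hQ⟩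
    refine ⟨⟨hli, hx⟩, fun i j => ?_, fun i => ?_⟩
    · refine Fin.cases ?_ (fun i => ?_) i
      · refine Fin.cases ?_ (fun j => ?_) j
        · rw [Fin.cons_zero]
          exact polar_self_c2 Q x
        · rw [Fin.cons_zero, Fin.cons_succ, QuadraticMap.polar_comm]
          exact hpx j
      · refine Fin.cases ?_ (fun j => ?_) j
        · rw [Fin.cons_zero, Fin.cons_succ]
          exact hpx i
        · rw [Fin.cons_succ, Fin.cons_succ]
          exact hpol i j
    · refine Fin.cases ?_ (fun i => ?_) i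
      · simpa using hQx
      · have h := hQ i
        simpa using h

/-- the number of extensions of an orthogonal frame of vectors with `Q = 1` -/
theorem card_ext_id [Fintype F] {q : ℕ} (hF : Fintype.card F = q) (Q : QuadraticForm F (ι → F))
    (hQ : (QuadraticMap.polarBilin Q).Nondegenerate) {k : ℕ} (b : Fin (k + 1) → ι → F)
    (hb : SigStd Q (id : Fin (k + 1) → Fin (k + 1)) b) :
    Nat.card {x : ι → F // Q x = 1 ∧ (∀ i, QuadraticMap.polar (⇑Q) (b i) x = 0)
        ∧ x ∉ Submodule.span F (Set.range b)}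
      = q ^ (Fintype.card ι - (k + 1) - 1) - q ^ k := by
  classical
  obtain ⟨hli, hpol, hQb⟩ := hb
  have hQb' : ∀ i, Q (b i) = 1 := fun i => by simpa using hQb i
  have hq : 0 < q := by
    rw [← hF]
    exact Fintype.card_pos
  obtain ⟨W, hW⟩ : ∃ W, W = orthSub Q (Submodule.span F (Set.range b)) := ⟨_, rfl⟩
  have hmemW : ∀ x, x ∈ W ↔ ∀ i, QuadraticMap.polar (⇑Q) (b i) x = 0 := by
    intro x
    rw [hW, mem_orthSub_span]
    constructor
    · intro h i
      exact h (b i) ⟨i, rfl⟩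
    · rintro h _ ⟨i, rfl⟩
      exact h i
  have hfinW : Module.finrank F ↥W = Fintype.card ι - (k + 1) := by
    rw [hW, finrank_orthSub Q hQ, finrank_span_eq_card hli, Fintype.card_fin]
  have hle : Submodule.span F (Set.range b) ≤ W := by
    rw [Submodule.span_le]
    rintro _ ⟨i, rfl⟩
    exact (hmemW _).mpr (fun j => hpol j i)
  have hfin2 : k + 1 ≤ Fintype.card ι - (k + 1) := by
    have h1 := Submodule.finrank_mono hle
    rw [hfinW, finrank_span_eq_card hli, Fintype.card_fin] at h1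
    exact h1
  have hcardW : Nat.card ↥W = q ^ (Fintype.card ι - (k + 1)) := by
    rw [Module.natCard_eq_pow_finrank (K := F), hfinW, Nat.card_eq_fintype_card, hF]
  have hQW : ∀ w, (∀ i, QuadraticMap.polar (⇑Q) (b i) w = 0) → ∀ c : F,
      Q (w + c • b 0) = Q w + c * c := by
    intro w hw c
    rw [Q_add, QuadraticMap.map_smul, hQb' 0, smul_eq_mul, mul_one, QuadraticMap.polar_smul_right,
      QuadraticMap.polar_comm, hw 0, smul_zero, add_zero]
  have h2 : ∀ x : ι → F, x + x = 0 := fun x => by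
    rw [← two_smul F x, CharTwo.two_eq_zero, zero_smul]
  -- the vectors with `Q = 1` in the orthogonal complement
  have hS : Nat.card {x : ι → F // Q x = 1 ∧ ∀ i, QuadraticMap.polar (⇑Q) (b i) x = 0} * q
      = q ^ (Fintype.card ι - (k + 1)) := by
    rw [← hcardW, ← hF, ← Nat.card_eq_fintype_card (α := F), ← Nat.card_prod]
    obtain ⟨ψ, hψ⟩ : ∃ ψ : {x : ι → F // Q x = 1 ∧ ∀ i, QuadraticMap.polar (⇑Q) (b i) x = 0} × F
        → ↥W, ∀ p, ((ψ p : ↥W) : ι → F) = p.1.1 + p.2 • b 0 := by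
      refine ⟨fun p => ⟨p.1.1 + p.2 • b 0, ?_⟩, fun p => rfl⟩
      rw [hmemW]
      intro i
      rw [QuadraticMap.polar_add_right, p.1.2.2 i, QuadraticMap.polar_smul_right, hpol,
        smul_zero, add_zero]
    refine Nat.card_congr (Equiv.ofBijective ψ ⟨?_, ?_⟩)
    · rintro ⟨x, c⟩ ⟨x', c'⟩ h
      have h3 : x.1 + c • b 0 = x'.1 + c' • b 0 := by
        have h4 := congrArg (fun w : ↥W => (w : ι → F)) h
        simp only [hψ] at h4
        exact h4
      have h4 := congrArg Q h3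
      rw [hQW x.1 x.2.2 c, hQW x'.1 x'.2.2 c', x.2.1, x'.2.1] at h4
      have h5 : c = c' := sq_inj_c2 c c' (add_left_cancel h4)
      rw [h5] at h3
      have h6 : x = x' := Subtype.ext (add_right_cancel h3)
      rw [h5, h6]
    · intro w
      obtain ⟨c, hc⟩ := exists_sqrt_c2 (Q (w : ι → F) + 1)
      have hw := (hmemW _).mp w.2
      refine ⟨⟨⟨(w : ι → F) + c • b 0, ?_, fun i => ?_⟩, c⟩, ?_⟩
      · rw [hQW _ hw c, hc, ← add_assoc, CharTwo.add_self_eq_zero, zero_add]
      · rw [QuadraticMap.polar_add_right, hw i, QuadraticMap.polar_smul_right, hpol,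
          smul_zero, add_zero]
      · apply Subtype.ext
        rw [hψ]
        show (w : ι → F) + c • b 0 + c • b 0 = w
        rw [add_assoc, h2, add_zero]
  -- those in the span of the frame
  have hT : Nat.card {x : ι → F // (Q x = 1 ∧ ∀ i, QuadraticMap.polar (⇑Q) (b i) x = 0)
      ∧ x ∈ Submodule.span F (Set.range b)} * q = q ^ (k + 1) := by
    have h1 := card_dot_fiber hF (fun _ : Fin 1 => (fun _ : Fin (k + 1) => (1 : F)))
      (by
        rw [Fintype.linearIndependent_iff]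
        intro g hg i
        have h3 := congrFun hg 0
        simp only [Fin.sum_univ_one, Pi.smul_apply, smul_eq_mul, mul_one, Pi.zero_apply] at h3
        rw [Subsingleton.elim i 0]
        exact h3) (fun _ => 1)
    rw [pow_one] at h1
    rw [← h1]
    congr 1
    have hQc : ∀ c : Fin (k + 1) → F, Q (∑ i, c i • b i) = (∑ i, c i) * (∑ i, c i) := by
      intro c
      rw [Q_sum_orth Q Finset.univ c b (fun x y _ => hpol x y)]
      have h3 : ∀ (s : Finset (Fin (k + 1))), ∑ i ∈ s, c i * c i * Q (b i)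
          = (∑ i ∈ s, c i) * (∑ i ∈ s, c i) := by
        intro s
        induction s using Finset.induction_on with
        | empty => simp
        | insert a s ha ih =>
          rw [Finset.sum_insert ha, Finset.sum_insert ha, ih, hQb' a, mul_one,
            CharTwo.add_mul_self]
      exact h3 Finset.univ
    obtain ⟨ψ, hψ⟩ : ∃ ψ : {c : Fin (k + 1) → F // ∀ i : Fin 1,
          (fun _ : Fin (k + 1) => (1 : F)) ⬝ᵥ c = 1} →
        {x : ι → F // (Q x = 1 ∧ ∀ i, QuadraticMap.polar (⇑Q) (b i) x = 0)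
          ∧ x ∈ Submodule.span F (Set.range b)}, ∀ c, (ψ c).1 = ∑ i, c.1 i • b i := by
      refine ⟨fun c => ⟨∑ i, c.1 i • b i, ⟨?_, ?_⟩, ?_⟩, fun c => rfl⟩
      · have h3 := c.2 0
        rw [ones_dot] at h3
        rw [hQc, h3, mul_one]
      · intro i
        have h3 : ∑ j, c.1 j • b j ∈ W :=
          hle (Submodule.sum_mem _ (fun j _ => Submodule.smul_mem _ _
            (Submodule.subset_span ⟨j, rfl⟩)))
        exact (hmemW _).mp h3 i
      · exact Submodule.sum_mem _ (fun j _ => Submodule.smul_mem _ _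
          (Submodule.subset_span ⟨j, rfl⟩))
    symm
    refine Nat.card_congr (Equiv.ofBijective ψ ⟨?_, ?_⟩)
    · intro c c' h
      have h3 : ∑ i, c.1 i • b i = ∑ i, c'.1 i • b i := by rw [← hψ, ← hψ, h]
      have h4 : ∑ i, (c.1 i - c'.1 i) • b i = 0 := by
        simp only [sub_smul, Finset.sum_sub_distrib]
        rw [h3, sub_self]
      have h5 := Fintype.linearIndependent_iff.mp hli _ h4
      apply Subtype.ext
      funext i
      exact sub_eq_zero.mp (h5 i)
    · intro x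
      obtain ⟨c, hc⟩ := (Submodule.mem_span_range_iff_exists_fun F).mp x.2.2
      have h3 : (∑ i, c i) * (∑ i, c i) = 1 * 1 := by
        rw [← hQc, hc, mul_one]
        exact x.2.1.1
      have h4 := sq_inj_c2 _ _ h3
      refine ⟨⟨c, fun _ => by rw [ones_dot]; exact h4⟩, ?_⟩
      apply Subtype.ext
      rw [hψ]
      exact hc
  -- combine
  have hsplit : Nat.card {x : ι → F // Q x = 1 ∧ ∀ i, QuadraticMap.polar (⇑Q) (b i) x = 0}
      = Nat.card {x : ι → F // (Q x = 1 ∧ ∀ i, QuadraticMap.polar (⇑Q) (b i) x = 0)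
          ∧ x ∈ Submodule.span F (Set.range b)}
        + Nat.card {x : ι → F // Q x = 1 ∧ (∀ i, QuadraticMap.polar (⇑Q) (b i) x = 0)
          ∧ x ∉ Submodule.span F (Set.range b)} := by
    have e : {x : ι → F // Q x = 1 ∧ (∀ i, QuadraticMap.polar (⇑Q) (b i) x = 0)
          ∧ x ∉ Submodule.span F (Set.range b)}
        ≃ {x : ι → F // (Q x = 1 ∧ ∀ i, QuadraticMap.polar (⇑Q) (b i) x = 0)
          ∧ ¬ x ∈ Submodule.span F (Set.range b)} :=
      Equiv.subtypeEquivRight (fun x => by tauto)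
    rw [Nat.card_congr e]
    simp only [Nat.card_eq_fintype_card, Fintype.card_subtype]
    rw [← Finset.card_filter_add_card_filter_not (p := fun x : ι → F =>
      x ∈ Submodule.span F (Set.range b))]
    simp only [Finset.filter_filter]
  have hS' : Nat.card {x : ι → F // Q x = 1 ∧ ∀ i, QuadraticMap.polar (⇑Q) (b i) x = 0}
      = q ^ (Fintype.card ι - (k + 1) - 1) := by
    have h3 : q ^ (Fintype.card ι - (k + 1)) = q ^ (Fintype.card ι - (k + 1) - 1) * q := by
      rw [← pow_succ]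
      congr 1
      omega
    rw [h3] at hS
    exact Nat.eq_of_mul_eq_mul_right hq hS
  have hT' : Nat.card {x : ι → F // (Q x = 1 ∧ ∀ i, QuadraticMap.polar (⇑Q) (b i) x = 0)
      ∧ x ∈ Submodule.span F (Set.range b)} = q ^ k := by
    rw [pow_succ] at hT
    exact Nat.eq_of_mul_eq_mul_right hq hT
  rw [hS', hT'] at hsplit
  omega

omit [Fintype ι] [DecidableEq ι] in
lemma sigStd_id_tail (Q : QuadraticForm F (ι → F)) {k : ℕ} (a : Fin (k + 1) → ι → F)
    (h : SigStd Q (id : Fin (k + 1) → Fin (k + 1)) a) :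
    (Q (a 0) = 1 ∧ (∀ i, QuadraticMap.polar (⇑Q) (Fin.tail a i) (a 0) = 0)
        ∧ a 0 ∉ Submodule.span F (Set.range (Fin.tail a)))
      ∧ SigStd Q (id : Fin k → Fin k) (Fin.tail a) := by
  apply (sigStd_id_cons_iff Q (a 0) (Fin.tail a)).mp
  rw [Fin.cons_self_tail]
  exact h

/-- the recursion for the number of orthogonal frames of vectors with `Q = 1` -/
theorem card_sigStd_id_succ [Fintype F] {q : ℕ} (hF : Fintype.card F = q)
    (Q : QuadraticForm F (ι → F)) (hQ : (QuadraticMap.polarBilin Q).Nondegenerate) (k : ℕ) :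
    Nat.card {a : Fin (k + 2) → ι → F // SigStd Q (id : Fin (k + 2) → Fin (k + 2)) a}
      = Nat.card {b : Fin (k + 1) → ι → F // SigStd Q (id : Fin (k + 1) → Fin (k + 1)) b}
        * (q ^ (Fintype.card ι - (k + 1) - 1) - q ^ k) := by
  classical
  obtain ⟨ρ, hρ⟩ : ∃ ρ : {a : Fin (k + 2) → ι → F // SigStd Q (id : Fin (k + 2) → Fin (k + 2)) a}
      → {b : Fin (k + 1) → ι → F // SigStd Q (id : Fin (k + 1) → Fin (k + 1)) b},
      ∀ a, (ρ a).1 = Fin.tail a.1 :=
    ⟨fun a => ⟨Fin.tail a.1, (sigStd_id_tail Q a.1 a.2).2⟩, fun a => rfl⟩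
  have hfib : ∀ b, Nat.card {a // ρ a = b} = q ^ (Fintype.card ι - (k + 1) - 1) - q ^ k := by
    intro b
    rw [← card_ext_id hF Q hQ b.1 b.2]
    have htail : ∀ a : {a // ρ a = b}, Fin.tail a.1.1 = b.1 := by
      intro a
      rw [← hρ, a.2]
    obtain ⟨ψ, hψ⟩ : ∃ ψ : {a // ρ a = b} →
        {x : ι → F // Q x = 1 ∧ (∀ i, QuadraticMap.polar (⇑Q) (b.1 i) x = 0)
          ∧ x ∉ Submodule.span F (Set.range b.1)}, ∀ a, (ψ a).1 = a.1.1 0 := by
      refine ⟨fun a => ⟨a.1.1 0, ?_⟩, fun a => rfl⟩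
      have h0 := (sigStd_id_tail Q a.1.1 a.1.2).1
      rw [htail a] at h0
      exact h0
    refine Nat.card_congr (Equiv.ofBijective ψ ⟨?_, ?_⟩)
    · intro a a' h
      have h3 : a.1.1 0 = a'.1.1 0 := by rw [← hψ, ← hψ, h]
      apply Subtype.ext
      apply Subtype.ext
      rw [← Fin.cons_self_tail a.1.1, ← Fin.cons_self_tail a'.1.1, h3, htail a, htail a']
    · intro x
      have hon : SigStd Q (id : Fin (k + 2) → Fin (k + 2))
          (Fin.cons x.1 b.1 : Fin (k + 2) → ι → F) :=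
        (sigStd_id_cons_iff Q x.1 b.1).mpr ⟨x.2, b.2⟩
      refine ⟨⟨⟨Fin.cons x.1 b.1, hon⟩, ?_⟩, ?_⟩
      · apply Subtype.ext
        rw [hρ]
        exact Fin.tail_cons _ _
      · apply Subtype.ext
        rw [hψ]
        rfl
  rw [card_fiber_count ρ _ hfib]

omit [Fintype ι] [DecidableEq ι] in
/-- frames of length one -/
theorem card_sigStd_id_one [Finite F] [Finite ι] (Q : QuadraticForm F (ι → F)) :
    Nat.card {a : Fin 1 → ι → F // SigStd Q (id : Fin 1 → Fin 1) a}
      = Nat.card {x : ι → F // Q x = 1} := by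
  classical
  have hiff : ∀ x : ι → F, SigStd Q (id : Fin 1 → Fin 1)
      (Fin.cons x (fun i : Fin 0 => i.elim0) : Fin 1 → ι → F) ↔ Q x = 1 := by
    intro x
    rw [sigStd_id_cons_iff]
    constructor
    · intro h
      exact h.1.1
    · intro h
      refine ⟨⟨h, fun i => i.elim0, ?_⟩, linearIndependent_empty_type, fun i => i.elim0,
        fun i => i.elim0⟩
      have h1 : Set.range (fun i : Fin 0 => (i.elim0 : ι → F)) = ∅ := Set.range_eq_empty _
      rw [h1, Submodule.span_empty, Submodule.mem_bot]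
      rintro rfl
      rw [map_zero] at h
      exact zero_ne_one h
  have hcons : ∀ a : Fin 1 → ι → F, a = Fin.cons (a 0) (fun i : Fin 0 => i.elim0) := by
    intro a
    funext i
    rw [Subsingleton.elim i 0]
    rfl
  obtain ⟨ψ, hψ⟩ : ∃ ψ : {a : Fin 1 → ι → F // SigStd Q (id : Fin 1 → Fin 1) a}
      → {x : ι → F // Q x = 1}, ∀ a, (ψ a).1 = a.1 0 := by
    refine ⟨fun a => ⟨a.1 0, ?_⟩, fun a => rfl⟩
    apply (hiff _).mp
    rw [← hcons]
    exact a.2
  refine Nat.card_congr (Equiv.ofBijective ψ ⟨?_, ?_⟩)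
  · intro a a' h
    have h3 : a.1 0 = a'.1 0 := by rw [← hψ, ← hψ, h]
    apply Subtype.ext
    rw [hcons a.1, hcons a'.1, h3]
  · intro x
    refine ⟨⟨Fin.cons x.1 (fun i : Fin 0 => i.elim0), (hiff _).mpr x.2⟩, ?_⟩
    apply Subtype.ext
    rw [hψ]
    rfl

/-- the number of vectors with `Q = 1` for the hyperbolic form -/
theorem card_plus_Q_one [Fintype F] {q : ℕ} (hF : Fintype.card F = q) (m : ℕ) (hm : 1 ≤ m) :
    Nat.card {x : Fin m ⊕ Fin m → F // Cfsg.Agent.S2562.qP F m x = 1}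
      = q ^ (2 * m - 1) - q ^ (m - 1) := by
  classical
  have h0 := Cfsg.Agent.Lib.helper6.card_quadPlus_zero hF m hm
  have hq : 1 < q := by
    rw [← hF]
    exact Fintype.one_lt_card
  -- non-singular vectors
  have h1 : Nat.card {v : Fin m ⊕ Fin m → F // Cfsg.Agent.S2562.qP F m v ≠ 0}
      = Nat.card {x : Fin m ⊕ Fin m → F // Cfsg.Agent.S2562.qP F m x = 1} * (q - 1) := by
    have hcF : Nat.card {c : F // c ≠ 0} = q - 1 := by
      rw [Nat.card_eq_fintype_card, Fintype.card_subtype_compl, Fintype.card_subtype_eq, hF]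
    rw [← hcF, ← Nat.card_prod]
    obtain ⟨ψ, hψ⟩ : ∃ ψ : {x : Fin m ⊕ Fin m → F // Cfsg.Agent.S2562.qP F m x = 1}
        × {c : F // c ≠ 0} → {v : Fin m ⊕ Fin m → F // Cfsg.Agent.S2562.qP F m v ≠ 0},
        ∀ p, (ψ p).1 = p.2.1 • p.1.1 := by
      refine ⟨fun p => ⟨p.2.1 • p.1.1, ?_⟩, fun p => rfl⟩
      rw [QuadraticMap.map_smul, p.1.2, smul_eq_mul, mul_one]
      exact mul_ne_zero p.2.2 p.2.2
    symm
    refine Nat.card_congr (Equiv.ofBijective ψ ⟨?_, ?_⟩)
    · rintro ⟨x, c⟩ ⟨x', c'⟩ h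
      have h3 : c.1 • x.1 = c'.1 • x'.1 := by
        have h4 := congrArg Subtype.val h
        rw [hψ, hψ] at h4
        exact h4
      have h4 := congrArg (Cfsg.Agent.S2562.qP F m) h3
      rw [QuadraticMap.map_smul, QuadraticMap.map_smul, x.2, x'.2, smul_eq_mul, smul_eq_mul,
        mul_one, mul_one] at h4
      have h5 : c.1 = c'.1 := sq_inj_c2 _ _ h4
      rw [h5] at h3
      have h6 : x.1 = x'.1 := smul_right_injective _ c'.2 h3
      rw [Subtype.ext h5, Subtype.ext h6]
    · intro v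
      obtain ⟨c, hc⟩ := exists_sqrt_c2 (Cfsg.Agent.S2562.qP F m v.1)
      have hc0 : c ≠ 0 := by
        rintro rfl
        rw [mul_zero] at hc
        exact v.2 hc.symm
      refine ⟨⟨⟨c⁻¹ • v.1, ?_⟩, ⟨c, hc0⟩⟩, ?_⟩
      · rw [QuadraticMap.map_smul, ← hc, smul_eq_mul]
        field_simp
      · apply Subtype.ext
        rw [hψ]
        show c • c⁻¹ • v.1 = v.1
        rw [smul_smul, mul_inv_cancel₀ hc0, one_smul]
  have h3 : Nat.card {v : Fin m ⊕ Fin m → F // Cfsg.Agent.S2562.qP F m v ≠ 0}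
      = q ^ (2 * m) - Nat.card {v : Fin m ⊕ Fin m → F // Cfsg.quadFormPlus m F v = 0} := by
    have e : {v : Fin m ⊕ Fin m → F // Cfsg.quadFormPlus m F v = 0}
        ≃ {v : Fin m ⊕ Fin m → F // Cfsg.Agent.S2562.qP F m v = 0} :=
      Equiv.subtypeEquivRight (fun v => by rw [Cfsg.Agent.S2562.qP_apply])
    rw [Nat.card_congr e, Nat.card_eq_fintype_card, Nat.card_eq_fintype_card,
      Fintype.card_subtype_compl, Fintype.card_fun, Fintype.card_sum, Fintype.card_fin, two_mul,
      hF]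
  rw [h3, h0] at h1
  obtain ⟨e, rfl⟩ : ∃ e, m = e + 1 := ⟨m - 1, by omega⟩
  obtain ⟨r, rfl⟩ : ∃ r, q = r + 1 := ⟨q - 1, by omega⟩
  have e1 : 2 * (e + 1) - 1 = 2 * e + 1 := by omega
  have e2 : e + 1 - 1 = e := by omega
  rw [e1, e2] at h1 ⊢
  rw [Nat.add_sub_cancel] at h1
  have e3 : (r + 1) ^ (2 * (e + 1)) = (r + 1) ^ (2 * e + 1) * r + (r + 1) ^ (2 * e + 1) := by
    ring
  have e4 : (r + 1) ^ (e + 1) = (r + 1) ^ e * r + (r + 1) ^ e := by ring
  have e5 : (r + 1) ^ e ≤ (r + 1) ^ (2 * e + 1) := Nat.pow_le_pow_right (by omega) (by omega)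
  have e6 : (r + 1) ^ e * r ≤ (r + 1) ^ (2 * e + 1) * r := Nat.mul_le_mul_right _ e5
  have h4 : ((r + 1) ^ (2 * e + 1) - (r + 1) ^ e) * r
      = Nat.card {x : Fin (e + 1) ⊕ Fin (e + 1) → F // Cfsg.Agent.S2562.qP F (e + 1) x = 1} * r := by
    rw [← h1, Nat.sub_mul, e3, e4]
    omega
  exact (Nat.eq_of_mul_eq_mul_right (by omega) h4).symm

/-- the number of orthogonal frames of vectors with `Q = 1` for the hyperbolic form -/
theorem card_plus_sigStd_id [Fintype F] {q : ℕ} (hF : Fintype.card F = q) (m : ℕ) (hm : 1 ≤ m) :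
    ∀ k : ℕ, Nat.card {a : Fin (k + 1) → (Fin m ⊕ Fin m → F) //
        SigStd (Cfsg.Agent.S2562.qP F m) (id : Fin (k + 1) → Fin (k + 1)) a}
      = (q ^ (2 * m - 1) - q ^ (m - 1)) * ∏ j ∈ Finset.range k, (q ^ (2 * m - (j + 1) - 1) - q ^ j)
  | 0 => by
    rw [card_sigStd_id_one, card_plus_Q_one hF m hm, Finset.prod_range_zero, mul_one]
  | k + 1 => by
    rw [card_sigStd_id_succ hF _ (Cfsg.Agent.S2562.nondeg_qP m) k, card_plus_sigStd_id hF m hm k,
      Finset.prod_range_succ, mul_assoc]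
    congr 2
    simp only [Fintype.card_sum, Fintype.card_fin]
    congr 2
    omega

end FrameCount

end Cfsg.Agent.Lib.helper4
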