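import Mathlib
import Cfsg.Agent.Lib.helper4.OrthFrameCount
import Cfsg.Agent.Lib.helper4.OrthInvOmega
import Cfsg.Agent.Lib.helper6.OrthOrd

set_option autoImplicit false

/-!
# Centralizers in `Ω` of involutions of `O⁺_2m(q)`, `q` even

`nfLin_comm`: normal-form maps with mutually orthogonal families commute.
`card_cent_omega_half`, `card_cent_omega_all`: passing from the centralizer in `O` to that in `Ω`.
`orth_cent_omega_id`: the centralizer in `Ω` of a product of `s` commuting reflections.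
-/

namespace Cfsg.Agent.Lib.helper4

open Cfsg.Agent.Lib.helper13

section Comm

variable {F : Type*} [Field F] {ι : Type} [Fintype ι] [DecidableEq ι]

lemma nfLin_comm (Q : QuadraticForm F (ι → F)) {κ κ' : Type} [Fintype κ] [Fintype κ']
    (σ : κ → κ) (σ' : κ' → κ') (u : κ → ι → F) (u' : κ' → ι → F)
    (h : ∀ x y, QuadraticMap.polar (⇑Q) (u x) (u' y) = 0) (v : ι → F) :
    nfLin Q σ u (nfLin Q σ' u' v) = nfLin Q σ' u' (nfLin Q σ u v) := by
  have h1 : ∀ y, QuadraticMap.polar (⇑Q) (u y) (nfLin Q σ' u' v) = QuadraticMap.polar (⇑Q) (u y) v := by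
    intro y
    rw [nfLin_apply, QuadraticMap.polar_add_right]
    have h3 : QuadraticMap.polar (⇑Q) (u y) (∑ z, QuadraticMap.polar (⇑Q) (u' z) v • u' (σ' z)) = 0 := by
      show QuadraticMap.polarBilin Q (u y) (∑ z, QuadraticMap.polar (⇑Q) (u' z) v • u' (σ' z)) = 0
      rw [map_sum]
      apply Finset.sum_eq_zero
      intro z _
      show QuadraticMap.polar (⇑Q) (u y) (QuadraticMap.polar (⇑Q) (u' z) v • u' (σ' z)) = 0
      rw [QuadraticMap.polar_smul_right, h, smul_zero]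
    rw [h3, add_zero]
  have h2 : ∀ z, QuadraticMap.polar (⇑Q) (u' z) (nfLin Q σ u v) = QuadraticMap.polar (⇑Q) (u' z) v := by
    intro z
    rw [nfLin_apply, QuadraticMap.polar_add_right]
    have h3 : QuadraticMap.polar (⇑Q) (u' z) (∑ y, QuadraticMap.polar (⇑Q) (u y) v • u (σ y)) = 0 := by
      show QuadraticMap.polarBilin Q (u' z) (∑ y, QuadraticMap.polar (⇑Q) (u y) v • u (σ y)) = 0
      rw [map_sum]
      apply Finset.sum_eq_zero
      intro y _
      show QuadraticMap.polar (⇑Q) (u' z) (QuadraticMap.polar (⇑Q) (u y) v • u (σ y)) = 0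
      rw [QuadraticMap.polar_smul_right, QuadraticMap.polar_comm (⇑Q) (u' z) (u (σ y)), h, smul_zero]
    rw [h3, add_zero]
  have e1 : nfLin Q σ u (nfLin Q σ' u' v)
      = nfLin Q σ' u' v + ∑ y, QuadraticMap.polar (⇑Q) (u y) v • u (σ y) := by
    rw [nfLin_apply Q σ u (nfLin Q σ' u' v)]
    congr 1
    exact Finset.sum_congr rfl (fun y _ => by rw [h1 y])
  have e2 : nfLin Q σ' u' (nfLin Q σ u v)
      = nfLin Q σ u v + ∑ z, QuadraticMap.polar (⇑Q) (u' z) v • u' (σ' z) := by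
    rw [nfLin_apply Q σ' u' (nfLin Q σ u v)]
    congr 1
    exact Finset.sum_congr rfl (fun z _ => by rw [h2 z])
  rw [e1, e2, nfLin_apply, nfLin_apply]
  abel

/-- a reflection commuting with an involution in normal form and lying outside `Ω` -/
theorem exists_refl_comm [Fintype F] [CharP F 2] (h : Fintype.card F ≠ 2 ∨ Fintype.card ι ≠ 4)
    (Q : QuadraticForm F (ι → F)) (hQ : (QuadraticMap.polarBilin Q).Nondegenerate)
    {κ : Type} [Fintype κ] [DecidableEq κ] (σ : κ → κ) (t : ↥(Cfsg.isometryGroup F ⇑Q))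
    (u : κ → ι → F)
    (htf : ∀ v, (mat Q t).mulVec v = v + ∑ y, QuadraticMap.polar (⇑Q) (u y) v • u (σ y))
    (w : ι → F) (hw : Q w = 1) (hwu : ∀ x, QuadraticMap.polar (⇑Q) (u x) w = 0) :
    ∃ r : ↥(Cfsg.isometryGroup F ⇑Q), r * t = t * r ∧ r ∉ Cfsg.Omega F ⇑Q := by
  classical
  have hw0 : w ≠ 0 := by
    rintro rfl
    rw [map_zero] at hw
    exact zero_ne_one hw
  have hstd : SigStd Q (id : Fin 1 → Fin 1) (fun _ => w) := by
    refine ⟨?_, fun x y => ?_, fun x => ?_⟩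
    · rw [Fintype.linearIndependent_iff]
      intro g hg i
      simp only [Fin.sum_univ_one] at hg
      rw [Subsingleton.elim i 0]
      rcases smul_eq_zero.mp hg with h1 | h1
      · exact h1
      · exact absurd h1 hw0
    · rw [QuadraticMap.polar_self, two_smul]
      exact CharTwo.add_self_eq_zero _
    · simpa using hw
  obtain ⟨r, hr⟩ := exists_isom_of_linear Q (nfLin Q (id : Fin 1 → Fin 1) (fun _ => w))
    (nfLin Q (id : Fin 1 → Fin 1) (fun _ => w))
    (nfLin_nfLin Q _ _ hstd.2.1) (nfLin_nfLin Q _ _ hstd.2.1)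
    (nfLin_pres Q _ (fun x => rfl) _ hstd)
  have hnf : IsNF Q (id : Fin 1 → Fin 1) r :=
    ⟨fun _ => w, hstd, fun v => by rw [hr v, nfLin_apply]⟩
  have hrank := nf_rank Q hQ _ (fun x => rfl) r hnf
  rw [Fintype.card_fin] at hrank
  have ht : ∀ v, (mat Q t).mulVec v = nfLin Q σ u v := fun v => by rw [htf v, nfLin_apply]
  refine ⟨r, ?_, ?_⟩
  · apply isom_ext
    apply Matrix.mulVec_injective
    funext v
    show (mat Q (r * t)).mulVec v = (mat Q (t * r)).mulVec v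
    rw [mat_mul, mat_mul, ← Matrix.mulVec_mulVec, ← Matrix.mulVec_mulVec, ht, hr, hr, ht]
    exact (nfLin_comm Q σ id u (fun _ => w) (fun x y => hwu x) v).symm
  · rw [c2_mem_omega_iff_rank h Q hQ r, hrank]
    decide

end Comm

section Half

variable {G : Type*} [Group G] [Finite G]

/-- the centralizer in a subgroup of index two, when some centralizing element lies outside -/
theorem card_cent_half (Ω : Subgroup G) (hidx : Ω.index = 2) (t r : G) (hr : r * t = t * r)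
    (hrΩ : r ∉ Ω) :
    2 * Nat.card {g : ↥Ω // (g : G) * t = t * (g : G)} = Nat.card {g : G // g * t = t * g} := by
  classical
  haveI := Fintype.ofFinite G
  have h1 : Nat.card {g : ↥Ω // (g : G) * t = t * (g : G)}
      = Nat.card {g : G // g * t = t * g ∧ g ∈ Ω} :=
    Nat.card_congr
      { toFun := fun g => ⟨g.1.1, g.2, g.1.2⟩
        invFun := fun g => ⟨⟨g.1, g.2.2⟩, g.2.1⟩
        left_inv := fun _ => rfl
        right_inv := fun _ => rfl }
  have h2 : Nat.card {g : G // g * t = t * g ∧ g ∈ Ω}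
      = Nat.card {g : G // g * t = t * g ∧ ¬ g ∈ Ω} := by
    obtain ⟨ψ, hψ⟩ : ∃ ψ : {g : G // g * t = t * g ∧ g ∈ Ω} → {g : G // g * t = t * g ∧ ¬ g ∈ Ω},
        ∀ g, (ψ g).1 = r * g.1 := by
      refine ⟨fun g => ⟨r * g.1, ?_, ?_⟩, fun g => rfl⟩
      · rw [mul_assoc, g.2.1, ← mul_assoc, hr, mul_assoc]
      · rw [Subgroup.mul_mem_iff_of_index_two hidx]
        intro h3
        exact hrΩ (h3.mpr g.2.2)
    refine Nat.card_congr (Equiv.ofBijective ψ ⟨?_, ?_⟩)
    · intro g g' h3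
      have h4 : r * g.1 = r * g'.1 := by rw [← hψ, ← hψ, h3]
      exact Subtype.ext (mul_left_cancel h4)
    · intro g
      have hr' : r⁻¹ * t = t * r⁻¹ := by
        rw [eq_mul_inv_iff_mul_eq, mul_assoc, ← hr, ← mul_assoc, inv_mul_cancel, one_mul]
      refine ⟨⟨r⁻¹ * g.1, ?_, ?_⟩, ?_⟩
      · rw [mul_assoc, g.2.1, ← mul_assoc, hr', mul_assoc]
      · rw [Subgroup.mul_mem_iff_of_index_two hidx]
        constructor
        · intro h3
          exact absurd (Ω.inv_mem_iff.mp h3) hrΩ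
        · intro h3
          exact absurd h3 g.2.2
      · apply Subtype.ext
        rw [hψ]
        show r * (r⁻¹ * g.1) = g.1
        rw [mul_inv_cancel_left]
  have h3 : Nat.card {g : G // g * t = t * g}
      = Nat.card {g : G // g * t = t * g ∧ g ∈ Ω}
        + Nat.card {g : G // g * t = t * g ∧ ¬ g ∈ Ω} := by
    simp only [Nat.card_eq_fintype_card, Fintype.card_subtype]
    rw [← Finset.card_filter_add_card_filter_not (p := fun g : G => g ∈ Ω)]
    simp only [Finset.filter_filter]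
  rw [h3, h1, ← h2]
  omega

omit [Finite G] in
/-- the centralizer in a subgroup containing the whole centralizer -/
theorem card_cent_all (Ω : Subgroup G) (t : G) (hall : ∀ g : G, g * t = t * g → g ∈ Ω) :
    Nat.card {g : ↥Ω // (g : G) * t = t * (g : G)} = Nat.card {g : G // g * t = t * g} :=
  Nat.card_congr
    { toFun := fun g => ⟨g.1.1, g.2⟩
      invFun := fun g => ⟨⟨g.1, hall g.1 g.2⟩, g.2⟩
      left_inv := fun _ => rfl
      right_inv := fun _ => rfl }

end Half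

section Arith

theorem fix_exp_step (k d : ℕ) :
    k + (2 * (k + 2 + d) * (k + 2 - 1) - (3 * (k + 2) ^ 2 - 3 * (k + 2)) / 2)
      = (2 * (k + 2 + d) * (k + 1 - 1) - (3 * (k + 1) ^ 2 - 3 * (k + 1)) / 2) + 2 * d + 1 := by
  obtain ⟨a, ha⟩ : ∃ a, a = k * (k + 1) / 2 := ⟨_, rfl⟩
  have h1 : 2 * a = k ^ 2 + k := by
    rw [ha, Nat.two_mul_div_two_of_even (Nat.even_mul_succ_self k)]
    ring
  have e1 : (3 * (k + 1) ^ 2 - 3 * (k + 1)) / 2 = 3 * a := by
    have h3 : 3 * (k + 1) ^ 2 = 3 * k ^ 2 + 6 * k + 3 := by ring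
    have h4 : 3 * (k + 1) ^ 2 - 3 * (k + 1) = 2 * (3 * a) := by omega
    rw [h4, Nat.mul_div_cancel_left _ (by norm_num)]
  have e2 : (3 * (k + 2) ^ 2 - 3 * (k + 2)) / 2 = 3 * a + 3 * k + 3 := by
    have h3 : 3 * (k + 2) ^ 2 = 3 * k ^ 2 + 12 * k + 12 := by ring
    have h4 : 3 * (k + 2) ^ 2 - 3 * (k + 2) = 2 * (3 * a + 3 * k + 3) := by omega
    rw [h4, Nat.mul_div_cancel_left _ (by norm_num)]
  have e3 : 2 * (k + 2 + d) * (k + 2 - 1) = 2 * k ^ 2 + 6 * k + 4 + 2 * (d * k) + 2 * d := by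
    rw [show k + 2 - 1 = k + 1 by omega]
    ring
  have e4 : 2 * (k + 2 + d) * (k + 1 - 1) = 2 * k ^ 2 + 4 * k + 2 * (d * k) := by
    rw [Nat.add_sub_cancel]
    ring
  rw [e1, e2, e3, e4]
  omega

theorem fix_id_arith (q m : ℕ) (hq : 1 ≤ q) : ∀ k, k + 1 ≤ m →
    ((q ^ (2 * m - 1) - q ^ (m - 1))
        * ∏ j ∈ Finset.range k, (q ^ (2 * m - (j + 1) - 1) - q ^ j))
      * (2 * q ^ (2 * m * (k + 1 - 1) - (3 * (k + 1) ^ 2 - 3 * (k + 1)) / 2)
          * (q ^ ((m - (k + 1)) ^ 2) * ∏ i ∈ Finset.range (m - (k + 1)), (q ^ (2 * (i + 1)) - 1)))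
    = 2 * q ^ (m * (m - 1)) * (q ^ m - 1) * ∏ i ∈ Finset.range (m - 1), (q ^ (2 * (i + 1)) - 1)
  | 0, h => by
    obtain ⟨e, rfl⟩ : ∃ e, m = e + 1 := ⟨m - 1, by omega⟩
    have e1 : 2 * (e + 1) - 1 = e + (e + 1) := by omega
    have e2 : q ^ (e + (e + 1)) - q ^ e = q ^ e * (q ^ (e + 1) - 1) := by
      rw [Nat.mul_sub, mul_one, ← pow_add]
    have e3 : q ^ ((e + 1) * e) = q ^ e * q ^ (e ^ 2) := by
      rw [← pow_add]
      congr 1
      ring
    simp only [Finset.prod_range_zero, mul_one, Nat.add_sub_cancel, zero_add]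
    rw [e1, e2, e3]
    norm_num
    ring
  | k + 1, h => by
    have ih := fix_id_arith q m hq k (by omega)
    obtain ⟨d, rfl⟩ : ∃ d, m = k + 2 + d := ⟨m - (k + 2), by omega⟩
    have hd1 : k + 2 + d - (k + 1) = d + 1 := by omega
    have hd2 : k + 2 + d - (k + 1 + 1) = d := by omega
    rw [hd1, Finset.prod_range_succ] at ih
    rw [hd2, Finset.prod_range_succ, ← ih]
    have hexp := fix_exp_step k d
    obtain ⟨E1, hE1⟩ : ∃ E1, E1 = 2 * (k + 2 + d) * (k + 1 - 1)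
        - (3 * (k + 1) ^ 2 - 3 * (k + 1)) / 2 := ⟨_, rfl⟩
    obtain ⟨E2, hE2⟩ : ∃ E2, E2 = 2 * (k + 2 + d) * (k + 1 + 1 - 1)
        - (3 * (k + 1 + 1) ^ 2 - 3 * (k + 1 + 1)) / 2 := ⟨_, rfl⟩
    rw [← hE1, ← hE2]
    have hexp' : k + E2 = E1 + 2 * d + 1 := by
      rw [hE1, hE2]
      exact hexp
    have hZ : q ^ (2 * (k + 2 + d) - (k + 1) - 1) - q ^ k = q ^ k * (q ^ (2 * (d + 1)) - 1) := by
      have e1 : 2 * (k + 2 + d) - (k + 1) - 1 = k + 2 * (d + 1) := by omega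
      rw [e1, Nat.mul_sub, mul_one, ← pow_add]
    rw [hZ]
    have hpw : q ^ k * q ^ E2 * q ^ (d ^ 2) = q ^ E1 * q ^ ((d + 1) ^ 2) := by
      rw [← pow_add, ← pow_add, ← pow_add]
      congr 1
      have e5 : (d + 1) ^ 2 = d ^ 2 + 2 * d + 1 := by ring
      omega
    generalize (q ^ (2 * (k + 2 + d) - 1) - q ^ (k + 2 + d - 1)) = A
    generalize ∏ j ∈ Finset.range k, (q ^ (2 * (k + 2 + d) - (j + 1) - 1) - q ^ j) = B
    generalize ∏ i ∈ Finset.range d, (q ^ (2 * (i + 1)) - 1) = P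
    generalize q ^ (2 * (d + 1)) - 1 = Z
    calc A * (B * (q ^ k * Z)) * (2 * q ^ E2 * (q ^ (d ^ 2) * P))
        = A * B * (2 * (q ^ k * q ^ E2 * q ^ (d ^ 2)) * (P * Z)) := by ring
      _ = A * B * (2 * (q ^ E1 * q ^ ((d + 1) ^ 2)) * (P * Z)) := by rw [hpw]
      _ = A * B * (2 * q ^ E1 * (q ^ ((d + 1) ^ 2) * (P * Z))) := by ring

end Arith

section OrthCentId

variable {F : Type*} [Field F] [Fintype F] [CharP F 2]

/-- the pointwise stabilizer of an orthogonal frame of vectors with `Q = 1` -/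
theorem orth_fix_id {q : ℕ} (hF : Fintype.card F = q) (m : ℕ) (k : ℕ)
    (u : Fin (k + 1) → (Fin m ⊕ Fin m → F))
    (hu : SigStd (Cfsg.Agent.S2562.qP F m) (id : Fin (k + 1) → Fin (k + 1)) u) :
    k + 1 ≤ m ∧
    Nat.card {g : ↥(Cfsg.isometryGroup F ⇑(Cfsg.Agent.S2562.qP F m)) //
        ∀ y, (mat (Cfsg.Agent.S2562.qP F m) g).mulVec (u y) = u y}
      = 2 * q ^ (2 * m * (k + 1 - 1) - (3 * (k + 1) ^ 2 - 3 * (k + 1)) / 2)
          * (q ^ ((m - (k + 1)) ^ 2)
            * ∏ i ∈ Finset.range (m - (k + 1)), (q ^ (2 * (i + 1)) - 1)) := by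
  classical
  have hQ := Cfsg.Agent.S2562.nondeg_qP (F := F) m
  have hle : k + 1 ≤ m := by
    obtain ⟨t, ht⟩ := nf_exists (Cfsg.Agent.S2562.qP F m) (id : Fin (k + 1) → Fin (k + 1))
      (fun x => rfl) u hu
    have h1 := nf_card_le _ hQ _ t ht
    simp only [Fintype.card_sum, Fintype.card_fin] at h1
    omega
  refine ⟨hle, ?_⟩
  have hm : 1 ≤ m := by omega
  have hq : 1 ≤ q := by
    rw [← hF]
    exact Fintype.card_pos
  have h1 := card_orth_eq_frames_mul (Cfsg.Agent.S2562.qP F m) hQ _ u hu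
  rw [card_plus_sigStd_id hF m hm k] at h1
  have h2 : Nat.card ↥(Cfsg.isometryGroup F ⇑(Cfsg.Agent.S2562.qP F m))
      = 2 * q ^ (m * (m - 1)) * (q ^ m - 1)
        * ∏ i ∈ Finset.range (m - 1), (q ^ (2 * (i + 1)) - 1) := by
    rw [qP_coe]
    exact Cfsg.Agent.Lib.helper6.card_GO_plus hF m hm
  have h3 := fix_id_arith q m hq k hle
  rw [h2, ← h3] at h1
  have hpos : 0 < (q ^ (2 * m - 1) - q ^ (m - 1))
      * ∏ j ∈ Finset.range k, (q ^ (2 * m - (j + 1) - 1) - q ^ j) := by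
    apply Nat.pos_of_ne_zero
    intro h0
    rw [h0, zero_mul] at h3
    rw [← h3] at h2
    exact (Nat.card_pos (α := ↥(Cfsg.isometryGroup F ⇑(Cfsg.Agent.S2562.qP F m)))).ne' h2
  exact (Nat.eq_of_mul_eq_mul_left hpos h1).symm

/-- the centralizer in `Ω` of a product of commuting reflections -/
theorem orth_cent_omega_id {q : ℕ} (hF : Fintype.card F = q) (m : ℕ)
    (h : Fintype.card F ≠ 2 ∨ m ≠ 2) (k : ℕ)
    (t : ↥(Cfsg.isometryGroup F ⇑(Cfsg.Agent.S2562.qP F m)))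
    (ht : IsNF (Cfsg.Agent.S2562.qP F m) (id : Fin (k + 1) → Fin (k + 1)) t) :
    k + 1 ≤ m ∧
    Nat.card {g : ↥(Cfsg.Omega F ⇑(Cfsg.Agent.S2562.qP F m)) //
        (g : ↥(Cfsg.isometryGroup F ⇑(Cfsg.Agent.S2562.qP F m))) * t
          = t * (g : ↥(Cfsg.isometryGroup F ⇑(Cfsg.Agent.S2562.qP F m)))}
      = Nat.card {a : Fin (k + 1) → (Fin (k + 1) → F) // IsON a}
        * (q ^ (2 * m * (k + 1 - 1) - (3 * (k + 1) ^ 2 - 3 * (k + 1)) / 2)
          * (q ^ ((m - (k + 1)) ^ 2)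
            * ∏ i ∈ Finset.range (m - (k + 1)), (q ^ (2 * (i + 1)) - 1))) := by
  classical
  have hQ := Cfsg.Agent.S2562.nondeg_qP (F := F) m
  obtain ⟨u, hstd, htf⟩ := ht
  obtain ⟨hle, hfix⟩ := orth_fix_id hF m k u hstd
  refine ⟨hle, ?_⟩
  have hQu : ∀ x, Cfsg.Agent.S2562.qP F m (u x) = 1 := fun x => by simpa using hstd.2.2 x
  have hc := orth_card_centralizer_nf (Cfsg.Agent.S2562.qP F m) hQ polar_qP_sf
    (id : Fin (k + 1) → Fin (k + 1)) (fun x => rfl) t u hstd htf (by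
      intro A hA y
      have hP : permMat F (id : Fin (k + 1) → Fin (k + 1)) = 1 := by
        ext x y
        simp [permMat, Matrix.one_apply]
      rw [hP, Matrix.mul_one] at hA
      have hA' : A.transpose * A = 1 := mul_eq_one_comm.mp hA
      have h1 := congrFun (congrFun hA' y) y
      rw [Matrix.mul_apply, Matrix.one_apply_eq] at h1
      rw [hQu y, ← h1]
      apply Finset.sum_congr rfl
      intro x _
      rw [hQu x, mul_one, Matrix.transpose_apply])
  have hG : Nat.card {A : Matrix (Fin (k + 1)) (Fin (k + 1)) F //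
        A * permMat F id * A.transpose = permMat F id}
      = Nat.card {a : Fin (k + 1) → (Fin (k + 1) → F) // IsON a} := by
    have hP : permMat F (id : Fin (k + 1) → Fin (k + 1)) = 1 := by
      ext x y
      simp [permMat, Matrix.one_apply]
    rw [hP, ← card_orth_dot_eq]
    apply Nat.card_congr
    apply Equiv.subtypeEquivRight
    intro A
    rw [Matrix.mul_one]
  have h' : Fintype.card F ≠ 2 ∨ Fintype.card (Fin m ⊕ Fin m) ≠ 4 := by
    rcases h with h | h
    · exact Or.inl h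
    · right
      simp only [Fintype.card_sum, Fintype.card_fin]
      omega
  obtain ⟨r, hr, hrΩ⟩ := exists_refl_comm h' (Cfsg.Agent.S2562.qP F m) hQ id t u htf (u 0)
    (hQu 0) (fun x => hstd.2.1 x 0)
  have hidx := omega_index_c2 h' (Cfsg.Agent.S2562.qP F m) hQ (Sum.inl ⟨0, by omega⟩)
  have hhalf := card_cent_half (Cfsg.Omega F ⇑(Cfsg.Agent.S2562.qP F m)) hidx t r hr hrΩ
  rw [hc, hG, hfix] at hhalf
  have h5 : 2 * Nat.card {g : ↥(Cfsg.Omega F ⇑(Cfsg.Agent.S2562.qP F m)) //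
        (g : ↥(Cfsg.isometryGroup F ⇑(Cfsg.Agent.S2562.qP F m))) * t
          = t * (g : ↥(Cfsg.isometryGroup F ⇑(Cfsg.Agent.S2562.qP F m)))}
      = 2 * (Nat.card {a : Fin (k + 1) → (Fin (k + 1) → F) // IsON a}
        * (q ^ (2 * m * (k + 1 - 1) - (3 * (k + 1) ^ 2 - 3 * (k + 1)) / 2)
          * (q ^ ((m - (k + 1)) ^ 2)
            * ∏ i ∈ Finset.range (m - (k + 1)), (q ^ (2 * (i + 1)) - 1)))) := by
    rw [hhalf]
    ring
  exact Nat.eq_of_mul_eq_mul_left (by norm_num) h5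

end OrthCentId

end Cfsg.Agent.Lib.helper4
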