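import Mathlib
import Cfsg.Agent.Lib.helper4.OrthInvCent2

set_option autoImplicit false

/-!
# Counting totally singular frames of the hyperbolic quadratic form

`IsFr`: linearly independent, mutually orthogonal families with prescribed values of `Q`.
`isFr_trans`, `card_orth_eq_isFr_mul`: transitivity of `O(Q)` (Witt) and orbit-stabiliser.
`card_Z_std`, `card_Z`, `card_ext_ts`, `card_tsf`: the number of totally singular frames.
-/

namespace Cfsg.Agent.Lib.helper4

open Cfsg.Agent.Lib.helper13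

section Fr

variable {F : Type*} [Field F] {ι : Type} [Fintype ι] [DecidableEq ι]

/-- a linearly independent family of mutually orthogonal vectors with prescribed values of `Q` -/
def IsFr (Q : QuadraticForm F (ι → F)) {κ : Type} (c : κ → F) (u : κ → ι → F) : Prop :=
  LinearIndependent F u ∧ (∀ x y, QuadraticMap.polar (⇑Q) (u x) (u y) = 0) ∧ ∀ x, Q (u x) = c x

/-- the orthogonal group is transitive on families with prescribed values of `Q` -/
theorem isFr_trans (Q : QuadraticForm F (ι → F)) (hQ : (QuadraticMap.polarBilin Q).Nondegenerate)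
    {κ : Type} [Fintype κ] [DecidableEq κ] (c : κ → F) (u u' : κ → ι → F)
    (hu : IsFr Q c u) (hu' : IsFr Q c u') :
    ∃ h : ↥(Cfsg.isometryGroup F ⇑Q), ∀ y, (mat Q h).mulVec (u y) = u' y := by
  obtain ⟨hli, hu, hQu⟩ := hu
  obtain ⟨hli', hu', hQu'⟩ := hu'
  obtain ⟨b, hb⟩ : ∃ b : Module.Basis κ F ↥(Submodule.span F (Set.range u)),
      ∀ i, (b i : ι → F) = u i :=
    ⟨Module.Basis.span hli, fun i => congrArg Subtype.val (Module.Basis.span_apply hli i)⟩
  obtain ⟨b', hb'⟩ : ∃ b' : Module.Basis κ F ↥(Submodule.span F (Set.range u')),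
      ∀ i, (b' i : ι → F) = u' i :=
    ⟨Module.Basis.span hli', fun i => congrArg Subtype.val (Module.Basis.span_apply hli' i)⟩
  obtain ⟨φ, hφdef⟩ : ∃ φ : ↥(Submodule.span F (Set.range u))
      ≃ₗ[F] ↥(Submodule.span F (Set.range u')), φ = b.equiv b' (Equiv.refl κ) := ⟨_, rfl⟩
  have hx : ∀ x : ↥(Submodule.span F (Set.range u)),
      (x : ι → F) = ∑ i, b.repr x i • u i := by
    intro x
    conv_lhs => rw [← b.sum_repr x]
    rw [Submodule.coe_sum]
    apply Finset.sum_congr rfl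
    intro i _
    rw [Submodule.coe_smul, hb]
  have hφx : ∀ x : ↥(Submodule.span F (Set.range u)),
      ((φ x : ↥(Submodule.span F (Set.range u'))) : ι → F) = ∑ i, b.repr x i • u' i := by
    intro x
    have h1 : φ x = ∑ i, b.repr x i • b' i := by
      conv_lhs => rw [← b.sum_repr x]
      rw [map_sum]
      apply Finset.sum_congr rfl
      intro i _
      rw [map_smul, hφdef, Module.Basis.equiv_apply]
      rfl
    rw [h1, Submodule.coe_sum]
    apply Finset.sum_congr rfl
    intro i _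
    rw [Submodule.coe_smul, hb']
  have hφQ : ∀ x : ↥(Submodule.span F (Set.range u)),
      Q ((φ x : ↥(Submodule.span F (Set.range u'))) : ι → F) = Q (x : ι → F) := by
    intro x
    rw [hφx, hx x, Q_sum_orth Q _ _ u' (fun a c _ => hu' a c),
      Q_sum_orth Q _ _ u (fun a c _ => hu a c)]
    apply Finset.sum_congr rfl
    intro i _
    rw [hQu, hQu']
  obtain ⟨g, hgQ, hgx⟩ := witt_ext Q hQ _ _ φ hφQ
  have hgu : ∀ i, g (u i) = u' i := by
    intro i
    have h1 := hgx (b i)
    rw [hb i] at h1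
    rw [h1, hφdef, Module.Basis.equiv_apply, Equiv.refl_apply, hb']
  obtain ⟨h, hh⟩ := exists_isom_of_linear Q g.toLinearMap g.symm.toLinearMap
    (fun v => g.symm_apply_apply v) (fun v => g.apply_symm_apply v) hgQ
  refine ⟨h, fun y => ?_⟩
  rw [hh]
  exact hgu y

/-- orbit-stabiliser for families with prescribed values of `Q` -/
theorem card_orth_eq_isFr_mul [Fintype F] (Q : QuadraticForm F (ι → F))
    (hQ : (QuadraticMap.polarBilin Q).Nondegenerate)
    {κ : Type} [Fintype κ] [DecidableEq κ] (c : κ → F) (u : κ → ι → F) (hu : IsFr Q c u) :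
    Nat.card ↥(Cfsg.isometryGroup F ⇑Q)
      = Nat.card {u' : κ → ι → F // IsFr Q c u'}
        * Nat.card {g : ↥(Cfsg.isometryGroup F ⇑Q) // ∀ y, (mat Q g).mulVec (u y) = u y} := by
  classical
  have hpres : ∀ g : ↥(Cfsg.isometryGroup F ⇑Q), IsFr Q c (fun y => (mat Q g).mulVec (u y)) := by
    intro g
    refine ⟨?_, fun x y => ?_, fun x => ?_⟩
    · have h1 : (fun y => (mat Q g).mulVec (u y)) = (Matrix.toLin' (mat Q g)) ∘ u := by
        funext y
        rfl
      rw [h1]
      apply hu.1.map'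
      rw [LinearMap.ker_eq_bot]
      intro a b hab
      have h2 := congrArg (fun w => (mat Q g⁻¹).mulVec w) hab
      simp only [Matrix.toLin'_apply, mat_inv_mulVec] at h2
      exact h2
    · rw [isom_polar]
      exact hu.2.1 x y
    · have h1 := isom_pres Q g (u x)
      rw [← hu.2.2 x]
      exact h1
  obtain ⟨φ, hφ⟩ : ∃ φ : ↥(Cfsg.isometryGroup F ⇑Q) → {u' : κ → ι → F // IsFr Q c u'},
      ∀ g, (φ g).1 = fun y => (mat Q g).mulVec (u y) :=
    ⟨fun g => ⟨fun y => (mat Q g).mulVec (u y), hpres g⟩, fun g => rfl⟩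
  have hfib : ∀ x, Nat.card {g // φ g = x}
      = Nat.card {g : ↥(Cfsg.isometryGroup F ⇑Q) // ∀ y, (mat Q g).mulVec (u y) = u y} := by
    intro x
    obtain ⟨A, hA⟩ := isFr_trans Q hQ c u x.1 hu x.2
    obtain ⟨ψ, hψ⟩ : ∃ ψ : {g // φ g = x} →
        {g : ↥(Cfsg.isometryGroup F ⇑Q) // ∀ y, (mat Q g).mulVec (u y) = u y},
        ∀ g, (ψ g).1 = A⁻¹ * g.1 := by
      refine ⟨fun g => ⟨A⁻¹ * g.1, ?_⟩, fun g => rfl⟩
      intro y
      have h1 : (mat Q g.1).mulVec (u y) = x.1 y := by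
        have h2 := congrFun (congrArg Subtype.val g.2) y
        rw [hφ] at h2
        exact h2
      rw [mat_mul, ← Matrix.mulVec_mulVec, h1, ← hA, mat_inv_mulVec]
    refine Nat.card_congr (Equiv.ofBijective ψ ⟨?_, ?_⟩)
    · intro g g' h
      have h1 : A⁻¹ * g.1 = A⁻¹ * g'.1 := by rw [← hψ, ← hψ, h]
      exact Subtype.ext (mul_left_cancel h1)
    · intro s
      refine ⟨⟨A * s.1, ?_⟩, ?_⟩
      · apply Subtype.ext
        rw [hφ]
        funext y
        rw [mat_mul, ← Matrix.mulVec_mulVec, s.2 y, hA]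
      · apply Subtype.ext
        rw [hψ]
        show A⁻¹ * (A * s.1) = s.1
        rw [inv_mul_cancel_left]
  rw [card_fiber_count φ _ hfib]

end Fr

section Std

variable {F : Type*} [Field F] [Fintype F]

/-- singular vectors orthogonal to the first `i` standard basis vectors -/
theorem card_Z_std {q : ℕ} (hF : Fintype.card F = q) (m i : ℕ) (hi : i ≤ m) :
    Nat.card {x : Fin m ⊕ Fin m → F // Cfsg.Agent.S2562.qP F m x = 0
        ∧ ∀ j : Fin i, x (Sum.inr (Fin.castLE hi j)) = 0}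
      = q ^ m + (q ^ (m - i) - 1) * q ^ (m - 1) := by
  classical
  have hq : 0 < q := by
    rw [← hF]
    exact Fintype.card_pos
  -- the second halves
  have hY : Nat.card {y : Fin m → F // ∀ j : Fin i, y (Fin.castLE hi j) = 0} = q ^ (m - i) := by
    have h1 := card_dot_fiber hF (fun j : Fin i => (Pi.single (Fin.castLE hi j) 1 : Fin m → F))
      (li_of_coord _ (fun j => Fin.castLE hi j) (by
        intro x y
        simp only [Pi.single_apply]
        by_cases h : x = y
        · subst h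
          simp
        · have h' : ¬ Fin.castLE hi y = Fin.castLE hi x := fun h' =>
            h ((Fin.castLE_injective hi h').symm)
          simp [h, h'])) (fun _ => 0)
    have h2 : Nat.card {y : Fin m → F // ∀ j : Fin i, y (Fin.castLE hi j) = 0}
        = Nat.card {x : Fin m → F // ∀ j : Fin i,
            (Pi.single (Fin.castLE hi j) 1 : Fin m → F) ⬝ᵥ x = 0} := by
      apply Nat.card_congr
      apply Equiv.subtypeEquivRight
      intro y
      simp only [single_dotProduct, one_mul]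
    rw [h2]
    have h3 : q ^ m = q ^ (m - i) * q ^ i := by
      rw [← pow_add]
      congr 1
      omega
    rw [h3] at h1
    exact Nat.eq_of_mul_eq_mul_right (pow_pos hq _) h1
  have e : {x : Fin m ⊕ Fin m → F // Cfsg.Agent.S2562.qP F m x = 0
        ∧ ∀ j : Fin i, x (Sum.inr (Fin.castLE hi j)) = 0}
      ≃ Σ y : {y : Fin m → F // ∀ j : Fin i, y (Fin.castLE hi j) = 0},
          {a : Fin m → F // y.1 ⬝ᵥ a = 0} :=
    { toFun := fun x => ⟨⟨fun j => x.1 (Sum.inr j), x.2.2⟩, ⟨fun j => x.1 (Sum.inl j), by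
        have h1 := x.2.1
        rw [Cfsg.Agent.S2562.qP_apply, Cfsg.quadFormPlus] at h1
        refine Eq.trans ?_ h1
        show ∑ j, x.1 (Sum.inr j) * x.1 (Sum.inl j) = _
        exact Finset.sum_congr rfl (fun j _ => mul_comm _ _)⟩⟩
      invFun := fun p => ⟨Sum.elim p.2.1 p.1.1, by
        refine ⟨?_, fun j => p.1.2 j⟩
        rw [Cfsg.Agent.S2562.qP_apply, Cfsg.quadFormPlus]
        have h1 := p.2.2
        refine Eq.trans ?_ h1
        show ∑ j, p.2.1 j * p.1.1 j = ∑ j, p.1.1 j * p.2.1 j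
        exact Finset.sum_congr rfl (fun j _ => mul_comm _ _)⟩
      left_inv := fun x => by
        apply Subtype.ext
        funext j
        rcases j with j | j <;> rfl
      right_inv := fun p => rfl }
  rw [Nat.card_congr e, Nat.card_sigma]
  have hfib : ∀ y : {y : Fin m → F // ∀ j : Fin i, y (Fin.castLE hi j) = 0},
      Nat.card {a : Fin m → F // y.1 ⬝ᵥ a = 0} = if y.1 = 0 then q ^ m else q ^ (m - 1) := by
    intro y
    by_cases hy : y.1 = 0
    · rw [if_pos hy, hy]
      simp only [zero_dotProduct]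
      rw [Nat.card_eq_fintype_card, Fintype.card_subtype_true, Fintype.card_fun, Fintype.card_fin,
        hF]
    · rw [if_neg hy, Cfsg.Agent.Lib.helper6.card_dot_eq y.1 hy 0, hF]
  rw [Finset.sum_congr rfl (fun y _ => hfib y)]
  obtain ⟨z, hz⟩ : ∃ z : {y : Fin m → F // ∀ j : Fin i, y (Fin.castLE hi j) = 0}, z.1 = 0 :=
    ⟨⟨0, fun j => rfl⟩, rfl⟩
  rw [← Finset.add_sum_erase Finset.univ _ (Finset.mem_univ z), if_pos hz]
  congr 1
  have h4 : ∀ y ∈ Finset.univ.erase z, (if y.1 = 0 then q ^ m else q ^ (m - 1)) = q ^ (m - 1) := by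
    intro y hy
    rw [if_neg]
    intro h5
    exact (Finset.ne_of_mem_erase hy) (Subtype.ext (h5.trans hz.symm))
  rw [Finset.sum_congr rfl h4, Finset.sum_const, Finset.card_erase_of_mem (Finset.mem_univ z),
    Finset.card_univ, ← Nat.card_eq_fintype_card, hY, smul_eq_mul]

end Std

section TS

variable {F : Type*} [Field F] [Fintype F] [CharP F 2]

omit [Fintype F] [CharP F 2] in
lemma polar_single_inl (m : ℕ) (a : Fin m) (x : Fin m ⊕ Fin m → F) :
    QuadraticMap.polar (⇑(Cfsg.Agent.S2562.qP F m)) (Pi.single (Sum.inl a) 1) x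
      = x (Sum.inr a) := by
  classical
  rw [Cfsg.Agent.S2562.polar_qP]
  simp [Pi.single_apply]

/-- singular vectors orthogonal to a totally singular frame -/
theorem card_Z {q : ℕ} (hF : Fintype.card F = q) (m i : ℕ) (b : Fin i → (Fin m ⊕ Fin m → F))
    (hb : IsFr (Cfsg.Agent.S2562.qP F m) (fun _ => 0) b) :
    i ≤ m ∧ Nat.card {x : Fin m ⊕ Fin m → F // Cfsg.Agent.S2562.qP F m x = 0
        ∧ ∀ j, QuadraticMap.polar (⇑(Cfsg.Agent.S2562.qP F m)) (b j) x = 0}
      = q ^ m + (q ^ (m - i) - 1) * q ^ (m - 1) := by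
  classical
  have hQ := Cfsg.Agent.S2562.nondeg_qP (F := F) m
  have hi : i ≤ m := by
    have h1 := Cfsg.Agent.S2562.ts_finrank_le (Cfsg.Agent.S2562.qP F m) hQ
      (Submodule.span F (Set.range b)) (by
        intro x hx
        obtain ⟨c, rfl⟩ := (Submodule.mem_span_range_iff_exists_fun F).mp hx
        rw [Q_sum_orth _ Finset.univ c b (fun x y _ => hb.2.1 x y)]
        apply Finset.sum_eq_zero
        intro y _
        rw [hb.2.2, mul_zero])
    rw [finrank_span_eq_card hb.1, Module.finrank_fintype_fun_eq_card, Fintype.card_fin,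
      Fintype.card_sum, Fintype.card_fin] at h1
    omega
  refine ⟨hi, ?_⟩
  rw [← card_Z_std hF m i hi]
  have he : IsFr (Cfsg.Agent.S2562.qP F m) (fun _ : Fin i => (0 : F))
      (fun j : Fin i => (Pi.single (Sum.inl (Fin.castLE hi j)) 1 : Fin m ⊕ Fin m → F)) :=
    ⟨(plus_ts_li m).comp (Fin.castLE hi) (Fin.castLE_injective hi),
      fun x y => plus_ts_polar m _ _, fun x => plus_ts_Q m _⟩
  obtain ⟨g, hg⟩ := isFr_trans _ hQ _ _ b he hb
  obtain ⟨ψ, hψ⟩ : ∃ ψ : {x : Fin m ⊕ Fin m → F // Cfsg.Agent.S2562.qP F m x = 0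
        ∧ ∀ j : Fin i, x (Sum.inr (Fin.castLE hi j)) = 0} →
      {x : Fin m ⊕ Fin m → F // Cfsg.Agent.S2562.qP F m x = 0
        ∧ ∀ j, QuadraticMap.polar (⇑(Cfsg.Agent.S2562.qP F m)) (b j) x = 0},
      ∀ x, (ψ x).1 = (mat (Cfsg.Agent.S2562.qP F m) g).mulVec x.1 := by
    refine ⟨fun x => ⟨(mat (Cfsg.Agent.S2562.qP F m) g).mulVec x.1, ?_, fun j => ?_⟩, fun x => rfl⟩
    · exact (isom_pres (Cfsg.Agent.S2562.qP F m) g x.1).trans x.2.1
    · rw [← hg j]
      have h1 := isom_polar (Cfsg.Agent.S2562.qP F m) g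
        (Pi.single (Sum.inl (Fin.castLE hi j)) 1) x.1
      rw [polar_single_inl, x.2.2 j] at h1
      exact h1
  symm
  refine Nat.card_congr (Equiv.ofBijective ψ ⟨?_, ?_⟩)
  · intro x x' h
    have h1 : (mat (Cfsg.Agent.S2562.qP F m) g).mulVec x.1
        = (mat (Cfsg.Agent.S2562.qP F m) g).mulVec x'.1 := by rw [← hψ, ← hψ, h]
    have h2 := congrArg (fun w => (mat (Cfsg.Agent.S2562.qP F m) g⁻¹).mulVec w) h1
    simp only [mat_inv_mulVec] at h2
    exact Subtype.ext h2
  · intro x'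
    have hgx : (mat (Cfsg.Agent.S2562.qP F m) g).mulVec
        ((mat (Cfsg.Agent.S2562.qP F m) g⁻¹).mulVec x'.1) = x'.1 := mat_mulVec_inv _ g x'.1
    refine ⟨⟨(mat (Cfsg.Agent.S2562.qP F m) g⁻¹).mulVec x'.1, ?_, fun j => ?_⟩, ?_⟩
    · exact (isom_pres (Cfsg.Agent.S2562.qP F m) g⁻¹ x'.1).trans x'.2.1
    · have h1 := isom_polar (Cfsg.Agent.S2562.qP F m) g
        (Pi.single (Sum.inl (Fin.castLE hi j)) 1)
        ((mat (Cfsg.Agent.S2562.qP F m) g⁻¹).mulVec x'.1)
      rw [polar_single_inl] at h1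
      have h2 : QuadraticMap.polar (⇑(Cfsg.Agent.S2562.qP F m))
          ((mat (Cfsg.Agent.S2562.qP F m) g).mulVec (Pi.single (Sum.inl (Fin.castLE hi j)) 1))
          ((mat (Cfsg.Agent.S2562.qP F m) g).mulVec
            ((mat (Cfsg.Agent.S2562.qP F m) g⁻¹).mulVec x'.1)) = 0 := by
        rw [hg j, hgx]
        exact x'.2.2 j
      exact h1.symm.trans h2
    · apply Subtype.ext
      rw [hψ]
      exact hgx

/-- the number of extensions of a totally singular frame -/
theorem card_ext_ts {q : ℕ} (hF : Fintype.card F = q) (m i : ℕ)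
    (b : Fin i → (Fin m ⊕ Fin m → F)) (hb : IsFr (Cfsg.Agent.S2562.qP F m) (fun _ => 0) b) :
    Nat.card {x : Fin m ⊕ Fin m → F // Cfsg.Agent.S2562.qP F m x = 0
        ∧ (∀ j, QuadraticMap.polar (⇑(Cfsg.Agent.S2562.qP F m)) (b j) x = 0)
        ∧ x ∉ Submodule.span F (Set.range b)}
      = q ^ m + (q ^ (m - i) - 1) * q ^ (m - 1) - q ^ i := by
  classical
  obtain ⟨hi, hZ⟩ := card_Z hF m i b hb
  have hspan : ∀ x ∈ Submodule.span F (Set.range b), Cfsg.Agent.S2562.qP F m x = 0
      ∧ ∀ j, QuadraticMap.polar (⇑(Cfsg.Agent.S2562.qP F m)) (b j) x = 0 := by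
    intro x hx
    obtain ⟨c, rfl⟩ := (Submodule.mem_span_range_iff_exists_fun F).mp hx
    constructor
    · rw [Q_sum_orth _ Finset.univ c b (fun x y _ => hb.2.1 x y)]
      apply Finset.sum_eq_zero
      intro y _
      rw [hb.2.2, mul_zero]
    · intro j
      show QuadraticMap.polarBilin (Cfsg.Agent.S2562.qP F m) (b j) (∑ y, c y • b y) = 0
      rw [map_sum]
      apply Finset.sum_eq_zero
      intro y _
      show QuadraticMap.polar (⇑(Cfsg.Agent.S2562.qP F m)) (b j) (c y • b y) = 0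
      rw [QuadraticMap.polar_smul_right, hb.2.1, smul_zero]
  have hT : Nat.card {x : Fin m ⊕ Fin m → F // (Cfsg.Agent.S2562.qP F m x = 0
        ∧ ∀ j, QuadraticMap.polar (⇑(Cfsg.Agent.S2562.qP F m)) (b j) x = 0)
        ∧ x ∈ Submodule.span F (Set.range b)} = q ^ i := by
    have h1 : Nat.card ↥(Submodule.span F (Set.range b)) = q ^ i := by
      rw [Module.natCard_eq_pow_finrank (K := F), finrank_span_eq_card hb.1, Fintype.card_fin,
        Nat.card_eq_fintype_card, hF]
    rw [← h1]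
    exact Nat.card_congr
      { toFun := fun x => ⟨x.1, x.2.2⟩
        invFun := fun x => ⟨x.1, hspan x.1 x.2, x.2⟩
        left_inv := fun _ => rfl
        right_inv := fun _ => rfl }
  have hsplit : Nat.card {x : Fin m ⊕ Fin m → F // Cfsg.Agent.S2562.qP F m x = 0
        ∧ ∀ j, QuadraticMap.polar (⇑(Cfsg.Agent.S2562.qP F m)) (b j) x = 0}
      = Nat.card {x : Fin m ⊕ Fin m → F // (Cfsg.Agent.S2562.qP F m x = 0
          ∧ ∀ j, QuadraticMap.polar (⇑(Cfsg.Agent.S2562.qP F m)) (b j) x = 0)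
          ∧ x ∈ Submodule.span F (Set.range b)}
        + Nat.card {x : Fin m ⊕ Fin m → F // Cfsg.Agent.S2562.qP F m x = 0
          ∧ (∀ j, QuadraticMap.polar (⇑(Cfsg.Agent.S2562.qP F m)) (b j) x = 0)
          ∧ x ∉ Submodule.span F (Set.range b)} := by
    have e : {x : Fin m ⊕ Fin m → F // Cfsg.Agent.S2562.qP F m x = 0
          ∧ (∀ j, QuadraticMap.polar (⇑(Cfsg.Agent.S2562.qP F m)) (b j) x = 0)
          ∧ x ∉ Submodule.span F (Set.range b)}
        ≃ {x : Fin m ⊕ Fin m → F // (Cfsg.Agent.S2562.qP F m x = 0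
          ∧ ∀ j, QuadraticMap.polar (⇑(Cfsg.Agent.S2562.qP F m)) (b j) x = 0)
          ∧ ¬ x ∈ Submodule.span F (Set.range b)} :=
      Equiv.subtypeEquivRight (fun x => by tauto)
    rw [Nat.card_congr e]
    simp only [Nat.card_eq_fintype_card, Fintype.card_subtype]
    rw [← Finset.card_filter_add_card_filter_not (p := fun x : Fin m ⊕ Fin m → F =>
      x ∈ Submodule.span F (Set.range b))]
    simp only [Finset.filter_filter]
  rw [hZ, hT] at hsplit
  omega

omit [Fintype F] [CharP F 2] in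
lemma isFr_zero_cons_iff {ι : Type} (Q : QuadraticForm F (ι → F)) {k : ℕ} (x : ι → F)
    (b : Fin k → ι → F) :
    IsFr Q (fun _ : Fin (k + 1) => (0 : F)) (Fin.cons x b : Fin (k + 1) → ι → F) ↔
      (Q x = 0 ∧ (∀ i, QuadraticMap.polar (⇑Q) (b i) x = 0)
        ∧ x ∉ Submodule.span F (Set.range b)) ∧ IsFr Q (fun _ : Fin k => (0 : F)) b := by
  unfold IsFr
  rw [linearIndependent_finCons]
  constructor
  · rintro ⟨⟨hli, hx⟩, hpol, hQ⟩
    refine ⟨⟨?_, fun i => ?_, hx⟩, hli, fun i j => ?_, fun i => ?_⟩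
    · have h := hQ 0
      simpa using h
    · have h := hpol i.succ 0
      simpa using h
    · have h := hpol i.succ j.succ
      simpa using h
    · have h := hQ i.succ
      simpa using h
  · rintro ⟨⟨hQx, hpx, hx⟩, hli, hpol, hQ⟩
    refine ⟨⟨hli, hx⟩, fun i j => ?_, fun i => ?_⟩
    · refine Fin.cases ?_ (fun i => ?_) i
      · refine Fin.cases ?_ (fun j => ?_) j
        · rw [Fin.cons_zero, QuadraticMap.polar_self, hQx, smul_zero]
        · rw [Fin.cons_zero, Fin.cons_succ, QuadraticMap.polar_comm]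
          exact hpx j
      · refine Fin.cases ?_ (fun j => ?_) j
        · rw [Fin.cons_zero, Fin.cons_succ]
          exact hpx i
        · rw [Fin.cons_succ, Fin.cons_succ]
          exact hpol i j
    · refine Fin.cases ?_ (fun i => ?_) i
      · simpa using hQx
      · have h := hQ i
        simpa using h

/-- the recursion for the number of totally singular frames -/
theorem card_tsf_succ {q : ℕ} (hF : Fintype.card F = q) (m k : ℕ) :
    Nat.card {a : Fin (k + 1) → (Fin m ⊕ Fin m → F) //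
        IsFr (Cfsg.Agent.S2562.qP F m) (fun _ => 0) a}
      = Nat.card {b : Fin k → (Fin m ⊕ Fin m → F) //
          IsFr (Cfsg.Agent.S2562.qP F m) (fun _ => 0) b}
        * (q ^ m + (q ^ (m - k) - 1) * q ^ (m - 1) - q ^ k) := by
  classical
  have htl : ∀ a : Fin (k + 1) → (Fin m ⊕ Fin m → F),
      IsFr (Cfsg.Agent.S2562.qP F m) (fun _ => 0) a →
      (Cfsg.Agent.S2562.qP F m (a 0) = 0
        ∧ (∀ i, QuadraticMap.polar (⇑(Cfsg.Agent.S2562.qP F m)) (Fin.tail a i) (a 0) = 0)
        ∧ a 0 ∉ Submodule.span F (Set.range (Fin.tail a)))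
      ∧ IsFr (Cfsg.Agent.S2562.qP F m) (fun _ => 0) (Fin.tail a) := by
    intro a ha
    apply (isFr_zero_cons_iff _ (a 0) (Fin.tail a)).mp
    rw [Fin.cons_self_tail]
    exact ha
  obtain ⟨ρ, hρ⟩ : ∃ ρ : {a : Fin (k + 1) → (Fin m ⊕ Fin m → F) //
        IsFr (Cfsg.Agent.S2562.qP F m) (fun _ => 0) a}
      → {b : Fin k → (Fin m ⊕ Fin m → F) // IsFr (Cfsg.Agent.S2562.qP F m) (fun _ => 0) b},
      ∀ a, (ρ a).1 = Fin.tail a.1 :=
    ⟨fun a => ⟨Fin.tail a.1, (htl a.1 a.2).2⟩, fun a => rfl⟩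
  have hfib : ∀ b, Nat.card {a // ρ a = b}
      = q ^ m + (q ^ (m - k) - 1) * q ^ (m - 1) - q ^ k := by
    intro b
    rw [← card_ext_ts hF m k b.1 b.2]
    have htail : ∀ a : {a // ρ a = b}, Fin.tail a.1.1 = b.1 := by
      intro a
      rw [← hρ, a.2]
    obtain ⟨ψ, hψ⟩ : ∃ ψ : {a // ρ a = b} →
        {x : Fin m ⊕ Fin m → F // Cfsg.Agent.S2562.qP F m x = 0
          ∧ (∀ j, QuadraticMap.polar (⇑(Cfsg.Agent.S2562.qP F m)) (b.1 j) x = 0)
          ∧ x ∉ Submodule.span F (Set.range b.1)}, ∀ a, (ψ a).1 = a.1.1 0 := by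
      refine ⟨fun a => ⟨a.1.1 0, ?_⟩, fun a => rfl⟩
      have h0 := (htl a.1.1 a.1.2).1
      rw [htail a] at h0
      exact h0
    refine Nat.card_congr (Equiv.ofBijective ψ ⟨?_, ?_⟩)
    · intro a a' h
      have h3 : a.1.1 0 = a'.1.1 0 := by rw [← hψ, ← hψ, h]
      apply Subtype.ext
      apply Subtype.ext
      rw [← Fin.cons_self_tail a.1.1, ← Fin.cons_self_tail a'.1.1, h3, htail a, htail a']
    · intro x
      have hon : IsFr (Cfsg.Agent.S2562.qP F m) (fun _ : Fin (k + 1) => (0 : F))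
          (Fin.cons x.1 b.1 : Fin (k + 1) → (Fin m ⊕ Fin m → F)) :=
        (isFr_zero_cons_iff _ x.1 b.1).mpr ⟨x.2, b.2⟩
      refine ⟨⟨⟨Fin.cons x.1 b.1, hon⟩, ?_⟩, ?_⟩
      · apply Subtype.ext
        rw [hρ]
        exact Fin.tail_cons _ _
      · apply Subtype.ext
        rw [hψ]
        rfl
  rw [card_fiber_count ρ _ hfib]

/-- the number of totally singular frames of the hyperbolic form -/
theorem card_tsf {q : ℕ} (hF : Fintype.card F = q) (m : ℕ) : ∀ s : ℕ,
    Nat.card {a : Fin s → (Fin m ⊕ Fin m → F) // IsFr (Cfsg.Agent.S2562.qP F m) (fun _ => 0) a}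
      = ∏ i ∈ Finset.range s, (q ^ m + (q ^ (m - i) - 1) * q ^ (m - 1) - q ^ i)
  | 0 => by
    have : Subsingleton {a : Fin 0 → (Fin m ⊕ Fin m → F) //
        IsFr (Cfsg.Agent.S2562.qP F m) (fun _ => 0) a} :=
      ⟨fun a b => Subtype.ext (Subsingleton.elim _ _)⟩
    rw [Nat.card_of_subsingleton (⟨fun i => i.elim0, linearIndependent_empty_type,
      fun i => i.elim0, fun i => i.elim0⟩ : {a : Fin 0 → (Fin m ⊕ Fin m → F) //
        IsFr (Cfsg.Agent.S2562.qP F m) (fun _ => 0) a})]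
    simp
  | s + 1 => by
    rw [card_tsf_succ hF m s, card_tsf hF m s, Finset.prod_range_succ]

end TS

end Cfsg.Agent.Lib.helper4
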