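import Mathlib
import Cfsg.Agent.Lib.helper4.OrthTSCount

set_option autoImplicit false

/-!
# Centralizers in `Ω` of involutions of alternating type of `O⁺_2m(q)`, `q` even

`fix_ts_arith`, `orth_fix_ts`: the pointwise stabilizer of a totally singular frame.
`orth_cent_omega_swap`: the centralizer in `Ω` of an involution of type `a_s`.
-/

namespace Cfsg.Agent.Lib.helper4

open Cfsg.Agent.Lib.helper13

section Arith3

theorem ts_ext_arith (q s d : ℕ) (hq : 1 ≤ q) :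
    q ^ (s + 1 + d) + (q ^ (s + 1 + d - s) - 1) * q ^ (s + 1 + d - 1) - q ^ s
      = q ^ s * (q ^ (d + 1) - 1) * (q ^ d + 1) := by
  have e1 : s + 1 + d - s = d + 1 := by omega
  have e2 : s + 1 + d - 1 = s + d := by omega
  obtain ⟨A, hA⟩ : ∃ A, q ^ (d + 1) = A + 1 := ⟨q ^ (d + 1) - 1, by
    have := Nat.one_le_pow (d + 1) q hq
    omega⟩
  rw [e1, e2, hA, Nat.add_sub_cancel]
  have h1 : q ^ (s + 1 + d) = q ^ s * (A + 1) := by
    rw [← hA, ← pow_add]
    congr 1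
    omega
  have h2 : q ^ (s + d) = q ^ s * q ^ d := pow_add q s d
  rw [h1, h2]
  have h3 : q ^ s * (A + 1) + A * (q ^ s * q ^ d) = q ^ s * A * (q ^ d + 1) + q ^ s := by ring
  rw [h3, Nat.add_sub_cancel]

theorem fix_ts_exp (s d : ℕ) :
    s + (2 * (s + 1 + d) * (s + 1) - (3 * (s + 1) ^ 2 + (s + 1)) / 2)
      = (2 * (s + 1 + d) * s - (3 * s ^ 2 + s) / 2) + 2 * d := by
  obtain ⟨a, ha⟩ : ∃ a, a = s * (s + 1) / 2 := ⟨_, rfl⟩
  have h1 : 2 * a = s ^ 2 + s := by
    rw [ha, Nat.two_mul_div_two_of_even (Nat.even_mul_succ_self s)]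
    ring
  have hX : s ≤ s ^ 2 := Nat.le_self_pow (by norm_num) s
  have e1 : (3 * s ^ 2 + s) / 2 = 3 * a - s := by
    have h4 : 3 * s ^ 2 + s = 2 * (3 * a - s) := by omega
    rw [h4, Nat.mul_div_cancel_left _ (by norm_num)]
  have e2 : (3 * (s + 1) ^ 2 + (s + 1)) / 2 = 3 * a + 2 * s + 2 := by
    have h3 : 3 * (s + 1) ^ 2 = 3 * s ^ 2 + 6 * s + 3 := by ring
    have h4 : 3 * (s + 1) ^ 2 + (s + 1) = 2 * (3 * a + 2 * s + 2) := by omega
    rw [h4, Nat.mul_div_cancel_left _ (by norm_num)]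
  have e3 : 2 * (s + 1 + d) * (s + 1) = 2 * s ^ 2 + 4 * s + 2 + 2 * (d * s) + 2 * d := by ring
  have e4 : 2 * (s + 1 + d) * s = 2 * s ^ 2 + 2 * s + 2 * (d * s) := by ring
  rw [e1, e2, e3, e4]
  omega

theorem fix_ts_step (q s d E1 E2 : ℕ) (hq : 1 ≤ q) (hexp : s + E2 = E1 + 2 * d) :
    (q ^ s * (q ^ (d + 1) - 1) * (q ^ d + 1))
      * (q ^ E2 * (if d = 0 then 1 else 2 * (q ^ (d * (d - 1)) * (q ^ d - 1)
          * ∏ i ∈ Finset.range (d - 1), (q ^ (2 * (i + 1)) - 1))))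
    = q ^ E1 * (2 * (q ^ ((d + 1) * d) * (q ^ (d + 1) - 1)
          * ∏ i ∈ Finset.range d, (q ^ (2 * (i + 1)) - 1))) := by
  rcases d with _ | d'
  · have h1 : q ^ E1 = q ^ s * q ^ E2 := by
      rw [← pow_add]
      congr 1
      omega
    rw [if_pos rfl, h1]
    simp only [Finset.prod_range_zero, mul_zero, pow_zero, zero_add, pow_one, mul_one]
    ring
  · rw [if_neg (by omega), Finset.prod_range_succ]
    have h1 : q ^ s * q ^ E2 * q ^ ((d' + 1) * (d' + 1 - 1))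
        = q ^ E1 * q ^ ((d' + 1 + 1) * (d' + 1)) := by
      rw [← pow_add, ← pow_add, ← pow_add]
      congr 1
      have e5 : (d' + 1) * (d' + 1 - 1) = d' * d' + d' := by
        rw [Nat.add_sub_cancel]
        ring
      have e6 : (d' + 1 + 1) * (d' + 1) = d' * d' + 3 * d' + 2 := by ring
      rw [e5, e6]
      omega
    have h2 : q ^ (2 * (d' + 1)) - 1 = (q ^ (d' + 1) - 1) * (q ^ (d' + 1) + 1) := by
      have h3 := Cfsg.Agent.Lib.helper6.arith_sq (q ^ (d' + 1)) (Nat.one_le_pow _ _ hq)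
      rw [← h3, ← pow_two, ← pow_mul]
      congr 2
      ring
    rw [h2]
    simp only [Nat.add_sub_cancel]
    simp only [Nat.add_sub_cancel] at h1
    generalize ∏ i ∈ Finset.range d', (q ^ (2 * (i + 1)) - 1) = P
    generalize q ^ (d' + 1 + 1) - 1 = Y
    generalize q ^ (d' + 1) - 1 = Z
    calc q ^ s * Y * (q ^ (d' + 1) + 1) * (q ^ E2 * (2 * (q ^ ((d' + 1) * d') * Z * P)))
        = (q ^ s * q ^ E2 * q ^ ((d' + 1) * d')) * (2 * (Y * (P * (Z * (q ^ (d' + 1) + 1))))) := by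
          ring
      _ = (q ^ E1 * q ^ ((d' + 1 + 1) * (d' + 1))) * (2 * (Y * (P * (Z * (q ^ (d' + 1) + 1))))) := by
          rw [h1]
      _ = q ^ E1 * (2 * (q ^ ((d' + 1 + 1) * (d' + 1)) * Y * (P * (Z * (q ^ (d' + 1) + 1))))) := by
          ring

theorem fix_ts_arith (q m : ℕ) (hq : 1 ≤ q) (hm : 1 ≤ m) : ∀ s, s ≤ m →
    (∏ i ∈ Finset.range s, (q ^ m + (q ^ (m - i) - 1) * q ^ (m - 1) - q ^ i))
      * (q ^ (2 * m * s - (3 * s ^ 2 + s) / 2)
        * (if s = m then 1 else 2 * (q ^ ((m - s) * (m - s - 1)) * (q ^ (m - s) - 1)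
            * ∏ i ∈ Finset.range (m - s - 1), (q ^ (2 * (i + 1)) - 1))))
      = 2 * q ^ (m * (m - 1)) * (q ^ m - 1) * ∏ i ∈ Finset.range (m - 1), (q ^ (2 * (i + 1)) - 1)
  | 0, h => by
    rw [if_neg (by omega)]
    simp only [Finset.prod_range_zero, Nat.sub_zero, mul_zero, one_mul]
    norm_num
    ring
  | s + 1, h => by
    have ih := fix_ts_arith q m hq hm s (by omega)
    obtain ⟨d, rfl⟩ : ∃ d, m = s + 1 + d := ⟨m - (s + 1), by omega⟩
    rw [if_neg (by omega)] at ih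
    rw [Finset.prod_range_succ, ← ih, ts_ext_arith q s d hq]
    have hd1 : s + 1 + d - s = d + 1 := by omega
    have hd3 : s + 1 + d - (s + 1) = d := by omega
    have hif : ∀ X : ℕ, (if s + 1 = s + 1 + d then 1 else X) = (if d = 0 then 1 else X) := by
      intro X
      by_cases h0 : d = 0
      · rw [if_pos h0, if_pos (by omega)]
      · rw [if_neg h0, if_neg (by omega)]
    rw [hd1, hd3, hif]
    simp only [Nat.add_sub_cancel]
    have hstep := fix_ts_step q s d _ _ hq (fix_ts_exp s d)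
    rw [mul_assoc, hstep]

end Arith3

section CentLe

variable {F : Type*} [Field F] [Fintype F] [CharP F 2] {ι : Type} [Fintype ι] [DecidableEq ι]

/-- if the fixed space of `t` is a maximal totally singular subspace, the centralizer of `t`
lies in `Ω` -/
theorem cent_le_omega_of_maxTS (h' : Fintype.card F ≠ 2 ∨ Fintype.card ι ≠ 4)
    (Q : QuadraticForm F (ι → F)) (hQ : (QuadraticMap.polarBilin Q).Nondegenerate)
    (t : ↥(Cfsg.isometryGroup F ⇑Q)) (hU : MaxTS Q (fixSub (mat Q t)))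
    (g : ↥(Cfsg.isometryGroup F ⇑Q)) (hg : g * t = t * g) : g ∈ Cfsg.Omega F ⇑Q := by
  have himg : imgSub Q g (fixSub (mat Q t)) = fixSub (mat Q t) := by
    apply Submodule.eq_of_le_of_finrank_eq
    · intro x hx
      obtain ⟨v, hv, rfl⟩ := (mem_imgSub Q g _ x).mp hx
      rw [mem_fixSub] at hv ⊢
      rw [Matrix.mulVec_mulVec, ← mat_mul, ← hg, mat_mul, ← Matrix.mulVec_mulVec, hv]
    · exact imgSub_finrank Q g _
  rw [c2_omega_iff_ts_parity h' Q hQ _ hU g, himg, inf_idem]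
  exact ⟨_, rfl⟩

end CentLe

section OrthCentTS

variable {F : Type*} [Field F] [Fintype F] [CharP F 2]

/-- the pointwise stabilizer of a totally singular frame -/
theorem orth_fix_ts {q : ℕ} (hF : Fintype.card F = q) (m : ℕ) (hm : 1 ≤ m) {κ : Type}
    [Fintype κ] [DecidableEq κ] (s : ℕ) (hκ : Fintype.card κ = s)
    (u : κ → (Fin m ⊕ Fin m → F)) (hu : IsFr (Cfsg.Agent.S2562.qP F m) (fun _ => 0) u) :
    s ≤ m ∧
    Nat.card {g : ↥(Cfsg.isometryGroup F ⇑(Cfsg.Agent.S2562.qP F m)) //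
        ∀ y, (mat (Cfsg.Agent.S2562.qP F m) g).mulVec (u y) = u y}
      = q ^ (2 * m * s - (3 * s ^ 2 + s) / 2)
        * (if s = m then 1 else 2 * (q ^ ((m - s) * (m - s - 1)) * (q ^ (m - s) - 1)
            * ∏ i ∈ Finset.range (m - s - 1), (q ^ (2 * (i + 1)) - 1))) := by
  classical
  have hQ := Cfsg.Agent.S2562.nondeg_qP (F := F) m
  obtain ⟨e⟩ : Nonempty (Fin s ≃ κ) := ⟨(Fintype.equivFinOfCardEq hκ).symm⟩
  have hu' : IsFr (Cfsg.Agent.S2562.qP F m) (fun _ : Fin s => (0 : F)) (u ∘ e) :=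
    ⟨hu.1.comp e e.injective, fun x y => hu.2.1 _ _, fun x => hu.2.2 _⟩
  obtain ⟨hle, -⟩ := card_Z hF m s (u ∘ e) hu'
  refine ⟨hle, ?_⟩
  have hq : 1 ≤ q := by
    rw [← hF]
    exact Fintype.card_pos
  have h1 := card_orth_eq_isFr_mul (Cfsg.Agent.S2562.qP F m) hQ _ (u ∘ e) hu'
  rw [card_tsf hF m s] at h1
  have hcongr : Nat.card {g : ↥(Cfsg.isometryGroup F ⇑(Cfsg.Agent.S2562.qP F m)) //
        ∀ i, (mat (Cfsg.Agent.S2562.qP F m) g).mulVec ((u ∘ e) i) = (u ∘ e) i}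
      = Nat.card {g : ↥(Cfsg.isometryGroup F ⇑(Cfsg.Agent.S2562.qP F m)) //
        ∀ y, (mat (Cfsg.Agent.S2562.qP F m) g).mulVec (u y) = u y} := by
    apply Nat.card_congr
    apply Equiv.subtypeEquivRight
    intro g
    constructor
    · intro h y
      have h3 := h (e.symm y)
      rw [Function.comp_apply, Equiv.apply_symm_apply] at h3
      exact h3
    · intro h i
      exact h (e i)
  rw [hcongr] at h1
  have h2 : Nat.card ↥(Cfsg.isometryGroup F ⇑(Cfsg.Agent.S2562.qP F m))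
      = 2 * q ^ (m * (m - 1)) * (q ^ m - 1)
        * ∏ i ∈ Finset.range (m - 1), (q ^ (2 * (i + 1)) - 1) := by
    rw [qP_coe]
    exact Cfsg.Agent.Lib.helper6.card_GO_plus hF m hm
  have h3 := fix_ts_arith q m hq hm s hle
  rw [h2, ← h3] at h1
  have hpos : 0 < ∏ i ∈ Finset.range s, (q ^ m + (q ^ (m - i) - 1) * q ^ (m - 1) - q ^ i) := by
    apply Nat.pos_of_ne_zero
    intro h0
    rw [h0, zero_mul] at h3
    rw [← h3] at h2
    exact (Nat.card_pos (α := ↥(Cfsg.isometryGroup F ⇑(Cfsg.Agent.S2562.qP F m)))).ne' h2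
  exact (Nat.eq_of_mul_eq_mul_left hpos h1).symm

/-- a vector with `Q = 1` orthogonal to a small family -/
theorem exists_Q_one_perp (m : ℕ) {κ : Type} [Fintype κ] (u : κ → (Fin m ⊕ Fin m → F))
    (hli : LinearIndependent F u) (hlt : Fintype.card κ < m) :
    ∃ w, Cfsg.Agent.S2562.qP F m w = 1
      ∧ ∀ x, QuadraticMap.polar (⇑(Cfsg.Agent.S2562.qP F m)) (u x) w = 0 := by
  classical
  have hQ := Cfsg.Agent.S2562.nondeg_qP (F := F) m
  by_contra hcon
  push Not at hcon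
  have hts : ∀ w ∈ orthSub (Cfsg.Agent.S2562.qP F m) (Submodule.span F (Set.range u)),
      Cfsg.Agent.S2562.qP F m w = 0 := by
    intro w hw
    by_contra hw0
    obtain ⟨c, hc⟩ := exists_sqrt_c2 (Cfsg.Agent.S2562.qP F m w)
    have hc0 : c ≠ 0 := by
      rintro rfl
      rw [mul_zero] at hc
      exact hw0 hc.symm
    obtain ⟨x, hx⟩ := hcon (c⁻¹ • w) (by
      rw [QuadraticMap.map_smul, ← hc, smul_eq_mul]
      field_simp)
    apply hx
    rw [QuadraticMap.polar_smul_right]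
    rw [mem_orthSub_span] at hw
    rw [hw (u x) ⟨x, rfl⟩, smul_zero]
  have h1 := Cfsg.Agent.S2562.ts_finrank_le (Cfsg.Agent.S2562.qP F m) hQ _ hts
  rw [finrank_orthSub _ hQ, finrank_span_eq_card hli, Module.finrank_fintype_fun_eq_card,
    Fintype.card_sum, Fintype.card_fin] at h1
  omega

/-- the centralizer in `Ω` of an involution of alternating type -/
theorem orth_cent_omega_swap {q : ℕ} (hF : Fintype.card F = q) (m : ℕ)
    (h : Fintype.card F ≠ 2 ∨ m ≠ 2) (k : ℕ) (hk : 1 ≤ k)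
    (t : ↥(Cfsg.isometryGroup F ⇑(Cfsg.Agent.S2562.qP F m)))
    (ht : IsNF (Cfsg.Agent.S2562.qP F m) (Sum.swap : Fin k ⊕ Fin k → Fin k ⊕ Fin k) t) :
    k + k ≤ m ∧
    Nat.card {g : ↥(Cfsg.Omega F ⇑(Cfsg.Agent.S2562.qP F m)) //
        (g : ↥(Cfsg.isometryGroup F ⇑(Cfsg.Agent.S2562.qP F m))) * t
          = t * (g : ↥(Cfsg.isometryGroup F ⇑(Cfsg.Agent.S2562.qP F m)))}
      = (q ^ (k ^ 2) * ∏ i ∈ Finset.range k, (q ^ (2 * (i + 1)) - 1))
        * (q ^ (2 * m * (k + k) - (3 * (k + k) ^ 2 + (k + k)) / 2)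
          * (if k + k = m then 1 else q ^ ((m - (k + k)) * (m - (k + k) - 1))
              * (q ^ (m - (k + k)) - 1)
              * ∏ i ∈ Finset.range (m - (k + k) - 1), (q ^ (2 * (i + 1)) - 1))) := by
  classical
  have hQ := Cfsg.Agent.S2562.nondeg_qP (F := F) m
  have hfp : ∀ x : Fin k ⊕ Fin k, Sum.swap x ≠ x := by
    intro x
    rcases x with i | i <;> simp
  have hcl := nf_card_le _ hQ _ t ht
  simp only [Fintype.card_sum, Fintype.card_fin] at hcl
  have hm : 1 ≤ m := by omega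
  have hmax := nf_fix_maxTS_iff (Cfsg.Agent.S2562.qP F m) hQ Sum.swap
    (fun x => Sum.swap_swap x) hfp t ht
  obtain ⟨u, hstd, htf⟩ := ht
  have hQu : ∀ x, Cfsg.Agent.S2562.qP F m (u x) = 0 := fun x => by
    rw [hstd.2.2, if_neg (hfp x)]
  have hfr : IsFr (Cfsg.Agent.S2562.qP F m) (fun _ => 0) u := ⟨hstd.1, hstd.2.1, hQu⟩
  obtain ⟨hle, hfix⟩ := orth_fix_ts hF m hm (k + k)
    (by rw [Fintype.card_sum, Fintype.card_fin]) u hfr
  refine ⟨hle, ?_⟩
  have hc := orth_card_centralizer_nf (Cfsg.Agent.S2562.qP F m) hQ polar_qP_sf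
    (Sum.swap : Fin k ⊕ Fin k → Fin k ⊕ Fin k) (fun x => Sum.swap_swap x) t u hstd htf (by
      intro A _ y
      rw [hQu y]
      apply Finset.sum_eq_zero
      intro x _
      rw [hQu x, mul_zero])
  have hG : Nat.card {A : Matrix (Fin k ⊕ Fin k) (Fin k ⊕ Fin k) F //
        A * permMat F Sum.swap * A.transpose = permMat F Sum.swap}
      = Nat.card (Matrix.symplecticGroup (Fin k) F) := by
    have hPJ : permMat F (Sum.swap : Fin k ⊕ Fin k → Fin k ⊕ Fin k) = Matrix.J (Fin k) F := by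
      ext x y
      rcases x with i | i <;> rcases y with j | j <;>
        simp [permMat, Matrix.J, Matrix.one_apply, CharTwo.neg_eq]
    rw [hPJ]
    exact Nat.card_congr (Equiv.subtypeEquivRight (fun A => SymplecticGroup.mem_iff.symm))
  have h' : Fintype.card F ≠ 2 ∨ Fintype.card (Fin m ⊕ Fin m) ≠ 4 := by
    rcases h with h | h
    · exact Or.inl h
    · right
      simp only [Fintype.card_sum, Fintype.card_fin]
      omega
  by_cases hsm : k + k = m
  · have hU : MaxTS (Cfsg.Agent.S2562.qP F m) (fixSub (mat (Cfsg.Agent.S2562.qP F m) t)) := by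
      apply hmax.mpr
      simp only [Fintype.card_sum, Fintype.card_fin]
      omega
    have hall := card_cent_all (Cfsg.Omega F ⇑(Cfsg.Agent.S2562.qP F m)) t
      (fun g hg => cent_le_omega_of_maxTS h' _ hQ t hU g hg)
    rw [hall, hc, hG, card_sp hF k, hfix, if_pos hsm, if_pos hsm]
  · obtain ⟨w, hw, hwu⟩ := exists_Q_one_perp m u hstd.1 (by
      rw [Fintype.card_sum, Fintype.card_fin]
      omega)
    obtain ⟨r, hr, hrΩ⟩ := exists_refl_comm h' (Cfsg.Agent.S2562.qP F m) hQ Sum.swap t u htf w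
      hw hwu
    have hidx := omega_index_c2 h' (Cfsg.Agent.S2562.qP F m) hQ (Sum.inl ⟨0, by omega⟩)
    have hhalf := card_cent_half (Cfsg.Omega F ⇑(Cfsg.Agent.S2562.qP F m)) hidx t r hr hrΩ
    rw [hc, hG, card_sp hF k, hfix, if_neg hsm] at hhalf
    rw [if_neg hsm]
    have h5 : 2 * Nat.card {g : ↥(Cfsg.Omega F ⇑(Cfsg.Agent.S2562.qP F m)) //
          (g : ↥(Cfsg.isometryGroup F ⇑(Cfsg.Agent.S2562.qP F m))) * t
            = t * (g : ↥(Cfsg.isometryGroup F ⇑(Cfsg.Agent.S2562.qP F m)))}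
        = 2 * ((q ^ (k ^ 2) * ∏ i ∈ Finset.range k, (q ^ (2 * (i + 1)) - 1))
          * (q ^ (2 * m * (k + k) - (3 * (k + k) ^ 2 + (k + k)) / 2)
            * (q ^ ((m - (k + k)) * (m - (k + k) - 1)) * (q ^ (m - (k + k)) - 1)
              * ∏ i ∈ Finset.range (m - (k + k) - 1), (q ^ (2 * (i + 1)) - 1)))) := by
      rw [hhalf]
      ring
    exact Nat.eq_of_mul_eq_mul_left (by norm_num) h5

end OrthCentTS

end Cfsg.Agent.Lib.helper4
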