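import Mathlib
import Cfsg.Agent.Lib.helper13.Dickson
import Cfsg.Agent.Lib.helper4.OrthInvol
import Cfsg.Agent.Lib.helper4.OrthRank

set_option autoImplicit false

/-!
# Generation by reflections in characteristic two from a supply of middle vectors

The results of `helper13.OrthChar2` and `helper13.Dickson` (generation by reflections, the parity
character, the commutator subgroup) under the hypothesis `HasMid Q` instead of the exclusion of
dimension four over the field with two elements; the proofs are the same.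
-/

namespace Cfsg.Agent.Lib.helper4

open Cfsg.Agent.Lib.helper13

section Mid

variable {F : Type*} [Field F] [CharP F 2] [Fintype F] {ι : Type} [Fintype ι] [DecidableEq ι]

/-- orthogonal vectors of norm one have a non-singular middle vector -/
def HasMid (Q : QuadraticForm F (ι → F)) : Prop :=
  ∀ x y : ι → F, Q x = 1 → Q y = 1 → x ≠ y → QuadraticMap.polar (⇑Q) x y = 0 →
    ∃ z, Q z ≠ 0 ∧ QuadraticMap.polar (⇑Q) x z ≠ 0 ∧ QuadraticMap.polar (⇑Q) z y ≠ 0

lemma c2_connect_mid (Q : QuadraticForm F (ι → F)) (h : HasMid Q) (x y : ι → F) (hx : Q x = 1)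
    (hy : Q y = 1) :
    ∃ ws : List (ι → F), (∀ w ∈ ws, Q w ≠ 0) ∧
      ((ws.map (fun w => Cfsg.reflectionMatrix (⇑Q) w)).prod).mulVec x = y := by
  obtain ⟨ws, h1, h2⟩ := c2_connect Q ⊤ x y trivial trivial hx hy (fun hne hxy => by
    obtain ⟨z, hz⟩ := h x y hx hy hne hxy
    exact ⟨z, trivial, hz⟩)
  exact ⟨ws, fun w hw => (h1 w hw).2, h2⟩

lemma c2_refl_conj_mid (Q : QuadraticForm F (ι → F)) (h : HasMid Q) (hQ : (QuadraticMap.polarBilin Q).Nondegenerate)
    (v w : ι → F) (hv : Q v ≠ 0) (hw : Q w ≠ 0) :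
    ∃ g : ↥(Cfsg.isometryGroup F ⇑Q), reflEl Q w = g * reflEl Q v * g⁻¹ := by
  obtain ⟨a, ha, hav⟩ := c2_normalize Q v hv
  obtain ⟨b, hb, hbw⟩ := c2_normalize Q w hw
  obtain ⟨ws, h1, h2⟩ := c2_connect_mid Q h (a • v) (b • w) hav hbw
  refine ⟨(ws.map (reflEl Q)).prod, ?_⟩
  rw [← reflEl_smul Q v hv a ha, reflEl_conj Q _ (a • v) (by rw [hav]; exact one_ne_zero)]
  have h3 : (((ws.map (reflEl Q)).prod : ↥(Cfsg.isometryGroup F ⇑Q)) :
      Matrix.GeneralLinearGroup ι F).1 = (ws.map (fun w => Cfsg.reflectionMatrix (⇑Q) w)).prod :=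
    reflEl_list_coe Q ws h1
  have h4 : ((((ws.map (reflEl Q)).prod : ↥(Cfsg.isometryGroup F ⇑Q)) :
      Matrix.GeneralLinearGroup ι F) : Matrix ι ι F).mulVec (a • v) = b • w := by
    rw [← h2]
    exact congrArg (fun M : Matrix ι ι F => M.mulVec (a • v)) h3
  rw [h4, reflEl_smul Q w hw b hb]

lemma c2_even_mem_comm_mid (Q : QuadraticForm F (ι → F)) (h : HasMid Q) (hQ : (QuadraticMap.polarBilin Q).Nondegenerate)
    (vs : List (ι → F)) (hvs : ∀ v ∈ vs, Q v ≠ 0) (hlen : Even vs.length) :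
    (vs.map (reflEl Q)).prod ∈ commutator ↥(Cfsg.isometryGroup F ⇑Q) := by
  rw [← Abelianization.ker_of, MonoidHom.mem_ker, map_list_prod, List.map_map]
  apply prod_eq_one_of_classes (fun v : ι → F => Q v ≠ 0)
    (⇑(Abelianization.of (G := ↥(Cfsg.isometryGroup F ⇑Q))) ∘ reflEl Q)
    (fun _ => 1) ?_ ?_ vs hvs hlen ?_
  · intro v _
    show Abelianization.of (reflEl Q v) * Abelianization.of (reflEl Q v) = 1
    rw [← map_mul, reflEl_mul_self, map_one]
  · intro v w hv hw _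
    obtain ⟨g, hg⟩ := c2_refl_conj_mid Q h hQ v w hv hw
    show Abelianization.of (reflEl Q v) = Abelianization.of (reflEl Q w)
    rw [hg, map_mul, map_mul, map_inv, mul_comm, inv_mul_cancel_left]
  · simp

lemma c2_fix_u_mid (Q : QuadraticForm F (ι → F)) (h : HasMid Q)
    (hQ : (QuadraticMap.polarBilin Q).Nondegenerate) (U : Submodule F (ι → F))
    (hU : GoodSub Q U) (g : ↥(Cfsg.isometryGroup F ⇑Q))
    (hg : ∀ x ∈ U, (mat Q g).mulVec x = x) (u : ι → F) (huV : u ∈ orthSub Q U) (hu : Q u = 1) :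
    ∃ h₁ ∈ reflGroup Q, (∀ x ∈ U, (mat Q (h₁ * g)).mulVec x = x) ∧
      (mat Q (h₁ * g)).mulVec u = u := by
  have hV'nd := goodSub_orth Q hQ U hU
  have hS : ∀ x ∈ orthSub Q U, x ≠ 0 →
      ∃ y ∈ orthSub Q U, QuadraticMap.polar (⇑Q) x y ≠ 0 := by
    intro x hx hx0
    by_contra hcon
    push Not at hcon
    exact hx0 (hV'nd x hx hcon)
  obtain ⟨u'', hu''⟩ : ∃ u'' : ι → F, u'' = (mat Q g).mulVec u := ⟨_, rfl⟩
  have hu''V : u'' ∈ orthSub Q U := by
    rw [hu'']
    exact orthSub_stable Q U g hg u huV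
  have hQu'' : Q u'' = 1 := by
    rw [hu'', isom_pres]
    exact hu
  have hu''0 : u'' ≠ 0 := by
    intro h0
    rw [h0, map_zero] at hQu''
    exact zero_ne_one hQu''
  have hu0 : u ≠ 0 := by
    intro h0
    rw [h0, map_zero] at hu
    exact zero_ne_one hu
  have caseA : (∃ ws : List (ι → F), (∀ w ∈ ws, w ∈ orthSub Q U ∧ Q w ≠ 0) ∧
      ((ws.map (fun w => Cfsg.reflectionMatrix (⇑Q) w)).prod).mulVec u'' = u) →
      ∃ h₁ ∈ reflGroup Q, (∀ x ∈ U, (mat Q (h₁ * g)).mulVec x = x) ∧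
        (mat Q (h₁ * g)).mulVec u = u := by
    rintro ⟨ws, hws, hmap⟩
    refine ⟨(ws.map (reflEl Q)).prod, reflEl_list_mem Q ws (fun w hw => (hws w hw).2), ?_, ?_⟩
    · intro x hx
      rw [mat_mul, ← Matrix.mulVec_mulVec, hg x hx,
        mat_reflEl_list Q ws (fun w hw => (hws w hw).2)]
      apply refl_list_fix
      intro w hw
      rw [QuadraticMap.polar_comm]
      exact (mem_orthSub Q U w).mp (hws w hw).1 x hx
    · rw [mat_mul, ← Matrix.mulVec_mulVec, ← hu'',
        mat_reflEl_list Q ws (fun w hw => (hws w hw).2)]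
      exact hmap
  by_cases hF : Fintype.card F = 2
  swap
  · exact caseA (c2_connect Q (orthSub Q U) u'' u hu''V huV hQu'' hu
      (fun _ hxy => c2_mid_big hF Q _ hS u'' u hu''V huV hQu'' hu hxy))
  by_cases hU0 : U = ⊥
  · have hall : ∀ x : ι → F, x ∈ orthSub Q U := by
      intro x
      rw [mem_orthSub, hU0]
      intro a ha
      rw [Submodule.mem_bot] at ha
      rw [ha]
      simp
    obtain ⟨ws, h1, h2⟩ := c2_connect_mid Q h u'' u hQu'' hu
    exact caseA ⟨ws, fun w hw => ⟨hall w, h1 w hw⟩, h2⟩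
  · obtain ⟨u₀, hu₀U, w₀, hw₀U, hQu₀, hu₀w₀⟩ := c2_exists_pair Q U hU hU0
    obtain ⟨S₀, hS₀⟩ : ∃ S₀ : Submodule F (ι → F),
        S₀ = U ⊓ orthSub Q (Submodule.span F {u₀}) := ⟨_, rfl⟩
    have hmemS₀ : ∀ a, a ∈ S₀ ↔ a ∈ U ∧ QuadraticMap.polar (⇑Q) u₀ a = 0 := by
      intro a
      rw [hS₀, Submodule.mem_inf, mem_orthSub]
      constructor
      · rintro ⟨h1, h2⟩
        exact ⟨h1, h2 u₀ (Submodule.mem_span_singleton_self u₀)⟩
      · rintro ⟨h1, h2⟩
        refine ⟨h1, ?_⟩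
        intro b hb
        obtain ⟨t, rfl⟩ := Submodule.mem_span_singleton.mp hb
        rw [QuadraticMap.polar_smul_left, h2, smul_zero]
    have hV'le : ∀ x ∈ orthSub Q U, x ∈ orthSub Q S₀ := by
      intro x hx
      rw [mem_orthSub] at hx ⊢
      intro a ha
      exact hx a ((hmemS₀ a).mp ha).1
    have hu₀S : u₀ ∈ orthSub Q S₀ := by
      rw [mem_orthSub]
      intro a ha
      rw [QuadraticMap.polar_comm]
      exact ((hmemS₀ a).mp ha).2
    obtain ⟨ws, hws, hmap⟩ := c2_connect Q (orthSub Q S₀) u'' u (hV'le _ hu''V) (hV'le _ huV)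
      hQu'' hu (fun _ _ => by
        obtain ⟨z₀, hz₀V, hxz, hyz⟩ := exists_both Q (orthSub Q U) hS u'' u hu''V huV hu''0 hu0
        by_cases hz : Q z₀ = 0
        · have hp1 : QuadraticMap.polar (⇑Q) z₀ u₀ = 0 := by
            rw [QuadraticMap.polar_comm]
            exact (mem_orthSub Q U z₀).mp hz₀V u₀ hu₀U
          have hp2 : QuadraticMap.polar (⇑Q) u'' u₀ = 0 := by
            rw [QuadraticMap.polar_comm]
            exact (mem_orthSub Q U u'').mp hu''V u₀ hu₀U
          have hp3 : QuadraticMap.polar (⇑Q) u u₀ = 0 := by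
            rw [QuadraticMap.polar_comm]
            exact (mem_orthSub Q U u).mp huV u₀ hu₀U
          exact ⟨z₀ + u₀, Submodule.add_mem _ (hV'le _ hz₀V) hu₀S,
            c2_mid_extra Q u'' u z₀ u₀ hz (by rw [hQu₀]; exact one_ne_zero) hp1 hp2 hp3 hxz hyz⟩
        · exact ⟨z₀, hV'le _ hz₀V, hz, hxz, by rw [QuadraticMap.polar_comm]; exact hyz⟩)
    obtain ⟨h₁, hh₁⟩ : ∃ h₁ : ↥(Cfsg.isometryGroup F ⇑Q), h₁ = (ws.map (reflEl Q)).prod :=
      ⟨_, rfl⟩
    have hh₁R : h₁ ∈ reflGroup Q := by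
      rw [hh₁]
      exact reflEl_list_mem Q ws (fun w hw => (hws w hw).2)
    have hfixS₀ : ∀ a ∈ S₀, (mat Q (h₁ * g)).mulVec a = a := by
      intro a ha
      rw [mat_mul, ← Matrix.mulVec_mulVec, hg a ((hmemS₀ a).mp ha).1, hh₁,
        mat_reflEl_list Q ws (fun w hw => (hws w hw).2)]
      apply refl_list_fix
      intro w hw
      rw [QuadraticMap.polar_comm]
      exact (mem_orthSub Q S₀ w).mp (hws w hw).1 a ha
    have hfixu : (mat Q (h₁ * g)).mulVec u = u := by
      rw [mat_mul, ← Matrix.mulVec_mulVec, ← hu'', hh₁,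
        mat_reflEl_list Q ws (fun w hw => (hws w hw).2)]
      exact hmap
    have hu₀S₀ : u₀ ∈ S₀ := (hmemS₀ u₀).mpr ⟨hu₀U, c2_polar_self Q u₀⟩
    obtain ⟨h₂, hh₂R, hfix2, -, hfixw₀⟩ := c2_partner Q ({a | a ∈ S₀} ∪ {u}) u₀ w₀ hQu₀ (by
        rintro a (ha | ha)
        · exact ((hmemS₀ a).mp ha).2
        · rw [Set.mem_singleton_iff] at ha
          rw [ha]
          exact (mem_orthSub Q U u).mp huV u₀ hu₀U) hu₀w₀ (h₁ * g) (by
        rintro a (ha | ha)
        · exact hfixS₀ a ha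
        · rw [Set.mem_singleton_iff] at ha
          rw [ha]
          exact hfixu) (hfixS₀ u₀ hu₀S₀)
    refine ⟨h₂ * h₁, (reflGroup Q).mul_mem hh₂R hh₁R, ?_, ?_⟩
    · intro a ha
      rw [mul_assoc]
      obtain ⟨t, ht⟩ : ∃ t : F, t = QuadraticMap.polar (⇑Q) u₀ a := ⟨_, rfl⟩
      have ha1 : a - t • w₀ ∈ S₀ := (hmemS₀ _).mpr ⟨U.sub_mem ha (U.smul_mem t hw₀U), by
        rw [QuadraticMap.polar_sub_right, QuadraticMap.polar_smul_right, hu₀w₀, ← ht]
        simp⟩
      have h3 := hfix2 (a - t • w₀) (Or.inl ha1)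
      have h4 : a = (a - t • w₀) + t • w₀ := by abel
      rw [h4, Matrix.mulVec_add, Matrix.mulVec_smul, h3, hfixw₀]
    · rw [mul_assoc]
      exact hfix2 u (Or.inr rfl)

lemma c2_step_mid (Q : QuadraticForm F (ι → F)) (h : HasMid Q)
    (hQ : (QuadraticMap.polarBilin Q).Nondegenerate) (U : Submodule F (ι → F))
    (g : ↥(Cfsg.isometryGroup F ⇑Q)) (hUtop : U ≠ ⊤) (hU : GoodSub Q U)
    (hg : ∀ x ∈ U, (mat Q g).mulVec x = x) :
    ∃ h' ∈ reflGroup Q, ∃ U' : Submodule F (ι → F), U < U' ∧ GoodSub Q U' ∧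
      ∀ x ∈ U', (mat Q (h' * g)).mulVec x = x := by
  have hV'nd := goodSub_orth Q hQ U hU
  obtain ⟨u, huV, w, hwV, hQu, huw⟩ :=
    c2_exists_pair Q (orthSub Q U) hV'nd (orthSub_ne_bot Q hQ U hUtop)
  obtain ⟨h₁, hR₁, hfix₁, hu₁⟩ := c2_fix_u_mid Q h hQ U hU g hg u huV hQu
  obtain ⟨h₃, hR₃, hfix₃, hu₃, hw₃⟩ := c2_partner Q (U : Set (ι → F)) u w hQu
    (fun a ha => by
      rw [QuadraticMap.polar_comm]
      exact (mem_orthSub Q U u).mp huV a ha) huw (h₁ * g) hfix₁ hu₁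
  have huU' : u ∈ U ⊔ Submodule.span F {u, w} :=
    Submodule.mem_sup_right (Submodule.subset_span (by simp))
  have hwU' : w ∈ U ⊔ Submodule.span F {u, w} :=
    Submodule.mem_sup_right (Submodule.subset_span (by simp))
  refine ⟨h₃ * h₁, (reflGroup Q).mul_mem hR₃ hR₁, U ⊔ Submodule.span F {u, w}, ?_, ?_, ?_⟩
  · refine lt_of_le_of_ne le_sup_left ?_
    intro heq
    have huU : u ∈ U := by rw [heq]; exact huU'
    have h0 : u = 0 := hU u huU (fun y hy => by
      rw [QuadraticMap.polar_comm]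
      exact (mem_orthSub Q U u).mp huV y hy)
    rw [h0, map_zero] at hQu
    exact zero_ne_one hQu
  · intro x hx hxy
    obtain ⟨a, ha, p, hp, rfl⟩ := Submodule.mem_sup.mp hx
    obtain ⟨α, β, rfl⟩ := Submodule.mem_span_pair.mp hp
    have h1 := hxy u huU'
    have h2 := hxy w hwU'
    have hau : QuadraticMap.polar (⇑Q) a u = 0 := (mem_orthSub Q U u).mp huV a ha
    have haw : QuadraticMap.polar (⇑Q) a w = 0 := (mem_orthSub Q U w).mp hwV a ha
    rw [QuadraticMap.polar_add_left, QuadraticMap.polar_add_left, QuadraticMap.polar_smul_left,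
      QuadraticMap.polar_smul_left, hau, c2_polar_self, QuadraticMap.polar_comm (⇑Q) w u, huw]
      at h1
    rw [QuadraticMap.polar_add_left, QuadraticMap.polar_add_left, QuadraticMap.polar_smul_left,
      QuadraticMap.polar_smul_left, haw, huw, c2_polar_self] at h2
    have hβ : β = 0 := by simpa using h1
    have hα : α = 0 := by simpa using h2
    rw [hα, hβ, zero_smul, zero_smul, add_zero, add_zero]
    apply hU a ha
    intro y hy
    have h3 := hxy y (Submodule.mem_sup_left hy)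
    rw [hα, hβ, zero_smul, zero_smul, add_zero, add_zero] at h3
    exact h3
  · intro x hx
    obtain ⟨a, ha, p, hp, rfl⟩ := Submodule.mem_sup.mp hx
    obtain ⟨α, β, rfl⟩ := Submodule.mem_span_pair.mp hp
    rw [mul_assoc, Matrix.mulVec_add, Matrix.mulVec_add, Matrix.mulVec_smul, Matrix.mulVec_smul,
      hfix₃ a ha, hu₃, hw₃]

theorem cd_char2_mid (Q : QuadraticForm F (ι → F)) (h : HasMid Q)
    (hQ : (QuadraticMap.polarBilin Q).Nondegenerate) (g : ↥(Cfsg.isometryGroup F ⇑Q)) :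
    g ∈ reflGroup Q :=
  fix_induction Q (reflGroup Q) (GoodSub Q)
    (fun x hx _ => (Submodule.mem_bot F).mp hx)
    (fun U g hUtop hU hg => c2_step_mid Q h hQ U g hUtop hU hg) g

theorem exists_refl_list_mid (Q : QuadraticForm F (ι → F)) (h : HasMid Q) (hQ : (QuadraticMap.polarBilin Q).Nondegenerate)
    (g : ↥(Cfsg.isometryGroup F ⇑Q)) :
    ∃ vs : List (ι → F), (∀ v ∈ vs, Q v ≠ 0) ∧ g = (vs.map (reflEl Q)).prod :=
  exists_list_of_mem Q g (cd_char2_mid Q h hQ g)

theorem dick_mul_mid (Q : QuadraticForm F (ι → F)) (h : HasMid Q) (hQ : (QuadraticMap.polarBilin Q).Nondegenerate)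
    (g₁ g₂ : ↥(Cfsg.isometryGroup F ⇑Q)) : dick Q (g₁ * g₂) = dick Q g₁ * dick Q g₂ :=
  dick_mul_of_mem Q hQ g₂ (cd_char2_mid Q h hQ g₂) g₁

theorem dick_of_mem_omega_mid (Q : QuadraticForm F (ι → F)) (h : HasMid Q) (hQ : (QuadraticMap.polarBilin Q).Nondegenerate)
    (g : ↥(Cfsg.isometryGroup F ⇑Q)) (hg : g ∈ Cfsg.Omega F ⇑Q) : dick Q g = 1 := by
  have h1 := Abelianization.commutator_subset_ker (dickHom Q hQ (cd_char2_mid Q h hQ)) hg
  exact MonoidHom.mem_ker.mp h1

theorem c2_mem_omega_iff_mid (Q : QuadraticForm F (ι → F)) (h : HasMid Q) (hQ : (QuadraticMap.polarBilin Q).Nondegenerate)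
    (g : ↥(Cfsg.isometryGroup F ⇑Q)) : g ∈ Cfsg.Omega F ⇑Q ↔ dick Q g = 1 := by
  constructor
  · exact dick_of_mem_omega_mid Q h hQ g
  · intro hd
    obtain ⟨vs, hvs, rfl⟩ := exists_refl_list_mid Q h hQ g
    rw [dick_list Q hQ vs hvs] at hd
    have hev : Even vs.length := by
      rcases Nat.even_or_odd vs.length with he | ho
      · exact he
      · rw [ho.neg_one_pow] at hd
        exact absurd hd (by decide)
    exact c2_even_mem_comm_mid Q h hQ vs hvs hev

theorem c2_mem_omega_iff_rank_mid (Q : QuadraticForm F (ι → F)) (h : HasMid Q) (hQ : (QuadraticMap.polarBilin Q).Nondegenerate)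
    (g : ↥(Cfsg.isometryGroup F ⇑Q)) :
    g ∈ Cfsg.Omega F ⇑Q ↔ Even ((mat Q g) - 1).rank := by
  rw [c2_mem_omega_iff_mid Q h hQ g]
  unfold dick
  rw [neg_one_pow_units_eq_one_iff]
  have h1 := rank_sub_one_add_fix (mat Q g)
  constructor
  · intro h2
    obtain ⟨k, hk⟩ := h2
    exact ⟨k - Module.finrank F ↥(fixSub (mat Q g)), by omega⟩
  · intro h2
    obtain ⟨k, hk⟩ := h2
    exact ⟨k + Module.finrank F ↥(fixSub (mat Q g)), by omega⟩

lemma c2_conj_omega_of_fix_mid (Q : QuadraticForm F (ι → F)) (h : HasMid Q) (hQ : (QuadraticMap.polarBilin Q).Nondegenerate)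
    (t s g : ↥(Cfsg.isometryGroup F ⇑Q)) (hg : g * t * g⁻¹ = s) (v : ι → F)
    (hv : (mat Q t).mulVec v = v) (hQv : Q v ≠ 0) :
    ∃ g' ∈ Cfsg.Omega F ⇑Q, g' * t * g'⁻¹ = s := by
  by_cases hgΩ : g ∈ Cfsg.Omega F ⇑Q
  · exact ⟨g, hgΩ, hg⟩
  have hd : dick Q g = -1 := by
    rcases Int.units_eq_one_or (dick Q g) with h1 | h1
    · exact absurd ((c2_mem_omega_iff_mid Q h hQ g).mpr h1) hgΩ
    · exact h1
  have hcomm : t * reflEl Q v * t⁻¹ = reflEl Q v := by
    rw [reflEl_conj Q t v hQv]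
    congr 1
  refine ⟨g * reflEl Q v, ?_, ?_⟩
  · rw [c2_mem_omega_iff_mid Q h hQ, dick_mul_refl Q hQ g v hQv, hd, neg_neg]
  · have h1 : reflEl Q v * t * (reflEl Q v)⁻¹ = t := by
      have h2 : reflEl Q v * t = t * reflEl Q v := by
        rw [mul_inv_eq_iff_eq_mul] at hcomm
        exact hcomm.symm
      rw [h2, mul_inv_cancel_right]
    rw [mul_inv_rev, ← hg]
    calc g * reflEl Q v * t * ((reflEl Q v)⁻¹ * g⁻¹)
        = g * (reflEl Q v * t * (reflEl Q v)⁻¹) * g⁻¹ := by group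
      _ = g * t * g⁻¹ := by rw [h1]

lemma c2_invol_conj_of_not_ts_mid (Q : QuadraticForm F (ι → F)) (h : HasMid Q) (hQ : (QuadraticMap.polarBilin Q).Nondegenerate)
    (t s : ↥(Cfsg.isometryGroup F ⇑Q)) (ht : orderOf t = 2) (hconj : IsConj t s)
    (hnots : ¬ MaxTS Q (fixSub (mat Q t))) :
    ∃ g' ∈ Cfsg.Omega F ⇑Q, g' * t * g'⁻¹ = s := by
  obtain ⟨g, hg⟩ := isConj_iff.mp hconj
  have hM := invol_mat_sq Q t ht
  by_cases hall : ∀ v ∈ fixSub (mat Q t), Q v = 0
  · exact absurd (ts_of_forall_fix Q hQ _ hM hall) hnots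
  · obtain ⟨v, hv'⟩ := not_forall.mp hall
    obtain ⟨hv, hQv⟩ := Classical.not_imp.mp hv'
    rw [mem_fixSub] at hv
    exact c2_conj_omega_of_fix_mid Q h hQ t s g hg v hv hQv

/-- middle vectors exist outside dimension four over the field with two elements -/
lemma hasMid_of_h (h : Fintype.card F ≠ 2 ∨ Fintype.card ι ≠ 4) (Q : QuadraticForm F (ι → F))
    (hQ : (QuadraticMap.polarBilin Q).Nondegenerate) : HasMid Q := by
  intro x y hx hy hne hxy
  by_cases hF : Fintype.card F = 2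
  · exact c2_mid_two hF (h.resolve_left (not_not.mpr hF)) Q hQ x y hx hy hne hxy
  · have hS : ∀ a ∈ (⊤ : Submodule F (ι → F)), a ≠ 0 →
        ∃ b ∈ (⊤ : Submodule F (ι → F)), QuadraticMap.polar (⇑Q) a b ≠ 0 := by
      intro a _ ha0
      by_contra hcon
      push Not at hcon
      exact ha0 (hQ.1 a (fun b => hcon b trivial))
    obtain ⟨z, -, hz⟩ := c2_mid_big hF Q ⊤ hS x y trivial trivial hx hy hxy
    exact ⟨z, hz⟩

/-- middle vectors exist in dimension four over the field with two elements when there is no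
totally singular plane -/
lemma hasMid_of_no_maxTS (Q : QuadraticForm F (ι → F))
    (hQ : (QuadraticMap.polarBilin Q).Nondegenerate) (hF : Fintype.card F = 2)
    (hn : Fintype.card ι = 4) (hno : ∀ U, ¬ MaxTS Q U) : HasMid Q := by
  intro x y hx hy hne hxy
  have hx0 : x ≠ 0 := by
    rintro rfl
    rw [map_zero] at hx
    exact zero_ne_one hx
  have hy0 : y ≠ 0 := by
    rintro rfl
    rw [map_zero] at hy
    exact zero_ne_one hy
  obtain ⟨z, -, hxz, hyz⟩ := exists_both Q ⊤ (fun a _ ha0 => by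
      by_contra hcon
      push Not at hcon
      exact ha0 (hQ.1 a (fun b => hcon b trivial))) x y trivial trivial hx0 hy0
  by_cases hz : Q z = 0
  swap
  · exact ⟨z, hz, hxz, by rw [QuadraticMap.polar_comm]; exact hyz⟩
  exfalso
  have hxz1 : QuadraticMap.polar (⇑Q) x z = 1 := eq_one_of_card_two hF _ hxz
  have hyz1 : QuadraticMap.polar (⇑Q) y z = 1 := eq_one_of_card_two hF _ hyz
  have hQe : Q (x + y) = 0 := by
    rw [Q_add, hx, hy, hxy, add_zero]
    exact CharTwo.add_self_eq_zero 1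
  have hez : QuadraticMap.polar (⇑Q) (x + y) z = 0 := by
    rw [QuadraticMap.polar_add_left, hxz1, hyz1]
    exact CharTwo.add_self_eq_zero 1
  have hxe : QuadraticMap.polar (⇑Q) x (x + y) = 0 := by
    rw [QuadraticMap.polar_add_right, c2_polar_self, hxy, add_zero]
  have he0 : x + y ≠ 0 := by
    intro h0
    apply hne
    have := eq_neg_of_add_eq_zero_left h0
    rw [c2_neg] at this
    exact this
  have hli : LinearIndependent F ![x + y, z] := by
    rw [LinearIndependent.pair_iff]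
    intro α β hαβ
    have h1 := congrArg (fun v => QuadraticMap.polar (⇑Q) x v) hαβ
    simp only [QuadraticMap.polar_add_right, QuadraticMap.polar_smul_right, smul_eq_mul,
      QuadraticMap.polar_zero_right] at h1
    rw [c2_polar_self, hxy, hxz1, add_zero, mul_zero, zero_add, mul_one] at h1
    rw [h1, zero_smul, add_zero] at hαβ
    exact ⟨(smul_eq_zero.mp hαβ).resolve_right he0, h1⟩
  refine hno (Submodule.span F (Set.range ![x + y, z])) ⟨?_, ?_⟩
  · intro u hu
    obtain ⟨c, rfl⟩ := (Submodule.mem_span_range_iff_exists_fun F).mp hu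
    simp only [Fin.sum_univ_two, Matrix.cons_val_zero, Matrix.cons_val_one]
    rw [Q_add, QuadraticMap.map_smul, QuadraticMap.map_smul, hQe, hz,
      QuadraticMap.polar_smul_left, QuadraticMap.polar_smul_right, hez]
    simp
  · rw [finrank_span_eq_card hli, hn]
    rfl

end Mid

end Cfsg.Agent.Lib.helper4
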