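import Mathlib
import Cfsg.Agent.Lib.helper4.OrthInvOmega
import Cfsg.Agent.Lib.helper4.OrthMid

set_option autoImplicit false

/-!
# Counting classes of involutions in `Ω⁻(2m, q)`, `q` even
-/

namespace Cfsg.Agent.Lib.helper4

open Cfsg.Agent.Lib.helper13

section OmegaCountM

variable {F : Type*} [Field F] [CharP F 2]

lemma minus_hNA (m : ℕ) (hm : 1 ≤ m) (a b : F) : ∀ s, 1 ≤ s → s ≤ m →
    ∃ t : ↥(Cfsg.isometryGroup F ⇑(Cfsg.Agent.S2679.qMg F (m - 1) a b)),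
      IsNF (Cfsg.Agent.S2679.qMg F (m - 1) a b) (id : Fin s → Fin s) t := by
  classical
  intro s hs1 hsm
  obtain ⟨emb⟩ := Function.Embedding.nonempty_of_card_le (α := Fin s)
    (β := Option (Fin (m - 1)))
    (by simp only [Fintype.card_option, Fintype.card_fin]; omega)
  exact nf_exists _ id (fun _ => rfl) _
    (sigStd_id_comp _ _ (minus_NA_std (m - 1) a b) emb emb.injective)

lemma minus_hAL (m : ℕ) (a b : F) : ∀ k, 1 ≤ k → 2 * k ≤ m - 1 →
    ∃ t : ↥(Cfsg.isometryGroup F ⇑(Cfsg.Agent.S2679.qMg F (m - 1) a b)),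
      IsNF (Cfsg.Agent.S2679.qMg F (m - 1) a b)
        (Sum.swap : Fin k ⊕ Fin k → Fin k ⊕ Fin k) t := by
  classical
  intro k hk1 hkm
  obtain ⟨emb⟩ := Function.Embedding.nonempty_of_card_le (α := Fin k ⊕ Fin k)
    (β := Fin (m - 1)) (by simp only [Fintype.card_sum, Fintype.card_fin]; omega)
  exact nf_exists _ Sum.swap Sum.swap_swap _
    (sigStd_ts_comp _ _ (minus_ts_li (m - 1)) (minus_ts_polar (m - 1) a b)
      (minus_ts_Q (m - 1) a b) Sum.swap (by rintro (i | i) <;> simp) emb emb.injective)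

lemma minus_hB [Fintype F] (m : ℕ) (hm : 1 ≤ m) (a b : F)
    (hab : ∀ z₁ z₂ : F, z₁ ^ 2 + a * z₁ * z₂ + b * z₂ ^ 2 = 0 → z₁ = 0 ∧ z₂ = 0) :
    ∀ k (t : ↥(Cfsg.isometryGroup F ⇑(Cfsg.Agent.S2679.qMg F (m - 1) a b))),
      IsNF (Cfsg.Agent.S2679.qMg F (m - 1) a b) (Sum.swap : Fin k ⊕ Fin k → Fin k ⊕ Fin k) t →
      2 * k ≤ m - 1 := by
  classical
  intro k t ht
  have h1 := nf_card_le _ (nondeg_qMg (m - 1) a b hab) _ t ht
  simp only [Fintype.card_sum, Fintype.card_fin] at h1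
  by_contra hcon
  have h2 : 2 * k = m := by omega
  obtain ⟨U, hU, hUd⟩ := nf_ts _ Sum.swap (by rintro (i | i) <;> simp) t ht
  refine minus_no_maxTS m hm a b hab U ⟨hU, ?_⟩
  rw [hUd]
  simp only [Fintype.card_sum, Fintype.card_fin]
  omega

/-- the number of classes of involutions of `Ω⁻(2m, q)`, `q` even -/
theorem minus_omega_invol_count [Fintype F] (m : ℕ) (hm : 1 ≤ m) (a b : F)
    (hab : ∀ z₁ z₂ : F, z₁ ^ 2 + a * z₁ * z₂ + b * z₂ ^ 2 = 0 → z₁ = 0 ∧ z₂ = 0) :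
    Nat.card {C : ConjClasses ↥(Cfsg.Omega F ⇑(Cfsg.Agent.S2679.qMg F (m - 1) a b)) //
      ∃ g : ↥(Cfsg.Omega F ⇑(Cfsg.Agent.S2679.qMg F (m - 1) a b)),
        ConjClasses.mk g = C ∧ orderOf g = 2} = m / 2 + (m - 1) / 2 := by
  classical
  have hcard : Fintype.card ((Fin (m - 1) ⊕ Fin (m - 1)) ⊕ Fin 2) = 2 * m := by
    simp only [Fintype.card_sum, Fintype.card_fin]
    omega
  have hQ := nondeg_qMg (m - 1) a b hab
  have hmid : HasMid (Cfsg.Agent.S2679.qMg F (m - 1) a b) := by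
    by_cases h : Fintype.card F ≠ 2 ∨ Fintype.card ((Fin (m - 1) ⊕ Fin (m - 1)) ⊕ Fin 2) ≠ 4
    · exact hasMid_of_h h _ hQ
    · push Not at h
      exact hasMid_of_no_maxTS _ hQ h.1 h.2 (fun U hU => minus_no_maxTS m hm a b hab U hU)
  have key := omega_invol_class_count (Cfsg.Agent.S2679.qMg F (m - 1) a b) hQ m (m - 1) hm hcard
    (Nat.sub_le m 1) (minus_hNA m hm a b) (minus_hAL m a b) (minus_hB m hm a b hab)
    (fun t => c2_mem_omega_iff_rank_mid _ hmid hQ t)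
    (fun t s ht hc hU => c2_invol_conj_of_not_ts_mid _ hmid hQ t s ht hc hU)
    (fun t ht htΩ hU => (minus_no_maxTS m hm a b hab _ hU).elim)
  rw [key, if_neg (fun h => by have := h.1; omega), add_zero]

end OmegaCountM

end Cfsg.Agent.Lib.helper4
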