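import Mathlib
import Cfsg.Agent.Lib.helper4.OrthInvOmega
import Cfsg.Agent.Lib.helper13.PlusEmb
import Cfsg.Agent.Lib.helper6.QCount

set_option autoImplicit false

/-!
# Elements of prime order of `Ω⁺(2d, q)`, `q` even, and non-singular points
-/

namespace Cfsg.Agent.Lib.helper4

open Cfsg.Agent.Lib.helper13 Module

open scoped Matrix

section Singer

/-- a fixed-point-free element of prime order `r ∣ q ^ d - 1` in `GL_d(q)` -/
theorem exists_gl_fpf {F : Type*} [Field F] [Fintype F] (p : ℕ) [Fact p.Prime] [CharP F p]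
    (d : ℕ) (hd : 1 ≤ d) (r : ℕ) [Fact r.Prime] (hr : r ∣ Fintype.card F ^ d - 1) :
    ∃ A : GL (Fin d) F, A ^ r = 1 ∧ IsUnit ((A : Matrix (Fin d) (Fin d) F) - 1) := by
  classical
  have : NeZero d := ⟨by omega⟩
  obtain ⟨b⟩ : Nonempty (Basis (Fin d) F (FiniteField.Extension F p d)) :=
    ⟨Module.finBasisOfFinrankEq F _ (FiniteField.finrank_extension F p d)⟩
  have hcard : Nat.card (FiniteField.Extension F p d)ˣ = Fintype.card F ^ d - 1 := by
    rw [Nat.card_units, FiniteField.natCard_extension, Nat.card_eq_fintype_card]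
  obtain ⟨ζ, hζ⟩ := exists_prime_orderOf_dvd_card' (G := (FiniteField.Extension F p d)ˣ) r
    (by rw [hcard]; exact hr)
  let φ : FiniteField.Extension F p d →ₐ[F] Matrix (Fin d) (Fin d) F :=
    (LinearMap.toMatrixAlgEquiv b).toAlgHom.comp (Algebra.lmul F (FiniteField.Extension F p d))
  refine ⟨Units.map φ.toRingHom.toMonoidHom ζ, ?_, ?_⟩
  · rw [← map_pow, ← hζ, pow_orderOf_eq_one, map_one]
  · have h1 : (ζ : FiniteField.Extension F p d) - 1 ≠ 0 := by
      intro h
      have h2 : ζ = 1 := Units.ext (sub_eq_zero.mp h)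
      rw [h2, orderOf_one] at hζ
      exact (Fact.out : r.Prime).ne_one hζ.symm
    have h3 : IsUnit ((ζ : FiniteField.Extension F p d) - 1) := isUnit_iff_ne_zero.mpr h1
    have h4 := h3.map φ
    rw [map_sub, map_one] at h4
    exact h4

end Singer

section Points

variable {F : Type*} [Field F] [Fintype F] {ι : Type} [Fintype ι] [DecidableEq ι]

/-- non-singular vectors and non-singular points -/
lemma card_nonsing_points (Q : QuadraticForm F (ι → F)) :
    Nat.card {v : ι → F // Q v ≠ 0}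
      = Nat.card {W : Submodule F (ι → F) // Module.finrank F ↥W = 1 ∧ ∃ v ∈ W, Q v ≠ 0}
        * (Fintype.card F - 1) := by
  classical
  have hne : ∀ v : ι → F, Q v ≠ 0 → v ≠ 0 := by
    rintro v hv rfl
    exact hv (map_zero Q)
  let φ : {v : ι → F // Q v ≠ 0} →
      {W : Submodule F (ι → F) // Module.finrank F ↥W = 1 ∧ ∃ v ∈ W, Q v ≠ 0} :=
    fun v => ⟨Submodule.span F {v.1}, finrank_span_singleton (hne v.1 v.2), v.1,
      Submodule.mem_span_singleton_self _, v.2⟩
  apply Cfsg.Agent.Lib.helper6.h6_card_fiber_count φ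
  rintro ⟨W, hW1, v₀, hv₀W, hQv₀⟩
  have hv₀ : v₀ ≠ 0 := hne v₀ hQv₀
  have hWspan : Submodule.span F {v₀} = W := by
    apply Submodule.eq_of_le_of_finrank_eq
    · rw [Submodule.span_singleton_le_iff_mem]
      exact hv₀W
    · rw [finrank_span_singleton hv₀, hW1]
  have hQc : ∀ c : F, c ≠ 0 → Q (c • v₀) ≠ 0 := by
    intro c hc
    rw [QuadraticMap.map_smul]
    exact mul_ne_zero (mul_ne_zero hc hc) hQv₀
  let g : {c : F // c ≠ 0} →
      {a : {v : ι → F // Q v ≠ 0} // φ a = ⟨W, hW1, v₀, hv₀W, hQv₀⟩} :=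
    fun c => ⟨⟨c.1 • v₀, hQc c.1 c.2⟩, by
      apply Subtype.ext
      show Submodule.span F {c.1 • v₀} = W
      rw [← hWspan]
      exact Submodule.span_singleton_smul_eq (IsUnit.mk0 c.1 c.2) v₀⟩
  have hg : Function.Bijective g := by
    constructor
    · intro c c' h
      have h1 : c.1 • v₀ = c'.1 • v₀ := congrArg (fun a => a.1.1) h
      exact Subtype.ext (smul_left_injective F hv₀ h1)
    · rintro ⟨⟨v, hv⟩, hφ⟩
      have h1 : Submodule.span F {v} = W := congrArg Subtype.val hφ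
      have h2 : v ∈ Submodule.span F {v₀} := by
        rw [hWspan, ← h1]
        exact Submodule.mem_span_singleton_self v
      obtain ⟨c, rfl⟩ := Submodule.mem_span_singleton.mp h2
      have hc : c ≠ 0 := by
        rintro rfl
        rw [zero_smul] at hv
        exact hv (map_zero Q)
      exact ⟨⟨c, hc⟩, rfl⟩
  rw [← Nat.card_congr (Equiv.ofBijective g hg), Nat.card_eq_fintype_card,
    Fintype.card_subtype_compl, Fintype.card_subtype_eq]

omit [Fintype F] in
/-- an isometry fixing a non-singular point fixes its vectors (characteristic two) -/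
lemma fix_point_fix_vec [CharP F 2] (Q : QuadraticForm F (ι → F))
    (x : ↥(Cfsg.isometryGroup F ⇑Q)) (W : Submodule F (ι → F))
    (hW1 : Module.finrank F ↥W = 1) (v : ι → F) (hvW : v ∈ W) (hQv : Q v ≠ 0)
    (hmap : W.map (Matrix.toLin' (mat Q x)) ≤ W) : (mat Q x).mulVec v = v := by
  have hv0 : v ≠ 0 := by
    rintro rfl
    exact hQv (map_zero Q)
  have hWspan : Submodule.span F {v} = W := by
    apply Submodule.eq_of_le_of_finrank_eq
    · rw [Submodule.span_singleton_le_iff_mem]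
      exact hvW
    · rw [finrank_span_singleton hv0, hW1]
  have h1 : (mat Q x).mulVec v ∈ W := hmap ⟨v, hvW, by rw [Matrix.toLin'_apply]⟩
  rw [← hWspan] at h1
  obtain ⟨c, hc⟩ := Submodule.mem_span_singleton.mp h1
  have h2 : Q ((mat Q x).mulVec v) = Q v := isom_pres Q x v
  rw [← hc, QuadraticMap.map_smul, smul_eq_mul] at h2
  have h3 : c * c = 1 := by
    have h4 : (c * c - 1) * Q v = 0 := by linear_combination h2
    rcases mul_eq_zero.mp h4 with h5 | h5
    · exact sub_eq_zero.mp h5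
    · exact absurd h5 hQv
  have h4 : (c + 1) * (c + 1) = 0 := by
    rw [CharTwo.add_mul_self, h3, mul_one, CharTwo.add_self_eq_zero]
  have h5 : c = 1 := by
    have h6 := mul_self_eq_zero.mp h4
    have h7 : c = -1 := eq_neg_of_add_eq_zero_left h6
    rw [h7, CharTwo.neg_eq]
  rw [← hc, h5, one_smul]

/-- a scalar isometry is trivial (characteristic two) -/
lemma scalar_isom_one [CharP F 2] (Q : QuadraticForm F (ι → F))
    (hQ : (QuadraticMap.polarBilin Q).Nondegenerate) (i : ι)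
    (y : ↥(Cfsg.isometryGroup F ⇑Q)) (z : F) (h : mat Q y = z • (1 : Matrix ι ι F)) : z = 1 := by
  obtain ⟨v₁, hv₁⟩ := exists_nonsing Q hQ i
  have h1 : Q ((mat Q y).mulVec v₁) = Q v₁ := isom_pres Q y v₁
  rw [h, Matrix.smul_mulVec, Matrix.one_mulVec, QuadraticMap.map_smul, smul_eq_mul] at h1
  have h3 : z * z = 1 := by
    have h4 : (z * z - 1) * Q v₁ = 0 := by linear_combination h1
    rcases mul_eq_zero.mp h4 with h5 | h5
    · exact sub_eq_zero.mp h5
    · exact absurd h5 hv₁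
  have h4 : (z + 1) * (z + 1) = 0 := by
    rw [CharTwo.add_mul_self, h3, mul_one, CharTwo.add_self_eq_zero]
  have h6 := mul_self_eq_zero.mp h4
  have h7 : z = -1 := eq_neg_of_add_eq_zero_left h6
  rw [h7, CharTwo.neg_eq]

end Points

section Main

variable {F : Type*} [Field F] [Fintype F] [CharP F 2]

/-- the number of non-singular points of the hyperbolic form -/
lemma card_plus_nonsing_points (d : ℕ) (hd : 1 ≤ d) :
    Nat.card {W : Submodule F (Fin d ⊕ Fin d → F) //
      Module.finrank F ↥W = 1 ∧ ∃ v ∈ W, Cfsg.Agent.S2562.qP F d v ≠ 0}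
      = Fintype.card F ^ (d - 1) * (Fintype.card F ^ d - 1) := by
  classical
  have h1 := card_nonsing_points (Cfsg.Agent.S2562.qP F d)
  have h2 := Cfsg.Agent.Lib.helper6.card_quadPlus_zero (F := F) rfl d hd
  have h3 : Nat.card {v : Fin d ⊕ Fin d → F // Cfsg.Agent.S2562.qP F d v ≠ 0}
      = Fintype.card F ^ (2 * d)
        - Nat.card {v : Fin d ⊕ Fin d → F // Cfsg.quadFormPlus d F v = 0} := by
    have e : {v : Fin d ⊕ Fin d → F // Cfsg.quadFormPlus d F v = 0}
        ≃ {v : Fin d ⊕ Fin d → F // Cfsg.Agent.S2562.qP F d v = 0} :=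
      Equiv.subtypeEquivRight (fun v => by rw [Cfsg.Agent.S2562.qP_apply])
    rw [Nat.card_congr e, Nat.card_eq_fintype_card, Nat.card_eq_fintype_card,
      Fintype.card_subtype_compl, Fintype.card_fun, Fintype.card_sum, Fintype.card_fin, two_mul]
  rw [h3, h2] at h1
  obtain ⟨s, hs⟩ : ∃ s, Fintype.card F = s + 1 := ⟨Fintype.card F - 1, by
    have := Fintype.card_pos (α := F)
    omega⟩
  obtain ⟨e, rfl⟩ : ∃ e, d = e + 1 := ⟨d - 1, by omega⟩
  obtain ⟨a, ha⟩ : ∃ a, Fintype.card F ^ e = a + 1 := ⟨Fintype.card F ^ e - 1, by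
    have : 0 < Fintype.card F ^ e := by positivity
    omega⟩
  have e1 : Fintype.card F ^ (2 * (e + 1)) = (s + 1) ^ 2 * (a + 1) ^ 2 := by
    rw [← hs, ← ha]
    ring
  have e2 : Fintype.card F ^ (2 * (e + 1) - 1) = (s + 1) * (a + 1) ^ 2 := by
    have : 2 * (e + 1) - 1 = 2 * e + 1 := by omega
    rw [this, ← hs, ← ha]
    ring
  have e3 : Fintype.card F ^ (e + 1) = (s + 1) * (a + 1) := by
    rw [← hs, ← ha]
    ring
  have e4 : Fintype.card F ^ (e + 1 - 1) = a + 1 := by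
    rw [Nat.add_sub_cancel, ha]
  rw [e1, e2, e3, e4, hs, Nat.add_sub_cancel] at h1
  rw [e3, e4]
  have e5 : (s + 1) * (a + 1) ^ 2 + (s + 1) * (a + 1) - (a + 1)
      = (s + 1) * (a + 1) ^ 2 + s * (a + 1) := Nat.sub_eq_of_eq_add (by ring)
  have e6 : (s + 1) ^ 2 * (a + 1) ^ 2 - ((s + 1) * (a + 1) ^ 2 + s * (a + 1))
      = (a + 1) * ((s + 1) * (a + 1) - 1) * s := by
    apply Nat.sub_eq_of_eq_add
    have e7 : (s + 1) * (a + 1) - 1 = s * a + s + a := Nat.sub_eq_of_eq_add (by ring)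
    rw [e7]
    ring
  rw [e5, e6] at h1
  have hs0 : 0 < s := by
    have := Fintype.one_lt_card (α := F)
    omega
  exact (Nat.eq_of_mul_eq_mul_right hs0 h1).symm

/-- the fixed vectors of the image of a fixed-point-free element of `GL_d` -/
lemma plusEmb_fix (d : ℕ) (A : GL (Fin d) F)
    (hA : IsUnit ((A : Matrix (Fin d) (Fin d) F) - 1)) (v : Fin d ⊕ Fin d → F)
    (hv : (mat (Cfsg.Agent.S2562.qP F d) (plusEmb F d A)).mulVec v = v) : v = 0 := by
  have hdet : ((A : Matrix (Fin d) (Fin d) F) - 1).det ≠ 0 :=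
    ((Matrix.isUnit_iff_isUnit_det _).mp hA).ne_zero
  rw [plusEmb_coe, Matrix.fromBlocks_mulVec] at hv
  have h1 : (A : Matrix (Fin d) (Fin d) F).mulVec (v ∘ Sum.inl) = v ∘ Sum.inl := by
    funext i
    have h2 := congrFun hv (Sum.inl i)
    simpa using h2
  have h2 : Matrix.mulVec (((A⁻¹ : GL (Fin d) F) : Matrix (Fin d) (Fin d) F)ᵀ) (v ∘ Sum.inr)
      = v ∘ Sum.inr := by
    funext i
    have h3 := congrFun hv (Sum.inr i)
    simpa using h3
  have h3 : v ∘ Sum.inl = 0 := by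
    apply Matrix.eq_zero_of_mulVec_eq_zero hdet
    rw [Matrix.sub_mulVec, Matrix.one_mulVec, h1, sub_self]
  have h4 : v ∘ Sum.inr = 0 := by
    apply Matrix.eq_zero_of_vecMul_eq_zero hdet
    have h5 : Matrix.mulVec ((A : Matrix (Fin d) (Fin d) F)ᵀ) (v ∘ Sum.inr) = v ∘ Sum.inr := by
      nth_rewrite 1 [← h2]
      rw [Matrix.mulVec_mulVec, ← Matrix.transpose_mul, ← Units.val_mul, inv_mul_cancel,
        Units.val_one, Matrix.transpose_one, Matrix.one_mulVec]
    rw [Matrix.vecMul_sub, Matrix.vecMul_one, ← Matrix.mulVec_transpose, h5, sub_self]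
  funext i
  rcases i with i | i
  · exact congrFun h3 i
  · exact congrFun h4 i

/-- elements of prime order of `Ω⁺(2d, q)`, `q` even, fixing a non-singular point -/
theorem plus_nonsing_point_iff (d : ℕ) (hd : 4 ≤ d) (r : ℕ) [Fact r.Prime]
    (hrΩ : r ∣ Nat.card {W : Submodule F (Fin d ⊕ Fin d → F) //
      Module.finrank F ↥W = 1 ∧ ∃ v ∈ W, Cfsg.Agent.S2562.qP F d v ≠ 0}) :
    (∀ x : GL (Fin d ⊕ Fin d) F, x ∈ Cfsg.Geo.omegaGL ⇑(Cfsg.Agent.S2562.qP F d) →
      (∃ z : F, ((x ^ r : GL (Fin d ⊕ Fin d) F) : Matrix (Fin d ⊕ Fin d) (Fin d ⊕ Fin d) F)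
        = z • (1 : Matrix (Fin d ⊕ Fin d) (Fin d ⊕ Fin d) F)) →
      (∀ z : F, (x : Matrix (Fin d ⊕ Fin d) (Fin d ⊕ Fin d) F)
        ≠ z • (1 : Matrix (Fin d ⊕ Fin d) (Fin d ⊕ Fin d) F)) →
      ∃ W : Submodule F (Fin d ⊕ Fin d → F),
        (Module.finrank F ↥W = 1 ∧ ∃ v ∈ W, Cfsg.Agent.S2562.qP F d v ≠ 0) ∧
        W.map (Matrix.toLin' (x : Matrix (Fin d ⊕ Fin d) (Fin d ⊕ Fin d) F)) ≤ W)
      ↔ (r = 2 ∧ Odd d) := by
  classical
  have hQ := Cfsg.Agent.S2562.nondeg_qP (F := F) d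
  have hcard : Fintype.card (Fin d ⊕ Fin d) = 2 * d := by
    simp only [Fintype.card_sum, Fintype.card_fin]
    omega
  have h' : Fintype.card F ≠ 2 ∨ Fintype.card (Fin d ⊕ Fin d) ≠ 4 :=
    Or.inr (by rw [hcard]; omega)
  have hswfp : ∀ (k : ℕ) (x : Fin k ⊕ Fin k), Sum.swap x ≠ x := by
    intro k x
    rcases x with i | i <;> simp
  have hmem : ∀ y : ↥(Cfsg.isometryGroup F ⇑(Cfsg.Agent.S2562.qP F d)),
      y ∈ Cfsg.Omega F ⇑(Cfsg.Agent.S2562.qP F d) →
      (y : GL (Fin d ⊕ Fin d) F) ∈ Cfsg.Geo.omegaGL ⇑(Cfsg.Agent.S2562.qP F d) :=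
    fun y hy => Subgroup.mem_map.mpr ⟨y, hy, rfl⟩
  have hpow : ∀ (y : ↥(Cfsg.isometryGroup F ⇑(Cfsg.Agent.S2562.qP F d))) (n : ℕ), y ^ n = 1 →
      (((y : GL (Fin d ⊕ Fin d) F) ^ n : GL (Fin d ⊕ Fin d) F) :
        Matrix (Fin d ⊕ Fin d) (Fin d ⊕ Fin d) F)
        = (1 : F) • (1 : Matrix (Fin d ⊕ Fin d) (Fin d ⊕ Fin d) F) := by
    intro y n hy
    rw [← Subgroup.coe_pow, hy, one_smul]
    rfl
  constructor
  · intro hall
    by_cases hr2 : r = 2
    · refine ⟨hr2, ?_⟩
      by_contra hodd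
      obtain ⟨c, hc⟩ := Nat.not_odd_iff_even.mp hodd
      obtain ⟨t, ht⟩ := plus_hAL (F := F) d c (by omega) (by omega)
      haveI : Nonempty (Fin c ⊕ Fin c) := ⟨Sum.inl ⟨0, by omega⟩⟩
      have hord := nf_orderOf (Cfsg.Agent.S2562.qP F d) hQ Sum.swap Sum.swap_swap t ht
      have hU : MaxTS (Cfsg.Agent.S2562.qP F d) (fixSub (mat _ t)) :=
        (nf_fix_maxTS_iff _ hQ Sum.swap Sum.swap_swap (hswfp c) t ht).mpr (by
          simp only [Fintype.card_sum, Fintype.card_fin]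
          omega)
      have htΩ : t ∈ Cfsg.Omega F ⇑(Cfsg.Agent.S2562.qP F d) := by
        rw [c2_mem_omega_iff_rank h' _ hQ, nf_rank _ hQ Sum.swap Sum.swap_swap t ht,
          Fintype.card_sum, Fintype.card_fin]
        exact ⟨c, rfl⟩
      have ht2 : t ^ r = 1 := by
        rw [hr2, ← hord]
        exact pow_orderOf_eq_one t
      obtain ⟨W, ⟨hW1, v, hvW, hQv⟩, hmap⟩ := hall (t : GL (Fin d ⊕ Fin d) F) (hmem t htΩ)
        ⟨1, hpow t r ht2⟩ (by
          intro z hz
          have hz1 := scalar_isom_one _ hQ (Sum.inl ⟨0, by omega⟩) t z hz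
          rw [hz1, one_smul] at hz
          have h1 : t = 1 := isom_ext _ t 1 hz
          rw [h1, orderOf_one] at hord
          omega)
      have hfix := fix_point_fix_vec (Cfsg.Agent.S2562.qP F d) t W hW1 v hvW hQv hmap
      exact hQv (hU.1 v ((mem_fixSub _ _).mpr hfix))
    · exfalso
      have hN := card_plus_nonsing_points (F := F) d (by omega)
      rw [hN] at hrΩ
      have hdiv : r ∣ Fintype.card F ^ d - 1 := by
        rcases (Nat.Prime.dvd_mul (Fact.out : r.Prime)).mp hrΩ with h1 | h1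
        · exfalso
          have h2 := (Fact.out : r.Prime).dvd_of_dvd_pow h1
          obtain ⟨n, -, hn⟩ := FiniteField.card F 2
          rw [hn] at h2
          have h3 := (Fact.out : r.Prime).dvd_of_dvd_pow h2
          exact hr2 ((Nat.prime_dvd_prime_iff_eq (Fact.out : r.Prime) Nat.prime_two).mp h3)
        · exact h1
      obtain ⟨A, hAr, hAu⟩ := exists_gl_fpf (F := F) 2 d (by omega) r hdiv
      obtain ⟨x, hx⟩ : ∃ x : ↥(Cfsg.isometryGroup F ⇑(Cfsg.Agent.S2562.qP F d)),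
          x = plusEmb F d A := ⟨_, rfl⟩
      have hxr : x ^ r = 1 := by rw [hx, ← map_pow, hAr, map_one]
      have hxfix : ∀ v, (mat (Cfsg.Agent.S2562.qP F d) x).mulVec v = v → v = 0 := by
        intro v hv
        rw [hx] at hv
        exact plusEmb_fix d A hAu v hv
      have hrodd : Odd r := (Fact.out : r.Prime).odd_of_ne_two hr2
      obtain ⟨k, hk⟩ := hrodd
      have hxΩ : x ∈ Cfsg.Omega F ⇑(Cfsg.Agent.S2562.qP F d) := by
        have h1 : x = x ^ (k + 1) * x ^ (k + 1) := by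
          rw [← pow_add]
          have h2 : k + 1 + (k + 1) = r + 1 := by omega
          rw [h2, pow_succ, hxr, one_mul]
        rw [h1]
        exact sq_mem_omega h' _ hQ _
      obtain ⟨W, ⟨hW1, v, hvW, hQv⟩, hmap⟩ := hall (x : GL (Fin d ⊕ Fin d) F) (hmem x hxΩ)
        ⟨1, hpow x r hxr⟩ (by
          intro z hz
          have hz1 := scalar_isom_one _ hQ (Sum.inl ⟨0, by omega⟩) x z hz
          rw [hz1, one_smul] at hz
          obtain ⟨v₁, hv₁⟩ := exists_nonsing (Cfsg.Agent.S2562.qP F d) hQ (Sum.inl ⟨0, by omega⟩)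
          have h1 := hxfix v₁ (by
            show (x : GL (Fin d ⊕ Fin d) F).1.mulVec v₁ = v₁
            rw [hz, Matrix.one_mulVec])
          rw [h1, map_zero] at hv₁
          exact hv₁ rfl)
      have hfix := fix_point_fix_vec (Cfsg.Agent.S2562.qP F d) x W hW1 v hvW hQv hmap
      rw [hxfix v hfix, map_zero] at hQv
      exact hQv rfl
  · rintro ⟨hr2, hodd⟩ x hx ⟨z, hz⟩ hns
    obtain ⟨y, hyΩ, rfl⟩ := Subgroup.mem_map.mp hx
    have hz' : mat (Cfsg.Agent.S2562.qP F d) (y ^ 2) = z • 1 := by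
      rw [← hz, hr2]
      rfl
    have hz1 := scalar_isom_one _ hQ (Sum.inl ⟨0, by omega⟩) (y ^ 2) z hz'
    rw [hz1, one_smul] at hz'
    have hy2 : y ^ 2 = 1 := isom_ext _ (y ^ 2) 1 hz'
    have hy1 : y ≠ 1 := by
      rintro rfl
      exact hns 1 (by rw [one_smul]; rfl)
    have hord : orderOf y = 2 := orderOf_eq_prime hy2 hy1
    have hM := invol_mat_sq (Cfsg.Agent.S2562.qP F d) y hord
    by_cases hallv : ∀ v ∈ fixSub (mat (Cfsg.Agent.S2562.qP F d) y),
        Cfsg.Agent.S2562.qP F d v = 0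
    · exfalso
      have hU := ts_of_forall_fix (Cfsg.Agent.S2562.qP F d) hQ _ hM hallv
      obtain ⟨hr, -⟩ := invol_maxTS_fix_cond (Cfsg.Agent.S2562.qP F d) _ hM hU d hcard
      have h1 := (c2_mem_omega_iff_rank h' _ hQ y).mp hyΩ
      rw [hr] at h1
      exact (Nat.not_even_iff_odd.mpr hodd) h1
    · push Not at hallv
      obtain ⟨v, hv, hQv⟩ := hallv
      rw [mem_fixSub] at hv
      have hv0 : v ≠ 0 := by
        rintro rfl
        exact hQv (map_zero _)
      refine ⟨Submodule.span F {v}, ⟨finrank_span_singleton hv0, v,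
        Submodule.mem_span_singleton_self v, hQv⟩, ?_⟩
      rw [Submodule.map_le_iff_le_comap, Submodule.span_singleton_le_iff_mem,
        Submodule.mem_comap, Matrix.toLin'_apply]
      show ((y : GL (Fin d ⊕ Fin d) F) :
          Matrix (Fin d ⊕ Fin d) (Fin d ⊕ Fin d) F).mulVec v ∈ Submodule.span F {v}
      have hv' : ((y : GL (Fin d ⊕ Fin d) F) :
          Matrix (Fin d ⊕ Fin d) (Fin d ⊕ Fin d) F).mulVec v = v := hv
      rw [hv']
      exact Submodule.mem_span_singleton_self v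

end Main

end Cfsg.Agent.Lib.helper4
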