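import Mathlib
import Cfsg.Agent.Lib.helper4.OrthPlusDer
import Cfsg.Agent.Lib.helper4.OrthInvOmegaM
import Cfsg.Agent.Lib.helper13.QuadNormal
import Cfsg.Agent.Lib.helper13.UnitaryQuad

set_option autoImplicit false

/-!
# Elements of prime order of `Ω⁻(2d, q)`, `q` even, and non-singular points
-/

namespace Cfsg.Agent.Lib.helper4

open Cfsg.Agent.Lib.helper13 Module

open scoped Matrix

section SingerMinus

variable {F : Type*} [Field F] [Fintype F] [CharP F 2]

/-- a quadratic form on the extension of degree `2d` with an isometry of prime order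
`r ∣ q ^ d + 1` given by a multiplication -/
theorem exists_singer_quad (n d : ℕ) [NeZero n] (hn : n = 2 * d) (r : ℕ) [Fact r.Prime]
    (hr : r ∣ Fintype.card F ^ d + 1) :
    ∃ (Q : QuadraticForm F (FiniteField.Extension F 2 n)) (ζ : (FiniteField.Extension F 2 n)ˣ),
      (QuadraticMap.polarBilin Q).Nondegenerate ∧ orderOf ζ = r ∧
      ∀ v, Q ((ζ : FiniteField.Extension F 2 n) * v) = Q v := by
  classical
  haveI : Fintype (FiniteField.Extension F 2 n) := Fintype.ofFinite _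
  have hd : 1 ≤ d := by
    have := NeZero.ne n
    omega
  obtain ⟨q, hq⟩ : ∃ q, q = Fintype.card F := ⟨_, rfl⟩
  have hq2 : 2 ≤ q := hq ▸ Fintype.one_lt_card
  have hqd : 2 ≤ q ^ d := le_trans hq2 (Nat.le_self_pow (by omega) q)
  have hcardK : Fintype.card (FiniteField.Extension F 2 n) = q ^ n := by
    rw [Fintype.card_eq_nat_card, FiniteField.natCard_extension, Nat.card_eq_fintype_card, hq]
  have hqn : q ^ n = q ^ d * q ^ d := by rw [hn, two_mul, pow_add]
  obtain ⟨σ, hσdef⟩ : ∃ σ : FiniteField.Extension F 2 n ≃ₐ[F] FiniteField.Extension F 2 n,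
      σ = (FiniteField.Extension.frob F 2 n) ^ d := ⟨_, rfl⟩
  have hσ : ∀ x : FiniteField.Extension F 2 n, σ x = x ^ (q ^ d) := by
    intro x
    rw [hσdef, hq, ← Nat.card_eq_fintype_card]
    exact FiniteField.Extension.frob_iterate_apply F 2 n d
  have hσσ : ∀ x : FiniteField.Extension F 2 n, σ (σ x) = x := by
    intro x
    rw [hσ, hσ, ← pow_mul, ← hqn, ← hcardK]
    exact FiniteField.pow_card x
  have hcardU : Nat.card (FiniteField.Extension F 2 n)ˣ = q ^ n - 1 := by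
    rw [Nat.card_units, FiniteField.natCard_extension, Nat.card_eq_fintype_card, hq]
  have hdiv : r ∣ q ^ n - 1 := by
    have h1 : q ^ n - 1 = (q ^ d - 1) * (q ^ d + 1) := by
      rw [hqn]
      obtain ⟨a, ha⟩ : ∃ a, q ^ d = a + 1 := ⟨q ^ d - 1, by omega⟩
      rw [ha, Nat.add_sub_cancel]
      apply Nat.sub_eq_of_eq_add
      ring
    rw [h1]
    exact Dvd.dvd.mul_left (hq ▸ hr) _
  obtain ⟨ζ, hζ⟩ := exists_prime_orderOf_dvd_card' (G := (FiniteField.Extension F 2 n)ˣ) r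
    (by rw [hcardU]; exact hdiv)
  have hζN : (ζ : FiniteField.Extension F 2 n) * σ ζ = 1 := by
    rw [hσ, ← pow_succ']
    obtain ⟨k, hk⟩ := hr
    rw [← hq] at hk
    rw [hk, pow_mul, ← Units.val_pow_eq_pow_val, ← hζ, pow_orderOf_eq_one, Units.val_one, one_pow]
  obtain ⟨c, hc⟩ : ∃ c : FiniteField.Extension F 2 n, σ c ≠ c := by
    by_contra hcon
    push Not at hcon
    obtain ⟨g, hg⟩ := IsCyclic.exists_generator (α := (FiniteField.Extension F 2 n)ˣ)
    have h1 : orderOf g = q ^ n - 1 := by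
      rw [orderOf_eq_card_of_forall_mem_zpowers hg, hcardU]
    have h2 : g ^ (q ^ d - 1) = 1 := by
      apply Units.ext
      have h3 := hcon (g : FiniteField.Extension F 2 n)
      rw [hσ] at h3
      have h4 : (g : FiniteField.Extension F 2 n) ^ (q ^ d - 1)
          * (g : FiniteField.Extension F 2 n) = (g : FiniteField.Extension F 2 n) := by
        rw [← pow_succ, Nat.sub_add_cancel (by omega)]
        exact h3
      rw [Units.val_pow_eq_pow_val, Units.val_one]
      exact mul_right_cancel₀ (Units.ne_zero g) (h4.trans (one_mul _).symm)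
    have h5 := orderOf_dvd_of_pow_eq_one h2
    rw [h1] at h5
    have h6 := Nat.le_of_dvd (by omega) h5
    rw [hqn] at h6
    have h7 : 2 * q ^ d ≤ q ^ d * q ^ d := Nat.mul_le_mul_right _ hqd
    omega
  have hcc : c + σ c ≠ 0 := by
    intro h
    apply hc
    have h2 : σ c = -c := by linear_combination h
    haveI : CharP (FiniteField.Extension F 2 n) 2 := charP_of_injective_algebraMap
      (algebraMap F (FiniteField.Extension F 2 n)).injective 2
    rw [h2, CharTwo.neg_eq]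
  obtain ⟨B₀, hB₀def⟩ : ∃ B₀ : LinearMap.BilinForm F (FiniteField.Extension F 2 n),
      B₀ = ((LinearMap.mul F (FiniteField.Extension F 2 n)).compl₂ σ.toLinearMap).compr₂
        ((Algebra.trace F (FiniteField.Extension F 2 n)).comp (LinearMap.mulLeft F c)) := ⟨_, rfl⟩
  have hB₀ : ∀ x y, B₀ x y = Algebra.trace F (FiniteField.Extension F 2 n) (c * (x * σ y)) := by
    intro x y
    rw [hB₀def]
    rfl
  have hB₀' : ∀ x y, B₀ y x = Algebra.trace F (FiniteField.Extension F 2 n) (σ c * (x * σ y)) := by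
    intro x y
    rw [hB₀, ← Algebra.trace_eq_of_algEquiv σ]
    have h1 : σ (c * (y * σ x)) = σ c * (x * σ y) := by
      rw [map_mul σ, map_mul σ, hσσ]
      ring
    rw [h1]
  refine ⟨LinearMap.BilinMap.toQuadraticMap B₀, ζ, ?_, hζ, ?_⟩
  · apply nondeg_of_sep_left
    intro x hx
    have h1 : ∀ z, Algebra.traceForm F (FiniteField.Extension F 2 n) ((c + σ c) * x) z = 0 := by
      intro z
      have h2 := hx (σ z)
      rw [LinearMap.BilinMap.polar_toQuadraticMap, hB₀, hB₀', hσσ, ← map_add] at h2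
      rw [Algebra.traceForm_apply, ← h2]
      congr 1
      ring
    have h3 := (traceForm_nondegenerate F (FiniteField.Extension F 2 n)).1 _ h1
    rcases mul_eq_zero.mp h3 with h4 | h4
    · exact absurd h4 hcc
    · exact h4
  · intro v
    rw [LinearMap.BilinMap.toQuadraticMap_apply, LinearMap.BilinMap.toQuadraticMap_apply, hB₀, hB₀,
      map_mul σ]
    have h1 : (ζ : FiniteField.Extension F 2 n) * v * (σ ζ * σ v)
        = ((ζ : FiniteField.Extension F 2 n) * σ ζ) * (v * σ v) := by ring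
    rw [h1, hζN, one_mul]

/-- the hyperbolic form has no fixed-point-free isometry of odd prime order `r ∣ q ^ d + 1` -/
lemma plus_no_fpf (d : ℕ) (hd : 1 ≤ d) (r : ℕ) [Fact r.Prime] (hr2 : r ≠ 2)
    (hr : r ∣ Fintype.card F ^ d + 1) (ψ : Equiv.Perm (Fin d ⊕ Fin d → F)) (hψ0 : ψ 0 = 0)
    (hψ : ∀ w, Cfsg.quadFormPlus d F (ψ w) = Cfsg.quadFormPlus d F w)
    (hψr : ∀ w, ψ^[r] w = w) (hfix : ∀ w, ψ w = w → w = 0) : False := by
  classical
  have hp : ∀ w : Fin d ⊕ Fin d → F, (Cfsg.quadFormPlus d F (ψ w) = 0 ∧ ψ w ≠ 0)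
      ↔ (Cfsg.quadFormPlus d F w = 0 ∧ w ≠ 0) := by
    intro w
    rw [hψ]
    refine and_congr_right (fun _ => not_congr ?_)
    constructor
    · intro h
      exact ψ.injective (h.trans hψ0.symm)
    · rintro rfl
      exact hψ0
  obtain ⟨σ, hσ⟩ : ∃ σ : Equiv.Perm {w : Fin d ⊕ Fin d → F // Cfsg.quadFormPlus d F w = 0 ∧ w ≠ 0},
      ∀ a, (σ a : Fin d ⊕ Fin d → F) = ψ a := ⟨ψ.subtypePerm hp, fun a => rfl⟩
  have hσk : ∀ (k : ℕ) a, ((σ ^ k) a : Fin d ⊕ Fin d → F) = ψ^[k] a := by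
    intro k
    induction k with
    | zero => intro a; rfl
    | succ k ih =>
      intro a
      rw [pow_succ', Equiv.Perm.mul_apply, hσ, ih, Function.iterate_succ_apply']
  have hσr : σ ^ r ^ 1 = 1 := by
    rw [pow_one]
    ext a : 2
    rw [hσk, hψr]
    rfl
  have h0 : Cfsg.quadFormPlus d F 0 = 0 := by
    rw [← Cfsg.Agent.S2562.qP_apply, map_zero]
  have hcard : Fintype.card {w : Fin d ⊕ Fin d → F // Cfsg.quadFormPlus d F w = 0 ∧ w ≠ 0} + 1
      = Fintype.card {w : Fin d ⊕ Fin d → F // Cfsg.quadFormPlus d F w = 0} := by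
    rw [Fintype.card_subtype, Fintype.card_subtype]
    have h1 : (Finset.univ.filter fun w : Fin d ⊕ Fin d → F =>
        Cfsg.quadFormPlus d F w = 0 ∧ w ≠ 0)
        = (Finset.univ.filter fun w : Fin d ⊕ Fin d → F => Cfsg.quadFormPlus d F w = 0).erase 0 := by
      ext w
      simp only [Finset.mem_filter, Finset.mem_univ, true_and, Finset.mem_erase]
      exact and_comm
    have h2 : (0 : Fin d ⊕ Fin d → F) ∈
        (Finset.univ.filter fun w : Fin d ⊕ Fin d → F => Cfsg.quadFormPlus d F w = 0) := by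
      simp only [Finset.mem_filter, Finset.mem_univ, true_and]
      exact h0
    rw [h1, Finset.card_erase_of_mem h2, Nat.sub_add_cancel (Finset.card_pos.mpr ⟨0, h2⟩)]
  have h2 := Cfsg.Agent.Lib.helper6.card_quadPlus_zero (F := F) rfl d hd
  rw [Nat.card_eq_fintype_card, ← hcard] at h2
  have hα : ¬ r ∣ Fintype.card {w : Fin d ⊕ Fin d → F // Cfsg.quadFormPlus d F w = 0 ∧ w ≠ 0} := by
    intro hdvd
    obtain ⟨e, rfl⟩ : ∃ e, d = e + 1 := ⟨d - 1, by omega⟩
    have e1 : 2 * (e + 1) - 1 = e + (e + 1) := by omega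
    rw [e1, Nat.add_sub_cancel] at h2
    have hq1 : 1 ≤ Fintype.card F := Fintype.card_pos
    have h3 : Fintype.card F ^ e ≤ Fintype.card F ^ (e + 1) := Nat.pow_le_pow_right hq1 (by omega)
    have h4 : Fintype.card {w : Fin (e + 1) ⊕ Fin (e + 1) → F //
        Cfsg.quadFormPlus (e + 1) F w = 0 ∧ w ≠ 0} + 1 + Fintype.card F ^ e
        = Fintype.card F ^ (e + (e + 1)) + Fintype.card F ^ (e + 1) := by omega
    have h5 := congrArg (Nat.cast : ℕ → ZMod r) h4
    push_cast at h5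
    rw [(ZMod.natCast_eq_zero_iff _ _).mpr hdvd, zero_add] at h5
    have h6 : ((Fintype.card F : ZMod r)) ^ (e + 1) + 1 = 0 := by
      have := (ZMod.natCast_eq_zero_iff _ _).mpr hr
      push_cast at this
      exact this
    have h2ne : (2 : ZMod r) ≠ 0 := by
      intro h
      have h7 : ((2 : ℕ) : ZMod r) = 0 := by exact_mod_cast h
      rw [ZMod.natCast_eq_zero_iff] at h7
      have h8 := Nat.le_of_dvd (by norm_num) h7
      have h9 := (Fact.out : r.Prime).two_le
      omega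
    obtain ⟨q, hq⟩ : ∃ q : ZMod r, q = (Fintype.card F : ZMod r) := ⟨_, rfl⟩
    rw [← hq] at h5 h6
    obtain ⟨A, hA⟩ : ∃ A : ZMod r, A = q ^ e := ⟨_, rfl⟩
    rw [pow_add, pow_succ, ← hA] at h5
    rw [pow_succ, ← hA] at h6
    have h10 : 2 * (A + 1) = 0 := by linear_combination h5 + (A + 1) * h6
    have h11 : A + 1 = 0 := by
      rcases mul_eq_zero.mp h10 with h | h
      · exact absurd h h2ne
      · exact h
    have h12 : q = 1 := by linear_combination (-1 : ZMod r) * h6 + q * h11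
    rw [h12, one_pow] at hA
    rw [hA] at h11
    apply h2ne
    linear_combination h11
  obtain ⟨a, ha⟩ := Equiv.Perm.exists_fixed_point_of_prime (p := r) (n := 1) hα hσr
  have h3 : ψ a = a := by
    rw [← hσ, ha]
  exact a.2.2 (hfix _ h3)

/-- the number of non-singular points of the elliptic form -/
lemma card_minus_nonsing_points (d : ℕ) (hd : 1 ≤ d) (a b : F)
    (hab : ∀ z₁ z₂ : F, z₁ ^ 2 + a * z₁ * z₂ + b * z₂ ^ 2 = 0 → z₁ = 0 ∧ z₂ = 0) :
    Nat.card {W : Submodule F ((Fin (d - 1) ⊕ Fin (d - 1)) ⊕ Fin 2 → F) //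
      Module.finrank F ↥W = 1 ∧ ∃ v ∈ W, Cfsg.Agent.S2679.qMg F (d - 1) a b v ≠ 0}
      = Fintype.card F ^ (d - 1) * (Fintype.card F ^ d + 1) := by
  classical
  have h1 := card_nonsing_points (Cfsg.Agent.S2679.qMg F (d - 1) a b)
  have h2 := Cfsg.Agent.Lib.helper6.card_quadMinus_zero (F := F) rfl d hd a b hab
  have hι : Fintype.card ((Fin (d - 1) ⊕ Fin (d - 1)) ⊕ Fin 2) = 2 * d := by
    simp only [Fintype.card_sum, Fintype.card_fin]
    omega
  have h3 : Nat.card {v : (Fin (d - 1) ⊕ Fin (d - 1)) ⊕ Fin 2 → F //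
        Cfsg.Agent.S2679.qMg F (d - 1) a b v ≠ 0}
      = Fintype.card F ^ (2 * d)
        - Nat.card {v : (Fin (d - 1) ⊕ Fin (d - 1)) ⊕ Fin 2 → F //
            Cfsg.quadFormMinus (d - 1) F a b v = 0} := by
    have e : {v : (Fin (d - 1) ⊕ Fin (d - 1)) ⊕ Fin 2 → F // Cfsg.quadFormMinus (d - 1) F a b v = 0}
        ≃ {v : (Fin (d - 1) ⊕ Fin (d - 1)) ⊕ Fin 2 → F // Cfsg.Agent.S2679.qMg F (d - 1) a b v = 0} :=
      Equiv.subtypeEquivRight (fun v => by rw [Cfsg.Agent.S2679.qMg_apply])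
    rw [Nat.card_congr e, Nat.card_eq_fintype_card, Nat.card_eq_fintype_card,
      Fintype.card_subtype_compl, Fintype.card_fun, hι]
  rw [h3, h2] at h1
  obtain ⟨s, hs⟩ : ∃ s, Fintype.card F = s + 1 := ⟨Fintype.card F - 1, by
    have := Fintype.card_pos (α := F)
    omega⟩
  obtain ⟨e, rfl⟩ : ∃ e, d = e + 1 := ⟨d - 1, by omega⟩
  obtain ⟨c, hc⟩ : ∃ c, Fintype.card F ^ e = c + 1 := ⟨Fintype.card F ^ e - 1, by
    have : 0 < Fintype.card F ^ e := by positivity
    omega⟩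
  have e1 : Fintype.card F ^ (2 * (e + 1)) = (s + 1) ^ 2 * (c + 1) ^ 2 := by
    rw [← hs, ← hc]
    ring
  have e2 : Fintype.card F ^ (2 * (e + 1) - 1) = (s + 1) * (c + 1) ^ 2 := by
    have : 2 * (e + 1) - 1 = 2 * e + 1 := by omega
    rw [this, ← hs, ← hc]
    ring
  have e3 : Fintype.card F ^ (e + 1) = (s + 1) * (c + 1) := by
    rw [← hs, ← hc]
    ring
  have e4 : Fintype.card F ^ (e + 1 - 1) = c + 1 := by
    rw [Nat.add_sub_cancel, hc]
  rw [e1, e2, e3, e4, hs, Nat.add_sub_cancel] at h1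
  rw [e3, e4]
  have e5 : (s + 1) * (c + 1) ^ 2 + (c + 1) - (s + 1) * (c + 1)
      = (c + 1) * (s * c + c + 1) := Nat.sub_eq_of_eq_add (by ring)
  have e6 : (s + 1) ^ 2 * (c + 1) ^ 2 - (c + 1) * (s * c + c + 1)
      = (c + 1) * ((s + 1) * (c + 1) + 1) * s := by
    apply Nat.sub_eq_of_eq_add
    ring
  rw [e5, e6] at h1
  have hs0 : 0 < s := by
    have := Fintype.one_lt_card (α := F)
    omega
  exact (Nat.eq_of_mul_eq_mul_right hs0 h1).symm

end SingerMinus

section MainMinus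

variable {F : Type*} [Field F] [Fintype F] [CharP F 2]

theorem minus_nonsing_point_iff (d : ℕ) (hd : 4 ≤ d) (a b : F)
    (hab : ∀ x y : F, x ^ 2 + a * x * y + b * y ^ 2 = 0 → x = 0 ∧ y = 0) (r : ℕ) [Fact r.Prime]
    (hrΩ : r ∣ Nat.card {W : Submodule F ((Fin (d - 1) ⊕ Fin (d - 1)) ⊕ Fin 2 → F) //
      Module.finrank F ↥W = 1 ∧ ∃ v ∈ W, Cfsg.Agent.S2679.qMg F (d - 1) a b v ≠ 0}) :
    (∀ x : GL ((Fin (d - 1) ⊕ Fin (d - 1)) ⊕ Fin 2) F,
      x ∈ Cfsg.Geo.omegaGL ⇑(Cfsg.Agent.S2679.qMg F (d - 1) a b) →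
      (∃ z : F, ((x ^ r : GL ((Fin (d - 1) ⊕ Fin (d - 1)) ⊕ Fin 2) F) :
          Matrix ((Fin (d - 1) ⊕ Fin (d - 1)) ⊕ Fin 2) ((Fin (d - 1) ⊕ Fin (d - 1)) ⊕ Fin 2) F)
        = z • (1 : Matrix ((Fin (d - 1) ⊕ Fin (d - 1)) ⊕ Fin 2)
          ((Fin (d - 1) ⊕ Fin (d - 1)) ⊕ Fin 2) F)) →
      (∀ z : F, (x : Matrix ((Fin (d - 1) ⊕ Fin (d - 1)) ⊕ Fin 2)
          ((Fin (d - 1) ⊕ Fin (d - 1)) ⊕ Fin 2) F)
        ≠ z • (1 : Matrix ((Fin (d - 1) ⊕ Fin (d - 1)) ⊕ Fin 2)
          ((Fin (d - 1) ⊕ Fin (d - 1)) ⊕ Fin 2) F)) →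
      ∃ W : Submodule F ((Fin (d - 1) ⊕ Fin (d - 1)) ⊕ Fin 2 → F),
        (Module.finrank F ↥W = 1 ∧ ∃ v ∈ W, Cfsg.Agent.S2679.qMg F (d - 1) a b v ≠ 0) ∧
        W.map (Matrix.toLin' (x : Matrix ((Fin (d - 1) ⊕ Fin (d - 1)) ⊕ Fin 2)
          ((Fin (d - 1) ⊕ Fin (d - 1)) ⊕ Fin 2) F)) ≤ W)
      ↔ r = 2 := by
  classical
  have hQ := nondeg_qMg (F := F) (d - 1) a b hab
  have hcard : Fintype.card ((Fin (d - 1) ⊕ Fin (d - 1)) ⊕ Fin 2) = 2 * d := by
    simp only [Fintype.card_sum, Fintype.card_fin]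
    omega
  have h' : Fintype.card F ≠ 2 ∨ Fintype.card ((Fin (d - 1) ⊕ Fin (d - 1)) ⊕ Fin 2) ≠ 4 :=
    Or.inr (by rw [hcard]; omega)
  have i0 : (Fin (d - 1) ⊕ Fin (d - 1)) ⊕ Fin 2 := Sum.inr 0
  have hmem : ∀ y : ↥(Cfsg.isometryGroup F ⇑(Cfsg.Agent.S2679.qMg F (d - 1) a b)),
      y ∈ Cfsg.Omega F ⇑(Cfsg.Agent.S2679.qMg F (d - 1) a b) →
      (y : GL ((Fin (d - 1) ⊕ Fin (d - 1)) ⊕ Fin 2) F)
        ∈ Cfsg.Geo.omegaGL ⇑(Cfsg.Agent.S2679.qMg F (d - 1) a b) :=
    fun y hy => Subgroup.mem_map.mpr ⟨y, hy, rfl⟩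
  have hpow : ∀ (y : ↥(Cfsg.isometryGroup F ⇑(Cfsg.Agent.S2679.qMg F (d - 1) a b))) (n : ℕ),
      y ^ n = 1 →
      (((y : GL ((Fin (d - 1) ⊕ Fin (d - 1)) ⊕ Fin 2) F) ^ n :
          GL ((Fin (d - 1) ⊕ Fin (d - 1)) ⊕ Fin 2) F) :
        Matrix ((Fin (d - 1) ⊕ Fin (d - 1)) ⊕ Fin 2) ((Fin (d - 1) ⊕ Fin (d - 1)) ⊕ Fin 2) F)
        = (1 : F) • (1 : Matrix ((Fin (d - 1) ⊕ Fin (d - 1)) ⊕ Fin 2)
          ((Fin (d - 1) ⊕ Fin (d - 1)) ⊕ Fin 2) F) := by
    intro y n hy
    rw [← Subgroup.coe_pow, hy, one_smul]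
    rfl
  constructor
  · intro hall
    by_contra hr2
    have hN := card_minus_nonsing_points (F := F) d (by omega) a b hab
    rw [hN] at hrΩ
    have hdiv : r ∣ Fintype.card F ^ d + 1 := by
      rcases (Nat.Prime.dvd_mul (Fact.out : r.Prime)).mp hrΩ with h1 | h1
      · exfalso
        have h2 := (Fact.out : r.Prime).dvd_of_dvd_pow h1
        obtain ⟨n, -, hn⟩ := FiniteField.card F 2
        rw [hn] at h2
        have h3 := (Fact.out : r.Prime).dvd_of_dvd_pow h2
        exact hr2 ((Nat.prime_dvd_prime_iff_eq (Fact.out : r.Prime) Nat.prime_two).mp h3)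
      · exact h1
    haveI : NeZero (2 * d) := ⟨by omega⟩
    obtain ⟨Q', ζ, hQ', hζ, hζQ⟩ := exists_singer_quad (F := F) (2 * d) d rfl r hdiv
    have hV : Module.finrank F (FiniteField.Extension F 2 (2 * d)) = 2 * d :=
      FiniteField.finrank_extension F 2 (2 * d)
    have hζ1 : (ζ : FiniteField.Extension F 2 (2 * d)) - 1 ≠ 0 := by
      intro h
      have h2 : ζ = 1 := Units.ext (sub_eq_zero.mp h)
      rw [h2, orderOf_one] at hζ
      exact (Fact.out : r.Prime).ne_one hζ.symm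
    have hζfix : ∀ v : FiniteField.Extension F 2 (2 * d),
        (ζ : FiniteField.Extension F 2 (2 * d)) * v = v → v = 0 := by
      intro v hv
      have h1 : ((ζ : FiniteField.Extension F 2 (2 * d)) - 1) * v = 0 := by
        rw [sub_mul, hv, one_mul, sub_self]
      rcases mul_eq_zero.mp h1 with h | h
      · exact absurd h hζ1
      · exact h
    rcases quad_classify hV Q' hQ' with ⟨g, hg⟩ | ⟨k, ζ₀, hk, hζ₀, g, hg⟩
    · -- plus type is impossible
      have hiter : ∀ (j : ℕ) (w : Fin d ⊕ Fin d → F),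
          (⇑(g.symm.toEquiv.trans ((Equiv.mulLeft₀ (ζ : FiniteField.Extension F 2 (2 * d))
            (Units.ne_zero ζ)).trans g.toEquiv)))^[j] w
            = g (((ζ ^ j : (FiniteField.Extension F 2 (2 * d))ˣ) :
              FiniteField.Extension F 2 (2 * d)) * g.symm w) := by
        intro j
        induction j with
        | zero =>
          intro w
          rw [Function.iterate_zero, id, pow_zero, Units.val_one, one_mul,
            LinearEquiv.apply_symm_apply]
        | succ j ih =>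
          intro w
          rw [Function.iterate_succ_apply', ih]
          show g ((ζ : FiniteField.Extension F 2 (2 * d)) * g.symm (g _)) = _
          rw [LinearEquiv.symm_apply_apply, pow_succ', Units.val_mul, mul_assoc]
      refine plus_no_fpf d (by omega) r hr2 hdiv
        (g.symm.toEquiv.trans ((Equiv.mulLeft₀ (ζ : FiniteField.Extension F 2 (2 * d))
          (Units.ne_zero ζ)).trans g.toEquiv)) ?_ ?_ ?_ ?_
      · show g ((ζ : FiniteField.Extension F 2 (2 * d)) * g.symm 0) = 0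
        rw [map_zero, mul_zero, map_zero]
      · intro w
        show Cfsg.quadFormPlus d F (g ((ζ : FiniteField.Extension F 2 (2 * d)) * g.symm w)) = _
        rw [← hg, hζQ, hg, LinearEquiv.apply_symm_apply]
      · intro w
        rw [hiter, ← hζ, pow_orderOf_eq_one, Units.val_one, one_mul, LinearEquiv.apply_symm_apply]
      · intro w hw
        have h1 : (ζ : FiniteField.Extension F 2 (2 * d)) * g.symm w = g.symm w := by
          apply g.injective
          rw [LinearEquiv.apply_symm_apply]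
          exact hw
        exact (LinearEquiv.map_eq_zero_iff g.symm).mp (hζfix _ h1)
    · -- minus type
      have hk' : k = d - 1 := by omega
      subst hk'
      obtain ⟨T, hT⟩ := minus_to_ab (d - 1) a b hab ζ₀ hζ₀
      obtain ⟨h, hh⟩ : ∃ h : FiniteField.Extension F 2 (2 * d) ≃ₗ[F]
          ((Fin (d - 1) ⊕ Fin (d - 1)) ⊕ Fin 2 → F),
          ∀ v, Cfsg.Agent.S2679.qMg F (d - 1) a b (h v) = Q' v :=
        ⟨g.trans T, fun v => by
          rw [LinearEquiv.trans_apply, Cfsg.Agent.S2679.qMg_apply, hT, hg]⟩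
      obtain ⟨ρ, hρ⟩ : ∃ ρ : (FiniteField.Extension F 2 (2 * d))ˣ →*
          Module.End F (FiniteField.Extension F 2 (2 * d)),
          ∀ u v, ρ u v = (u : FiniteField.Extension F 2 (2 * d)) * v :=
        ⟨((Algebra.lmul F (FiniteField.Extension F 2 (2 * d)) :
            FiniteField.Extension F 2 (2 * d) →ₐ[F] Module.End F _) :
            FiniteField.Extension F 2 (2 * d) →* Module.End F _).comp (Units.coeHom _),
          fun u v => rfl⟩
      have hmemI : (matHom ρ h).toHomUnits ζ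
          ∈ Cfsg.isometryGroup F ⇑(Cfsg.Agent.S2679.qMg F (d - 1) a b) := by
        intro w _
        show Cfsg.Agent.S2679.qMg F (d - 1) a b ((matHom ρ h ζ).mulVec w)
          = Cfsg.Agent.S2679.qMg F (d - 1) a b w
        rw [matHom_mulVec, hh, hρ, hζQ, ← hh, LinearEquiv.apply_symm_apply]
      obtain ⟨x, hx⟩ : ∃ x : ↥(Cfsg.isometryGroup F ⇑(Cfsg.Agent.S2679.qMg F (d - 1) a b)),
          x = ⟨(matHom ρ h).toHomUnits ζ, hmemI⟩ := ⟨_, rfl⟩
      have hxmul : ∀ w, (mat (Cfsg.Agent.S2679.qMg F (d - 1) a b) x).mulVec w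
          = h ((ζ : FiniteField.Extension F 2 (2 * d)) * h.symm w) := by
        intro w
        rw [hx]
        show (matHom ρ h ζ).mulVec w = _
        rw [matHom_mulVec, hρ]
      have hxr : x ^ r = 1 := by
        rw [hx]
        apply Subtype.ext
        show (matHom ρ h).toHomUnits ζ ^ r = 1
        rw [← map_pow, ← hζ, pow_orderOf_eq_one, map_one]
      have hxfix : ∀ v, (mat (Cfsg.Agent.S2679.qMg F (d - 1) a b) x).mulVec v = v → v = 0 := by
        intro v hv
        rw [hxmul] at hv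
        have h1 : (ζ : FiniteField.Extension F 2 (2 * d)) * h.symm v = h.symm v := by
          apply h.injective
          rw [hv, LinearEquiv.apply_symm_apply]
        exact (LinearEquiv.map_eq_zero_iff h.symm).mp (hζfix _ h1)
      have hrodd : Odd r := (Fact.out : r.Prime).odd_of_ne_two hr2
      obtain ⟨j, hj⟩ := hrodd
      have hxΩ : x ∈ Cfsg.Omega F ⇑(Cfsg.Agent.S2679.qMg F (d - 1) a b) := by
        have h1 : x = x ^ (j + 1) * x ^ (j + 1) := by
          rw [← pow_add]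
          have h2 : j + 1 + (j + 1) = r + 1 := by omega
          rw [h2, pow_succ, hxr, one_mul]
        rw [h1]
        exact sq_mem_omega h' _ hQ _
      obtain ⟨W, ⟨hW1, v, hvW, hQv⟩, hmap⟩ := hall
        (x : GL ((Fin (d - 1) ⊕ Fin (d - 1)) ⊕ Fin 2) F) (hmem x hxΩ)
        ⟨1, hpow x r hxr⟩ (by
          intro z hz
          have hz1 := scalar_isom_one _ hQ i0 x z hz
          rw [hz1, one_smul] at hz
          obtain ⟨v₁, hv₁⟩ := exists_nonsing (Cfsg.Agent.S2679.qMg F (d - 1) a b) hQ i0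
          have h1 := hxfix v₁ (by
            show (x : GL ((Fin (d - 1) ⊕ Fin (d - 1)) ⊕ Fin 2) F).1.mulVec v₁ = v₁
            rw [hz, Matrix.one_mulVec])
          rw [h1, map_zero] at hv₁
          exact hv₁ rfl)
      have hfix := fix_point_fix_vec (Cfsg.Agent.S2679.qMg F (d - 1) a b) x W hW1 v hvW hQv hmap
      rw [hxfix v hfix, map_zero] at hQv
      exact hQv rfl
  · rintro hr2 x hx ⟨z, hz⟩ hns
    obtain ⟨y, hyΩ, rfl⟩ := Subgroup.mem_map.mp hx
    have hz' : mat (Cfsg.Agent.S2679.qMg F (d - 1) a b) (y ^ 2) = z • 1 := by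
      rw [← hz, hr2]
      rfl
    have hz1 := scalar_isom_one _ hQ i0 (y ^ 2) z hz'
    rw [hz1, one_smul] at hz'
    have hy2 : y ^ 2 = 1 := isom_ext _ (y ^ 2) 1 hz'
    have hy1 : y ≠ 1 := by
      rintro rfl
      exact hns 1 (by rw [one_smul]; rfl)
    have hord : orderOf y = 2 := orderOf_eq_prime hy2 hy1
    have hM := invol_mat_sq (Cfsg.Agent.S2679.qMg F (d - 1) a b) y hord
    by_cases hallv : ∀ v ∈ fixSub (mat (Cfsg.Agent.S2679.qMg F (d - 1) a b) y),
        Cfsg.Agent.S2679.qMg F (d - 1) a b v = 0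
    · exfalso
      have hU := ts_of_forall_fix (Cfsg.Agent.S2679.qMg F (d - 1) a b) hQ _ hM hallv
      exact minus_no_maxTS d (by omega) a b hab _ hU
    · push Not at hallv
      obtain ⟨v, hv, hQv⟩ := hallv
      rw [mem_fixSub] at hv
      have hv0 : v ≠ 0 := by
        rintro rfl
        exact hQv (map_zero _)
      refine ⟨Submodule.span F {v}, ⟨finrank_span_singleton hv0, v,
        Submodule.mem_span_singleton_self v, hQv⟩, ?_⟩
      rw [Submodule.map_le_iff_le_comap, Submodule.span_singleton_le_iff_mem,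
        Submodule.mem_comap, Matrix.toLin'_apply]
      show ((y : GL ((Fin (d - 1) ⊕ Fin (d - 1)) ⊕ Fin 2) F) :
          Matrix ((Fin (d - 1) ⊕ Fin (d - 1)) ⊕ Fin 2)
            ((Fin (d - 1) ⊕ Fin (d - 1)) ⊕ Fin 2) F).mulVec v ∈ Submodule.span F {v}
      have hv' : ((y : GL ((Fin (d - 1) ⊕ Fin (d - 1)) ⊕ Fin 2) F) :
          Matrix ((Fin (d - 1) ⊕ Fin (d - 1)) ⊕ Fin 2)
            ((Fin (d - 1) ⊕ Fin (d - 1)) ⊕ Fin 2) F).mulVec v = v := hv
      rw [hv']
      exact Submodule.mem_span_singleton_self v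

end MainMinus

end Cfsg.Agent.Lib.helper4
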