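import Mathlib
import Cfsg.Agent.Lib.helper4.OrthSimple

set_option autoImplicit false

/-!
# Maximality of the stabiliser of a totally singular subspace in `Ω`

`KOrb` (orbit of the points of `W` under an overgroup `K` of the stabiliser), `ts_stab_core`,
`ts_stab_max`.
-/

namespace Cfsg.Agent.Lib.helper4

open Cfsg.Agent.Lib.helper13

section OrthTSMax

variable {F : Type*} [Field F] {ι : Type} [Fintype ι] [DecidableEq ι]

/-- `y` spans a point in the `K`-orbit of a point of `W` -/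
def KOrb (Q : QuadraticForm F (ι → F)) (K : Subgroup ↥(Cfsg.isometryGroup F ⇑Q))
    (W : Submodule F (ι → F)) (y : ι → F) : Prop :=
  ∃ k ∈ K, ∃ c : F, c ≠ 0 ∧ ∃ e ∈ W, e ≠ 0 ∧ (mat Q k).mulVec e = c • y

lemma KOrb_sing (Q : QuadraticForm F (ι → F)) (K : Subgroup ↥(Cfsg.isometryGroup F ⇑Q))
    (W : Submodule F (ι → F)) (hW : ∀ w ∈ W, Q w = 0) (y : ι → F) (h : KOrb Q K W y) :
    Q y = 0 := by
  obtain ⟨k, hk, c, hc, e, he, he0, hke⟩ := h
  have h1 := isom_pres Q k e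
  rw [show ((k : Matrix.GeneralLinearGroup ι F) : Matrix ι ι F).mulVec e = c • y from hke,
    QuadraticMap.map_smul, hW e he, smul_eq_mul] at h1
  exact (mul_eq_zero.mp h1).resolve_left (mul_ne_zero hc hc)

lemma KOrb_of_mem (Q : QuadraticForm F (ι → F)) (K : Subgroup ↥(Cfsg.isometryGroup F ⇑Q))
    (W : Submodule F (ι → F)) (e : ι → F) (he : e ∈ W) (he0 : e ≠ 0) : KOrb Q K W e :=
  ⟨1, one_mem _, 1, one_ne_zero, e, he, he0, by rw [mat_one, Matrix.one_mulVec, one_smul]⟩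

lemma KOrb_of_smul (Q : QuadraticForm F (ι → F)) (K : Subgroup ↥(Cfsg.isometryGroup F ⇑Q))
    (W : Submodule F (ι → F)) (y : ι → F) (t : F) (ht : t ≠ 0) (h : KOrb Q K W (t • y)) :
    KOrb Q K W y := by
  obtain ⟨k, hk, c, hc, e, he, he0, hke⟩ := h
  exact ⟨k, hk, c * t, mul_ne_zero hc ht, e, he, he0, by rw [hke, smul_smul]⟩

lemma KOrb_stab (Q : QuadraticForm F (ι → F)) (K : Subgroup ↥(Cfsg.isometryGroup F ⇑Q))
    (W : Submodule F (ι → F)) (g : ↥(Cfsg.isometryGroup F ⇑Q)) (hg : g ∈ K) (x : ι → F)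
    (h : KOrb Q K W x) : KOrb Q K W ((mat Q g).mulVec x) := by
  obtain ⟨k, hk, c, hc, e, he, he0, hke⟩ := h
  exact ⟨g * k, mul_mem hg hk, c, hc, e, he, he0, by
    rw [mat_mul, ← Matrix.mulVec_mulVec, hke, Matrix.mulVec_smul]⟩

/-- the root group of a point of the orbit lies in `K` -/
lemma KOrb_root [Fintype F] (hn : 5 ≤ Fintype.card ι) (Q : QuadraticForm F (ι → F))
    (hQ : (QuadraticMap.polarBilin Q).Nondegenerate) (K : Subgroup ↥(Cfsg.isometryGroup F ⇑Q))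
    (W : Submodule F (ι → F)) (hW : ∀ w ∈ W, Q w = 0)
    (hHK : ∀ g ∈ Cfsg.Omega F ⇑Q, (∀ w ∈ W, (mat Q g).mulVec w ∈ W) → g ∈ K)
    (y : ι → F) (hy : KOrb Q K W y) (u : ι → F) (hyu : QuadraticMap.polar (⇑Q) y u = 0) :
    sigEl Q y u ∈ K := by
  have hQy := KOrb_sing Q K W hW y hy
  obtain ⟨k, hk, c, hc, e, he, he0, hke⟩ := hy
  have hQe := hW e he
  obtain ⟨u', hu'⟩ : ∃ u', u' = (mat Q k⁻¹).mulVec (c⁻¹ • u) := ⟨_, rfl⟩
  have hku' : (mat Q k).mulVec u' = c⁻¹ • u := by rw [hu', mat_mulVec_inv]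
  have heu' : QuadraticMap.polar (⇑Q) e u' = 0 := by
    have h3 := isom_polar Q k e u'
    rw [show ((k : Matrix.GeneralLinearGroup ι F) : Matrix ι ι F).mulVec e = c • y from hke,
      show ((k : Matrix.GeneralLinearGroup ι F) : Matrix ι ι F).mulVec u' = c⁻¹ • u from hku',
      QuadraticMap.polar_smul_left, QuadraticMap.polar_smul_right, hyu] at h3
    rw [← h3]
    simp
  have e1 : sigEl Q y u = k * sigEl Q e u' * k⁻¹ := by
    rw [sig_conj Q k e u' hQe heu', hke, hku',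
      sig_smul Q y (c⁻¹ • u) c hQy (by rw [QuadraticMap.polar_smul_right, hyu, smul_zero]),
      smul_smul, mul_inv_cancel₀ hc, one_smul]
  have h2 : sigEl Q e u' ∈ K := by
    apply hHK _ (sig_mem_omega hn Q hQ e u' hQe heu')
    intro w hw
    rw [sigEl_mulVec Q e u' hQe heu', ts_polar_zero Q W hW e w he hw]
    simp only [zero_smul, add_zero, mul_zero]
    exact W.sub_mem hw (W.smul_mem _ he)
  rw [e1]
  exact mul_mem (mul_mem hk h2) (inv_mem hk)

lemma KOrb_move [Fintype F] (hn : 5 ≤ Fintype.card ι) (Q : QuadraticForm F (ι → F))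
    (hQ : (QuadraticMap.polarBilin Q).Nondegenerate) (K : Subgroup ↥(Cfsg.isometryGroup F ⇑Q))
    (W : Submodule F (ι → F)) (hW : ∀ w ∈ W, Q w = 0)
    (hHK : ∀ g ∈ Cfsg.Omega F ⇑Q, (∀ w ∈ W, (mat Q g).mulVec w ∈ W) → g ∈ K)
    (b x y : ι → F) (hQy : Q y = 0) (hb : KOrb Q K W b) (hx : KOrb Q K W x)
    (hbx : QuadraticMap.polar (⇑Q) b x ≠ 0) (hby : QuadraticMap.polar (⇑Q) b y ≠ 0) :
    KOrb Q K W y := by
  have hQb := KOrb_sing Q K W hW b hb
  have hQx := KOrb_sing Q K W hW x hx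
  obtain ⟨p, hp⟩ : ∃ p, p = QuadraticMap.polar (⇑Q) b x := ⟨_, rfl⟩
  obtain ⟨q, hq⟩ : ∃ q, q = QuadraticMap.polar (⇑Q) b y := ⟨_, rfl⟩
  rw [← hp] at hbx
  rw [← hq] at hby
  obtain ⟨w, hw⟩ : ∃ w, w = p⁻¹ • ((p / q) • y - x) := ⟨_, rfl⟩
  have hbw : QuadraticMap.polar (⇑Q) b w = 0 := by
    rw [hw, QuadraticMap.polar_smul_right, QuadraticMap.polar_sub_right,
      QuadraticMap.polar_smul_right, ← hp, ← hq, smul_eq_mul, smul_eq_mul, div_mul_cancel₀ _ hby,
      sub_self, mul_zero]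
  have hxx : QuadraticMap.polar (⇑Q) x x = 0 := by rw [polar_self_eq, hQx, mul_zero]
  have hgK : sigEl Q b w ∈ K := KOrb_root hn Q hQ K W hW hHK b hb w hbw
  have hcoef : QuadraticMap.polar (⇑Q) w x + Q w * QuadraticMap.polar (⇑Q) b x = 0 := by
    rw [hw, QuadraticMap.polar_smul_left, QuadraticMap.polar_sub_left,
      QuadraticMap.polar_smul_left, QuadraticMap.map_smul, Q_sub, QuadraticMap.map_smul, hQy, hQx,
      hxx, QuadraticMap.polar_smul_left, ← hp]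
    simp only [smul_eq_mul]
    field_simp
    ring
  have hgx : (mat Q (sigEl Q b w)).mulVec x = (p / q) • y := by
    rw [sigEl_mulVec Q b w hQb hbw, hcoef, zero_smul, sub_zero, ← hp, hw, smul_smul,
      mul_inv_cancel₀ hbx, one_smul]
    abel
  have h1 := KOrb_stab Q K W _ hgK x hx
  rw [hgx] at h1
  exact KOrb_of_smul Q K W y (p / q) (div_ne_zero hbx hby) h1

lemma KOrb_all_of_pair [Fintype F] (hn : 5 ≤ Fintype.card ι) (Q : QuadraticForm F (ι → F))
    (hQ : (QuadraticMap.polarBilin Q).Nondegenerate) (K : Subgroup ↥(Cfsg.isometryGroup F ⇑Q))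
    (W : Submodule F (ι → F)) (hW : ∀ w ∈ W, Q w = 0)
    (hHK : ∀ g ∈ Cfsg.Omega F ⇑Q, (∀ w ∈ W, (mat Q g).mulVec w ∈ W) → g ∈ K)
    (x₁ x₂ : ι → F) (hx₁ : KOrb Q K W x₁) (hx₂ : KOrb Q K W x₂)
    (hx₁x₂ : QuadraticMap.polar (⇑Q) x₁ x₂ ≠ 0) (y : ι → F) (hy0 : y ≠ 0) (hQy : Q y = 0) :
    KOrb Q K W y := by
  have hQx₁ := KOrb_sing Q K W hW x₁ hx₁
  have hx₁0 : x₁ ≠ 0 := by
    rintro rfl
    exact hx₁x₂ (QuadraticMap.polar_zero_left Q x₂)
  by_cases h : QuadraticMap.polar (⇑Q) x₁ y = 0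
  · obtain ⟨z, hQz, hzx₁, hzy⟩ := exists_sing_nonperp Q hQ x₁ y hx₁0 hy0 hQx₁ hQy h
    have hz : KOrb Q K W z := KOrb_move hn Q hQ K W hW hHK x₁ x₂ z hQz hx₁ hx₂ hx₁x₂
      (by rw [QuadraticMap.polar_comm]; exact hzx₁)
    exact KOrb_move hn Q hQ K W hW hHK z x₁ y hQy hz hx₁ hzx₁ hzy
  · exact KOrb_move hn Q hQ K W hW hHK x₁ x₂ y hQy hx₁ hx₂ hx₁x₂ h

/-- a subgroup containing the stabiliser in `Ω` of the totally singular subspace `W` and an element
moving `W` contains `Ω` -/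
theorem ts_stab_core [Fintype F] (hn : 5 ≤ Fintype.card ι) (Q : QuadraticForm F (ι → F))
    (hQ : (QuadraticMap.polarBilin Q).Nondegenerate) (K : Subgroup ↥(Cfsg.isometryGroup F ⇑Q))
    (W : Submodule F (ι → F)) (hW : ∀ w ∈ W, Q w = 0)
    (hex : 2 * (Module.finrank F ↥W + 1) = Fintype.card ι →
      ∀ y ∈ orthSub Q W, Q y = 0 → y ∈ W)
    (hHK : ∀ g ∈ Cfsg.Omega F ⇑Q, (∀ w ∈ W, (mat Q g).mulVec w ∈ W) → g ∈ K)
    (g : ↥(Cfsg.isometryGroup F ⇑Q)) (hgK : g ∈ K) (w : ι → F) (hw : w ∈ W)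
    (hgw : (mat Q g).mulVec w ∉ W) : Cfsg.Omega F ⇑Q ≤ K := by
  classical
  have hw0 : w ≠ 0 := by
    rintro rfl
    rw [Matrix.mulVec_zero] at hgw
    exact hgw W.zero_mem
  obtain ⟨y₁, hy₁def⟩ : ∃ y₁, y₁ = (mat Q g).mulVec w := ⟨_, rfl⟩
  rw [← hy₁def] at hgw
  have hy₁ : KOrb Q K W y₁ := by
    rw [hy₁def]
    exact KOrb_stab Q K W g hgK w (KOrb_of_mem Q K W w hw hw0)
  have hQy₁ := KOrb_sing Q K W hW y₁ hy₁
  -- a non-orthogonal pair in the orbit
  have hpair : ∃ x₁ x₂ : ι → F, KOrb Q K W x₁ ∧ KOrb Q K W x₂ ∧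
      QuadraticMap.polar (⇑Q) x₁ x₂ ≠ 0 := by
    by_cases hperp : y₁ ∈ orthSub Q W
    swap
    · rw [mem_orthSub] at hperp
      push Not at hperp
      obtain ⟨w', hw', hw'y⟩ := hperp
      have hw'0 : w' ≠ 0 := by
        rintro rfl
        exact hw'y (QuadraticMap.polar_zero_left Q y₁)
      exact ⟨w', y₁, KOrb_of_mem Q K W w' hw' hw'0, hy₁, hw'y⟩
    have hy₁W : ∀ a ∈ W, QuadraticMap.polar (⇑Q) a y₁ = 0 := (mem_orthSub Q W y₁).mp hperp
    obtain ⟨v, hvK, hv⟩ := exists_perp_pairing Q hQ W y₁ hgw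
    have hvW : ∀ a ∈ W, QuadraticMap.polar (⇑Q) a v = 0 := (mem_orthSub Q W v).mp hvK
    have hy₁y₁ : QuadraticMap.polar (⇑Q) y₁ y₁ = 0 := by rw [polar_self_eq, hQy₁, mul_zero]
    obtain ⟨p, hp⟩ : ∃ p, p = QuadraticMap.polar (⇑Q) y₁ v := ⟨_, rfl⟩
    rw [← hp] at hv
    obtain ⟨f, hf⟩ : ∃ f, f = v - (Q v / p) • y₁ := ⟨_, rfl⟩
    have hQf : Q f = 0 := by
      rw [hf, Q_sub, QuadraticMap.map_smul, hQy₁, QuadraticMap.polar_smul_right,
        QuadraticMap.polar_comm (⇑Q) v y₁, ← hp]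
      simp only [smul_eq_mul]
      field_simp
      ring
    have hfW : ∀ a ∈ W, QuadraticMap.polar (⇑Q) a f = 0 := by
      intro a ha
      rw [hf, QuadraticMap.polar_sub_right, QuadraticMap.polar_smul_right, hvW a ha, hy₁W a ha]
      simp
    have hfy₁ : QuadraticMap.polar (⇑Q) f y₁ = p := by
      rw [hf, QuadraticMap.polar_sub_left, QuadraticMap.polar_smul_left, hy₁y₁,
        QuadraticMap.polar_comm (⇑Q) v y₁, ← hp]
      simp
    have hfnW : f ∉ W := by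
      intro hfW'
      apply hv
      rw [← hfy₁]
      exact hy₁W f hfW'
    -- `W ⊔ ⟨f⟩` is totally singular of dimension `dim W + 1`
    have hTS : ∀ z ∈ W ⊔ Submodule.span F {f}, Q z = 0 := by
      intro z hz
      obtain ⟨a, ha, b, hb, rfl⟩ := Submodule.mem_sup.mp hz
      obtain ⟨t, rfl⟩ := Submodule.mem_span_singleton.mp hb
      rw [Q_add, hW a ha, QuadraticMap.map_smul, hQf, QuadraticMap.polar_smul_right, hfW a ha]
      simp
    have hlt : W < W ⊔ Submodule.span F {f} := by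
      rw [SetLike.lt_iff_le_and_exists]
      exact ⟨le_sup_left, f, Submodule.mem_sup_right (Submodule.mem_span_singleton_self f), hfnW⟩
    have hfr1 := Submodule.finrank_lt_finrank_of_lt hlt
    have hfr2 : Module.finrank F ↥(W ⊔ Submodule.span F {f}) ≤ Module.finrank F ↥W + 1 :=
      (Submodule.finrank_add_le_finrank_add_finrank W _).trans
        (Nat.add_le_add_left (finrank_span_single_le f) _)
    have hfr3 : 2 * Module.finrank F ↥(W ⊔ Submodule.span F {f}) ≤ Fintype.card ι := by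
      have h1 := Submodule.finrank_mono (ts_le_orthSub Q _ hTS)
      rw [finrank_orthSub Q hQ] at h1
      omega
    have hfr4 : 2 * Module.finrank F ↥(W ⊔ Submodule.span F {f}) < Fintype.card ι := by
      rcases Nat.lt_or_ge (2 * Module.finrank F ↥(W ⊔ Submodule.span F {f})) (Fintype.card ι)
        with h | h
      · exact h
      · exfalso
        have h5 : 2 * (Module.finrank F ↥W + 1) = Fintype.card ι := by omega
        exact hfnW (hex h5 f ((mem_orthSub Q W f).mpr hfW) hQf)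
    obtain ⟨u, huK, hQu⟩ := exists_nonsing_perp Q hQ _ hfr4
    rw [mem_orthSub] at huK
    have huW : ∀ a ∈ W, QuadraticMap.polar (⇑Q) a u = 0 :=
      fun a ha => huK a (Submodule.mem_sup_left ha)
    have hfu : QuadraticMap.polar (⇑Q) f u = 0 :=
      huK f (Submodule.mem_sup_right (Submodule.mem_span_singleton_self f))
    have hhK : sigEl Q f u ∈ K := by
      apply hHK _ (sig_mem_omega hn Q hQ f u hQf hfu)
      intro a ha
      rw [sigEl_mulVec Q f u hQf hfu, QuadraticMap.polar_comm (⇑Q) f a, hfW a ha,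
        QuadraticMap.polar_comm (⇑Q) u a, huW a ha]
      simpa using ha
    refine ⟨y₁, (mat Q (sigEl Q f u)).mulVec y₁, hy₁, KOrb_stab Q K W _ hhK y₁ hy₁, ?_⟩
    rw [sigEl_mulVec Q f u hQf hfu, QuadraticMap.polar_sub_right, QuadraticMap.polar_add_right,
      QuadraticMap.polar_smul_right, QuadraticMap.polar_smul_right, hy₁y₁, hfy₁,
      QuadraticMap.polar_comm (⇑Q) y₁ f, hfy₁, QuadraticMap.polar_comm (⇑Q) y₁ u]
    simp only [smul_eq_mul]
    have h2 : 0 + p * QuadraticMap.polar (⇑Q) u y₁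
        - (QuadraticMap.polar (⇑Q) u y₁ + Q u * p) * p = -(Q u * p * p) := by ring
    rw [h2]
    exact neg_ne_zero.mpr (mul_ne_zero (mul_ne_zero hQu hv) hv)
  obtain ⟨x₁, x₂, hx₁, hx₂, hx₁x₂⟩ := hpair
  have hall := KOrb_all_of_pair hn Q hQ K W hW hHK x₁ x₂ hx₁ hx₂ hx₁x₂
  rw [omega_eq_SigGrp hn Q hQ]
  unfold SigGrp
  rw [Subgroup.closure_le]
  rintro x ⟨e, u, hQe, heu, hu, rfl⟩
  by_cases he0 : e = 0
  · rw [he0, sig_zero_left]
    exact one_mem _
  · exact KOrb_root hn Q hQ K W hW hHK e (hall e he0 hQe) u heu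

/-- the stabiliser in `Ω` of a non-zero totally singular subspace `W` is maximal, unless
`dim W = n/2 - 1` and `W` lies in a totally singular subspace of dimension `n/2` -/
theorem ts_stab_max [Fintype F] (hn : 5 ≤ Fintype.card ι) (Q : QuadraticForm F (ι → F))
    (hQ : (QuadraticMap.polarBilin Q).Nondegenerate) (W : Submodule F (ι → F)) (hW0 : W ≠ ⊥)
    (hW : ∀ w ∈ W, Q w = 0)
    (hex : 2 * (Module.finrank F ↥W + 1) = Fintype.card ι →
      ∀ y ∈ orthSub Q W, Q y = 0 → y ∈ W) :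
    Cfsg.Geo.IsMaximalIn (Cfsg.Geo.omegaGL ⇑Q)
      (Cfsg.Geo.subspaceStabilizer W ⊓ Cfsg.Geo.omegaGL ⇑Q) := by
  classical
  constructor
  · rw [SetLike.lt_iff_le_and_exists]
    refine ⟨inf_le_right, ?_⟩
    obtain ⟨w, hwW, hw0⟩ := Submodule.exists_mem_ne_zero_of_ne_bot hW0
    have hQw := hW w hwW
    obtain ⟨f, hQf, hwf⟩ := exists_hyp_partner Q hQ w hw0 hQw
    obtain ⟨u, huK, hQu⟩ := exists_nonsing_perp Q hQ (Submodule.span F {f}) (by
      have := finrank_span_single_le (F := F) f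
      omega)
    have hfu : QuadraticMap.polar (⇑Q) f u = 0 := (mem_orthSub_span Q _ u).mp huK f rfl
    have hfw : QuadraticMap.polar (⇑Q) f w = 1 := by rw [QuadraticMap.polar_comm, hwf]
    refine ⟨(Cfsg.isometryGroup F ⇑Q).subtype (sigEl Q f u),
      ⟨_, sig_mem_omega hn Q hQ f u hQf hfu, rfl⟩, ?_⟩
    rintro ⟨hS, -⟩
    have h1 : (mat Q (sigEl Q f u)).mulVec w ∈ W := (hS w).mp hwW
    rw [sigEl_mulVec Q f u hQf hfu, hfw, one_smul, mul_one] at h1
    have h2 : u - (QuadraticMap.polar (⇑Q) u w + Q u) • f ∈ W := by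
      have h3 : u - (QuadraticMap.polar (⇑Q) u w + Q u) • f
          = (w + u - (QuadraticMap.polar (⇑Q) u w + Q u) • f) - w := by abel
      rw [h3]
      exact W.sub_mem h1 hwW
    have h4 := hW _ h2
    rw [Q_sub, QuadraticMap.map_smul, hQf, QuadraticMap.polar_smul_right,
      QuadraticMap.polar_comm (⇑Q) u f, hfu] at h4
    simp only [smul_eq_mul, mul_zero, add_zero, sub_zero] at h4
    exact hQu h4
  · intro M hHM hMΩ
    by_cases hMH : M ≤ Cfsg.Geo.subspaceStabilizer W ⊓ Cfsg.Geo.omegaGL ⇑Q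
    · left
      exact le_antisymm hMH hHM
    right
    apply le_antisymm hMΩ
    obtain ⟨g₀, hg₀M, hg₀H⟩ := SetLike.not_le_iff_exists.mp hMH
    obtain ⟨g, hgΩ, rfl⟩ := hMΩ hg₀M
    have hgS : (Cfsg.isometryGroup F ⇑Q).subtype g ∉ Cfsg.Geo.subspaceStabilizer W :=
      fun h => hg₀H ⟨h, hMΩ hg₀M⟩
    obtain ⟨w, hw, hgw⟩ : ∃ w ∈ W, (mat Q g).mulVec w ∉ W := by
      by_contra hcon
      push Not at hcon
      exact hgS (mem_subStab_of_maps _ W hcon)
    have hcore := ts_stab_core hn Q hQ (M.comap (Cfsg.isometryGroup F ⇑Q).subtype) W hW hex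
      (by
        intro k hk hkW
        rw [Subgroup.mem_comap]
        exact hHM ⟨mem_subStab_of_maps _ W hkW, ⟨k, hk, rfl⟩⟩)
      g hg₀M w hw hgw
    rintro x ⟨k, hk, rfl⟩
    exact hcore hk

end OrthTSMax

end Cfsg.Agent.Lib.helper4
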