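import Mathlib
import Cfsg.Agent.Lib.helper4.OrthTSMax

set_option autoImplicit false

/-!
# Subgroups of the orthogonal group containing full root groups

`RootIn`, `RootIn_of_smul`, `RootIn_stab`, `RootIn_move`, `RootIn_all_of_pair`,
`omega_le_of_root_pair`, `nonsing_stab_core`, `nonsing_stab_max`.
-/

namespace Cfsg.Agent.Lib.helper4

open Cfsg.Agent.Lib.helper13

section OrthRoot

variable {F : Type*} [Field F] {ι : Type} [Fintype ι] [DecidableEq ι]

/-- the full root group of the singular vector `e` lies in `K` -/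
def RootIn (Q : QuadraticForm F (ι → F)) (K : Subgroup ↥(Cfsg.isometryGroup F ⇑Q))
    (e : ι → F) : Prop :=
  Q e = 0 ∧ ∀ u : ι → F, QuadraticMap.polar (⇑Q) e u = 0 → sigEl Q e u ∈ K

lemma RootIn_of_smul (Q : QuadraticForm F (ι → F)) (K : Subgroup ↥(Cfsg.isometryGroup F ⇑Q))
    (y : ι → F) (t : F) (ht : t ≠ 0) (h : RootIn Q K (t • y)) : RootIn Q K y := by
  obtain ⟨h1, h2⟩ := h
  have hQy : Q y = 0 := by
    rw [QuadraticMap.map_smul, smul_eq_mul] at h1
    exact (mul_eq_zero.mp h1).resolve_left (mul_ne_zero ht ht)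
  refine ⟨hQy, fun u hu => ?_⟩
  have h3 := h2 (t⁻¹ • u) (by
    rw [QuadraticMap.polar_smul_left, QuadraticMap.polar_smul_right, hu, smul_zero, smul_zero])
  rw [sig_smul Q y (t⁻¹ • u) t hQy (by rw [QuadraticMap.polar_smul_right, hu, smul_zero]),
    smul_smul, mul_inv_cancel₀ ht, one_smul] at h3
  exact h3

lemma RootIn_stab (Q : QuadraticForm F (ι → F)) (K : Subgroup ↥(Cfsg.isometryGroup F ⇑Q))
    (g : ↥(Cfsg.isometryGroup F ⇑Q)) (hg : g ∈ K) (x : ι → F) (h : RootIn Q K x) :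
    RootIn Q K ((mat Q g).mulVec x) := by
  obtain ⟨h1, h2⟩ := h
  refine ⟨by rw [isom_pres]; exact h1, fun u hu => ?_⟩
  obtain ⟨u', hu'⟩ : ∃ u', u' = (mat Q g⁻¹).mulVec u := ⟨_, rfl⟩
  have hgu' : (mat Q g).mulVec u' = u := by rw [hu', mat_mulVec_inv]
  have hxu' : QuadraticMap.polar (⇑Q) x u' = 0 := by
    have h3 := isom_polar Q g x u'
    rw [show ((g : Matrix.GeneralLinearGroup ι F) : Matrix ι ι F).mulVec u' = u from hgu'] at h3
    rw [← h3]
    exact hu
  have e1 : sigEl Q ((mat Q g).mulVec x) u = g * sigEl Q x u' * g⁻¹ := by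
    rw [sig_conj Q g x u' h1 hxu', hgu']
  rw [e1]
  exact mul_mem (mul_mem hg (h2 u' hxu')) (inv_mem hg)

lemma RootIn_move (Q : QuadraticForm F (ι → F)) (K : Subgroup ↥(Cfsg.isometryGroup F ⇑Q))
    (b x y : ι → F) (hQy : Q y = 0) (hb : RootIn Q K b) (hx : RootIn Q K x)
    (hbx : QuadraticMap.polar (⇑Q) b x ≠ 0) (hby : QuadraticMap.polar (⇑Q) b y ≠ 0) :
    RootIn Q K y := by
  have hQb := hb.1
  have hQx := hx.1
  obtain ⟨p, hp⟩ : ∃ p, p = QuadraticMap.polar (⇑Q) b x := ⟨_, rfl⟩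
  obtain ⟨q, hq⟩ : ∃ q, q = QuadraticMap.polar (⇑Q) b y := ⟨_, rfl⟩
  rw [← hp] at hbx
  rw [← hq] at hby
  obtain ⟨w, hw⟩ : ∃ w, w = p⁻¹ • ((p / q) • y - x) := ⟨_, rfl⟩
  have hbw : QuadraticMap.polar (⇑Q) b w = 0 := by
    rw [hw, QuadraticMap.polar_smul_right, QuadraticMap.polar_sub_right,
      QuadraticMap.polar_smul_right, ← hp, ← hq, smul_eq_mul, smul_eq_mul, div_mul_cancel₀ _ hby,
      sub_self, mul_zero]
  have hxx : QuadraticMap.polar (⇑Q) x x = 0 := by rw [polar_self_eq, hQx, mul_zero]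
  have hgK : sigEl Q b w ∈ K := hb.2 w hbw
  have hcoef : QuadraticMap.polar (⇑Q) w x + Q w * QuadraticMap.polar (⇑Q) b x = 0 := by
    rw [hw, QuadraticMap.polar_smul_left, QuadraticMap.polar_sub_left,
      QuadraticMap.polar_smul_left, QuadraticMap.map_smul, Q_sub, QuadraticMap.map_smul, hQy, hQx,
      hxx, QuadraticMap.polar_smul_left, ← hp]
    simp only [smul_eq_mul]
    field_simp
    ring
  have hgx : (mat Q (sigEl Q b w)).mulVec x = (p / q) • y := by
    rw [sigEl_mulVec Q b w hQb hbw, hcoef, zero_smul, sub_zero, ← hp, hw, smul_smul,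
      mul_inv_cancel₀ hbx, one_smul]
    abel
  have h1 := RootIn_stab Q K _ hgK x hx
  rw [hgx] at h1
  exact RootIn_of_smul Q K y (p / q) (div_ne_zero hbx hby) h1

lemma RootIn_all_of_pair (Q : QuadraticForm F (ι → F))
    (hQ : (QuadraticMap.polarBilin Q).Nondegenerate) (K : Subgroup ↥(Cfsg.isometryGroup F ⇑Q))
    (x₁ x₂ : ι → F) (hx₁ : RootIn Q K x₁) (hx₂ : RootIn Q K x₂)
    (hx₁x₂ : QuadraticMap.polar (⇑Q) x₁ x₂ ≠ 0) (y : ι → F) (hy0 : y ≠ 0) (hQy : Q y = 0) :
    RootIn Q K y := by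
  have hQx₁ := hx₁.1
  have hx₁0 : x₁ ≠ 0 := by
    rintro rfl
    exact hx₁x₂ (QuadraticMap.polar_zero_left Q x₂)
  by_cases h : QuadraticMap.polar (⇑Q) x₁ y = 0
  · obtain ⟨z, hQz, hzx₁, hzy⟩ := exists_sing_nonperp Q hQ x₁ y hx₁0 hy0 hQx₁ hQy h
    have hz : RootIn Q K z := RootIn_move Q K x₁ x₂ z hQz hx₁ hx₂ hx₁x₂
      (by rw [QuadraticMap.polar_comm]; exact hzx₁)
    exact RootIn_move Q K z x₁ y hQy hz hx₁ hzx₁ hzy
  · exact RootIn_move Q K x₁ x₂ y hQy hx₁ hx₂ hx₁x₂ h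

/-- a subgroup containing the root groups of two non-orthogonal singular vectors contains `Ω` -/
theorem omega_le_of_root_pair [Fintype F] (hn : 5 ≤ Fintype.card ι) (Q : QuadraticForm F (ι → F))
    (hQ : (QuadraticMap.polarBilin Q).Nondegenerate) (K : Subgroup ↥(Cfsg.isometryGroup F ⇑Q))
    (x₁ x₂ : ι → F) (hx₁ : RootIn Q K x₁) (hx₂ : RootIn Q K x₂)
    (hx₁x₂ : QuadraticMap.polar (⇑Q) x₁ x₂ ≠ 0) : Cfsg.Omega F ⇑Q ≤ K := by
  have hall := RootIn_all_of_pair Q hQ K x₁ x₂ hx₁ hx₂ hx₁x₂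
  rw [omega_eq_SigGrp hn Q hQ]
  unfold SigGrp
  rw [Subgroup.closure_le]
  rintro x ⟨e, u, hQe, heu, hu, rfl⟩
  by_cases he0 : e = 0
  · rw [he0, sig_zero_left]
    exact one_mem _
  · exact (hall e he0 hQe).2 u heu

/-- Siegel elements fixing `v` lie in a subgroup containing the stabiliser of `v` in `Ω` -/
lemma sig_mem_of_fix [Fintype F] (hn : 5 ≤ Fintype.card ι) (Q : QuadraticForm F (ι → F))
    (hQ : (QuadraticMap.polarBilin Q).Nondegenerate) (K : Subgroup ↥(Cfsg.isometryGroup F ⇑Q))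
    (v : ι → F) (hHK : ∀ g ∈ Cfsg.Omega F ⇑Q, (mat Q g).mulVec v = v → g ∈ K)
    (e u : ι → F) (hQe : Q e = 0) (heu : QuadraticMap.polar (⇑Q) e u = 0)
    (hev : QuadraticMap.polar (⇑Q) e v = 0) (huv : QuadraticMap.polar (⇑Q) u v = 0) :
    sigEl Q e u ∈ K := by
  apply hHK _ (sig_mem_omega hn Q hQ e u hQe heu)
  rw [sigEl_mulVec Q e u hQe heu, hev, huv]
  simp

/-- a subgroup containing the stabiliser in `Ω` of the non-singular vector `v` and an element
moving the line of `v` contains `Ω` -/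
theorem nonsing_stab_core [Fintype F] (hn : 7 ≤ Fintype.card ι) (Q : QuadraticForm F (ι → F))
    (hQ : (QuadraticMap.polarBilin Q).Nondegenerate) (K : Subgroup ↥(Cfsg.isometryGroup F ⇑Q))
    (v : ι → F) (hv : Q v ≠ 0)
    (hHK : ∀ g ∈ Cfsg.Omega F ⇑Q, (mat Q g).mulVec v = v → g ∈ K)
    (g : ↥(Cfsg.isometryGroup F ⇑Q)) (hgK : g ∈ K)
    (hgv : (mat Q g).mulVec v ∉ Submodule.span F {v}) : Cfsg.Omega F ⇑Q ≤ K := by
  classical
  have hn5 : 5 ≤ Fintype.card ι := by omega
  obtain ⟨w, hw⟩ : ∃ w, w = (mat Q g).mulVec v := ⟨_, rfl⟩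
  rw [← hw] at hgv
  have hroot : ∀ e : ι → F, Q e = 0 → QuadraticMap.polar (⇑Q) e v = 0 →
      QuadraticMap.polar (⇑Q) e w = 0 → e ∉ Submodule.span F {v, w} → RootIn Q K e := by
    intro e hQe hev hew hesp
    refine ⟨hQe, fun u heu => ?_⟩
    have hvK : v ∉ Submodule.span F {e, w} := by
      intro hmem
      obtain ⟨α, β, hαβ⟩ := Submodule.mem_span_pair.mp hmem
      by_cases hβ : β = 0
      · rw [hβ, zero_smul, add_zero] at hαβ
        apply hv
        rw [← hαβ, QuadraticMap.map_smul, hQe, smul_zero]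
      · by_cases hα : α = 0
        · apply hgv
          rw [hα, zero_smul, zero_add] at hαβ
          rw [Submodule.mem_span_singleton]
          exact ⟨β⁻¹, by rw [← hαβ, smul_smul, inv_mul_cancel₀ hβ, one_smul]⟩
        · apply hesp
          rw [Submodule.mem_span_pair]
          refine ⟨α⁻¹, -(α⁻¹ * β), ?_⟩
          rw [← hαβ, smul_add, smul_smul, smul_smul, inv_mul_cancel₀ hα, one_smul, neg_smul]
          abel
    obtain ⟨a, haK, hva⟩ := exists_perp_pairing Q hQ (Submodule.span F {e, w}) v hvK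
    rw [mem_orthSub_span] at haK
    have hea : QuadraticMap.polar (⇑Q) e a = 0 := haK e (by simp)
    have hwa : QuadraticMap.polar (⇑Q) w a = 0 := haK w (by simp)
    have hav : QuadraticMap.polar (⇑Q) a v ≠ 0 := by
      rw [QuadraticMap.polar_comm]
      exact hva
    obtain ⟨c, hc⟩ : ∃ c, c = QuadraticMap.polar (⇑Q) u v / QuadraticMap.polar (⇑Q) a v :=
      ⟨_, rfl⟩
    have heca : QuadraticMap.polar (⇑Q) e (c • a) = 0 := by
      rw [QuadraticMap.polar_smul_right, hea, smul_zero]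
    have heu1 : QuadraticMap.polar (⇑Q) e (u - c • a) = 0 := by
      rw [QuadraticMap.polar_sub_right, heu, heca, sub_zero]
    have h1 : sigEl Q e (u - c • a) ∈ K := by
      apply sig_mem_of_fix hn5 Q hQ K v hHK e _ hQe heu1 hev
      rw [QuadraticMap.polar_sub_left, QuadraticMap.polar_smul_left, hc, smul_eq_mul,
        div_mul_cancel₀ _ hav, sub_self]
    have h2 : sigEl Q e (c • a) ∈ K := by
      obtain ⟨e', he'⟩ : ∃ e', e' = (mat Q g⁻¹).mulVec e := ⟨_, rfl⟩
      obtain ⟨a', ha'⟩ : ∃ a', a' = (mat Q g⁻¹).mulVec (c • a) := ⟨_, rfl⟩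
      have hge' : ((g : Matrix.GeneralLinearGroup ι F) : Matrix ι ι F).mulVec e' = e := by
        rw [he']
        exact mat_mulVec_inv Q g e
      have hga' : ((g : Matrix.GeneralLinearGroup ι F) : Matrix ι ι F).mulVec a' = c • a := by
        rw [ha']
        exact mat_mulVec_inv Q g (c • a)
      have hgv' : ((g : Matrix.GeneralLinearGroup ι F) : Matrix ι ι F).mulVec v = w := hw.symm
      have hQe' : Q e' = 0 := by
        have h3 := isom_pres Q g e'
        rw [hge'] at h3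
        rw [← h3]
        exact hQe
      have he'a' : QuadraticMap.polar (⇑Q) e' a' = 0 := by
        have h3 := isom_polar Q g e' a'
        rw [hge', hga'] at h3
        rw [← h3]
        exact heca
      have he'v : QuadraticMap.polar (⇑Q) e' v = 0 := by
        have h3 := isom_polar Q g e' v
        rw [hge', hgv'] at h3
        rw [← h3]
        exact hew
      have ha'v : QuadraticMap.polar (⇑Q) a' v = 0 := by
        have h3 := isom_polar Q g a' v
        rw [hga', hgv'] at h3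
        rw [← h3, QuadraticMap.polar_smul_left, QuadraticMap.polar_comm, hwa, smul_zero]
      have h3 := sig_mem_of_fix hn5 Q hQ K v hHK e' a' hQe' he'a' he'v ha'v
      have h4 := sig_conj Q g e' a' hQe' he'a'
      rw [show (mat Q g).mulVec e' = e from hge', show (mat Q g).mulVec a' = c • a from hga'] at h4
      rw [← h4]
      exact mul_mem (mul_mem hgK h3) (inv_mem hgK)
    have h5 := sig_mul Q e (u - c • a) (c • a) hQe heu1 heca
    rw [sub_add_cancel] at h5
    rw [← h5]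
    exact mul_mem h1 h2
  -- a hyperbolic pair of such vectors
  obtain ⟨N, hN⟩ := Submodule.exists_isCompl (Submodule.span F {v, w})
  have hMdim := finrank_orthSub Q hQ (Submodule.span F {v, w})
  have hNdim : Module.finrank F ↥(Submodule.span F {v, w}) + Module.finrank F ↥N
      = Fintype.card ι := by
    have h1 := Submodule.finrank_add_eq_of_isCompl hN
    rwa [Module.finrank_fintype_fun_eq_card] at h1
  have hinf : 3 ≤ Module.finrank F ↥(orthSub Q (Submodule.span F {v, w}) ⊓ N) := by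
    have h1 := Submodule.finrank_sup_add_finrank_inf_eq (orthSub Q (Submodule.span F {v, w})) N
    have h2 : Module.finrank F ↥(orthSub Q (Submodule.span F {v, w}) ⊔ N) ≤ Fintype.card ι := by
      have h3 := Submodule.finrank_le (orthSub Q (Submodule.span F {v, w}) ⊔ N)
      rwa [Module.finrank_fintype_fun_eq_card] at h3
    have h3 := finrank_span_pair_le (F := F) v w
    omega
  obtain ⟨x₁, hx₁mem, hx₁0, hQx₁⟩ := exists_sing_in Q _ hinf
  have hx₁M : x₁ ∈ orthSub Q (Submodule.span F {v, w}) := hx₁mem.1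
  have hx₁N : x₁ ∈ N := hx₁mem.2
  have hx₁sp : x₁ ∉ Submodule.span F {v, w} := by
    intro h
    have h1 : x₁ ∈ Submodule.span F {v, w} ⊓ N := ⟨h, hx₁N⟩
    rw [hN.inf_eq_bot] at h1
    exact hx₁0 ((Submodule.mem_bot F).mp h1)
  obtain ⟨a, haM, hx₁a⟩ := exists_perp_pairing Q hQ (Submodule.span F {v, w}) x₁ hx₁sp
  obtain ⟨p, hp⟩ : ∃ p, p = QuadraticMap.polar (⇑Q) x₁ a := ⟨_, rfl⟩
  rw [← hp] at hx₁a
  obtain ⟨x₂, hx₂⟩ : ∃ x₂, x₂ = a - (Q a / p) • x₁ := ⟨_, rfl⟩
  have hx₁x₁ : QuadraticMap.polar (⇑Q) x₁ x₁ = 0 := by rw [polar_self_eq, hQx₁, mul_zero]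
  have hQx₂ : Q x₂ = 0 := by
    rw [hx₂, Q_sub, QuadraticMap.map_smul, hQx₁, QuadraticMap.polar_smul_right,
      QuadraticMap.polar_comm (⇑Q) a x₁, ← hp]
    simp only [smul_eq_mul]
    field_simp
    ring
  have hx₁x₂ : QuadraticMap.polar (⇑Q) x₁ x₂ = p := by
    rw [hx₂, QuadraticMap.polar_sub_right, QuadraticMap.polar_smul_right, hx₁x₁, ← hp]
    simp
  have hx₂M : x₂ ∈ orthSub Q (Submodule.span F {v, w}) := by
    rw [hx₂]
    exact Submodule.sub_mem _ haM (Submodule.smul_mem _ _ hx₁M)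
  have hx₂sp : x₂ ∉ Submodule.span F {v, w} := by
    intro h
    have h1 := (mem_orthSub Q _ x₁).mp hx₁M x₂ h
    rw [QuadraticMap.polar_comm, hx₁x₂] at h1
    exact hx₁a h1
  have hperp : ∀ x : ι → F, x ∈ orthSub Q (Submodule.span F {v, w}) →
      QuadraticMap.polar (⇑Q) x v = 0 ∧ QuadraticMap.polar (⇑Q) x w = 0 := by
    intro x hx
    rw [mem_orthSub_span] at hx
    exact ⟨by rw [QuadraticMap.polar_comm]; exact hx v (by simp),
      by rw [QuadraticMap.polar_comm]; exact hx w (by simp)⟩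
  refine omega_le_of_root_pair hn5 Q hQ K x₁ x₂
    (hroot x₁ hQx₁ (hperp x₁ hx₁M).1 (hperp x₁ hx₁M).2 hx₁sp)
    (hroot x₂ hQx₂ (hperp x₂ hx₂M).1 (hperp x₂ hx₂M).2 hx₂sp) ?_
  rw [hx₁x₂]
  exact hx₁a

/-- the stabiliser in `Ω` of a non-singular point is a maximal subgroup of `Ω` -/
theorem nonsing_stab_max [Fintype F] (hn : 7 ≤ Fintype.card ι) (Q : QuadraticForm F (ι → F))
    (hQ : (QuadraticMap.polarBilin Q).Nondegenerate) (v : ι → F) (hv : Q v ≠ 0) :
    Cfsg.Geo.IsMaximalIn (Cfsg.Geo.omegaGL ⇑Q)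
      (Cfsg.Geo.subspaceStabilizer (Submodule.span F {v}) ⊓ Cfsg.Geo.omegaGL ⇑Q) := by
  classical
  have hn5 : 5 ≤ Fintype.card ι := by omega
  constructor
  · rw [SetLike.lt_iff_le_and_exists]
    refine ⟨inf_le_right, ?_⟩
    have hdim : 3 ≤ Module.finrank F ↥(orthSub Q (Submodule.span F {v})) := by
      rw [finrank_orthSub Q hQ]
      have := finrank_span_single_le (F := F) v
      omega
    obtain ⟨e, heM, he0, hQe⟩ := exists_sing_in Q _ hdim
    have hve : QuadraticMap.polar (⇑Q) v e = 0 := (mem_orthSub_span Q _ e).mp heM v rfl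
    have hvsp : v ∉ Submodule.span F {e} := by
      intro h
      obtain ⟨c, rfl⟩ := Submodule.mem_span_singleton.mp h
      apply hv
      rw [QuadraticMap.map_smul, hQe, smul_zero]
    obtain ⟨u, huK, hvu⟩ := exists_perp_pairing Q hQ (Submodule.span F {e}) v hvsp
    have heu : QuadraticMap.polar (⇑Q) e u = 0 := (mem_orthSub_span Q _ u).mp huK e rfl
    refine ⟨(Cfsg.isometryGroup F ⇑Q).subtype (sigEl Q e u),
      ⟨_, sig_mem_omega hn5 Q hQ e u hQe heu, rfl⟩, ?_⟩
    rintro ⟨hS, -⟩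
    have h1 : (mat Q (sigEl Q e u)).mulVec v ∈ Submodule.span F {v} :=
      (hS v).mp (Submodule.mem_span_singleton_self v)
    rw [sigEl_mulVec Q e u hQe heu, QuadraticMap.polar_comm (⇑Q) e v, hve] at h1
    simp only [zero_smul, add_zero, mul_zero] at h1
    obtain ⟨c, hc⟩ := Submodule.mem_span_singleton.mp h1
    have ht : QuadraticMap.polar (⇑Q) u v ≠ 0 := by
      rw [QuadraticMap.polar_comm]
      exact hvu
    have h2 : c * QuadraticMap.polar (⇑Q) u v = QuadraticMap.polar (⇑Q) u v := by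
      have h3 := congrArg (fun x => QuadraticMap.polar (⇑Q) u x) hc
      simp only [QuadraticMap.polar_smul_right, QuadraticMap.polar_sub_right,
        QuadraticMap.polar_comm (⇑Q) u e, heu, smul_eq_mul, mul_zero, sub_zero] at h3
      exact h3
    have hc1 : c = 1 := mul_right_cancel₀ ht (h2.trans (one_mul _).symm)
    rw [hc1, one_smul] at hc
    have h3 : QuadraticMap.polar (⇑Q) u v • e = 0 := sub_eq_self.mp hc.symm
    rcases smul_eq_zero.mp h3 with h4 | h4
    · exact ht h4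
    · exact he0 h4
  · intro M hHM hMΩ
    by_cases hMH : M ≤ Cfsg.Geo.subspaceStabilizer (Submodule.span F {v}) ⊓ Cfsg.Geo.omegaGL ⇑Q
    · left
      exact le_antisymm hMH hHM
    right
    apply le_antisymm hMΩ
    obtain ⟨g₀, hg₀M, hg₀H⟩ := SetLike.not_le_iff_exists.mp hMH
    obtain ⟨g, hgΩ, rfl⟩ := hMΩ hg₀M
    have hgS : (Cfsg.isometryGroup F ⇑Q).subtype g
        ∉ Cfsg.Geo.subspaceStabilizer (Submodule.span F {v}) :=
      fun h => hg₀H ⟨h, hMΩ hg₀M⟩
    have hgv : (mat Q g).mulVec v ∉ Submodule.span F {v} := by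
      intro hcon
      apply hgS
      apply mem_subStab_of_maps
      intro x hx
      obtain ⟨c, rfl⟩ := Submodule.mem_span_singleton.mp hx
      rw [Matrix.mulVec_smul]
      exact Submodule.smul_mem _ _ hcon
    have hcore := nonsing_stab_core hn Q hQ (M.comap (Cfsg.isometryGroup F ⇑Q).subtype) v hv
      (by
        intro k hk hkv
        rw [Subgroup.mem_comap]
        refine hHM ⟨mem_subStab_of_maps _ _ ?_, ⟨k, hk, rfl⟩⟩
        intro x hx
        obtain ⟨c, rfl⟩ := Submodule.mem_span_singleton.mp hx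
        rw [Matrix.mulVec_smul]
        exact Submodule.smul_mem _ _ (by
          rw [show (((Cfsg.isometryGroup F ⇑Q).subtype k : Matrix.GeneralLinearGroup ι F)
            : Matrix ι ι F).mulVec v = v from hkv]
          exact Submodule.mem_span_singleton_self v))
      g hg₀M hgv
    rintro x ⟨k, hk, rfl⟩
    exact hcore hk

end OrthRoot

end Cfsg.Agent.Lib.helper4
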