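import Mathlib
import Cfsg.Agent.Lib.helper4.OrthRc
import Cfsg.Agent.S0794

set_option autoImplicit false

/-!
# `Ω` is generated by the Siegel transformations `T_(u,v)(c)` (`n ≥ 5`, `q` odd)

`siegEl`, `Sg`, `Sg_normal`, `adj_mem_Sg`, `same_norm_mem_Sg`, `pair_mem_Sg`, `omega_eq_Sg`.
-/

namespace Cfsg.Agent.Lib.helper4

open Cfsg.Agent.Lib.helper13

section OrthSiegel

variable {F : Type*} [Field F] {n : ℕ}

/-- the Siegel transformation as an isometry -/
noncomputable def siegEl (Q : QuadraticForm F (Fin n → F)) (u v : Fin n → F) (hu : Q u = 0)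
    (hv : Q v = 0) (huv : QuadraticMap.polar (⇑Q) u v = 0) (c : F) :
    ↥(Cfsg.isometryGroup F ⇑Q) :=
  ⟨⟨Cfsg.siegelMatrix (⇑Q) u v c, Cfsg.siegelMatrix (⇑Q) u v (-c), by
      rw [(Cfsg.Agent.S0793.result Q u v hu hv huv).2.2, add_neg_cancel]
      unfold Cfsg.siegelMatrix
      rw [zero_smul, add_zero], by
      rw [(Cfsg.Agent.S0793.result Q u v hu hv huv).2.2, neg_add_cancel]
      unfold Cfsg.siegelMatrix
      rw [zero_smul, add_zero]⟩,
    fun x _ => (Cfsg.Agent.S0793.result Q u v hu hv huv).1 c x⟩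

lemma siegEl_coe (Q : QuadraticForm F (Fin n → F)) (u v : Fin n → F) (hu : Q u = 0)
    (hv : Q v = 0) (huv : QuadraticMap.polar (⇑Q) u v = 0) (c : F) :
    ((siegEl Q u v hu hv huv c : Matrix.GeneralLinearGroup (Fin n) F) : Matrix (Fin n) (Fin n) F)
      = Cfsg.siegelMatrix (⇑Q) u v c := rfl

/-- the subgroup generated by the Siegel transformations -/
def Sg (Q : QuadraticForm F (Fin n → F)) : Subgroup ↥(Cfsg.isometryGroup F ⇑Q) :=
  Subgroup.closure {g : ↥(Cfsg.isometryGroup F ⇑Q) | ∃ (u v : Fin n → F) (c : F), Q u = 0 ∧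
    Q v = 0 ∧ QuadraticMap.polar ⇑Q u v = 0 ∧
    ((g : Matrix.GeneralLinearGroup (Fin n) F) : Matrix (Fin n) (Fin n) F)
      = Cfsg.siegelMatrix ⇑Q u v c}

lemma siegEl_mem (Q : QuadraticForm F (Fin n → F)) (u v : Fin n → F) (hu : Q u = 0)
    (hv : Q v = 0) (huv : QuadraticMap.polar (⇑Q) u v = 0) (c : F) :
    siegEl Q u v hu hv huv c ∈ Sg Q :=
  Subgroup.subset_closure ⟨u, v, c, hu, hv, huv, rfl⟩

lemma Sg_conj (Q : QuadraticForm F (Fin n → F)) (h g : ↥(Cfsg.isometryGroup F ⇑Q))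
    (hg : g ∈ Sg Q) : h * g * h⁻¹ ∈ Sg Q := by
  unfold Sg at hg
  induction hg using Subgroup.closure_induction with
  | mem x hx =>
    obtain ⟨u, v, c, hu, hv, huv, hx⟩ := hx
    have hu' : Q (((h : Matrix.GeneralLinearGroup (Fin n) F) :
        Matrix (Fin n) (Fin n) F).mulVec u) = 0 := by
      rw [isom_pres]; exact hu
    have hv' : Q (((h : Matrix.GeneralLinearGroup (Fin n) F) :
        Matrix (Fin n) (Fin n) F).mulVec v) = 0 := by
      rw [isom_pres]; exact hv
    have huv' : QuadraticMap.polar (⇑Q) (((h : Matrix.GeneralLinearGroup (Fin n) F) :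
        Matrix (Fin n) (Fin n) F).mulVec u) (((h : Matrix.GeneralLinearGroup (Fin n) F) :
        Matrix (Fin n) (Fin n) F).mulVec v) = 0 := by
      rw [isom_polar]; exact huv
    have key : ((h : Matrix.GeneralLinearGroup (Fin n) F) : Matrix (Fin n) (Fin n) F)
        * Cfsg.siegelMatrix (⇑Q) u v c
        = Cfsg.siegelMatrix (⇑Q) (((h : Matrix.GeneralLinearGroup (Fin n) F) :
          Matrix (Fin n) (Fin n) F).mulVec u) (((h : Matrix.GeneralLinearGroup (Fin n) F) :
          Matrix (Fin n) (Fin n) F).mulVec v) c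
          * ((h : Matrix.GeneralLinearGroup (Fin n) F) : Matrix (Fin n) (Fin n) F) := by
      apply Matrix.mulVec_injective
      funext z
      rw [← Matrix.mulVec_mulVec, ← Matrix.mulVec_mulVec, Cfsg.Agent.S0793.siegel_mulVec,
        Cfsg.Agent.S0793.siegel_mulVec, isom_polar, isom_polar, Matrix.mulVec_add,
        Matrix.mulVec_smul, Matrix.mulVec_sub, Matrix.mulVec_smul, Matrix.mulVec_smul]
    have e : h * x * h⁻¹ = siegEl Q _ _ hu' hv' huv' c := by
      rw [mul_inv_eq_iff_eq_mul]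
      apply isom_ext
      rw [isom_coe_mul, isom_coe_mul, siegEl_coe, hx, key]
    rw [e]
    exact siegEl_mem Q _ _ hu' hv' huv' c
  | one =>
    rw [mul_one, mul_inv_cancel]
    exact one_mem _
  | mul x y _ _ ihx ihy =>
    have e : h * (x * y) * h⁻¹ = (h * x * h⁻¹) * (h * y * h⁻¹) := by group
    rw [e]
    exact mul_mem ihx ihy
  | inv x _ ih =>
    have e : h * x⁻¹ * h⁻¹ = (h * x * h⁻¹)⁻¹ := by group
    rw [e]
    exact inv_mem ih

lemma Sg_normal (Q : QuadraticForm F (Fin n → F)) : (Sg Q).Normal :=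
  ⟨fun g hg h => Sg_conj Q h g hg⟩

lemma good_single (h2 : (2 : F) ≠ 0) (Q : QuadraticForm F (Fin n → F)) (a : Fin n → F)
    (ha : Q a ≠ 0) : GoodSub Q (Submodule.span F {a}) := by
  intro x hx hxy
  obtain ⟨t, rfl⟩ := Submodule.mem_span_singleton.mp hx
  have h1 := hxy a (Submodule.mem_span_singleton_self a)
  rw [QuadraticMap.polar_smul_left, polar_self', smul_eq_mul] at h1
  rcases mul_eq_zero.mp h1 with h | h
  · rw [h, zero_smul]
  · exact absurd h (mul_ne_zero h2 ha)

lemma good_pair (h2 : (2 : F) ≠ 0) (Q : QuadraticForm F (Fin n → F)) (a b : Fin n → F)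
    (ha : Q a ≠ 0) (hb : Q b ≠ 0) (hab : QuadraticMap.polar (⇑Q) a b = 0) :
    GoodSub Q (Submodule.span F {a, b}) ∧ Module.finrank F ↥(Submodule.span F {a, b}) ≤ 3 := by
  classical
  constructor
  · intro x hx hxy
    obtain ⟨x₁, x₂, rfl⟩ := Submodule.mem_span_pair.mp hx
    have e1 := hxy a (Submodule.subset_span (by simp))
    have e2 := hxy b (Submodule.subset_span (by simp))
    simp only [QuadraticMap.polar_add_left, QuadraticMap.polar_smul_left, smul_eq_mul] at e1 e2
    rw [polar_self', QuadraticMap.polar_comm (⇑Q) b a, hab] at e1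
    rw [polar_self', hab] at e2
    have hx1 : x₁ = 0 := by
      have : x₁ * (2 * Q a) = 0 := by linear_combination e1
      exact (mul_eq_zero.mp this).resolve_right (mul_ne_zero h2 ha)
    have hx2 : x₂ = 0 := by
      have : x₂ * (2 * Q b) = 0 := by linear_combination e2
      exact (mul_eq_zero.mp this).resolve_right (mul_ne_zero h2 hb)
    rw [hx1, hx2]
    simp
  · have h1 : Submodule.span F {a, b}
        = Submodule.span F (↑({a, b} : Finset (Fin n → F)) : Set (Fin n → F)) := by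
      congr 1
      simp
    rw [h1]
    exact (finrank_span_finset_le_card _).trans (Finset.card_le_two.trans (by norm_num))

lemma good_triple (h2 : (2 : F) ≠ 0) (Q : QuadraticForm F (Fin n → F)) (a b' w : Fin n → F)
    (ha : Q a ≠ 0) (hab' : QuadraticMap.polar (⇑Q) a b' = 0)
    (haw : QuadraticMap.polar (⇑Q) a w = 0) (hQb' : Q b' = 0)
    (hw : QuadraticMap.polar (⇑Q) b' w ≠ 0) :
    GoodSub Q (Submodule.span F {a, b', w}) ∧
      Module.finrank F ↥(Submodule.span F {a, b', w}) ≤ 3 := by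
  classical
  have h2a : 2 * Q a ≠ 0 := mul_ne_zero h2 ha
  constructor
  · intro x hx hxy
    obtain ⟨x₁, x₂, x₃, rfl⟩ := Submodule.mem_span_triple.mp hx
    have e1 := hxy a (Submodule.subset_span (by simp))
    have e2 := hxy b' (Submodule.subset_span (by simp))
    have e3 := hxy w (Submodule.subset_span (by simp))
    simp only [QuadraticMap.polar_add_left, QuadraticMap.polar_smul_left, smul_eq_mul] at e1 e2 e3
    rw [polar_self', QuadraticMap.polar_comm (⇑Q) b' a, hab', QuadraticMap.polar_comm (⇑Q) w a,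
      haw] at e1
    rw [hab', polar_self', hQb', QuadraticMap.polar_comm (⇑Q) w b'] at e2
    rw [haw] at e3
    have hx1 : x₁ = 0 := by
      have : x₁ * (2 * Q a) = 0 := by linear_combination e1
      exact (mul_eq_zero.mp this).resolve_right h2a
    have hx3 : x₃ = 0 := by
      have : x₃ * QuadraticMap.polar (⇑Q) b' w = 0 := by linear_combination e2
      exact (mul_eq_zero.mp this).resolve_right hw
    have hx2 : x₂ = 0 := by
      rw [hx1, hx3] at e3
      have : x₂ * QuadraticMap.polar (⇑Q) b' w = 0 := by linear_combination e3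
      exact (mul_eq_zero.mp this).resolve_right hw
    rw [hx1, hx2, hx3]
    simp
  · have h1 : Submodule.span F {a, b', w}
        = Submodule.span F (↑({a, b', w} : Finset (Fin n → F)) : Set (Fin n → F)) := by
      congr 1
      simp
    rw [h1]
    exact (finrank_span_finset_le_card _).trans Finset.card_le_three

lemma exists_orth [Fintype F] (Q : QuadraticForm F (Fin n → F))
    (hQ : (QuadraticMap.polarBilin Q).Nondegenerate) (hn : 5 ≤ n)
    (K : Submodule F (Fin n → F)) (hK : GoodSub Q K) (hKfin : Module.finrank F ↥K ≤ 3) (t : F)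
    (ht : t ≠ 0) : ∃ m, (∀ k ∈ K, QuadraticMap.polar (⇑Q) k m = 0) ∧ Q m = t := by
  have hW := goodSub_orth Q hQ K hK
  have hfin : 2 ≤ Module.finrank F ↥(orthSub Q K) := by
    rw [finrank_orthSub Q hQ, Fintype.card_fin]
    omega
  obtain ⟨m, hm, hQm⟩ := good_universal Q hQ _ hW hfin t ht
  exact ⟨m, (mem_orthSub Q K m).mp hm, hQm⟩

/-- a vector of `x^⊥` pairing non-trivially with a given non-zero vector of `x^⊥` -/
lemma exists_partner (h2 : (2 : F) ≠ 0) (Q : QuadraticForm F (Fin n → F))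
    (hQ : (QuadraticMap.polarBilin Q).Nondegenerate) (x r : Fin n → F) (hx : Q x ≠ 0)
    (hxr : QuadraticMap.polar (⇑Q) x r = 0) (hr0 : r ≠ 0) :
    ∃ w, QuadraticMap.polar (⇑Q) x w = 0 ∧ QuadraticMap.polar (⇑Q) r w = 1 := by
  have hU : GoodSub Q (orthSub Q (Submodule.span F {x})) :=
    goodSub_orth Q hQ _ (good_single h2 Q x hx)
  have hrU : r ∈ orthSub Q (Submodule.span F {x}) := by
    rw [mem_orthSub]
    intro y hy
    obtain ⟨t, rfl⟩ := Submodule.mem_span_singleton.mp hy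
    rw [QuadraticMap.polar_smul_left, hxr, smul_zero]
  obtain ⟨w, hwU, hw⟩ : ∃ w ∈ orthSub Q (Submodule.span F {x}),
      QuadraticMap.polar (⇑Q) r w ≠ 0 := by
    by_contra hcon
    push Not at hcon
    exact hr0 (hU r hrU hcon)
  have hxw : QuadraticMap.polar (⇑Q) x w = 0 :=
    (mem_orthSub Q _ w).mp hwU x (Submodule.mem_span_singleton_self x)
  refine ⟨(QuadraticMap.polar (⇑Q) r w)⁻¹ • w, ?_, ?_⟩
  · rw [QuadraticMap.polar_smul_right, hxw, smul_zero]
  · rw [QuadraticMap.polar_smul_right, smul_eq_mul, inv_mul_cancel₀ hw]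

/-- `r_x r_(x+r)` for `r` singular and orthogonal to `x` is a product of two Siegel elements. -/
theorem adj_mem_Sg [Fintype F] (h2 : (2 : F) ≠ 0) (Q : QuadraticForm F (Fin n → F))
    (hQ : (QuadraticMap.polarBilin Q).Nondegenerate) (hn : 5 ≤ n) (x r : Fin n → F)
    (hx : Q x ≠ 0) (hr : Q r = 0) (hxr : QuadraticMap.polar (⇑Q) x r = 0) :
    reflEl Q x * reflEl Q (x + r) ∈ Sg Q := by
  by_cases hr0 : r = 0
  · rw [hr0, add_zero, reflEl_mul_self]
    exact one_mem _
  have h4 : (4 : F) ≠ 0 := by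
    have : (4 : F) = 2 * 2 := by norm_num
    rw [this]
    exact mul_ne_zero h2 h2
  obtain ⟨w, hxw, hrw⟩ := exists_partner h2 Q hQ x r hx hxr hr0
  obtain ⟨hKgood, hKfin⟩ := good_triple h2 Q x r w hx hxr hxw hr (by rw [hrw]; exact one_ne_zero)
  obtain ⟨m, hm, hQm⟩ := exists_orth Q hQ hn _ hKgood hKfin (-(Q x) / 4)
    (div_ne_zero (neg_ne_zero.mpr hx) h4)
  have hxm : QuadraticMap.polar (⇑Q) x m = 0 := hm x (Submodule.subset_span (by simp))
  have hrm : QuadraticMap.polar (⇑Q) r m = 0 := hm r (Submodule.subset_span (by simp))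
  have hrx : QuadraticMap.polar (⇑Q) r x = 0 := by
    rw [QuadraticMap.polar_comm]; exact hxr
  have hmx : QuadraticMap.polar (⇑Q) m x = 0 := by
    rw [QuadraticMap.polar_comm]; exact hxm
  have hmr : QuadraticMap.polar (⇑Q) m r = 0 := by
    rw [QuadraticMap.polar_comm]; exact hrm
  have hrr : QuadraticMap.polar (⇑Q) r r = 0 := by
    rw [polar_self', hr, mul_zero]
  have hv₁ : Q ((2 : F)⁻¹ • x + m) = 0 := by
    rw [Q_add, QuadraticMap.map_smul, QuadraticMap.polar_smul_left, hxm, hQm]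
    simp only [smul_eq_mul]
    field_simp
    ring
  have hv₂ : Q ((2 : F)⁻¹ • x - m) = 0 := by
    rw [Q_sub, QuadraticMap.map_smul, QuadraticMap.polar_smul_left, hxm, hQm]
    simp only [smul_eq_mul]
    field_simp
    ring
  have hrv₁ : QuadraticMap.polar (⇑Q) r ((2 : F)⁻¹ • x + m) = 0 := by
    rw [QuadraticMap.polar_add_right, QuadraticMap.polar_smul_right, hrx, hrm, smul_zero, add_zero]
  have hrv₂ : QuadraticMap.polar (⇑Q) r ((2 : F)⁻¹ • x - m) = 0 := by
    rw [QuadraticMap.polar_sub_right, QuadraticMap.polar_smul_right, hrx, hrm, smul_zero, sub_zero]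
  have e : reflEl Q x * reflEl Q (x + r)
      = siegEl Q r _ hr hv₁ hrv₁ (1 / Q x) * siegEl Q r _ hr hv₂ hrv₂ (1 / Q x) := by
    have hxr' : Q (x + r) = Q x := by
      rw [Q_add, hr, hxr]
      ring
    have hxr0 : Q (x + r) ≠ 0 := by
      rw [hxr']
      exact hx
    apply isom_ext
    rw [isom_coe_mul, isom_coe_mul, reflEl_coe Q x hx, reflEl_coe Q _ hxr0, siegEl_coe,
      siegEl_coe]
    apply Matrix.mulVec_injective
    funext z
    rw [← Matrix.mulVec_mulVec, ← Matrix.mulVec_mulVec, refl_mulVec, refl_mulVec,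
      Cfsg.Agent.S0793.siegel_mulVec, Cfsg.Agent.S0793.siegel_mulVec, hxr']
    simp only [QuadraticMap.polar_add_left, QuadraticMap.polar_smul_left,
      QuadraticMap.polar_sub_right, QuadraticMap.polar_smul_right, QuadraticMap.polar_add_right,
      QuadraticMap.polar_sub_left, smul_eq_mul, polar_self', hxr, hrx, hxm, hmx, hrm, hmr, hr,
      hQm]
    match_scalars <;> field_simp <;> ring
  rw [e]
  exact mul_mem (siegEl_mem Q r _ hr hv₁ hrv₁ _) (siegEl_mem Q r _ hr hv₂ hrv₂ _)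

/-- reflections in vectors of the same norm are congruent modulo the Siegel group. -/
theorem same_norm_mem_Sg [Fintype F] (h2 : (2 : F) ≠ 0) (Q : QuadraticForm F (Fin n → F))
    (hQ : (QuadraticMap.polarBilin Q).Nondegenerate) (hn : 5 ≤ n) (x x' : Fin n → F)
    (hx : Q x ≠ 0) (hxx' : Q x' = Q x) : reflEl Q x * reflEl Q x' ∈ Sg Q := by
  by_cases hneg : x' = -x
  · have e : -x = (-1 : F) • x := by simp
    rw [hneg, e, reflEl_smul Q x hx (-1) (neg_ne_zero.mpr one_ne_zero), reflEl_mul_self]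
    exact one_mem _
  have h2x : 2 * Q x ≠ 0 := mul_ne_zero h2 hx
  obtain ⟨κ, hκ⟩ : ∃ κ : F, κ = 2 * Q x - QuadraticMap.polar (⇑Q) x x' := ⟨_, rfl⟩
  have hex : ∃ r, Q r = 0 ∧ QuadraticMap.polar (⇑Q) x r = 0 ∧
      QuadraticMap.polar (⇑Q) x' r = κ := by
    by_cases hκ0 : κ = 0
    · refine ⟨0, map_zero Q, ?_, ?_⟩
      · exact QuadraticMap.polar_zero_right Q x
      · rw [hκ0]
        exact QuadraticMap.polar_zero_right Q x'
    obtain ⟨μ, hμ⟩ : ∃ μ : F, μ = QuadraticMap.polar (⇑Q) x x' / (2 * Q x) := ⟨_, rfl⟩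
    have hγ : QuadraticMap.polar (⇑Q) x x' = 2 * μ * Q x := by
      rw [hμ]
      field_simp
    obtain ⟨x'', hx''⟩ : ∃ x'' : Fin n → F, x'' = x' - μ • x := ⟨_, rfl⟩
    have hxx'' : QuadraticMap.polar (⇑Q) x x'' = 0 := by
      rw [hx'', QuadraticMap.polar_sub_right, QuadraticMap.polar_smul_right, polar_self', hγ,
        smul_eq_mul]
      ring
    have hx''x : QuadraticMap.polar (⇑Q) x'' x = 0 := by
      rw [QuadraticMap.polar_comm]; exact hxx''
    have hx'eq : x' = x'' + μ • x := by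
      rw [hx'']
      abel
    have hQx'' : Q x'' = Q x * (1 - μ ^ 2) := by
      rw [hx'', Q_sub, QuadraticMap.map_smul, QuadraticMap.polar_smul_right,
        QuadraticMap.polar_comm (⇑Q) x' x, hγ, hxx']
      simp only [smul_eq_mul]
      ring
    have hpair : ∀ r, QuadraticMap.polar (⇑Q) x r = 0 →
        QuadraticMap.polar (⇑Q) x' r = QuadraticMap.polar (⇑Q) x'' r := by
      intro r hr
      rw [hx'eq, QuadraticMap.polar_add_left, QuadraticMap.polar_smul_left, hr, smul_zero,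
        add_zero]
    by_cases hτ : Q x'' = 0
    · have hx''0 : x'' ≠ 0 := by
        intro h0
        have hμ2 : (1 - μ) * (1 + μ) = 0 := by
          rw [hτ] at hQx''
          have h5 : Q x * (1 - μ ^ 2) = 0 := hQx''.symm
          have h6 := (mul_eq_zero.mp h5).resolve_left hx
          linear_combination h6
        rcases mul_eq_zero.mp hμ2 with h | h
        · apply hκ0
          have hμ1 : μ = 1 := by linear_combination -h
          rw [hκ, hγ, hμ1]
          ring
        · apply hneg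
          have hμ1 : μ = -1 := by linear_combination h
          rw [hx'eq, h0, zero_add, hμ1]
          simp
      obtain ⟨w, hxw, hx''w⟩ := exists_partner h2 Q hQ x x'' hx hxx'' hx''0
      refine ⟨κ • (w - Q w • x''), ?_, ?_, ?_⟩
      · rw [QuadraticMap.map_smul, Q_sub, QuadraticMap.map_smul, hτ,
          QuadraticMap.polar_smul_right, QuadraticMap.polar_comm (⇑Q) w x'', hx''w]
        simp only [smul_eq_mul]
        ring
      · rw [QuadraticMap.polar_smul_right, QuadraticMap.polar_sub_right,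
          QuadraticMap.polar_smul_right, hxw, hxx'', smul_zero, sub_zero, smul_zero]
      · rw [hpair _ (by
          rw [QuadraticMap.polar_smul_right, QuadraticMap.polar_sub_right,
            QuadraticMap.polar_smul_right, hxw, hxx'', smul_zero, sub_zero, smul_zero]),
          QuadraticMap.polar_smul_right, QuadraticMap.polar_sub_right,
          QuadraticMap.polar_smul_right, hx''w, polar_self', hτ]
        simp only [smul_eq_mul]
        ring
    · obtain ⟨hKgood, hKfin⟩ := good_pair h2 Q x x'' hx hτ hxx''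
      have h2τ : 2 * Q x'' ≠ 0 := mul_ne_zero h2 hτ
      obtain ⟨m, hm, hQm⟩ := exists_orth Q hQ hn _ hKgood hKfin
        (-(κ / (2 * Q x'')) ^ 2 * Q x'')
        (mul_ne_zero (neg_ne_zero.mpr (pow_ne_zero 2 (div_ne_zero hκ0 h2τ))) hτ)
      have hxm : QuadraticMap.polar (⇑Q) x m = 0 := hm x (Submodule.subset_span (by simp))
      have hx''m : QuadraticMap.polar (⇑Q) x'' m = 0 := hm x'' (Submodule.subset_span (by simp))
      have hxr : QuadraticMap.polar (⇑Q) x ((κ / (2 * Q x'')) • x'' + m) = 0 := by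
        rw [QuadraticMap.polar_add_right, QuadraticMap.polar_smul_right, hxx'', hxm, smul_zero,
          add_zero]
      refine ⟨(κ / (2 * Q x'')) • x'' + m, ?_, hxr, ?_⟩
      · rw [Q_add, QuadraticMap.map_smul, QuadraticMap.polar_smul_left, hx''m, hQm]
        simp only [smul_eq_mul]
        ring
      · rw [hpair _ hxr, QuadraticMap.polar_add_right, QuadraticMap.polar_smul_right, polar_self',
          hx''m]
        simp only [smul_eq_mul]
        field_simp
        ring
  obtain ⟨r, hr, hxr, hx'r⟩ := hex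
  have hrx : QuadraticMap.polar (⇑Q) r x = 0 := by
    rw [QuadraticMap.polar_comm]; exact hxr
  have hrx' : QuadraticMap.polar (⇑Q) r x' = κ := by
    rw [QuadraticMap.polar_comm]; exact hx'r
  have hQy : Q (x + r) = Q x := by
    rw [Q_add, hr, hxr]
    ring
  have e1 := adj_mem_Sg h2 Q hQ hn x r hx hr hxr
  have hr' : Q (x' - (x + r)) = 0 := by
    rw [Q_sub, hQy, hxx', QuadraticMap.polar_add_right, hx'r, QuadraticMap.polar_comm (⇑Q) x' x,
      hκ]
    ring
  have hyr' : QuadraticMap.polar (⇑Q) (x + r) (x' - (x + r)) = 0 := by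
    rw [QuadraticMap.polar_sub_right, QuadraticMap.polar_add_left, QuadraticMap.polar_add_left,
      QuadraticMap.polar_add_right, QuadraticMap.polar_add_right, polar_self', polar_self', hr,
      hxr, hrx, hrx', hκ]
    ring
  have e2 := adj_mem_Sg h2 Q hQ hn (x + r) (x' - (x + r)) (by rw [hQy]; exact hx) hr' hyr'
  have e3 : x + r + (x' - (x + r)) = x' := by abel
  rw [e3] at e2
  have e4 : reflEl Q x * reflEl Q x'
      = (reflEl Q x * reflEl Q (x + r)) * (reflEl Q (x + r) * reflEl Q x') := by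
    rw [mul_assoc, ← mul_assoc (reflEl Q (x + r)), reflEl_mul_self, one_mul]
  rw [e4]
  exact mul_mem e1 e2

theorem pair_mem_Sg [Fintype F] (h2 : (2 : F) ≠ 0) (Q : QuadraticForm F (Fin n → F))
    (hQ : (QuadraticMap.polarBilin Q).Nondegenerate) (hn : 5 ≤ n) (a b : Fin n → F)
    (ha : Q a ≠ 0) (hb : Q b ≠ 0) (hsq : IsSquare (Q a * Q b)) :
    reflEl Q a * reflEl Q b ∈ Sg Q := by
  obtain ⟨s, hs⟩ := hsq
  have hs0 : s ≠ 0 := by
    rintro rfl
    exact mul_ne_zero ha hb (by rw [hs]; ring)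
  have hb' : Q ((Q a / s) • b) = Q a := by
    rw [QuadraticMap.map_smul, smul_eq_mul]
    have e : Q a / s * (Q a / s) * Q b = Q a * (Q a * Q b) / (s * s) := by
      field_simp
    rw [e, hs]
    field_simp
  rw [← reflEl_smul Q b hb (Q a / s) (div_ne_zero ha hs0)]
  exact same_norm_mem_Sg h2 Q hQ hn a _ ha hb'

/-- `Ω` is generated by the Siegel transformations. -/
theorem omega_eq_Sg [Fintype F] (h2 : (2 : F) ≠ 0) (hn : 5 ≤ n) (Q : QuadraticForm F (Fin n → F))
    (hQ : (QuadraticMap.polarBilin Q).Nondegenerate) : Cfsg.Omega F ⇑Q = Sg Q := by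
  classical
  have hle : Sg Q ≤ Cfsg.Omega F ⇑Q := by
    unfold Sg
    rw [Subgroup.closure_le]
    rintro g ⟨u, v, c, hu, hv, huv, hg⟩
    exact (Cfsg.Agent.S0794.result h2 hn Q hQ u v hu hv huv c g hg).2
  have hnormal : (Sg Q).Normal := Sg_normal Q
  have hcard : 2 ≤ Fintype.card (Fin n) := by
    rw [Fintype.card_fin]
    omega
  obtain ⟨ε, hε⟩ := exists_nonsq (F := F) h2
  have hε0 : ε ≠ 0 := by
    rintro rfl
    exact hε ⟨0, by simp⟩
  obtain ⟨a₁, ha₁⟩ := universal Q hQ hcard 1 one_ne_zero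
  obtain ⟨a₂, ha₂⟩ := universal Q hQ hcard ε hε0
  have ha₁0 : Q a₁ ≠ 0 := by rw [ha₁]; exact one_ne_zero
  have ha₂0 : Q a₂ ≠ 0 := by rw [ha₂]; exact hε0
  obtain ⟨π, hπdef⟩ : ∃ π : ↥(Cfsg.isometryGroup F ⇑Q) →* (↥(Cfsg.isometryGroup F ⇑Q) ⧸ Sg Q),
      π = QuotientGroup.mk' (Sg Q) := ⟨_, rfl⟩
  have hπ1 : ∀ g, g ∈ Sg Q → π g = 1 := by
    intro g hg
    rw [hπdef]
    exact (QuotientGroup.eq_one_iff g).mpr hg
  have hsq1 : ∀ a, π (reflEl Q a) * π (reflEl Q a) = 1 := by
    intro a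
    rw [← map_mul, reflEl_mul_self, map_one]
  have hπ : ∀ a b, Q a ≠ 0 → Q b ≠ 0 → IsSquare (Q a * Q b) →
      π (reflEl Q a) = π (reflEl Q b) := by
    intro a b ha hb hsq
    have h3 := hπ1 _ (pair_mem_Sg h2 Q hQ hn a b ha hb hsq)
    rw [map_mul] at h3
    calc π (reflEl Q a) = π (reflEl Q a) * (π (reflEl Q b) * π (reflEl Q b)) := by
          rw [hsq1, mul_one]
      _ = π (reflEl Q b) := by rw [← mul_assoc, h3, one_mul]
  obtain ⟨ρ₁, hρ₁def⟩ : ∃ ρ₁, ρ₁ = π (reflEl Q a₁) := ⟨_, rfl⟩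
  obtain ⟨ρ₂, hρ₂def⟩ : ∃ ρ₂, ρ₂ = π (reflEl Q a₂) := ⟨_, rfl⟩
  have hρ₁ : ρ₁ * ρ₁ = 1 := by rw [hρ₁def]; exact hsq1 a₁
  have hρ₂ : ρ₂ * ρ₂ = 1 := by rw [hρ₂def]; exact hsq1 a₂
  have hcomm : ρ₂ * ρ₁ = ρ₁ * ρ₂ := by
    have h1 : reflEl Q a₂ * reflEl Q a₁ * (reflEl Q a₂)⁻¹ * reflEl Q a₁ ∈ Sg Q := by
      rw [reflEl_conj Q _ a₁ ha₁0]
      refine pair_mem_Sg h2 Q hQ hn _ a₁ ?_ ha₁0 ?_
      · rw [isom_pres]
        exact ha₁0
      · rw [isom_pres]
        exact ⟨Q a₁, rfl⟩
    have h3 := hπ1 _ h1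
    rw [map_mul, map_mul, map_mul, map_inv, ← hρ₁def, ← hρ₂def,
      inv_eq_of_mul_eq_one_left hρ₂] at h3
    have e1 : ρ₂ * ρ₁ * (ρ₁ * ρ₂) = 1 := by
      rw [mul_assoc, ← mul_assoc ρ₁ ρ₁, hρ₁, one_mul, hρ₂]
    calc ρ₂ * ρ₁ = ρ₂ * ρ₁ * (ρ₂ * ρ₁ * (ρ₁ * ρ₂)) := by
          rw [e1, mul_one]
      _ = (ρ₂ * ρ₁ * ρ₂ * ρ₁) * (ρ₁ * ρ₂) := by group
      _ = ρ₁ * ρ₂ := by rw [h3, one_mul]
  have hT : ∀ g, π g = 1 ∨ π g = ρ₁ ∨ π g = ρ₂ ∨ π g = ρ₁ * ρ₂ := by
    intro g
    obtain ⟨vs, hvs, rfl⟩ := exists_list_of_mem Q g (cd_odd h2 Q hQ g)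
    induction vs with
    | nil =>
      left
      rw [List.map_nil, List.prod_nil, map_one]
    | cons v vs ih =>
      have hv := hvs v List.mem_cons_self
      have ih' := ih (fun u hu => hvs u (List.mem_cons_of_mem _ hu))
      rw [List.map_cons, List.prod_cons, map_mul]
      have hv12 : π (reflEl Q v) = ρ₁ ∨ π (reflEl Q v) = ρ₂ := by
        by_cases hsq : IsSquare (Q v)
        · left
          rw [hρ₁def]
          exact hπ v a₁ hv ha₁0 (by rw [ha₁, mul_one]; exact hsq)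
        · right
          rw [hρ₂def]
          exact hπ v a₂ hv ha₂0 (by rw [ha₂]; exact isSquare_mul_of_not _ _ hsq hε)
      rcases hv12 with h | h <;> rw [h] <;> rcases ih' with h' | h' | h' | h' <;> rw [h']
      · right; left; rw [mul_one]
      · left; exact hρ₁
      · right; right; right; rfl
      · right; right; left; rw [← mul_assoc, hρ₁, one_mul]
      · right; right; left; rw [mul_one]
      · right; right; right; exact hcomm
      · left; exact hρ₂
      · right; left; rw [← mul_assoc, hcomm, mul_assoc, hρ₂, mul_one]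
  have hidx : (Sg Q).index ≤ 4 := by
    rw [Subgroup.index_eq_card]
    have hf : Function.Surjective
        (![1, ρ₁, ρ₂, ρ₁ * ρ₂] : Fin 4 → (↥(Cfsg.isometryGroup F ⇑Q) ⧸ Sg Q)) := by
      intro y
      obtain ⟨g, rfl⟩ := QuotientGroup.mk'_surjective (Sg Q) y
      have hg := hT g
      rw [hπdef] at hg
      rcases hg with h | h | h | h
      · exact ⟨0, h.symm⟩
      · exact ⟨1, h.symm⟩
      · exact ⟨2, h.symm⟩
      · exact ⟨3, h.symm⟩
    have h5 := Nat.card_le_card_of_surjective _ hf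
    rw [Nat.card_fin] at h5
    exact h5
  have h4 := omega_index_odd h2 Q hQ hcard
  have h5 := Subgroup.relIndex_mul_index hle
  rw [h4] at h5
  have hpos : (Sg Q).index ≠ 0 := Subgroup.index_ne_zero_of_finite
  have h6 : (Sg Q).relIndex (Cfsg.Omega F ⇑Q) = 1 := by omega
  exact le_antisymm (Subgroup.relIndex_eq_one.mp h6) hle

end OrthSiegel

end Cfsg.Agent.Lib.helper4
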