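import Mathlib
import Cfsg.Agent.Lib.helper4.OrthTS2
import Cfsg.Agent.S2562

set_option autoImplicit false

/-!
# A totally singular subspace of codimension one in a maximal one lies in exactly two maximal ones

`submax_two`, `qP_maxTS_exists`.
-/

namespace Cfsg.Agent.Lib.helper4

open Cfsg.Agent.Lib.helper13

section OrthTS3

variable {F : Type*} [Field F] {ι : Type} [Fintype ι] [DecidableEq ι]

theorem submax_two (Q : QuadraticForm F (ι → F))
    (hQ : (QuadraticMap.polarBilin Q).Nondegenerate) (U₀ : Submodule F (ι → F))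
    (hU₀ : MaxTS Q U₀) (U : Submodule F (ι → F)) (hU : ∀ u ∈ U, Q u = 0)
    (hdim : 2 * (Module.finrank F U + 1) = Fintype.card ι) :
    ∃ M₁ M₂ : Submodule F (ι → F), MaxTS Q M₁ ∧ MaxTS Q M₂ ∧ U ≤ M₁ ∧ U ≤ M₂ ∧ M₁ ≠ M₂ ∧
      ∀ W, MaxTS Q W → U ≤ W → W = M₁ ∨ W = M₂ := by
  classical
  obtain ⟨M₁, hM₁, hUM₁⟩ := exists_maxTS_ge Q hQ U₀ hU₀ U hU
  have hM₁dim : Module.finrank F M₁ = Module.finrank F U + 1 := by
    have := hM₁.2
    omega
  have hlt : U < M₁ := by
    refine lt_of_le_of_ne hUM₁ ?_
    intro h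
    rw [h] at hM₁dim
    omega
  obtain ⟨e, heM, heU⟩ := SetLike.exists_of_lt hlt
  have hQe : Q e = 0 := hM₁.1 e heM
  have hee : QuadraticMap.polar (⇑Q) e e = 0 := by rw [polar_self_eq, hQe, mul_zero]
  -- a general fact: adjoining a vector outside raises the dimension by exactly one
  have hadj : ∀ (X : Submodule F (ι → F)) (x : ι → F), x ∉ X →
      Module.finrank F ↥(X ⊔ Submodule.span F {x}) = Module.finrank F X + 1 := by
    intro X x hx
    have h1 : X < X ⊔ Submodule.span F {x} := by
      refine lt_of_le_of_ne le_sup_left ?_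
      intro h
      apply hx
      rw [h]
      exact Submodule.mem_sup_right (Submodule.mem_span_singleton_self x)
    have h2 := Submodule.finrank_lt_finrank_of_lt h1
    have h3 := Submodule.finrank_add_le_finrank_add_finrank X (Submodule.span F {x})
    have h4 : Module.finrank F ↥(Submodule.span F {x}) ≤ 1 := by
      have h5 := finrank_span_finset_le_card (R := F) ({x} : Finset (ι → F))
      rw [Finset.coe_singleton] at h5
      exact h5.trans (by simp)
    omega
  have hM₁eq : U ⊔ Submodule.span F {e} = M₁ := by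
    apply Submodule.eq_of_le_of_finrank_le
    · exact sup_le hUM₁ (by rw [Submodule.span_singleton_le_iff_mem]; exact heM)
    · rw [hadj U e heU, hM₁dim]
  have hO := finrank_orthSub Q hQ U
  have hle_orth : ∀ W : Submodule F (ι → F), MaxTS Q W → U ≤ W → W ≤ orthSub Q U := by
    intro W hW hUW x hx
    rw [mem_orthSub]
    intro a ha
    exact ts_polar_zero Q W hW.1 a x (hUW ha) hx
  have hM₁O := hle_orth M₁ hM₁ hUM₁
  have hltO : M₁ < orthSub Q U := by
    refine lt_of_le_of_ne hM₁O ?_
    intro h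
    rw [← h] at hO
    omega
  obtain ⟨f₀, hf₀O, hf₀M⟩ := SetLike.exists_of_lt hltO
  have hf₀U := (mem_orthSub Q U f₀).mp hf₀O
  have hef₀ : QuadraticMap.polar (⇑Q) e f₀ ≠ 0 := by
    intro h
    apply hf₀M
    rw [← maxTS_orth Q hQ M₁ hM₁, mem_orthSub]
    intro a ha
    rw [← hM₁eq] at ha
    obtain ⟨u, hu, z, hz, rfl⟩ := Submodule.mem_sup.mp ha
    obtain ⟨s, rfl⟩ := Submodule.mem_span_singleton.mp hz
    rw [QuadraticMap.polar_add_left, hf₀U u hu, QuadraticMap.polar_smul_left, h, smul_zero,
      add_zero]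
  obtain ⟨f₁, hf₁⟩ : ∃ f₁, f₁ = (QuadraticMap.polar (⇑Q) e f₀)⁻¹ • f₀ := ⟨_, rfl⟩
  have hef₁ : QuadraticMap.polar (⇑Q) e f₁ = 1 := by
    rw [hf₁, QuadraticMap.polar_smul_right, smul_eq_mul, inv_mul_cancel₀ hef₀]
  have hf₁O : f₁ ∈ orthSub Q U := by rw [hf₁]; exact (orthSub Q U).smul_mem _ hf₀O
  obtain ⟨f, hf⟩ : ∃ f, f = f₁ - Q f₁ • e := ⟨_, rfl⟩
  have hQf : Q f = 0 := by
    rw [hf, Q_sub, QuadraticMap.map_smul, hQe, QuadraticMap.polar_smul_right,
      QuadraticMap.polar_comm, hef₁]
    simp only [smul_eq_mul]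
    ring
  have hef : QuadraticMap.polar (⇑Q) e f = 1 := by
    rw [hf, QuadraticMap.polar_sub_right, QuadraticMap.polar_smul_right, hee, hef₁]
    simp
  have hfO : f ∈ orthSub Q U := by
    rw [hf]
    exact (orthSub Q U).sub_mem hf₁O ((orthSub Q U).smul_mem _ (hM₁O heM))
  have hfU := (mem_orthSub Q U f).mp hfO
  have hfM : f ∉ M₁ := by
    intro h
    have h1 := ts_polar_zero Q M₁ hM₁.1 e f heM h
    rw [hef] at h1
    exact one_ne_zero h1
  have hfU' : f ∉ U := fun h => hfM (hUM₁ h)
  have hM₂ : MaxTS Q (U ⊔ Submodule.span F {f}) := by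
    refine ⟨?_, by rw [hadj U f hfU']; exact hdim⟩
    intro x hx
    obtain ⟨u, hu, z, hz, rfl⟩ := Submodule.mem_sup.mp hx
    obtain ⟨s, rfl⟩ := Submodule.mem_span_singleton.mp hz
    rw [Q_add, hU u hu, QuadraticMap.map_smul, hQf, QuadraticMap.polar_smul_right, hfU u hu]
    simp
  have hOeq : M₁ ⊔ Submodule.span F {f} = orthSub Q U := by
    apply Submodule.eq_of_le_of_finrank_le
    · exact sup_le hM₁O (by rw [Submodule.span_singleton_le_iff_mem]; exact hfO)
    · rw [hadj M₁ f hfM, hO, hM₁dim]
      omega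
  refine ⟨M₁, U ⊔ Submodule.span F {f}, hM₁, hM₂, hUM₁, le_sup_left, ?_, ?_⟩
  · intro h
    apply hfM
    rw [h]
    exact Submodule.mem_sup_right (Submodule.mem_span_singleton_self f)
  · intro W hW hUW
    have hWdim : Module.finrank F W = Module.finrank F U + 1 := by
      have := hW.2
      omega
    have hltW : U < W := by
      refine lt_of_le_of_ne hUW ?_
      intro h
      rw [h] at hWdim
      omega
    obtain ⟨w, hwW, hwU⟩ := SetLike.exists_of_lt hltW
    have hwO := hle_orth W hW hUW hwW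
    rw [← hOeq, ← hM₁eq] at hwO
    obtain ⟨y, hy, z, hz, rfl⟩ := Submodule.mem_sup.mp hwO
    obtain ⟨u, hu, z', hz', rfl⟩ := Submodule.mem_sup.mp hy
    obtain ⟨β, rfl⟩ := Submodule.mem_span_singleton.mp hz
    obtain ⟨α, rfl⟩ := Submodule.mem_span_singleton.mp hz'
    have hue : QuadraticMap.polar (⇑Q) u e = 0 := ts_polar_zero Q M₁ hM₁.1 u e (hUM₁ hu) heM
    have hαβ : α * β = 0 := by
      have h1 := hW.1 _ hwW
      rw [Q_add, Q_add, hU u hu, QuadraticMap.map_smul, QuadraticMap.map_smul, hQe, hQf,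
        QuadraticMap.polar_smul_right, hue, QuadraticMap.polar_add_left,
        QuadraticMap.polar_smul_right, QuadraticMap.polar_smul_left,
        QuadraticMap.polar_smul_right, hfU u hu, hef] at h1
      simp only [smul_eq_mul, mul_zero, add_zero, zero_add, mul_one] at h1
      exact h1
    have hz : α • e + β • f ∈ W := by
      have h1 : α • e + β • f = (u + α • e + β • f) - u := by abel
      rw [h1]
      exact W.sub_mem hwW (hUW hu)
    rcases mul_eq_zero.mp hαβ with hα | hβ
    · right
      rw [hα, zero_smul, zero_add] at hz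
      have hβ0 : β ≠ 0 := by
        rintro rfl
        apply hwU
        rw [hα, zero_smul, zero_smul, add_zero, add_zero]
        exact hu
      have hfW : f ∈ W := by
        have h1 : f = β⁻¹ • (β • f) := by rw [smul_smul, inv_mul_cancel₀ hβ0, one_smul]
        rw [h1]
        exact W.smul_mem _ hz
      symm
      apply Submodule.eq_of_le_of_finrank_le
      · exact sup_le hUW (by rw [Submodule.span_singleton_le_iff_mem]; exact hfW)
      · rw [hadj U f hfU', hWdim]
    · left
      rw [hβ, zero_smul, add_zero] at hz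
      have hα0 : α ≠ 0 := by
        rintro rfl
        apply hwU
        rw [hβ, zero_smul, zero_smul, add_zero, add_zero]
        exact hu
      have heW : e ∈ W := by
        have h1 : e = α⁻¹ • (α • e) := by rw [smul_smul, inv_mul_cancel₀ hα0, one_smul]
        rw [h1]
        exact W.smul_mem _ hz
      symm
      rw [← hM₁eq]
      apply Submodule.eq_of_le_of_finrank_le
      · exact sup_le hUW (by rw [Submodule.span_singleton_le_iff_mem]; exact heW)
      · rw [hadj U e heU, hWdim]

/-- the standard plus-type form has a totally singular subspace of half dimension -/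
lemma qP_maxTS_exists (m : ℕ) : ∃ U₀ : Submodule F (Fin m ⊕ Fin m → F),
    MaxTS (Cfsg.Agent.S2562.qP F m) U₀ := by
  obtain ⟨f, hf⟩ : ∃ f : (Fin m → F) →ₗ[F] (Fin m ⊕ Fin m → F),
      ∀ x, f x = Sum.elim x 0 :=
    ⟨{ toFun := fun x => Sum.elim x 0
       map_add' := by
         intro x y
         funext j
         rcases j with j | j <;> simp
       map_smul' := by
         intro t x
         funext j
         rcases j with j | j <;> simp }, fun x => rfl⟩
  have hinj : Function.Injective f := by
    intro x y hxy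
    rw [hf, hf] at hxy
    funext i
    exact congrFun hxy (Sum.inl i)
  refine ⟨LinearMap.range f, ?_, ?_⟩
  · rintro w ⟨x, rfl⟩
    rw [Cfsg.Agent.S2562.qP_apply, hf]
    unfold Cfsg.quadFormPlus
    simp
  · rw [LinearMap.finrank_range_of_inj hinj, Module.finrank_fin_fun, Fintype.card_sum,
      Fintype.card_fin]
    ring

end OrthTS3

end Cfsg.Agent.Lib.helper4
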