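import Mathlib
import Cfsg.Prelude.Def_GeometricClasses
import Cfsg.Agent.Lib.helper18.Jordan
import Cfsg.Agent.Lib.helper4.GLNum

/-!
# Conjugating into subfield subgroups of `SL_n(F)`
-/

namespace Cfsg.Agent.Lib.helper4.SubfieldConj

open Matrix

universe u

variable {F : Type u} [Field F] {n : ℕ}

theorem map_mem (F₀ : Subfield F) (y : GL (Fin n) F₀) :
    Matrix.GeneralLinearGroup.map (F₀.subtype : F₀ →+* F) y
      ∈ Cfsg.Geo.subfieldSubgroup F₀ (1 : GL (Fin n) F) := by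
  unfold Cfsg.Geo.subfieldSubgroup
  refine ⟨_, Subgroup.mem_sup_left ⟨y, rfl⟩, ?_⟩
  simp

theorem scalar_mem (F₀ : Subfield F) (c : Fˣ) (g : GL (Fin n) F)
    (hg : (g : Matrix (Fin n) (Fin n) F) = (c : F) • (1 : Matrix (Fin n) (Fin n) F)) :
    g ∈ Cfsg.Geo.subfieldSubgroup F₀ (1 : GL (Fin n) F) := by
  unfold Cfsg.Geo.subfieldSubgroup
  refine ⟨g, Subgroup.mem_sup_right ((Cfsg.Geo.mem_scalars_iff g).mpr ⟨c, hg⟩), ?_⟩
  simp

theorem mem_elim (F₀ : Subfield F) (g : GL (Fin n) F)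
    (hg : g ∈ Cfsg.Geo.subfieldSubgroup F₀ (1 : GL (Fin n) F)) :
    ∃ (y : GL (Fin n) F₀) (c : Fˣ), (g : Matrix (Fin n) (Fin n) F)
      = (c : F) • (y : Matrix (Fin n) (Fin n) F₀).map (F₀.subtype) := by
  unfold Cfsg.Geo.subfieldSubgroup at hg
  obtain ⟨h, hh, rfl⟩ := hg
  have hcomm : ∀ (y : GL (Fin n) F₀) (s : Cfsg.Geo.scalars (Fin n) F),
      Commute (Matrix.GeneralLinearGroup.map (F₀.subtype : F₀ →+* F) y)
        ((Cfsg.Geo.scalars (Fin n) F).subtype s) := by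
    intro y s
    obtain ⟨c, hc⟩ := (Cfsg.Geo.mem_scalars_iff s.1).mp s.2
    apply Units.ext
    show ((Matrix.GeneralLinearGroup.map (F₀.subtype : F₀ →+* F) y : GL (Fin n) F) :
      Matrix (Fin n) (Fin n) F) * (s.1 : Matrix (Fin n) (Fin n) F)
      = (s.1 : Matrix (Fin n) (Fin n) F) * ((Matrix.GeneralLinearGroup.map (F₀.subtype : F₀ →+* F) y :
        GL (Fin n) F) : Matrix (Fin n) (Fin n) F)
    rw [hc]
    simp
  rw [← Subgroup.range_subtype (Cfsg.Geo.scalars (Fin n) F),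
    ← MonoidHom.noncommCoprod_range _ _ hcomm] at hh
  obtain ⟨⟨y, s⟩, rfl⟩ := hh
  obtain ⟨c, hc⟩ := (Cfsg.Geo.mem_scalars_iff s.1).mp s.2
  refine ⟨y, c, ?_⟩
  have e : ((MulAut.conj (1 : GL (Fin n) F)).toMonoidHom
      ((MonoidHom.noncommCoprod _ _ hcomm) (y, s)) : GL (Fin n) F)
      = Matrix.GeneralLinearGroup.map (F₀.subtype : F₀ →+* F) y * s.1 := by
    simp
  rw [e, Units.val_mul, hc]
  ext i j
  simp [Matrix.mul_apply, Matrix.one_apply, mul_comm]

theorem exists_sl_conj (F₀ : Subfield F) (x : SpecialLinearGroup (Fin n) F) (g : GL (Fin n) F)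
    (hg : g⁻¹ * SpecialLinearGroup.toGL x * g ∈ Cfsg.Geo.subfieldSubgroup F₀ (1 : GL (Fin n) F))
    (hdet : (g : Matrix (Fin n) (Fin n) F).det = 1) :
    ∃ P : SpecialLinearGroup (Fin n) F, P⁻¹ * x * P
      ∈ (Cfsg.Geo.subfieldSubgroup F₀ (1 : GL (Fin n) F)).comap
        (SpecialLinearGroup.toGL : SpecialLinearGroup (Fin n) F →* GL (Fin n) F) := by
  obtain ⟨P, hP⟩ : ∃ P : SpecialLinearGroup (Fin n) F, SpecialLinearGroup.toGL P = g :=
    ⟨⟨g.1, hdet⟩, Units.ext rfl⟩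
  refine ⟨P, ?_⟩
  rw [Subgroup.mem_comap, map_mul, map_mul, map_inv, hP]
  exact hg

theorem conj_mem_of {G : Type*} [Group G] (H : Subgroup G) (X g₀ c d : G)
    (hc : c * X = X * c) (h₀ : g₀⁻¹ * X * g₀ ∈ H) (hd : d ∈ H) :
    (c * g₀ * d)⁻¹ * X * (c * g₀ * d) ∈ H := by
  have h1 : c⁻¹ * X * c = X := by rw [mul_assoc, ← hc, inv_mul_cancel_left]
  have e : (c * g₀ * d)⁻¹ * X * (c * g₀ * d) = d⁻¹ * (g₀⁻¹ * (c⁻¹ * X * c) * g₀) * d := by group
  rw [e, h1]
  exact H.mul_mem (H.mul_mem (H.inv_mem hd) h₀) hd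

theorem rank_std (R : Type*) [Field R] (r s : ℕ) :
    (fromBlocks 1 0 0 0 : Matrix (Fin r ⊕ Fin s) (Fin r ⊕ Fin s) R).rank = r := by
  classical
  have e1 : (fromBlocks 1 0 0 0 : Matrix (Fin r ⊕ Fin s) (Fin r ⊕ Fin s) R)
      = diagonal (Sum.elim (fun _ => (1 : R)) (fun _ => (0 : R))) := by
    rw [← Matrix.fromBlocks_diagonal]
    simp
  rw [e1, Matrix.rank_diagonal]
  have e2 : Fintype.card {i : Fin r ⊕ Fin s // Sum.elim (fun _ => (1 : R)) (fun _ => (0 : R)) i ≠ 0}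
      = Fintype.card (Fin r) := by
    apply Fintype.card_congr
    refine ⟨fun x => match x with
      | ⟨Sum.inl a, _⟩ => a
      | ⟨Sum.inr a, h⟩ => absurd rfl h, fun a => ⟨Sum.inl a, by simp⟩, ?_, ?_⟩
    · rintro ⟨a | a, h⟩
      · rfl
      · exact absurd rfl h
    · intro a
      rfl
  rw [e2, Fintype.card_fin]

/-- The rank of a matrix is invariant under field extension. -/
theorem rank_map {K L : Type*} [Field K] [Field L] (f : K →+* L)
    (M : Matrix (Fin n) (Fin n) K) : (M.map f).rank = M.rank := by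
  classical
  obtain ⟨V, U, e, hV, hU, h⟩ := Matrix.exists_rank_normal_form M
  have hV' : IsUnit (V.map f) := hV.map f.mapMatrix
  have hU' : IsUnit (U.map f) := hU.map f.mapMatrix
  have h' : V.map f * M.map f * U.map f
      = ((fromBlocks 1 0 0 0 : Matrix (Fin M.rank ⊕ Fin (Fintype.card (Fin n) - M.rank))
        (Fin M.rank ⊕ Fin (Fintype.card (Fin n) - M.rank)) L)).submatrix e e := by
    have h1 := congrArg (fun A => A.map f) h
    simp only [Matrix.map_mul] at h1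
    rw [h1]
    ext i j
    rcases he : e i with a | a <;> rcases he' : e j with b | b <;>
      simp [Matrix.submatrix_apply, Matrix.map_apply, he, he', Matrix.one_apply, apply_ite]
  have a1 : (M.map f).rank = (fromBlocks 1 0 0 0 : Matrix (Fin M.rank ⊕ Fin (Fintype.card (Fin n) - M.rank))
        (Fin M.rank ⊕ Fin (Fintype.card (Fin n) - M.rank)) L).rank := by
    calc (M.map f).rank = (V.map f * M.map f * U.map f).rank := by
          rw [Matrix.rank_mul_eq_left_of_isUnit_det _ _ ((Matrix.isUnit_iff_isUnit_det _).mp hU'),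
            Matrix.rank_mul_eq_right_of_isUnit_det _ _ ((Matrix.isUnit_iff_isUnit_det _).mp hV')]
      _ = _ := by rw [h', Matrix.rank_submatrix]
  rw [a1, rank_std]

open Cfsg.Agent.Lib.helper18.Jordan in
/-- Nilpotent matrices over a subfield which are conjugate over the big field are conjugate over
the subfield. -/
theorem rational_conj {K : Type u} {L : Type*} [Field K] [Field L] (f : K →+* L)
    (M M' : Matrix (Fin n) (Fin n) K) (j : ℕ) (hM : M ^ j = 0) (hM' : M' ^ j = 0)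
    (P : Matrix (Fin n) (Fin n) L) (hP : IsUnit P) (h : P * M.map f = M'.map f * P) :
    ∃ a : Matrix (Fin n) (Fin n) K, IsUnit a ∧ a * M = M' * a := by
  have hN : IsNilpotent (Matrix.toLinAlgEquiv' M) := ⟨j, by rw [← map_pow, hM, map_zero]⟩
  have hN' : IsNilpotent (Matrix.toLinAlgEquiv' M') := ⟨j, by rw [← map_pow, hM', map_zero]⟩
  have hpow : ∀ k : ℕ, P * (M.map f) ^ k = (M'.map f) ^ k * P := by
    intro k
    induction k with
    | zero => simp
    | succ k ih => rw [pow_succ, ← mul_assoc, ih, mul_assoc, h, ← mul_assoc, ← pow_succ]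
  have hrank : ∀ k : ℕ, (M ^ k).rank = (M' ^ k).rank := by
    intro k
    have e1 : (M ^ k).map f = (M.map f) ^ k := map_pow f.mapMatrix M k
    have e2 : (M' ^ k).map f = (M'.map f) ^ k := map_pow f.mapMatrix M' k
    rw [← rank_map f (M ^ k), ← rank_map f (M' ^ k), e1, e2,
      ← Matrix.rank_mul_eq_right_of_isUnit_det P _ ((Matrix.isUnit_iff_isUnit_det _).mp hP),
      hpow k, Matrix.rank_mul_eq_left_of_isUnit_det P _ ((Matrix.isUnit_iff_isUnit_det _).mp hP)]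
  have hj : jtype (Matrix.toLinAlgEquiv' M) hN = jtype (Matrix.toLinAlgEquiv' M') hN' := by
    apply type_unique _ _ (jtype_pos _ hN) (jtype_pos _ hN')
    intro k
    rw [← jtype_rank _ hN k, ← jtype_rank _ hN' k, ← map_pow, ← map_pow]
    exact hrank k
  obtain ⟨φ, hφ⟩ := (jtype_eq_iff _ _ hN hN').mp hj
  refine ⟨LinearMap.toMatrix' φ.toLinearMap, ?_, ?_⟩
  · refine ⟨⟨LinearMap.toMatrix' φ.toLinearMap, LinearMap.toMatrix' φ.symm.toLinearMap, ?_, ?_⟩, rfl⟩
    · rw [← LinearMap.toMatrix'_comp]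
      simp
    · rw [← LinearMap.toMatrix'_comp]
      simp
  · have e1 : φ.toLinearMap ∘ₗ (Matrix.toLinAlgEquiv' M)
        = (Matrix.toLinAlgEquiv' M') ∘ₗ φ.toLinearMap := by
      apply LinearMap.ext
      intro v
      exact hφ v
    have e2 := congrArg LinearMap.toMatrix' e1
    rw [LinearMap.toMatrix'_comp, LinearMap.toMatrix'_comp] at e2
    have t : ∀ A : Matrix (Fin n) (Fin n) K, LinearMap.toMatrix' (Matrix.toLinAlgEquiv' A) = A :=
      fun A => LinearMap.toMatrix'_toLin' A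
    rw [t, t] at e2
    exact e2

theorem det_sq_of_comm {m : ℕ} (c : Matrix (Fin m ⊕ Fin m) (Fin m ⊕ Fin m) F)
    (hc : c * fromBlocks 0 1 0 0 = fromBlocks 0 1 0 0 * c) : IsSquare c.det := by
  have e : c = fromBlocks c.toBlocks₁₁ c.toBlocks₁₂ c.toBlocks₂₁ c.toBlocks₂₂ :=
    (fromBlocks_toBlocks c).symm
  rw [e, fromBlocks_multiply, fromBlocks_multiply] at hc
  simp only [Matrix.mul_zero, Matrix.zero_mul, Matrix.mul_one, Matrix.one_mul, add_zero,
    zero_add] at hc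
  rw [fromBlocks_inj] at hc
  obtain ⟨h1, h2, -, -⟩ := hc
  refine ⟨c.toBlocks₁₁.det, ?_⟩
  conv_lhs => rw [e]
  rw [← h1, ← h2, det_fromBlocks_zero₂₁]

theorem exists_cube_root (K : Type*) [Field K] [Finite K] [CharP K 3] (z : K) :
    ∃ w : K, w ^ 3 = z := by
  haveI : Fact (Nat.Prime 3) := ⟨Nat.prime_three⟩
  have h := Finite.injective_iff_surjective.mp (frobenius_inj K 3)
  obtain ⟨w, hw⟩ := h z
  exact ⟨w, hw⟩

theorem pow_half_of_not_sq {K : Type*} [Field K] [Fintype K] (hK : ringChar K ≠ 2) (a : K)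
    (ha : ¬ IsSquare a) : a ^ (Fintype.card K / 2) = -1 := by
  have ha0 : a ≠ 0 := fun h => ha (h ▸ IsSquare.zero)
  have h1 : a ^ (Fintype.card K / 2) ≠ 1 := fun h => ha ((FiniteField.isSquare_iff hK ha0).mpr h)
  have hodd := FiniteField.odd_card_of_char_ne_two hK
  have h2 : (a ^ (Fintype.card K / 2)) ^ 2 = 1 := by
    rw [← pow_mul]
    have : Fintype.card K / 2 * 2 = Fintype.card K - 1 := by omega
    rw [this]
    exact FiniteField.pow_card_sub_one_eq_one a ha0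
  rw [pow_two] at h2
  rcases mul_self_eq_one_iff.mp h2 with h | h
  · exact absurd h h1
  · exact h

theorem subfield_sq [Fintype F] (hF : ringChar F ≠ 2) (F₀ : Subfield F) (q₀ : ℕ)
    (hq₀ : Nat.card F₀ = q₀) (hq : Fintype.card F = q₀ ^ 2) (a : F₀) (ha : a ≠ 0) :
    IsSquare (a : F) := by
  classical
  haveI : Fintype F₀ := Fintype.ofFinite F₀
  have hodd := FiniteField.odd_card_of_char_ne_two hF
  have hq₀' : Fintype.card F₀ = q₀ := by rw [← Nat.card_eq_fintype_card, hq₀]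
  have ha' : (a : F) ≠ 0 := fun h => ha (Subtype.ext h)
  rw [FiniteField.isSquare_iff hF ha']
  have h1 : a ^ (q₀ - 1) = 1 := by
    rw [← hq₀']
    exact FiniteField.pow_card_sub_one_eq_one a ha
  have hq₀odd : q₀ % 2 = 1 := by
    rw [hq] at hodd
    rcases Nat.even_or_odd q₀ with he | ho
    · exfalso
      have : Even (q₀ ^ 2) := Nat.even_pow.mpr ⟨he, by norm_num⟩
      rw [Nat.even_iff] at this
      omega
    · exact Nat.odd_iff.mp ho
  obtain ⟨t, ht⟩ : ∃ t, q₀ = 2 * t + 1 := ⟨q₀ / 2, by omega⟩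
  have h2 : Fintype.card F / 2 = (q₀ - 1) * (t + 1) := by
    rw [hq, ht]
    have : (2 * t + 1) ^ 2 = 2 * ((2 * t + 1 - 1) * (t + 1)) + 1 := by
      have : 2 * t + 1 - 1 = 2 * t := by omega
      rw [this]
      ring
    omega
  rw [h2, pow_mul]
  have h3 : ((a : F)) ^ (q₀ - 1) = 1 := by
    have := congrArg (fun x : F₀ => (x : F)) h1
    simpa using this
  rw [h3, one_pow]

theorem exists_subfield_nonsq [Fintype F] (hF : ringChar F ≠ 2) (F₀ : Subfield F) (q₀ k : ℕ)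
    (hq₀ : Nat.card F₀ = q₀) (hq : Fintype.card F = q₀ ^ k) (hk : Odd k) :
    ∃ ν : F₀, ν ≠ 0 ∧ ¬ IsSquare (ν : F) := by
  classical
  haveI : Fintype F₀ := Fintype.ofFinite F₀
  have hq₀' : Fintype.card F₀ = q₀ := by rw [← Nat.card_eq_fintype_card, hq₀]
  haveI : CharP F (ringChar F) := ringChar.charP F
  haveI : CharP F₀ (ringChar F) := RingHom.charP F₀.subtype F₀.subtype.injective (ringChar F)
  have hF₀ : ringChar F₀ ≠ 2 := by rw [ringChar.eq F₀ (ringChar F)]; exact hF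
  obtain ⟨ν, hν⟩ := FiniteField.exists_nonsquare hF₀
  have hν0 : ν ≠ 0 := fun h => hν (h ▸ IsSquare.zero)
  refine ⟨ν, hν0, ?_⟩
  have h1 := pow_half_of_not_sq hF₀ ν hν
  have hodd := FiniteField.odd_card_of_char_ne_two hF
  have hodd₀ := FiniteField.odd_card_of_char_ne_two hF₀
  rw [hq₀'] at h1 hodd₀
  have hν' : (ν : F) ≠ 0 := fun h => hν0 (Subtype.ext h)
  rw [FiniteField.isSquare_iff hF hν']
  obtain ⟨S, hS⟩ : ∃ S, S = ∑ t ∈ Finset.range k, q₀ ^ t := ⟨_, rfl⟩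
  have hSodd : S % 2 = 1 := by
    rw [hS, Cfsg.Agent.Lib.helper4.GLNum.geom_parity q₀ (Nat.odd_iff.mpr hodd₀) k]
    exact Nat.odd_iff.mp hk
  have hgeom : (q₀ - 1) * S = q₀ ^ k - 1 := by
    obtain ⟨r, rfl⟩ : ∃ r, q₀ = r + 1 := ⟨q₀ - 1, by omega⟩
    rw [hS, Nat.add_sub_cancel]
    exact Cfsg.Agent.Lib.helper4.GLNum.geom r k
  have h2 : Fintype.card F / 2 = (q₀ / 2) * S := by
    rw [hq]
    have h3 : q₀ - 1 = 2 * (q₀ / 2) := by omega
    rw [h3, mul_assoc] at hgeom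
    rw [hq] at hodd
    omega
  rw [h2, pow_mul]
  have h3 : ((ν : F)) ^ (q₀ / 2) = -1 := by
    have := congrArg (fun x : F₀ => (x : F)) h1
    simpa using this
  rw [h3]
  have h4 : ((-1 : F)) ^ S = -1 := by
    have : Odd S := Nat.odd_iff.mpr hSodd
    exact this.neg_one_pow
  rw [h4]
  intro h5
  have h6 : (2 : F) = 0 := by linear_combination -h5
  have : ringChar F = 2 := by
    have h7 : ((2 : ℕ) : F) = 0 := by exact_mod_cast h6
    have h8 := (ringChar.spec F 2).mp h7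
    have h9 : ringChar F ≠ 1 := by
      intro h10
      haveI : CharP F 1 := h10 ▸ ringChar.charP F
      exact absurd (CharP.char_is_prime_or_zero F 1) (by norm_num)
    exact (Nat.prime_two.eq_one_or_self_of_dvd _ h8).resolve_left h9
  exact hF this

theorem sq_mul_subfield [Fintype F] (hF : ringChar F ≠ 2) (F₀ : Subfield F) (q₀ k : ℕ)
    (hq₀ : Nat.card F₀ = q₀) (hq : Fintype.card F = q₀ ^ k) (hk : Odd k) (τ : F) (hτ : τ ≠ 0) :
    ∃ (t : F) (f₀ : F₀), t ≠ 0 ∧ f₀ ≠ 0 ∧ τ = t ^ 2 * (f₀ : F) := by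
  by_cases hs : IsSquare τ
  · obtain ⟨r, hr⟩ := hs
    refine ⟨r, 1, ?_, one_ne_zero, ?_⟩
    · rintro rfl
      exact hτ (by rw [hr, mul_zero])
    · rw [hr]
      simp [pow_two]
  · obtain ⟨ν, hν0, hν⟩ := exists_subfield_nonsq hF F₀ q₀ k hq₀ hq hk
    have hν' : (ν : F) ≠ 0 := fun h => hν0 (Subtype.ext h)
    have h1 := pow_half_of_not_sq hF τ hs
    have h2 := pow_half_of_not_sq hF (ν : F) hν
    have h3 : IsSquare (τ / (ν : F)) := by
      rw [FiniteField.isSquare_iff hF (div_ne_zero hτ hν'), div_pow, h1, h2]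
      simp
    obtain ⟨r, hr⟩ := h3
    refine ⟨r, ν, ?_, hν0, ?_⟩
    · rintro rfl
      rw [mul_zero] at hr
      exact (div_ne_zero hτ hν') hr
    · rw [pow_two, ← hr, div_mul_cancel₀ _ hν']

end Cfsg.Agent.Lib.helper4.SubfieldConj
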