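import Mathlib
import Cfsg.Prelude.Def_GeometricClasses
import Cfsg.Agent.Lib.helper18.RCF3
import Cfsg.Agent.Lib.helper2.SLCard
import Cfsg.Agent.Lib.helper4.GLNum
import Cfsg.Agent.Lib.helper4.SubfieldConj

/-!
# Elements of `SL_n(q)` with scalar square and subfield subgroups: odd characteristic
-/

namespace Cfsg.Agent.Lib.helper4.Sub2

open Matrix

open Cfsg.Agent.Lib.helper4

universe u

variable {F : Type u} [Field F] {n : ℕ}

/-- A semisimple element which is `GL`-conjugate into the subfield group is `SL`-conjugate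
into it. -/
theorem ss_sl_conj [Fintype F] (F₀ : Subfield F) (hn : 0 < n)
    (x : SpecialLinearGroup (Fin n) F) (m : ℕ) (hm : (m : F) ≠ 0)
    (hx : (x : Matrix (Fin n) (Fin n) F) ^ m = 1) (g : GL (Fin n) F)
    (hg : g⁻¹ * SpecialLinearGroup.toGL x * g ∈ Cfsg.Geo.subfieldSubgroup F₀ (1 : GL (Fin n) F)) :
    ∃ P : SpecialLinearGroup (Fin n) F, P⁻¹ * x * P
      ∈ (Cfsg.Geo.subfieldSubgroup F₀ (1 : GL (Fin n) F)).comap
        (SpecialLinearGroup.toGL : SpecialLinearGroup (Fin n) F →* GL (Fin n) F) := by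
  classical
  obtain ⟨B, hB⟩ : ∃ B : Matrix (Fin n) (Fin n) F,
      B = ((g⁻¹ * SpecialLinearGroup.toGL x * g : GL (Fin n) F) : Matrix (Fin n) (Fin n) F) :=
    ⟨_, rfl⟩
  have hXm : (SpecialLinearGroup.toGL x) ^ m = 1 := by
    apply Units.ext
    rw [Units.val_pow_eq_pow_val]
    exact hx
  have hBm : B ^ m = 1 := by
    have e1 : (g⁻¹ * SpecialLinearGroup.toGL x * g) ^ m = 1 := by
      have := conj_pow (a := g⁻¹) (b := SpecialLinearGroup.toGL x) (i := m)
      rw [inv_inv] at this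
      rw [this, hXm]
      group
    have e2 := congrArg Units.val e1
    rw [Units.val_pow_eq_pow_val] at e2
    rw [hB]
    exact e2
  have hc : (x : Matrix (Fin n) (Fin n) F).charpoly = B.charpoly := by
    rw [hB, Units.val_mul, Units.val_mul, Matrix.coe_units_inv]
    exact (Matrix.charpoly_units_conj' g (x : Matrix (Fin n) (Fin n) F)).symm
  obtain ⟨C, D, hCD, hDC, hCA, hdetC⟩ := Cfsg.Agent.Lib.helper18.RCF.ss_conj_mat_det hn
    (x : Matrix (Fin n) (Fin n) F) B m m hm hm hx hBm hc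
  obtain ⟨PG, hPG, hPG'⟩ : ∃ PG : GL (Fin n) F, (PG : Matrix (Fin n) (Fin n) F) = D ∧
      ((PG⁻¹ : GL (Fin n) F) : Matrix (Fin n) (Fin n) F) = C := ⟨⟨D, C, hDC, hCD⟩, rfl, rfl⟩
  have e3 : PG⁻¹ * SpecialLinearGroup.toGL x * PG = g⁻¹ * SpecialLinearGroup.toGL x * g := by
    apply Units.ext
    rw [Units.val_mul, Units.val_mul, hPG, hPG', ← hB]
    show C * (x : Matrix (Fin n) (Fin n) F) * D = B
    rw [hCA, mul_assoc, hCD, mul_one]
  apply SubfieldConj.exists_sl_conj F₀ x PG (by rw [e3]; exact hg)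
  rw [hPG]
  have : C.det * D.det = 1 := by rw [← det_mul, hCD, det_one]
  rw [hdetC, one_mul] at this
  exact this

/-- An involution in odd characteristic is diagonalisable with eigenvalues `±1`. -/
theorem exists_diag_of_sq (h2 : (2 : F) ≠ 0) (B : Matrix (Fin n) (Fin n) F) (hB : B * B = 1) :
    ∃ (g₀ g₁ : Matrix (Fin n) (Fin n) F) (ε : Fin n → F), g₀ * g₁ = 1 ∧ g₁ * g₀ = 1 ∧
      (∀ i, ε i = 1 ∨ ε i = -1) ∧ g₁ * B * g₀ = diagonal ε := by
  classical
  obtain ⟨T, hT⟩ : ∃ T : Module.End F (Fin n → F), T = Matrix.toLin' B := ⟨_, rfl⟩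
  have hTT : ∀ v, T (T v) = v := by
    intro v
    rw [hT, ← LinearMap.comp_apply, ← Matrix.toLin'_mul, hB, Matrix.toLin'_one]
    rfl
  obtain ⟨Ep, hEp⟩ : ∃ E : Submodule F (Fin n → F), E = LinearMap.ker (T - 1) := ⟨_, rfl⟩
  obtain ⟨Em, hEm⟩ : ∃ E : Submodule F (Fin n → F), E = LinearMap.ker (T + 1) := ⟨_, rfl⟩
  have hp : ∀ v, v ∈ Ep ↔ T v = v := by
    intro v
    rw [hEp, LinearMap.mem_ker, LinearMap.sub_apply, sub_eq_zero]
    rfl
  have hm : ∀ v, v ∈ Em ↔ T v = -v := by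
    intro v
    rw [hEm, LinearMap.mem_ker, LinearMap.add_apply, add_eq_zero_iff_eq_neg]
    rfl
  have hcompl : IsCompl Ep Em := by
    constructor
    · rw [Submodule.disjoint_def]
      intro v h1 h2'
      rw [hp] at h1
      rw [hm] at h2'
      exact GLCent.eq_zero_of_two h2 v (h1.symm.trans h2')
    · rw [codisjoint_iff, eq_top_iff]
      intro v _
      obtain ⟨a, b, ha, hb, hv⟩ := GLCent.refl_decomp h2 T hTT v
      rw [hv, add_comm]
      exact Submodule.add_mem_sup ((hp b).mpr hb) ((hm a).mpr ha)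
  obtain ⟨bp⟩ : Nonempty (Module.Basis (Module.Free.ChooseBasisIndex F Ep) F Ep) :=
    ⟨Module.Free.chooseBasis F Ep⟩
  obtain ⟨bm⟩ : Nonempty (Module.Basis (Module.Free.ChooseBasisIndex F Em) F Em) :=
    ⟨Module.Free.chooseBasis F Em⟩
  obtain ⟨b, hb⟩ : ∃ b : Module.Basis (Module.Free.ChooseBasisIndex F Ep ⊕
      Module.Free.ChooseBasisIndex F Em) F (Fin n → F),
      b = (bp.prod bm).map (Submodule.prodEquivOfIsCompl Ep Em hcompl) := ⟨_, rfl⟩
  have hbmem : ∀ i, b i ∈ Ep ∨ b i ∈ Em := by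
    intro i
    rcases i with i | i
    · left
      rw [hb, Module.Basis.map_apply, Submodule.coe_prodEquivOfIsCompl']
      simp
    · right
      rw [hb, Module.Basis.map_apply, Submodule.coe_prodEquivOfIsCompl']
      simp
  have hcard : Fintype.card (Module.Free.ChooseBasisIndex F Ep ⊕
      Module.Free.ChooseBasisIndex F Em) = n := by
    rw [← Module.finrank_eq_card_basis b, Module.finrank_fin_fun]
  obtain ⟨σ⟩ : Nonempty ((Module.Free.ChooseBasisIndex F Ep ⊕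
      Module.Free.ChooseBasisIndex F Em) ≃ Fin n) :=
    ⟨Fintype.equivOfCardEq (by rw [hcard, Fintype.card_fin])⟩
  obtain ⟨b', hb'⟩ : ∃ b' : Module.Basis (Fin n) F (Fin n → F), b' = b.reindex σ := ⟨_, rfl⟩
  have hb'mem : ∀ j, b' j ∈ Ep ∨ b' j ∈ Em := by
    intro j
    rw [hb', Module.Basis.reindex_apply]
    exact hbmem _
  obtain ⟨ε, hε⟩ : ∃ ε : Fin n → F, ∀ j, ε j = if b' j ∈ Ep then (1 : F) else -1 :=
    ⟨_, fun _ => rfl⟩
  have hTb : ∀ j, T (b' j) = ε j • b' j := by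
    intro j
    rw [hε]
    by_cases h : b' j ∈ Ep
    · rw [if_pos h, one_smul]
      exact (hp _).mp h
    · rw [if_neg h, neg_one_smul]
      exact (hm _).mp ((hb'mem j).resolve_left h)
  obtain ⟨g₀, hg₀⟩ : ∃ g₀ : Matrix (Fin n) (Fin n) F,
      g₀ = (Pi.basisFun F (Fin n)).toMatrix b' := ⟨_, rfl⟩
  obtain ⟨g₁, hg₁⟩ : ∃ g₁ : Matrix (Fin n) (Fin n) F,
      g₁ = b'.toMatrix (Pi.basisFun F (Fin n)) := ⟨_, rfl⟩
  have h01 : g₀ * g₁ = 1 := by
    rw [hg₀, hg₁]; exact Module.Basis.toMatrix_mul_toMatrix_flip _ _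
  have h10 : g₁ * g₀ = 1 := by
    rw [hg₀, hg₁]; exact Module.Basis.toMatrix_mul_toMatrix_flip _ _
  obtain ⟨M₀, hM₀⟩ : ∃ M₀ : Matrix (Fin n) (Fin n) F, M₀ = LinearMap.toMatrix b' b' T :=
    ⟨_, rfl⟩
  have hconj : g₀ * M₀ * g₁ = B := by
    rw [hg₀, hg₁, hM₀, basis_toMatrix_mul_linearMap_toMatrix_mul_basis_toMatrix,
      LinearMap.toMatrix_eq_toMatrix', hT]
    exact LinearMap.toMatrix'_toLin' B
  have hM₀d : M₀ = diagonal ε := by
    ext i j
    rw [hM₀, LinearMap.toMatrix_apply, hTb, map_smul, b'.repr_self, Finsupp.smul_apply,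
      Finsupp.single_apply, diagonal_apply]
    by_cases hij : i = j
    · subst hij; simp
    · rw [if_neg (Ne.symm hij), if_neg hij]; simp
  refine ⟨g₀, g₁, ε, h01, h10, ?_, ?_⟩
  · intro i
    rw [hε]
    by_cases h : b' i ∈ Ep
    · left; exact if_pos h
    · right; exact if_neg h
  · rw [← hM₀d, ← hconj]
    calc g₁ * (g₀ * M₀ * g₁) * g₀ = (g₁ * g₀) * M₀ * (g₁ * g₀) := by simp only [mul_assoc]
      _ = M₀ := by rw [h10, one_mul, mul_one]

theorem conj_of_sq_split [Fintype F] (h2 : (2 : F) ≠ 0) (F₀ : Subfield F) (hn : 0 < n)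
    (x : SpecialLinearGroup (Fin n) F) (w : F)
    (hz : ((x ^ 2 : SpecialLinearGroup (Fin n) F) : Matrix (Fin n) (Fin n) F)
      = (w ^ 2) • (1 : Matrix (Fin n) (Fin n) F)) :
    ∃ P : SpecialLinearGroup (Fin n) F, P⁻¹ * x * P
      ∈ (Cfsg.Geo.subfieldSubgroup F₀ (1 : GL (Fin n) F)).comap
        (SpecialLinearGroup.toGL : SpecialLinearGroup (Fin n) F →* GL (Fin n) F) := by
  classical
  haveI : Nonempty (Fin n) := ⟨⟨0, hn⟩⟩
  obtain ⟨A, hA⟩ : ∃ A : Matrix (Fin n) (Fin n) F, A = x.1 := ⟨_, rfl⟩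
  have hdetA : A.det = 1 := by rw [hA]; exact x.2
  have hA2 : A ^ 2 = (w ^ 2) • (1 : Matrix (Fin n) (Fin n) F) := by rw [hA, ← hz]; rfl
  have hw0 : w ≠ 0 := by
    rintro rfl
    have := congrArg Matrix.det hA2
    rw [det_pow, hdetA, one_pow, zero_pow two_ne_zero, zero_smul, det_zero] at this
    exact one_ne_zero this
  have hBB : (w⁻¹ • A) * (w⁻¹ • A) = 1 := by
    rw [← pow_two, smul_pow, hA2, smul_smul, inv_pow, inv_mul_cancel₀ (pow_ne_zero 2 hw0),
      one_smul]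
  obtain ⟨g₀, g₁, ε, h01, h10, hε, hdiag⟩ := exists_diag_of_sq h2 (w⁻¹ • A) hBB
  have hg1A : g₁ * A * g₀ = w • diagonal ε := by
    rw [← hdiag, Matrix.mul_smul, Matrix.smul_mul, smul_smul, mul_inv_cancel₀ hw0, one_smul]
  obtain ⟨ε₀, hε₀⟩ : ∃ ε₀ : Fin n → F₀, ∀ i, ε₀ i = if ε i = 1 then (1 : F₀) else -1 :=
    ⟨_, fun _ => rfl⟩
  have hne : (-1 : F) ≠ 1 := fun h' => h2 (by linear_combination (-1 : F) * h')
  have hmap : (diagonal ε₀).map F₀.subtype = diagonal ε := by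
    ext i j
    rw [Matrix.map_apply, diagonal_apply, diagonal_apply]
    by_cases hij : i = j
    · subst hij
      rw [if_pos rfl, if_pos rfl, hε₀]
      rcases hε i with h | h
      · rw [if_pos h, h]; simp
      · rw [if_neg (by rw [h]; exact hne), h]; simp
    · rw [if_neg hij, if_neg hij]; simp
  have hdetY : (diagonal ε₀).det ≠ 0 := by
    rw [det_diagonal, Finset.prod_ne_zero_iff]
    intro i _
    rw [hε₀]
    split_ifs
    · exact one_ne_zero
    · exact neg_ne_zero.mpr one_ne_zero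
  obtain ⟨yG, hyG⟩ : ∃ yG : GL (Fin n) F₀, (yG : Matrix (Fin n) (Fin n) F₀) = diagonal ε₀ :=
    ⟨Matrix.GeneralLinearGroup.mkOfDetNeZero _ hdetY, rfl⟩
  obtain ⟨g₀G, hg₀G, hg₀G'⟩ : ∃ g₀G : GL (Fin n) F, (g₀G : Matrix (Fin n) (Fin n) F) = g₀ ∧
      ((g₀G⁻¹ : GL (Fin n) F) : Matrix (Fin n) (Fin n) F) = g₁ := ⟨⟨g₀, g₁, h01, h10⟩, rfl, rfl⟩
  obtain ⟨wG, hwG⟩ : ∃ wG : GL (Fin n) F, (wG : Matrix (Fin n) (Fin n) F) = w • 1 :=
    ⟨⟨w • 1, w⁻¹ • 1, by rw [smul_mul_smul_comm, mul_one, mul_inv_cancel₀ hw0, one_smul],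
      by rw [smul_mul_smul_comm, mul_one, inv_mul_cancel₀ hw0, one_smul]⟩, rfl⟩
  have h₀ : g₀G⁻¹ * SpecialLinearGroup.toGL x * g₀G
      ∈ Cfsg.Geo.subfieldSubgroup F₀ (1 : GL (Fin n) F) := by
    have e : g₀G⁻¹ * SpecialLinearGroup.toGL x * g₀G
        = Matrix.GeneralLinearGroup.map (F₀.subtype : F₀ →+* F) yG * wG := by
      apply Units.ext
      rw [Units.val_mul, Units.val_mul, Units.val_mul, hg₀G, hg₀G', hwG]
      show g₁ * x.1 * g₀ = (yG : Matrix (Fin n) (Fin n) F₀).map F₀.subtype * (w • 1)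
      rw [← hA, hg1A, hyG, Matrix.mul_smul, mul_one, hmap]
    rw [e]
    exact Subgroup.mul_mem _ (SubfieldConj.map_mem F₀ yG)
      (SubfieldConj.scalar_mem F₀ (Units.mk0 w hw0) wG hwG)
  have hm : ((2 * (Fintype.card F - 1) : ℕ) : F) ≠ 0 := by
    rw [Nat.cast_mul, Nat.cast_sub Fintype.card_pos, FiniteField.cast_card_eq_zero]
    simp only [Nat.cast_ofNat, Nat.cast_one, zero_sub, mul_neg, mul_one, ne_eq, neg_eq_zero]
    exact h2
  have hxm : (x : Matrix (Fin n) (Fin n) F) ^ (2 * (Fintype.card F - 1)) = 1 := by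
    rw [pow_mul, ← hA, hA2, smul_pow, one_pow, ← pow_mul, mul_comm, pow_mul,
      FiniteField.pow_card_sub_one_eq_one w hw0, one_pow, one_smul]
  exact ss_sl_conj F₀ hn x _ hm hxm g₀G h₀

open Polynomial in
/-- A matrix whose square is a non-square scalar `z` has even size `2j` and determinant
`(-z)^j`. -/
theorem det_of_sq (A : Matrix (Fin n) (Fin n) F) (z : F) (hz : ¬ IsSquare z)
    (hA : A * A = z • (1 : Matrix (Fin n) (Fin n) F)) :
    ∃ j, n = 2 * j ∧ A.det = (-z) ^ j := by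
  classical
  obtain ⟨T, hT⟩ : ∃ T : Module.End F (Fin n → F), T = Matrix.toLin' A := ⟨_, rfl⟩
  obtain ⟨ι, _, g, hg, -, Ψ, hΨ⟩ := Cfsg.Agent.Lib.helper18.RCF.exists_rcf T
  have hTT : T * T = z • (1 : Module.End F (Fin n → F)) := by
    rw [hT]
    show (Matrix.toLin' A).comp (Matrix.toLin' A) = _
    rw [← Matrix.toLin'_mul, hA, map_smul, Matrix.toLin'_one]
    rfl
  obtain ⟨P, hP⟩ : ∃ P : F[X], P = X ^ 2 - C z := ⟨_, rfl⟩
  have h0 : aeval T P = 0 := by
    rw [hP, map_sub, map_pow, aeval_X, aeval_C, pow_two, hTT, Module.algebraMap_end_eq_smul_id]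
    exact sub_self _
  have hdvd : ∀ i, g i ∣ P := Cfsg.Agent.Lib.helper18.RCF.rcf_dvd T g Ψ hΨ _ h0
  have hPm : P.Monic := by rw [hP]; exact monic_X_pow_sub_C z (by norm_num)
  have hPd : P.natDegree = 2 := by rw [hP]; exact natDegree_X_pow_sub_C
  have hirr : Irreducible P := by
    rw [hP]
    exact (X_pow_sub_C_irreducible_iff_of_prime Nat.prime_two).mpr
      (fun b hb => hz ⟨b, by rw [← hb, pow_two]⟩)
  have hg1 : ∀ i, g i = 1 ∨ g i = P := by
    intro i
    obtain ⟨c, hc⟩ := hdvd i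
    rcases hirr.isUnit_or_isUnit hc with h | h
    · left
      exact (hg i).eq_one_of_isUnit h
    · right
      apply eq_of_monic_of_associated (hg i) hPm
      exact ⟨h.unit, by rw [IsUnit.unit_spec]; exact hc.symm⟩
  obtain ⟨j, hj⟩ : ∃ j : ℕ, j = (Finset.univ.filter (fun i => ¬ g i = 1)).card := ⟨_, rfl⟩
  have hcp : T.charpoly = P ^ j := by
    rw [Cfsg.Agent.Lib.helper18.RCF.charpoly_of_rcf T g hg Ψ hΨ]
    have e1 : ∀ i, g i = if g i = 1 then 1 else P := by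
      intro i
      rcases hg1 i with h | h
      · rw [if_pos h, h]
      · by_cases h' : g i = 1
        · rw [if_pos h', h']
        · rw [if_neg h', h]
    rw [Finset.prod_congr rfl (fun i _ => e1 i), Finset.prod_ite, Finset.prod_const_one, one_mul,
      Finset.prod_const, hj]
  have hn2 : n = 2 * j := by
    have e2 := LinearMap.charpoly_natDegree T
    rw [hcp, hPm.natDegree_pow, hPd, Module.finrank_fin_fun] at e2
    omega
  refine ⟨j, hn2, ?_⟩
  have e3 : A.charpoly = T.charpoly := by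
    rw [← LinearMap.charpoly_toMatrix T (Pi.basisFun F (Fin n)), LinearMap.toMatrix_eq_toMatrix',
      hT, LinearMap.toMatrix'_toLin']
  rw [Matrix.det_eq_sign_charpoly_coeff, e3, hcp, Fintype.card_fin, hn2, pow_mul,
    neg_one_sq, one_pow, one_mul, coeff_zero_eq_eval_zero, eval_pow, hP, eval_sub, eval_pow,
    eval_X, eval_C]
  simp

theorem two_part' (N : ℕ) (hN : N ≠ 0) : ∃ u, N = 2 ^ padicValNat 2 N * u ∧ Odd u := by
  haveI : Fact (Nat.Prime 2) := ⟨Nat.prime_two⟩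
  obtain ⟨a, ha⟩ : ∃ a, a = padicValNat 2 N := ⟨_, rfl⟩
  have h0 : 2 ^ a ∣ N := ha ▸ pow_padicValNat_dvd
  obtain ⟨u, hu⟩ := h0
  rw [← ha]
  refine ⟨u, hu, ?_⟩
  rw [← Nat.not_even_iff_odd]
  rintro ⟨w, rfl⟩
  have h1 : 2 ^ (a + 1) ∣ N := ⟨w, by rw [hu]; ring⟩
  rw [padicValNat_dvd_iff_le hN] at h1
  omega

theorem nt_exists [Fintype F] (hF : ringChar F ≠ 2) (m : ℕ)
    (hm : 2 ^ padicValNat 2 (Fintype.card F - 1) ∣ m) : ∃ y : F, ¬ IsSquare y ∧ y ^ m = 1 := by
  classical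
  have hodd := FiniteField.odd_card_of_char_ne_two hF
  have hq1 : 1 < Fintype.card F := Fintype.one_lt_card
  obtain ⟨h, hh⟩ : ∃ h, Fintype.card F = 2 * h + 1 := ⟨Fintype.card F / 2, by omega⟩
  have hq1' : Fintype.card F - 1 ≠ 0 := by omega
  obtain ⟨o, ho, hoodd⟩ := two_part' (Fintype.card F - 1) hq1'
  obtain ⟨m', hm'⟩ := hm
  obtain ⟨γ, hγ⟩ := IsCyclic.exists_generator (α := Fˣ)
  have hord : orderOf γ = Fintype.card F - 1 := by
    rw [orderOf_eq_card_of_forall_mem_zpowers hγ, Nat.card_eq_fintype_card, Fintype.card_units]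
  refine ⟨((γ ^ o : Fˣ) : F), ?_, ?_⟩
  · intro hsq
    rw [FiniteField.isSquare_iff hF (Units.ne_zero _)] at hsq
    have e1 : (γ ^ o) ^ (Fintype.card F / 2) = 1 := by
      apply Units.ext
      rw [Units.val_pow_eq_pow_val]
      exact hsq
    rw [← pow_mul] at e1
    have e2 := orderOf_dvd_of_pow_eq_one e1
    rw [hord] at e2
    have e3 : Fintype.card F / 2 = h := by omega
    have e4 : Fintype.card F - 1 = 2 * h := by omega
    rw [e3, e4] at e2
    obtain ⟨c, hc⟩ := e2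
    have h0 : 0 < h := by omega
    have e5 : o = 2 * c := by
      apply Nat.eq_of_mul_eq_mul_right h0
      rw [hc]; ring
    rw [e5] at hoodd
    exact (Nat.not_even_iff_odd.mpr hoodd) (even_two_mul c)
  · rw [← Units.val_pow_eq_pow_val, ← pow_mul]
    have e6 : o * m = (Fintype.card F - 1) * m' := by
      rw [hm']
      nth_rewrite 2 [ho]
      ring
    rw [e6, pow_mul, ← hord, pow_orderOf_eq_one, one_pow, Units.val_one]

theorem nt_forall [Fintype F] (hF : ringChar F ≠ 2) (j : ℕ) (hj : j ≠ 0) (y : F)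
    (hy : ¬ IsSquare y) (hyj : y ^ j = 1) :
    padicValNat 2 (Fintype.card F - 1) ≤ padicValNat 2 j := by
  haveI : Fact (Nat.Prime 2) := ⟨Nat.prime_two⟩
  by_contra hcon
  push Not at hcon
  have hodd := FiniteField.odd_card_of_char_ne_two hF
  have hq1 : 1 < Fintype.card F := Fintype.one_lt_card
  obtain ⟨h, hh⟩ : ∃ h, Fintype.card F = 2 * h + 1 := ⟨Fintype.card F / 2, by omega⟩
  have hq1' : Fintype.card F - 1 ≠ 0 := by omega
  obtain ⟨j', hj', hj'odd⟩ := two_part' j hj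
  obtain ⟨a, ha⟩ : ∃ a, a = padicValNat 2 j := ⟨_, rfl⟩
  rw [← ha] at hj' hcon
  have hdvd : 2 ^ (a + 1) ∣ Fintype.card F - 1 := (padicValNat_dvd_iff_le hq1').2 (by omega)
  obtain ⟨s, hs⟩ := hdvd
  have e1 : Fintype.card F / 2 = 2 ^ a * s := by
    have : Fintype.card F - 1 = 2 * (2 ^ a * s) := by rw [hs, pow_succ]; ring
    omega
  have e2 := SubfieldConj.pow_half_of_not_sq hF y hy
  rw [e1] at e2
  have e3 : y ^ (j * s) = 1 := by rw [pow_mul, hyj, one_pow]
  have e4 : j * s = (2 ^ a * s) * j' := by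
    nth_rewrite 1 [hj']
    ring
  rw [e4, pow_mul, e2, Odd.neg_one_pow hj'odd] at e3
  have h2 : (2 : F) ≠ 0 := Ring.two_ne_zero hF
  apply h2
  linear_combination (-1 : F) * e3

theorem exists_bad_sq [Fintype F] (F₀ : Subfield F) (m : ℕ) (hm : 0 < m)
    (hsq : ∀ a : F₀, a ≠ 0 → IsSquare (a : F)) (z : F) (hz : ¬ IsSquare z)
    (hzm : (-z) ^ m = 1) :
    ∃ x : SpecialLinearGroup (Fin (m + m)) F,
      ((x ^ 2 : SpecialLinearGroup (Fin (m + m)) F) : Matrix (Fin (m + m)) (Fin (m + m)) F)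
        = z • (1 : Matrix (Fin (m + m)) (Fin (m + m)) F) ∧
      (∀ c : F, (x : Matrix (Fin (m + m)) (Fin (m + m)) F)
        ≠ c • (1 : Matrix (Fin (m + m)) (Fin (m + m)) F)) ∧
      ∀ P : SpecialLinearGroup (Fin (m + m)) F, P⁻¹ * x * P
        ∉ (Cfsg.Geo.subfieldSubgroup F₀ (1 : GL (Fin (m + m)) F)).comap
          (SpecialLinearGroup.toGL : SpecialLinearGroup (Fin (m + m)) F →* GL (Fin (m + m)) F) := by
  classical
  have hz0 : z ≠ 0 := fun h => hz (h ▸ IsSquare.zero)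
  obtain ⟨X, hX⟩ : ∃ X : Matrix (Fin (m + m)) (Fin (m + m)) F,
      X = (fromBlocks 0 (z • 1) 1 0 : Matrix (Fin m ⊕ Fin m) (Fin m ⊕ Fin m) F).submatrix
        finSumFinEquiv.symm finSumFinEquiv.symm := ⟨_, rfl⟩
  have hXX : X * X = z • (1 : Matrix (Fin (m + m)) (Fin (m + m)) F) := by
    rw [hX, submatrix_mul_equiv, fromBlocks_multiply]
    simp only [Matrix.mul_zero, Matrix.zero_mul, Matrix.mul_one, Matrix.one_mul, add_zero,
      zero_add]
    have : (fromBlocks (z • 1) 0 0 (z • 1) : Matrix (Fin m ⊕ Fin m) (Fin m ⊕ Fin m) F)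
        = z • 1 := by
      rw [← fromBlocks_one, fromBlocks_smul, smul_zero]
    rw [this]
    ext i j
    rw [Matrix.submatrix_apply, Matrix.smul_apply, Matrix.smul_apply, Matrix.one_apply,
      Matrix.one_apply]
    simp
  obtain ⟨j, hj, hdet⟩ := det_of_sq X z hz hXX
  have hjm : j = m := by omega
  rw [hjm, hzm] at hdet
  obtain ⟨x, hx⟩ : ∃ x : SpecialLinearGroup (Fin (m + m)) F,
      (x : Matrix (Fin (m + m)) (Fin (m + m)) F) = X := ⟨⟨X, hdet⟩, rfl⟩
  have hx2 : ((x ^ 2 : SpecialLinearGroup (Fin (m + m)) F) :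
      Matrix (Fin (m + m)) (Fin (m + m)) F) = z • 1 := by
    have e0 : ((x ^ 2 : SpecialLinearGroup (Fin (m + m)) F) :
        Matrix (Fin (m + m)) (Fin (m + m)) F) = X ^ 2 := by
      rw [← hx]; rfl
    rw [e0, pow_two, hXX]
  refine ⟨x, hx2, ?_, ?_⟩
  · intro c hc
    rw [hx, hX] at hc
    have e1 := congrFun (congrFun hc (finSumFinEquiv (Sum.inr (⟨0, hm⟩ : Fin m))))
      (finSumFinEquiv (Sum.inl (⟨0, hm⟩ : Fin m)))
    rw [Matrix.submatrix_apply, Equiv.symm_apply_apply, Equiv.symm_apply_apply,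
      Matrix.fromBlocks_apply₂₁, Matrix.one_apply_eq, Matrix.smul_apply, Matrix.one_apply_ne
      (by
        intro h
        have := finSumFinEquiv.injective h
        exact Sum.inr_ne_inl this)] at e1
    simp at e1
  · intro P hP
    rw [Subgroup.mem_comap] at hP
    obtain ⟨y, c, hyc⟩ := SubfieldConj.mem_elim F₀ _ hP
    have e1 : ((SpecialLinearGroup.toGL (P⁻¹ * x * P) : GL (Fin (m + m)) F) :
        Matrix (Fin (m + m)) (Fin (m + m)) F) ^ 2 = z • 1 := by
      have e2 : (P⁻¹ * x * P) ^ 2 = P⁻¹ * x ^ 2 * P := by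
        have := conj_pow (a := P⁻¹) (b := x) (i := 2)
        rwa [inv_inv] at this
      have e2a : ((P⁻¹ * x * P : SpecialLinearGroup (Fin (m + m)) F) :
          Matrix (Fin (m + m)) (Fin (m + m)) F) ^ 2
          = ((P⁻¹ : SpecialLinearGroup (Fin (m + m)) F) : Matrix (Fin (m + m)) (Fin (m + m)) F)
            * ((x ^ 2 : SpecialLinearGroup (Fin (m + m)) F) :
              Matrix (Fin (m + m)) (Fin (m + m)) F)
            * (P : Matrix (Fin (m + m)) (Fin (m + m)) F) := by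
        have := congrArg Subtype.val e2
        exact this
      have e2b : ((P⁻¹ : SpecialLinearGroup (Fin (m + m)) F) :
          Matrix (Fin (m + m)) (Fin (m + m)) F) * (P : Matrix (Fin (m + m)) (Fin (m + m)) F)
          = 1 := by
        have := congrArg Subtype.val (inv_mul_cancel P)
        exact this
      show ((P⁻¹ * x * P : SpecialLinearGroup (Fin (m + m)) F) :
        Matrix (Fin (m + m)) (Fin (m + m)) F) ^ 2 = z • 1
      rw [e2a, hx2, Matrix.mul_smul, Matrix.smul_mul, mul_one, e2b]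
    rw [hyc] at e1
    obtain ⟨i₀⟩ : Nonempty (Fin (m + m)) := ⟨⟨0, by omega⟩⟩
    have e3 := congrFun (congrFun e1 i₀) i₀
    have e4 : ((y : Matrix (Fin (m + m)) (Fin (m + m)) F₀).map F₀.subtype) ^ 2
        = ((y : Matrix (Fin (m + m)) (Fin (m + m)) F₀) ^ 2).map F₀.subtype :=
      (map_pow (F₀.subtype : F₀ →+* F).mapMatrix (y : Matrix (Fin (m + m)) (Fin (m + m)) F₀) 2).symm
    rw [smul_pow, Matrix.smul_apply, e4, Matrix.map_apply, Matrix.smul_apply,
      Matrix.one_apply_eq] at e3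
    obtain ⟨β, hβ⟩ : ∃ β : F₀, β = ((y : Matrix (Fin (m + m)) (Fin (m + m)) F₀) ^ 2) i₀ i₀ :=
      ⟨_, rfl⟩
    rw [← hβ] at e3
    have hβ0 : β ≠ 0 := by
      rintro rfl
      apply hz0
      rw [← mul_one z]
      simpa using e3.symm
    obtain ⟨r, hr⟩ := hsq β hβ0
    apply hz
    refine ⟨(c : F) * r, ?_⟩
    have e5 : (c : F) ^ 2 * (β : F) = z := by simpa using e3
    rw [← e5, hr]
    ring

theorem index_odd [Fintype F] (hF : ringChar F ≠ 2) (F₀ : Subfield F) (q₀ k : ℕ) (hn : 0 < n)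
    (hq₀ : Nat.card F₀ = q₀) (hq : Fintype.card F = q₀ ^ k) (hk : Odd k) :
    ¬ 2 ∣ ((Cfsg.Geo.subfieldSubgroup F₀ (1 : GL (Fin n) F)).comap
        (SpecialLinearGroup.toGL : SpecialLinearGroup (Fin n) F →* GL (Fin n) F)).index := by
  classical
  haveI : Fact (Nat.Prime 2) := ⟨Nat.prime_two⟩
  haveI : Fintype F₀ := Fintype.ofFinite F₀
  have hq₀' : Fintype.card F₀ = q₀ := by rw [← Nat.card_eq_fintype_card, hq₀]
  have hodd := FiniteField.odd_card_of_char_ne_two hF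
  have hk0 : k ≠ 0 := by
    obtain ⟨t, ht⟩ := hk
    omega
  have hodd₀ : Odd q₀ := by
    rw [← Nat.not_even_iff_odd]
    intro he
    have : Even (q₀ ^ k) := Nat.even_pow.mpr ⟨he, hk0⟩
    rw [← hq, Nat.even_iff] at this
    omega
  have hodd : Odd (Fintype.card F) := Nat.odd_iff.mpr hodd
  have hq₀1 : 1 < q₀ := by rw [← hq₀']; exact Fintype.one_lt_card
  have hgF := GLNum.g_sum hodd n
  have hgF₀ := GLNum.g_sum (F := F₀) (by rw [hq₀']; exact hodd₀) n
  have heq : GLCent.g F n = GLCent.g F₀ n := by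
    rw [hgF, hgF₀]
    apply Finset.sum_congr rfl
    intro i _
    rw [hq, hq₀']
    have e1 := GLNum.f_odd (q₀ ^ (i + 1)) (Odd.pow hodd₀) (Nat.one_lt_pow (by omega) hq₀1) k hk
    unfold GLNum.f at e1 ⊢
    rw [← pow_mul, mul_comm k (i + 1), pow_mul, e1]
  have hv : padicValNat 2 (Fintype.card F - 1) = padicValNat 2 (q₀ - 1) := by
    rw [hq]
    exact GLNum.f_odd q₀ hodd₀ hq₀1 k hk
  have hc1 := Cfsg.Agent.Lib.helper2.SLCard.card_GL_eq F n hn
  have hc2 := Cfsg.Agent.Lib.helper2.SLCard.card_GL_eq F₀ n hn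
  rw [hq₀'] at hc2
  have hq1 : 1 < Fintype.card F := Fintype.one_lt_card
  have hSL : padicValNat 2 (Nat.card (SpecialLinearGroup (Fin n) F))
      = padicValNat 2 (Nat.card (SpecialLinearGroup (Fin n) F₀)) := by
    have e1 : GLCent.g F n = padicValNat 2 (Fintype.card F - 1)
        + padicValNat 2 (Nat.card (SpecialLinearGroup (Fin n) F)) := by
      unfold GLCent.g
      rw [hc1, padicValNat.mul (by omega) Nat.card_pos.ne']
    have e2 : GLCent.g F₀ n = padicValNat 2 (q₀ - 1)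
        + padicValNat 2 (Nat.card (SpecialLinearGroup (Fin n) F₀)) := by
      unfold GLCent.g
      rw [hc2, padicValNat.mul (by omega) Nat.card_pos.ne']
    omega
  obtain ⟨φ, hφ⟩ : ∃ φ : SpecialLinearGroup (Fin n) F₀ →* SpecialLinearGroup (Fin n) F,
      φ = SpecialLinearGroup.map (F₀.subtype : F₀ →+* F) := ⟨_, rfl⟩
  have hinj : Function.Injective φ := by
    intro y y' hyy
    apply Subtype.ext
    ext i j
    have e1 := congrArg (fun g : SpecialLinearGroup (Fin n) F => g.1 i j) hyy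
    rw [hφ] at e1
    exact e1
  have hle : φ.range ≤ (Cfsg.Geo.subfieldSubgroup F₀ (1 : GL (Fin n) F)).comap
        (SpecialLinearGroup.toGL : SpecialLinearGroup (Fin n) F →* GL (Fin n) F) := by
    rintro _ ⟨y, rfl⟩
    rw [Subgroup.mem_comap]
    have e1 : SpecialLinearGroup.toGL (φ y)
        = Matrix.GeneralLinearGroup.map (F₀.subtype : F₀ →+* F) (SpecialLinearGroup.toGL y) := by
      apply Units.ext
      rw [hφ]
      rfl
    rw [e1]
    exact SubfieldConj.map_mem F₀ _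
  have hcard : Nat.card φ.range = Nat.card (SpecialLinearGroup (Fin n) F₀) :=
    Nat.card_congr (MonoidHom.ofInjective hinj).toEquiv.symm
  intro h2
  have h3 : 2 ∣ φ.range.index := dvd_trans h2 (Subgroup.index_dvd_of_le hle)
  have h4 := Subgroup.card_mul_index φ.range
  have h5 : φ.range.index ≠ 0 := by
    intro h0
    rw [h0, mul_zero] at h4
    exact Nat.card_pos.ne' h4.symm
  have h6 : 1 ≤ padicValNat 2 φ.range.index :=
    (padicValNat_dvd_iff_le h5).mp (by simpa using h3)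
  have h7 := congrArg (padicValNat 2) h4
  rw [padicValNat.mul Nat.card_pos.ne' h5, hcard, hSL] at h7
  omega

end Cfsg.Agent.Lib.helper4.Sub2
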