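import Mathlib
import Cfsg.Prelude.Def_GeometricClasses
import Cfsg.Agent.Lib.helper4.Quad1
import Cfsg.Agent.Lib.helper4.Sub2b

/-!
# Quadratic field subalgebras of matrix algebras: odd characteristic
-/

namespace Cfsg.Agent.Lib.helper4.Quad

open Matrix Polynomial

universe u

variable {F : Type u} [Field F] {n : ℕ}

theorem exists_theta (h2 : (2 : F) ≠ 0) (hn : 0 < n)
    (K : Subalgebra F (Matrix (Fin n) (Fin n) F)) (hK : Cfsg.Geo.IsFieldSubalgebra 2 K) :
    ∃ (θ : Matrix (Fin n) (Fin n) F) (c : F), ¬ IsSquare c ∧ θ * θ = c • 1 ∧ θ ∈ K ∧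
      (∀ a : F, θ ≠ a • 1) := by
  obtain ⟨κ, hκK, hκns⟩ := exists_nonscalar K hK.finrank_eq
  have hmem := mem_iff_of_nonscalar hn K hK.finrank_eq κ hκK hκns
  obtain ⟨b, a, hab⟩ := (hmem (κ * κ)).mp (K.mul_mem hκK hκK)
  obtain ⟨e, he⟩ : ∃ e : F, e + e = a :=
    ⟨a * 2⁻¹, by rw [← two_mul, mul_comm a, ← mul_assoc, mul_inv_cancel₀ h2, one_mul]⟩
  obtain ⟨θ, hθ⟩ : ∃ θ : Matrix (Fin n) (Fin n) F, θ = κ - e • 1 := ⟨_, rfl⟩
  have hθθ : θ * θ = (b + e * e) • (1 : Matrix (Fin n) (Fin n) F) := by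
    rw [hθ]
    simp only [sub_mul, mul_sub, Matrix.mul_smul, Matrix.smul_mul, mul_one, one_mul]
    rw [hab, ← he]
    module
  have hθK : θ ∈ K := by rw [hθ]; exact K.sub_mem hκK (K.smul_mem K.one_mem e)
  have hθns : ∀ a' : F, θ ≠ a' • 1 := by
    intro a' h
    apply hκns (a' + e)
    rw [add_smul, ← h, hθ, sub_add_cancel]
  refine ⟨θ, b + e * e, ?_, hθθ, hθK, hθns⟩
  rintro ⟨d, hd⟩
  have h1' : (θ + d • 1) * (θ - d • 1) = 0 := by
    simp only [add_mul, mul_sub, Matrix.mul_smul, Matrix.smul_mul, mul_one, one_mul]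
    rw [hθθ, hd]
    module
  have h3 : θ - d • 1 ≠ 0 := fun h => hθns d (sub_eq_zero.mp h)
  obtain ⟨y, -, hy⟩ := hK.inv _ (K.sub_mem hθK (K.smul_mem K.one_mem d)) h3
  have h4 : θ + d • 1 = 0 := by
    calc θ + d • 1 = (θ + d • 1) * ((θ - d • 1) * y) := by rw [hy, mul_one]
      _ = ((θ + d • 1) * (θ - d • 1)) * y := by rw [mul_assoc]
      _ = 0 := by rw [h1', zero_mul]
  apply hθns (-d)
  rw [neg_smul]
  exact eq_neg_of_add_eq_zero_left h4

theorem mem_norm_of_comm (K : Subalgebra F (Matrix (Fin n) (Fin n) F))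
    (θ : Matrix (Fin n) (Fin n) F)
    (hKθ : ∀ y, y ∈ K ↔ ∃ α β : F, y = α • 1 + β • θ) (y : GL (Fin n) F) (s : F)
    (hs : s * s = 1)
    (hy : (y : Matrix (Fin n) (Fin n) F) * θ = s • (θ * (y : Matrix (Fin n) (Fin n) F))) :
    y ∈ Cfsg.Geo.subalgebraNormalizer K := by
  have hgg : (y : Matrix (Fin n) (Fin n) F)
      * ((y⁻¹ : GL (Fin n) F) : Matrix (Fin n) (Fin n) F) = 1 := by
    rw [← Units.val_mul, mul_inv_cancel, Units.val_one]
  have hgg' : ((y⁻¹ : GL (Fin n) F) : Matrix (Fin n) (Fin n) F)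
      * (y : Matrix (Fin n) (Fin n) F) = 1 := by
    rw [← Units.val_mul, inv_mul_cancel, Units.val_one]
  have hθK : ∀ t : F, t • θ ∈ K := fun t => (hKθ _).mpr ⟨0, t, by rw [zero_smul, zero_add]⟩
  apply mem_norm_of K θ hKθ y
  · rw [hy, Matrix.smul_mul, mul_assoc, hgg, mul_one]
    exact hθK s
  · have e1 : θ * (y : Matrix (Fin n) (Fin n) F) = s • ((y : Matrix (Fin n) (Fin n) F) * θ) := by
      rw [hy, smul_smul, hs, one_smul]
    rw [mul_assoc, e1, Matrix.mul_smul, ← mul_assoc, hgg', one_mul]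
    exact hθK s

theorem norm_odd (h2 : (2 : F) ≠ 0) (hn : 0 < n)
    (K : Subalgebra F (Matrix (Fin n) (Fin n) F))
    (θ : Matrix (Fin n) (Fin n) F) (c : F) (hc : ¬ IsSquare c)
    (hθθ : θ * θ = c • (1 : Matrix (Fin n) (Fin n) F)) (hθns : ∀ a : F, θ ≠ a • 1)
    (hKθ : ∀ y, y ∈ K ↔ ∃ α β : F, y = α • 1 + β • θ) (g : GL (Fin n) F)
    (hg : g ∈ Cfsg.Geo.subalgebraNormalizer K) :
    (g : Matrix (Fin n) (Fin n) F) * θ = θ * (g : Matrix (Fin n) (Fin n) F) ∨
      (g : Matrix (Fin n) (Fin n) F) * θ = -(θ * (g : Matrix (Fin n) (Fin n) F)) := by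
  have hgg : (g : Matrix (Fin n) (Fin n) F)
      * ((g⁻¹ : GL (Fin n) F) : Matrix (Fin n) (Fin n) F) = 1 := by
    rw [← Units.val_mul, mul_inv_cancel, Units.val_one]
  have hgg' : ((g⁻¹ : GL (Fin n) F) : Matrix (Fin n) (Fin n) F)
      * (g : Matrix (Fin n) (Fin n) F) = 1 := by
    rw [← Units.val_mul, inv_mul_cancel, Units.val_one]
  have hθK : θ ∈ K := (hKθ θ).mpr ⟨0, 1, by rw [zero_smul, zero_add, one_smul]⟩
  have h1 : (g : Matrix (Fin n) (Fin n) F) * θ
      * ((g⁻¹ : GL (Fin n) F) : Matrix (Fin n) (Fin n) F) ∈ K := (hg θ).mp hθK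
  obtain ⟨α, β, hαβ⟩ := (hKθ _).mp h1
  have hsq : ((g : Matrix (Fin n) (Fin n) F) * θ
      * ((g⁻¹ : GL (Fin n) F) : Matrix (Fin n) (Fin n) F)) * ((g : Matrix (Fin n) (Fin n) F) * θ
      * ((g⁻¹ : GL (Fin n) F) : Matrix (Fin n) (Fin n) F)) = c • 1 := by
    calc _ = (g : Matrix (Fin n) (Fin n) F) * (θ * (((g⁻¹ : GL (Fin n) F) :
          Matrix (Fin n) (Fin n) F) * (g : Matrix (Fin n) (Fin n) F)) * θ)
          * ((g⁻¹ : GL (Fin n) F) : Matrix (Fin n) (Fin n) F) := by simp only [mul_assoc]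
      _ = c • 1 := by rw [hgg', mul_one, hθθ, Matrix.mul_smul, Matrix.smul_mul, mul_one, hgg]
  rw [hαβ] at hsq
  have hexp : (α • (1 : Matrix (Fin n) (Fin n) F) + β • θ) * (α • 1 + β • θ)
      = (α * α + β * β * c) • 1 + (2 * α * β) • θ := by
    simp only [mul_add, add_mul, Matrix.mul_smul, Matrix.smul_mul, mul_one, one_mul, hθθ]
    module
  rw [hexp] at hsq
  have h3 : (α * α + β * β * c - c) • (1 : Matrix (Fin n) (Fin n) F) + (2 * α * β) • θ = 0 := by
    rw [sub_smul, sub_add_eq_add_sub, hsq, sub_self]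
  obtain ⟨e1, e2⟩ := coeff_zero hn θ hθns _ _ h3
  have hc0 : c ≠ 0 := fun h => hc (h ▸ IsSquare.zero)
  have hαβ0 : α = 0 ∨ β = 0 := by
    rcases mul_eq_zero.mp e2 with h | h
    · rcases mul_eq_zero.mp h with h' | h'
      · exact absurd h' h2
      · exact Or.inl h'
    · exact Or.inr h
  have hmove : ∀ M : Matrix (Fin n) (Fin n) F, (g : Matrix (Fin n) (Fin n) F) * θ
      * ((g⁻¹ : GL (Fin n) F) : Matrix (Fin n) (Fin n) F) = M →
      (g : Matrix (Fin n) (Fin n) F) * θ = M * (g : Matrix (Fin n) (Fin n) F) := by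
    intro M hM
    calc (g : Matrix (Fin n) (Fin n) F) * θ = (g : Matrix (Fin n) (Fin n) F) * θ
          * (((g⁻¹ : GL (Fin n) F) : Matrix (Fin n) (Fin n) F)
          * (g : Matrix (Fin n) (Fin n) F)) := by rw [hgg', mul_one]
      _ = ((g : Matrix (Fin n) (Fin n) F) * θ
          * ((g⁻¹ : GL (Fin n) F) : Matrix (Fin n) (Fin n) F))
          * (g : Matrix (Fin n) (Fin n) F) := by simp only [mul_assoc]
      _ = M * (g : Matrix (Fin n) (Fin n) F) := by rw [hM]
  rcases hαβ0 with h | h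
  · subst h
    have hβ : β * β = 1 := by
      have e3 : (β * β - 1) * c = 0 := by linear_combination e1
      rcases mul_eq_zero.mp e3 with h | h
      · linear_combination h
      · exact absurd h hc0
    rcases mul_self_eq_one_iff.mp hβ with h | h
    · left
      subst h
      exact hmove θ (by rw [hαβ, zero_smul, zero_add, one_smul])
    · right
      subst h
      have := hmove (-θ) (by rw [hαβ, zero_smul, zero_add, neg_smul, one_smul])
      rw [this, neg_mul]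
  · subst h
    exfalso
    apply hc
    exact ⟨α, by linear_combination -e1⟩

theorem exists_pair_theta {κ : Type} [Fintype κ] [DecidableEq κ] (σ : κ ⊕ κ ≃ Fin n)
    (ε : Fin n → F) (s : F) (hs2 : s * s = 1)
    (hs : ∀ i, ε (σ (Sum.inr i)) = s * ε (σ (Sum.inl i))) (c : F) :
    ∃ Θ : Matrix (Fin n) (Fin n) F, Θ * Θ = c • 1 ∧ diagonal ε * Θ = s • (Θ * diagonal ε) := by
  refine ⟨(fromBlocks 0 (c • 1) 1 0 : Matrix (κ ⊕ κ) (κ ⊕ κ) F).submatrix σ.symm σ.symm, ?_, ?_⟩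
  · rw [submatrix_mul_equiv, fromBlocks_multiply]
    simp only [Matrix.mul_zero, Matrix.zero_mul, Matrix.mul_one, Matrix.one_mul, add_zero,
      zero_add]
    have : (fromBlocks (c • 1) 0 0 (c • 1) : Matrix (κ ⊕ κ) (κ ⊕ κ) F) = c • 1 := by
      rw [← fromBlocks_one, fromBlocks_smul, smul_zero]
    rw [this]
    ext i j
    rw [Matrix.submatrix_apply, Matrix.smul_apply, Matrix.smul_apply, Matrix.one_apply,
      Matrix.one_apply]
    simp
  · ext i j
    obtain ⟨a, rfl⟩ := σ.surjective i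
    obtain ⟨b, rfl⟩ := σ.surjective j
    rw [Matrix.diagonal_mul, Matrix.smul_apply, Matrix.mul_diagonal, Matrix.submatrix_apply,
      Equiv.symm_apply_apply, Equiv.symm_apply_apply]
    rcases a with a | a <;> rcases b with b | b
    · simp
    · rw [fromBlocks_apply₁₂, Matrix.smul_apply, Matrix.one_apply]
      by_cases hab : a = b
      · subst hab
        rw [hs a, if_pos rfl, smul_eq_mul, smul_eq_mul]
        linear_combination (-(c * ε (σ (Sum.inl a)))) * hs2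
      · rw [if_neg hab]; simp
    · rw [fromBlocks_apply₂₁, Matrix.one_apply]
      by_cases hab : a = b
      · subst hab
        rw [hs a, if_pos rfl, smul_eq_mul]
        ring
      · rw [if_neg hab]; simp
    · simp

end Cfsg.Agent.Lib.helper4.Quad
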