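import Mathlib
import Cfsg.Prelude.Def_GeometricClasses
import Cfsg.Agent.Lib.helper4.Quad2

/-!
# Quadratic field subalgebras of matrix algebras: involutions in odd characteristic
-/

namespace Cfsg.Agent.Lib.helper4.Quad

open Matrix Polynomial

universe u

variable {F : Type u} [Field F] {n : ℕ}

theorem sq_aeval (A : Matrix (Fin n) (Fin n) F) (z : F)
    (hA : A * A = z • (1 : Matrix (Fin n) (Fin n) F)) : aeval A (X ^ 2 - C z : F[X]) = 0 := by
  rw [map_sub, map_pow, aeval_X, aeval_C, pow_two, hA, Algebra.algebraMap_eq_smul_one, sub_self]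

theorem sq_irr (z : F) (hz : ¬ IsSquare z) : Irreducible (X ^ 2 - C z : F[X]) :=
  (X_pow_sub_C_irreducible_iff_of_prime Nat.prime_two).mpr
    (fun b hb => hz ⟨b, by rw [← hb, pow_two]⟩)

theorem sl_fix_odd [Fintype F] (h2 : (2 : F) ≠ 0) (hn : 0 < n)
    (K : Subalgebra F (Matrix (Fin n) (Fin n) F))
    (θ : Matrix (Fin n) (Fin n) F) (c : F) (hc0 : c ≠ 0)
    (hθθ : θ * θ = c • (1 : Matrix (Fin n) (Fin n) F))
    (hKθ : ∀ y, y ∈ K ↔ ∃ α β : F, y = α • 1 + β • θ)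
    (x : SpecialLinearGroup (Fin n) F) (g : GL (Fin n) F)
    (hg : g⁻¹ * SpecialLinearGroup.toGL x * g ∈ Cfsg.Geo.subalgebraNormalizer K) :
    ∃ P : SpecialLinearGroup (Fin n) F, P⁻¹ * x * P
      ∈ (Cfsg.Geo.subalgebraNormalizer K).comap
        (SpecialLinearGroup.toGL : SpecialLinearGroup (Fin n) F →* GL (Fin n) F) := by
  classical
  have hm : ((2 * (Fintype.card F - 1) : ℕ) : F) ≠ 0 := by
    rw [Nat.cast_mul, Nat.cast_sub Fintype.card_pos, FiniteField.cast_card_eq_zero]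
    simp only [Nat.cast_ofNat, Nat.cast_one, zero_sub, mul_neg, mul_one, ne_eq, neg_eq_zero]
    exact h2
  have hθm : θ ^ (2 * (Fintype.card F - 1)) = 1 := by
    rw [pow_mul, pow_two, hθθ, _root_.smul_pow, one_pow, FiniteField.pow_card_sub_one_eq_one c hc0,
      one_smul]
  have hT : (Matrix.toLin' θ) ^ (2 * (Fintype.card F - 1)) = 1 := by
    rw [← Matrix.toLin'_pow, hθm, Matrix.toLin'_one]; rfl
  have hdetg : (g : Matrix (Fin n) (Fin n) F).det ≠ 0 := by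
    intro h
    have e1 : (g : Matrix (Fin n) (Fin n) F)
        * ((g⁻¹ : GL (Fin n) F) : Matrix (Fin n) (Fin n) F) = 1 := by
      rw [← Units.val_mul, mul_inv_cancel, Units.val_one]
    have := congrArg Matrix.det e1
    rw [det_mul, h, zero_mul, det_one] at this
    exact zero_ne_one this
  obtain ⟨Z, hZ1, hZ2⟩ := Cfsg.Agent.Lib.helper18.RCF.exists_comm_det (Matrix.toLin' θ) _ hm hT
    (by rw [Module.finrank_fin_fun]; exact hn) ((g : Matrix (Fin n) (Fin n) F).det)⁻¹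
  obtain ⟨zM, hzM⟩ : ∃ zM : Matrix (Fin n) (Fin n) F, zM = LinearMap.toMatrix' Z := ⟨_, rfl⟩
  have hzdet : zM.det = ((g : Matrix (Fin n) (Fin n) F).det)⁻¹ := by
    rw [hzM, LinearMap.det_toMatrix', hZ2]
  have hzθ : zM * θ = θ * zM := by
    have := congrArg LinearMap.toMatrix' hZ1
    rw [LinearMap.toMatrix'_comp, LinearMap.toMatrix'_comp, LinearMap.toMatrix'_toLin'] at this
    rw [hzM]; exact this
  obtain ⟨zG, hzG⟩ : ∃ zG : GL (Fin n) F, (zG : Matrix (Fin n) (Fin n) F) = zM :=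
    ⟨Matrix.GeneralLinearGroup.mkOfDetNeZero _ (by rw [hzdet]; exact inv_ne_zero hdetg), rfl⟩
  have hzN : zG ∈ Cfsg.Geo.subalgebraNormalizer K :=
    mem_norm_of_comm K θ hKθ zG 1 (one_mul 1) (by rw [hzG, one_smul, hzθ])
  have hmem : (g * zG)⁻¹ * SpecialLinearGroup.toGL x * (g * zG)
      ∈ Cfsg.Geo.subalgebraNormalizer K := by
    have e : (g * zG)⁻¹ * SpecialLinearGroup.toGL x * (g * zG)
        = zG⁻¹ * (g⁻¹ * SpecialLinearGroup.toGL x * g) * zG := by group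
    rw [e]
    exact Subgroup.mul_mem _ (Subgroup.mul_mem _ (Subgroup.inv_mem _ hzN) hg) hzN
  apply sl_of_gl _ x _ hmem
  rw [Units.val_mul, det_mul, hzG, hzdet, mul_inv_cancel₀ hdetg]

/-- conjugating an element that (anti)commutes with a conjugate of `θ` into the normaliser -/
theorem conj_into_norm (K : Subalgebra F (Matrix (Fin n) (Fin n) F))
    (θ : Matrix (Fin n) (Fin n) F) (c : F) (hc : ¬ IsSquare c)
    (hθθ : θ * θ = c • (1 : Matrix (Fin n) (Fin n) F))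
    (hKθ : ∀ y, y ∈ K ↔ ∃ α β : F, y = α • 1 + β • θ)
    (x : SpecialLinearGroup (Fin n) F) (θ' : Matrix (Fin n) (Fin n) F)
    (hθ' : θ' * θ' = c • (1 : Matrix (Fin n) (Fin n) F)) (s : F) (hs : s * s = 1)
    (hx : (x : Matrix (Fin n) (Fin n) F) * θ' = s • (θ' * (x : Matrix (Fin n) (Fin n) F))) :
    ∃ g : GL (Fin n) F, g⁻¹ * SpecialLinearGroup.toGL x * g
      ∈ Cfsg.Geo.subalgebraNormalizer K := by
  obtain ⟨C, D, hCD, hDC, hCθ⟩ := irr_conj (X ^ 2 - C c : F[X]) (monic_X_pow_sub_C c (by norm_num))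
    (sq_irr c hc) θ θ' (sq_aeval θ c hθθ) (sq_aeval θ' c hθ')
  obtain ⟨g, hg, hg'⟩ : ∃ g : GL (Fin n) F, (g : Matrix (Fin n) (Fin n) F) = C ∧
      ((g⁻¹ : GL (Fin n) F) : Matrix (Fin n) (Fin n) F) = D := ⟨⟨C, D, hCD, hDC⟩, rfl, rfl⟩
  refine ⟨g, ?_⟩
  apply mem_norm_of_comm K θ hKθ _ s hs
  rw [Units.val_mul, Units.val_mul, hg, hg']
  show D * (x : Matrix (Fin n) (Fin n) F) * C * θ = s • (θ * (D * (x : Matrix (Fin n) (Fin n) F) * C))
  have e1 : θ * D = D * θ' := by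
    calc θ * D = (D * C) * θ * D := by rw [hDC, one_mul]
      _ = D * (C * θ) * D := by simp only [mul_assoc]
      _ = D * θ' * (C * D) := by rw [hCθ]; simp only [mul_assoc]
      _ = D * θ' := by rw [hCD, mul_one]
  calc D * (x : Matrix (Fin n) (Fin n) F) * C * θ
      = D * ((x : Matrix (Fin n) (Fin n) F) * (C * θ)) := by simp only [mul_assoc]
    _ = D * (((x : Matrix (Fin n) (Fin n) F) * θ') * C) := by rw [hCθ, mul_assoc]
    _ = s • ((D * θ') * ((x : Matrix (Fin n) (Fin n) F) * C)) := by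
        rw [hx, Matrix.smul_mul, Matrix.mul_smul]; simp only [mul_assoc]
    _ = s • (θ * (D * (x : Matrix (Fin n) (Fin n) F) * C)) := by
        rw [← e1]; simp only [mul_assoc]

theorem good_nonsq [Fintype F] (hF : ringChar F ≠ 2)
    (K : Subalgebra F (Matrix (Fin n) (Fin n) F))
    (θ : Matrix (Fin n) (Fin n) F) (c : F) (hc : ¬ IsSquare c)
    (hθθ : θ * θ = c • (1 : Matrix (Fin n) (Fin n) F))
    (hKθ : ∀ y, y ∈ K ↔ ∃ α β : F, y = α • 1 + β • θ)
    (x : SpecialLinearGroup (Fin n) F) (z : F) (hz : ¬ IsSquare z)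
    (hx : (x : Matrix (Fin n) (Fin n) F) * (x : Matrix (Fin n) (Fin n) F)
      = z • (1 : Matrix (Fin n) (Fin n) F)) :
    ∃ g : GL (Fin n) F, g⁻¹ * SpecialLinearGroup.toGL x * g
      ∈ Cfsg.Geo.subalgebraNormalizer K := by
  have hc0 : c ≠ 0 := fun h => hc (h ▸ IsSquare.zero)
  have hz0 : z ≠ 0 := fun h => hz (h ▸ IsSquare.zero)
  have hsq : IsSquare (z / c) := by
    rw [FiniteField.isSquare_iff hF (div_ne_zero hz0 hc0), div_pow,
      SubfieldConj.pow_half_of_not_sq hF z hz, SubfieldConj.pow_half_of_not_sq hF c hc]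
    exact div_self (neg_ne_zero.mpr one_ne_zero)
  obtain ⟨d, hd⟩ := hsq
  have hzd : z = d * d * c := by
    rw [← hd, div_mul_cancel₀ z hc0]
  obtain ⟨C, D, hCD, hDC, hCx⟩ := irr_conj (X ^ 2 - C z : F[X]) (monic_X_pow_sub_C z (by norm_num))
    (sq_irr z hz) (x : Matrix (Fin n) (Fin n) F) (d • θ) (sq_aeval _ z hx)
    (sq_aeval _ z (by
      rw [Matrix.smul_mul, Matrix.mul_smul, hθθ, smul_smul, smul_smul, hzd]))
  obtain ⟨g, hg, hg'⟩ : ∃ g : GL (Fin n) F, (g : Matrix (Fin n) (Fin n) F) = D ∧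
      ((g⁻¹ : GL (Fin n) F) : Matrix (Fin n) (Fin n) F) = C := ⟨⟨D, C, hDC, hCD⟩, rfl, rfl⟩
  refine ⟨g, ?_⟩
  apply mem_norm_of_comm K θ hKθ _ 1 (one_mul 1)
  rw [Units.val_mul, Units.val_mul, hg, hg']
  show C * (x : Matrix (Fin n) (Fin n) F) * D * θ = (1 : F) • (θ * (C * (x : Matrix (Fin n) (Fin n) F) * D))
  rw [hCx, mul_assoc (d • θ), hCD, mul_one, one_smul, Matrix.smul_mul, Matrix.mul_smul]

end Cfsg.Agent.Lib.helper4.Quad
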