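import Mathlib
import Cfsg.Prelude.Def_GeometricClasses
import Cfsg.Agent.Lib.helper4.Quad3

/-!
# Quadratic field subalgebras of matrix algebras: involutions in odd characteristic, II
-/

namespace Cfsg.Agent.Lib.helper4.Quad

open Matrix Polynomial

universe u

variable {F : Type u} [Field F] {n : ℕ}

theorem good_split (h2 : (2 : F) ≠ 0) (hn : 0 < n) (hne : Even n)
    (K : Subalgebra F (Matrix (Fin n) (Fin n) F))
    (θ : Matrix (Fin n) (Fin n) F) (c : F) (hc : ¬ IsSquare c)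
    (hθθ : θ * θ = c • (1 : Matrix (Fin n) (Fin n) F))
    (hKθ : ∀ y, y ∈ K ↔ ∃ α β : F, y = α • 1 + β • θ)
    (x : SpecialLinearGroup (Fin n) F) (w : F)
    (hx : (x : Matrix (Fin n) (Fin n) F) * (x : Matrix (Fin n) (Fin n) F)
      = (w * w) • (1 : Matrix (Fin n) (Fin n) F))
    (hxns : ∀ z : F, (x : Matrix (Fin n) (Fin n) F) ≠ z • 1)
    (hcase : n = 2 ∨ ∀ w' : F, w' ^ n ≠ -1) :
    ∃ g : GL (Fin n) F, g⁻¹ * SpecialLinearGroup.toGL x * g
      ∈ Cfsg.Geo.subalgebraNormalizer K := by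
  classical
  haveI : Nonempty (Fin n) := ⟨⟨0, hn⟩⟩
  obtain ⟨A, hA⟩ : ∃ A : Matrix (Fin n) (Fin n) F, A = x.1 := ⟨_, rfl⟩
  have hdetA : A.det = 1 := by rw [hA]; exact x.2
  rw [← hA] at hx hxns
  have hw0 : w ≠ 0 := by
    rintro rfl
    have := congrArg Matrix.det hx
    rw [det_mul, hdetA, mul_one, zero_mul, zero_smul, det_zero] at this
    exact one_ne_zero this
  have hBB : (w⁻¹ • A) * (w⁻¹ • A) = 1 := by
    rw [Matrix.smul_mul, Matrix.mul_smul, hx, smul_smul, smul_smul]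
    have : w⁻¹ * w⁻¹ * (w * w) = 1 := by field_simp
    rw [this, one_smul]
  obtain ⟨g₀, g₁, ε, h01, h10, hε, hdiag⟩ := Sub2.exists_diag_of_sq h2 (w⁻¹ • A) hBB
  have hne1 : (-1 : F) ≠ 1 := fun h' => h2 (by linear_combination (-1 : F) * h')
  have hB : w⁻¹ • A = g₀ * diagonal ε * g₁ := by
    rw [← hdiag]
    calc w⁻¹ • A = (g₀ * g₁) * (w⁻¹ • A) * (g₀ * g₁) := by rw [h01, one_mul, mul_one]
      _ = _ := by simp only [mul_assoc]
  have hAe : A = w • (g₀ * diagonal ε * g₁) := by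
    rw [← hB, smul_smul, mul_inv_cancel₀ hw0, one_smul]
  obtain ⟨a, ha⟩ : ∃ a : ℕ, a = Fintype.card {i // ε i = 1} := ⟨_, rfl⟩
  obtain ⟨b, hb⟩ : ∃ b : ℕ, b = Fintype.card {i // ¬ ε i = 1} := ⟨_, rfl⟩
  have hab : a + b = n := by
    have := Fintype.card_congr (Equiv.sumCompl (fun i => ε i = 1))
    rw [Fintype.card_sum, Fintype.card_fin] at this
    rw [ha, hb]
    exact this
  have hdetε : (diagonal ε).det = (-1) ^ b := by
    rw [det_diagonal]
    have e1 : ∀ i, ε i = if ε i = 1 then 1 else -1 := by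
      intro i
      rcases hε i with h | h
      · rw [if_pos h, h]
      · rw [if_neg (by rw [h]; exact hne1), h]
    rw [Finset.prod_congr rfl (fun i _ => e1 i), Finset.prod_ite, Finset.prod_const_one, one_mul,
      Finset.prod_const, hb, Fintype.card_subtype]
  have hdet1 : w ^ n * (-1) ^ b = 1 := by
    have e1 := congrArg Matrix.det hAe
    rw [hdetA, det_smul, det_mul, det_mul, hdetε, Fintype.card_fin] at e1
    have hg : g₀.det * g₁.det = 1 := by rw [← det_mul, h01, det_one]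
    calc w ^ n * (-1) ^ b = w ^ n * (g₀.det * (-1) ^ b * g₁.det) := by
          rw [mul_right_comm g₀.det, hg, one_mul]
      _ = 1 := e1.symm
  have ha1 : 1 ≤ a := by
    by_contra h0
    have ha0 : a = 0 := by omega
    have hall : ∀ i, ε i = -1 := by
      intro i
      rcases hε i with h | h
      · have : 0 < Fintype.card {i // ε i = 1} := Fintype.card_pos_iff.mpr ⟨⟨i, h⟩⟩
        omega
      · exact h
    apply hxns (-w)
    rw [hAe]
    have e1 : diagonal ε = -1 := by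
      ext i j
      rw [diagonal_apply]
      by_cases hij : i = j
      · subst hij; simp [hall]
      · simp [hij]
    rw [e1, mul_neg, mul_one, neg_mul, h01, smul_neg, neg_smul]
  have hb1 : 1 ≤ b := by
    by_contra h0
    have hb0 : b = 0 := by omega
    have hall : ∀ i, ε i = 1 := by
      intro i
      by_contra h
      have : 0 < Fintype.card {i // ¬ ε i = 1} := Fintype.card_pos_iff.mpr ⟨⟨i, h⟩⟩
      omega
    apply hxns w
    rw [hAe]
    have e1 : diagonal ε = 1 := by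
      ext i j
      rw [diagonal_apply]
      by_cases hij : i = j
      · subst hij; simp [hall]
      · simp [hij]
    rw [e1, mul_one, h01]
  have hpair : ∃ (κ : Type) (_ : Fintype κ) (_ : DecidableEq κ) (σ : κ ⊕ κ ≃ Fin n) (s : F),
      s * s = 1 ∧ ∀ i, ε (σ (Sum.inr i)) = s * ε (σ (Sum.inl i)) := by
    rcases hcase with h | h
    · have ha' : a = 1 := by omega
      have hb' : b = 1 := by omega
      obtain ⟨ep⟩ : Nonempty (Fin 1 ≃ {i // ε i = 1}) :=
        ⟨Fintype.equivOfCardEq (by rw [Fintype.card_fin, ← ha, ha'])⟩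
      obtain ⟨em⟩ : Nonempty (Fin 1 ≃ {i // ¬ ε i = 1}) :=
        ⟨Fintype.equivOfCardEq (by rw [Fintype.card_fin, ← hb, hb'])⟩
      refine ⟨Fin 1, inferInstance, inferInstance,
        (Equiv.sumCongr ep em).trans (Equiv.sumCompl (fun i => ε i = 1)), -1, by ring, ?_⟩
      intro i
      have h1 : ε ((ep i : {i // ε i = 1}) : Fin n) = 1 := (ep i).2
      have h2' : ε ((em i : {i // ¬ ε i = 1}) : Fin n) = -1 := (hε _).resolve_left (em i).2
      show ε ((em i : {i // ¬ ε i = 1}) : Fin n) = -1 * ε ((ep i : {i // ε i = 1}) : Fin n)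
      rw [h1, h2']; ring
    · have hbe : Even b := by
        by_contra hbo
        rw [Nat.not_even_iff_odd] at hbo
        rw [Odd.neg_one_pow hbo] at hdet1
        exact h w (by linear_combination -hdet1)
      obtain ⟨b', hb'⟩ := hbe
      obtain ⟨m, hm⟩ := hne
      obtain ⟨a', ha'⟩ : ∃ a', a = a' + a' := ⟨m - b', by omega⟩
      obtain ⟨ep⟩ : Nonempty (Fin a' ⊕ Fin a' ≃ {i // ε i = 1}) :=
        ⟨Fintype.equivOfCardEq (by rw [Fintype.card_sum, Fintype.card_fin, ← ha, ha'])⟩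
      obtain ⟨em⟩ : Nonempty (Fin b' ⊕ Fin b' ≃ {i // ¬ ε i = 1}) :=
        ⟨Fintype.equivOfCardEq (by rw [Fintype.card_sum, Fintype.card_fin, ← hb, hb'])⟩
      refine ⟨Fin a' ⊕ Fin b', inferInstance, inferInstance,
        (Equiv.sumSumSumComm (Fin a') (Fin b') (Fin a') (Fin b')).trans
          ((Equiv.sumCongr ep em).trans (Equiv.sumCompl (fun i => ε i = 1))), 1, one_mul 1, ?_⟩
      intro i
      rw [one_mul]
      rcases i with i | i
      · have h1 : ε ((ep (Sum.inr i) : {i // ε i = 1}) : Fin n) = 1 := (ep _).2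
        have h1' : ε ((ep (Sum.inl i) : {i // ε i = 1}) : Fin n) = 1 := (ep _).2
        show ε ((ep (Sum.inr i) : {i // ε i = 1}) : Fin n)
          = ε ((ep (Sum.inl i) : {i // ε i = 1}) : Fin n)
        rw [h1, h1']
      · have h1 : ε ((em (Sum.inr i) : {i // ¬ ε i = 1}) : Fin n) = -1 :=
          (hε _).resolve_left (em _).2
        have h1' : ε ((em (Sum.inl i) : {i // ¬ ε i = 1}) : Fin n) = -1 :=
          (hε _).resolve_left (em _).2
        show ε ((em (Sum.inr i) : {i // ¬ ε i = 1}) : Fin n)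
          = ε ((em (Sum.inl i) : {i // ¬ ε i = 1}) : Fin n)
        rw [h1, h1']
  obtain ⟨κ, _, _, σ, s, hs2, hs⟩ := hpair
  obtain ⟨Θ, hΘΘ, hΘε⟩ := exists_pair_theta σ ε s hs2 hs c
  obtain ⟨θ', hθ'⟩ : ∃ θ' : Matrix (Fin n) (Fin n) F, θ' = g₀ * Θ * g₁ := ⟨_, rfl⟩
  have hθ'θ' : θ' * θ' = c • (1 : Matrix (Fin n) (Fin n) F) := by
    rw [hθ']
    calc g₀ * Θ * g₁ * (g₀ * Θ * g₁) = g₀ * (Θ * (g₁ * g₀) * Θ) * g₁ := by
          simp only [mul_assoc]
      _ = c • 1 := by rw [h10, mul_one, hΘΘ, Matrix.mul_smul, Matrix.smul_mul, mul_one, h01]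
  have hxθ' : A * θ' = s • (θ' * A) := by
    rw [hAe, hθ', Matrix.smul_mul, Matrix.mul_smul, smul_comm s w]
    congr 1
    calc g₀ * diagonal ε * g₁ * (g₀ * Θ * g₁)
        = g₀ * (diagonal ε * (g₁ * g₀) * Θ) * g₁ := by simp only [mul_assoc]
      _ = g₀ * (s • (Θ * diagonal ε)) * g₁ := by rw [h10, mul_one, hΘε]
      _ = s • (g₀ * (Θ * (g₁ * g₀) * diagonal ε) * g₁) := by
          rw [h10, mul_one, Matrix.mul_smul, Matrix.smul_mul]
      _ = s • (g₀ * Θ * g₁ * (g₀ * diagonal ε * g₁)) := by simp only [mul_assoc]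
  exact conj_into_norm K θ c hc hθθ hKθ x θ' hθ'θ' s hs2 (by rw [← hA]; exact hxθ')

end Cfsg.Agent.Lib.helper4.Quad
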