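import Mathlib
import Cfsg.Prelude.Def_GeometricClasses
import Cfsg.Agent.Lib.helper4.Quad4

/-!
# Quadratic field subalgebras of matrix algebras: a bad involution in odd characteristic
-/

namespace Cfsg.Agent.Lib.helper4.Quad

open Matrix Polynomial

universe u

variable {F : Type u} [Field F] {n : ℕ}

theorem no_neg_root [Fintype F] {q : ℕ} (hq : Fintype.card F = q) (h2 : (2 : F) ≠ 0)
    (hn : n ≠ 0) (hcond : padicValNat 2 (q - 1) ≤ padicValNat 2 n) (w : F) (hw : w ^ n = -1) :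
    False := by
  have hw0 : w ≠ 0 := by
    rintro rfl
    rw [zero_pow hn] at hw
    exact one_ne_zero (neg_eq_zero.1 hw.symm)
  have hq1 : q - 1 ≠ 0 := by
    have := Fintype.one_lt_card (α := F)
    omega
  obtain ⟨s, hs, hsodd⟩ := Sub2.two_part' (q - 1) hq1
  have hTn : 2 ^ padicValNat 2 (q - 1) ∣ n := (padicValNat_dvd_iff_le hn).2 hcond
  obtain ⟨T, hTdef⟩ : ∃ T, T = 2 ^ padicValNat 2 (q - 1) := ⟨_, rfl⟩
  rw [← hTdef] at hs hTn
  obtain ⟨n', hn'⟩ := hTn
  have h1 : w ^ (q - 1) = 1 := by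
    rw [← hq]; exact FiniteField.pow_card_sub_one_eq_one w hw0
  have h3 : w ^ (n * s) = 1 := by
    have e : n * s = (q - 1) * n' := by
      calc n * s = T * n' * s := by rw [hn']
        _ = (T * s) * n' := by ring
        _ = (q - 1) * n' := by rw [← hs]
    rw [e, pow_mul, h1, one_pow]
  rw [pow_mul, hw, Odd.neg_one_pow hsodd] at h3
  apply h2
  linear_combination (-1 : F) * h3

theorem exists_neg_root [Fintype F] {q : ℕ} (hq : Fintype.card F = q) (hn : n ≠ 0)
    (hcond : padicValNat 2 n < padicValNat 2 (q - 1)) :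
    ∃ w : F, w ≠ 0 ∧ w ^ n = -1 := by
  classical
  have hq1 : q - 1 ≠ 0 := by
    intro h
    rw [h] at hcond
    simp at hcond
  obtain ⟨n', hn', hn'odd⟩ := Sub2.two_part' n hn
  obtain ⟨a, ha⟩ : ∃ a, a = padicValNat 2 n := ⟨_, rfl⟩
  rw [← ha] at hn' hcond
  have h2T : 2 ^ (a + 1) ∣ q - 1 := (padicValNat_dvd_iff_le hq1).2 (by omega)
  obtain ⟨s, hs⟩ := h2T
  have hs0 : 0 < s := by
    rcases Nat.eq_zero_or_pos s with h | h
    · rw [h, mul_zero] at hs; exact absurd hs hq1
    · exact h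
  obtain ⟨γ, hγ⟩ := IsCyclic.exists_generator (α := Fˣ)
  have hord : orderOf γ = q - 1 := by
    rw [orderOf_eq_card_of_forall_mem_zpowers hγ, Nat.card_eq_fintype_card, Fintype.card_units, hq]
  have hT0 : 0 < 2 ^ a := by positivity
  have h1 : (γ ^ s) ^ (2 ^ a) ≠ 1 := by
    intro h
    rw [← pow_mul] at h
    have h3 := orderOf_dvd_of_pow_eq_one h
    rw [hord, hs] at h3
    have h4 := Nat.le_of_dvd (by positivity) h3
    have h5 : 2 ^ (a + 1) * s = 2 * (s * 2 ^ a) := by rw [pow_succ]; ring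
    have h6 : 0 < s * 2 ^ a := by positivity
    omega
  have h3 : ((γ ^ s) ^ (2 ^ a)) * ((γ ^ s) ^ (2 ^ a)) = 1 := by
    rw [← pow_add, ← pow_mul]
    have e : s * (2 ^ a + 2 ^ a) = q - 1 := by rw [hs, pow_succ]; ring
    rw [e, ← hord]
    exact pow_orderOf_eq_one γ
  have h4 : (((γ ^ s) ^ (2 ^ a) : Fˣ) : F) = -1 := by
    have h5 : (((γ ^ s) ^ (2 ^ a) : Fˣ) : F) * (((γ ^ s) ^ (2 ^ a) : Fˣ) : F) = 1 := by
      rw [← Units.val_mul, h3, Units.val_one]
    rcases mul_self_eq_one_iff.1 h5 with h6 | h6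
    · exact absurd (Units.ext h6) h1
    · exact h6
  refine ⟨((γ ^ s : Fˣ) : F), Units.ne_zero _, ?_⟩
  rw [hn', pow_mul, ← Units.val_pow_eq_pow_val, h4, Odd.neg_one_pow hn'odd]

theorem bad_odd (h2 : (2 : F) ≠ 0) (hn3 : 3 ≤ n) (hne : Even n)
    (K : Subalgebra F (Matrix (Fin n) (Fin n) F))
    (θ : Matrix (Fin n) (Fin n) F) (c : F) (hc : ¬ IsSquare c)
    (hθθ : θ * θ = c • (1 : Matrix (Fin n) (Fin n) F))
    (hnorm : ∀ g : GL (Fin n) F, g ∈ Cfsg.Geo.subalgebraNormalizer K →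
      (g : Matrix (Fin n) (Fin n) F) * θ = θ * (g : Matrix (Fin n) (Fin n) F) ∨
      (g : Matrix (Fin n) (Fin n) F) * θ = -(θ * (g : Matrix (Fin n) (Fin n) F)))
    (w : F) (hw : w ^ n = -1) :
    ∃ x : SpecialLinearGroup (Fin n) F,
      ((x ^ 2 : SpecialLinearGroup (Fin n) F) : Matrix (Fin n) (Fin n) F)
        = (w * w) • (1 : Matrix (Fin n) (Fin n) F) ∧
      (∀ z : F, (x : Matrix (Fin n) (Fin n) F) ≠ z • (1 : Matrix (Fin n) (Fin n) F)) ∧
      ∀ P : SpecialLinearGroup (Fin n) F, P⁻¹ * x * P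
        ∉ (Cfsg.Geo.subalgebraNormalizer K).comap
          (SpecialLinearGroup.toGL : SpecialLinearGroup (Fin n) F →* GL (Fin n) F) := by
  classical
  have hc0 : c ≠ 0 := fun h => hc (h ▸ IsSquare.zero)
  have hw0 : w ≠ 0 := by
    rintro rfl
    rw [zero_pow (by omega)] at hw
    exact one_ne_zero (neg_eq_zero.1 hw.symm)
  obtain ⟨i0, hi0⟩ : ∃ i0 : Fin n, i0 = ⟨0, by omega⟩ := ⟨_, rfl⟩
  obtain ⟨i1, hi1⟩ : ∃ i1 : Fin n, i1 = ⟨1, by omega⟩ := ⟨_, rfl⟩
  obtain ⟨i2, hi2⟩ : ∃ i2 : Fin n, i2 = ⟨2, by omega⟩ := ⟨_, rfl⟩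
  have h10 : i1 ≠ i0 := by
    rw [hi0, hi1]; intro h; have := congrArg Fin.val h; simp at this
  have h20 : i2 ≠ i0 := by
    rw [hi0, hi2]; intro h; have := congrArg Fin.val h; simp at this
  have h12 : i1 ≠ i2 := by
    rw [hi1, hi2]; intro h; have := congrArg Fin.val h; simp at this
  obtain ⟨ε, hε⟩ : ∃ ε : Fin n → F, ∀ i, ε i = if i = i0 then 1 else -1 := ⟨_, fun _ => rfl⟩
  obtain ⟨X, hX⟩ : ∃ X : Matrix (Fin n) (Fin n) F, X = w • diagonal ε := ⟨_, rfl⟩
  have hprod : ∏ i, ε i = -1 := by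
    have e1 : ∀ i, ε i = -(if i = i0 then (-1 : F) else 1) := by
      intro i; rw [hε]; split_ifs <;> simp
    rw [Finset.prod_congr rfl (fun i _ => e1 i), Finset.prod_neg, Finset.prod_ite_eq',
      if_pos (Finset.mem_univ _), Finset.card_univ, Fintype.card_fin, Even.neg_one_pow hne,
      one_mul]
  have hdet : X.det = 1 := by
    rw [hX, det_smul, det_diagonal, hprod, Fintype.card_fin, hw]; ring
  have hXX : X * X = (w * w) • (1 : Matrix (Fin n) (Fin n) F) := by
    rw [hX, Matrix.smul_mul, Matrix.mul_smul, diagonal_mul_diagonal, smul_smul]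
    have : (fun i => ε i * ε i) = fun _ => (1 : F) := by
      funext i; rw [hε]; split_ifs <;> ring
    rw [this, diagonal_one]
  obtain ⟨x, hx⟩ : ∃ x : SpecialLinearGroup (Fin n) F,
      (x : Matrix (Fin n) (Fin n) F) = X := ⟨⟨X, hdet⟩, rfl⟩
  have hx2 : ((x ^ 2 : SpecialLinearGroup (Fin n) F) : Matrix (Fin n) (Fin n) F)
      = (w * w) • 1 := by
    have e0 : ((x ^ 2 : SpecialLinearGroup (Fin n) F) : Matrix (Fin n) (Fin n) F) = X ^ 2 := by
      rw [← hx]; rfl
    rw [e0, pow_two, hXX]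
  refine ⟨x, hx2, ?_, ?_⟩
  · intro z hz
    rw [hx, hX] at hz
    have e1 := congrFun (congrFun hz i0) i0
    have e2 := congrFun (congrFun hz i1) i1
    rw [Matrix.smul_apply, diagonal_apply_eq, hε, if_pos rfl, Matrix.smul_apply,
      Matrix.one_apply_eq] at e1
    rw [Matrix.smul_apply, diagonal_apply_eq, hε, if_neg h10, Matrix.smul_apply,
      Matrix.one_apply_eq] at e2
    simp only [smul_eq_mul, mul_one, mul_neg] at e1 e2
    have e3 : (2 : F) * w = 0 := by linear_combination e1 - e2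
    rcases mul_eq_zero.mp e3 with h | h
    · exact h2 h
    · exact hw0 h
  · intro P hP
    rw [Subgroup.mem_comap] at hP
    have hy := hnorm _ hP
    obtain ⟨Pm, hPm⟩ : ∃ Pm : Matrix (Fin n) (Fin n) F,
        Pm = (P : Matrix (Fin n) (Fin n) F) := ⟨_, rfl⟩
    obtain ⟨Pi, hPi⟩ : ∃ Pi : Matrix (Fin n) (Fin n) F,
        Pi = ((P⁻¹ : SpecialLinearGroup (Fin n) F) : Matrix (Fin n) (Fin n) F) := ⟨_, rfl⟩
    have hPP : Pm * Pi = 1 := by
      rw [hPm, hPi]
      have := congrArg Subtype.val (mul_inv_cancel P)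
      exact this
    have hPP' : Pi * Pm = 1 := by
      rw [hPm, hPi]
      have := congrArg Subtype.val (inv_mul_cancel P)
      exact this
    have hY : ((SpecialLinearGroup.toGL (P⁻¹ * x * P) : GL (Fin n) F) :
        Matrix (Fin n) (Fin n) F) = Pi * X * Pm := by
      rw [hPm, hPi, ← hx]; rfl
    rw [hY] at hy
    obtain ⟨θ'', hθ''⟩ : ∃ θ'' : Matrix (Fin n) (Fin n) F, θ'' = Pm * θ * Pi := ⟨_, rfl⟩
    have hθ''2 : θ'' * θ'' = c • (1 : Matrix (Fin n) (Fin n) F) := by
      rw [hθ'']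
      calc Pm * θ * Pi * (Pm * θ * Pi) = Pm * (θ * (Pi * Pm) * θ) * Pi := by
            simp only [mul_assoc]
        _ = c • 1 := by rw [hPP', mul_one, hθθ, Matrix.mul_smul, Matrix.smul_mul, mul_one, hPP]
    have hXθ1 : X * θ'' = Pm * (Pi * X * Pm * θ) * Pi := by
      rw [hθ'']
      calc X * (Pm * θ * Pi) = (Pm * Pi) * X * (Pm * θ * Pi) := by rw [hPP, one_mul]
        _ = Pm * (Pi * X * Pm * θ) * Pi := by simp only [mul_assoc]
    have hXθ2 : θ'' * X = Pm * (θ * (Pi * X * Pm)) * Pi := by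
      rw [hθ'']
      calc Pm * θ * Pi * X = Pm * θ * Pi * X * (Pm * Pi) := by rw [hPP, mul_one]
        _ = Pm * (θ * (Pi * X * Pm)) * Pi := by simp only [mul_assoc]
    have hent : ∀ M : Matrix (Fin n) (Fin n) F, ∀ i j,
        (diagonal ε * M) i j = ε i * M i j ∧ (M * diagonal ε) i j = M i j * ε j := by
      intro M i j
      exact ⟨by rw [Matrix.diagonal_mul], by rw [Matrix.mul_diagonal]⟩
    have hw' : ∀ M M' : Matrix (Fin n) (Fin n) F, w • M = w • M' → M = M' := by
      intro M M' h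
      have := congrArg (fun N => w⁻¹ • N) h
      simpa [smul_smul, inv_mul_cancel₀ hw0] using this
    rcases hy with hy | hy
    · have e1 : diagonal ε * θ'' = θ'' * diagonal ε := by
        apply hw'
        rw [← Matrix.smul_mul, ← Matrix.mul_smul, ← hX, hXθ1, hXθ2, hy]
      have h0j : ∀ j, j ≠ i0 → θ'' i0 j = 0 := by
        intro j hj
        have e2 := congrFun (congrFun e1 i0) j
        rw [(hent θ'' i0 j).1, (hent θ'' i0 j).2, hε, hε, if_pos rfl, if_neg hj] at e2
        have e3 : (2 : F) * θ'' i0 j = 0 := by linear_combination e2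
        rcases mul_eq_zero.mp e3 with h | h
        · exact absurd h h2
        · exact h
      have e4 := congrFun (congrFun hθ''2 i0) i0
      rw [Matrix.mul_apply, Finset.sum_eq_single i0 (fun j _ hj => by rw [h0j j hj, zero_mul])
        (fun h => absurd (Finset.mem_univ _) h), Matrix.smul_apply, Matrix.one_apply_eq,
        smul_eq_mul, mul_one] at e4
      exact hc ⟨_, e4.symm⟩
    · have e1 : diagonal ε * θ'' = -(θ'' * diagonal ε) := by
        apply hw'
        rw [← Matrix.smul_mul, smul_neg, ← Matrix.mul_smul, ← hX, hXθ1, hXθ2, hy, mul_neg,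
          neg_mul]
      have hij : ∀ i j, i ≠ i0 → j ≠ i0 → θ'' i j = 0 := by
        intro i j hi hj
        have e2 := congrFun (congrFun e1 i) j
        rw [Matrix.neg_apply, (hent θ'' i j).1, (hent θ'' i j).2, hε, hε, if_neg hi,
          if_neg hj] at e2
        have e3 : (2 : F) * θ'' i j = 0 := by linear_combination -e2
        rcases mul_eq_zero.mp e3 with h | h
        · exact absurd h h2
        · exact h
      have e11 := congrFun (congrFun hθ''2 i1) i1
      rw [Matrix.mul_apply, Finset.sum_eq_single i0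
        (fun j _ hj => by rw [hij i1 j h10 hj, zero_mul])
        (fun h => absurd (Finset.mem_univ _) h), Matrix.smul_apply, Matrix.one_apply_eq,
        smul_eq_mul, mul_one] at e11
      have e12 := congrFun (congrFun hθ''2 i1) i2
      rw [Matrix.mul_apply, Finset.sum_eq_single i0
        (fun j _ hj => by rw [hij i1 j h10 hj, zero_mul])
        (fun h => absurd (Finset.mem_univ _) h), Matrix.smul_apply, Matrix.one_apply_ne h12,
        smul_zero] at e12
      have e22 := congrFun (congrFun hθ''2 i2) i2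
      rw [Matrix.mul_apply, Finset.sum_eq_single i0
        (fun j _ hj => by rw [hij i2 j h20 hj, zero_mul])
        (fun h => absurd (Finset.mem_univ _) h), Matrix.smul_apply, Matrix.one_apply_eq,
        smul_eq_mul, mul_one] at e22
      rcases mul_eq_zero.mp e12 with h | h
      · rw [h, zero_mul] at e11
        exact hc0 e11.symm
      · rw [h, mul_zero] at e22
        exact hc0 e22.symm

end Cfsg.Agent.Lib.helper4.Quad
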