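import Mathlib
import Cfsg.Prelude.Def_GeometricClasses
import Cfsg.Agent.Lib.helper18.Jordan
import Cfsg.Agent.Lib.helper4.SubfieldConj

/-!
# Elements of order 3 of `SL_n(q)`, `q` a power of 3, and subfield subgroups
-/

namespace Cfsg.Agent.Lib.helper4.Sub3

open Matrix

open Cfsg.Agent.Lib.helper4

universe u

variable {F : Type u} [Field F] {n : ℕ}

open Cfsg.Agent.Lib.helper18.Jordan in
/-- Block scaling in the centraliser of a nilpotent endomorphism with a Jordan basis. -/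
theorem exists_cent {V : Type*} [AddCommGroup V] [Module F V] [FiniteDimensional F V]
    (N : Module.End F V) {ι : Type*} (e : ι → ℕ)
    (b : Module.Basis {x : ι × ℕ // x.2 < e x.1} F V) (hb : IsJB N e b) (i₀ : ι) (t : F) :
    ∃ C : Module.End F V, C * N = N * C ∧ LinearMap.det C = t ^ (e i₀) := by
  classical
  haveI : Fintype {x : ι × ℕ // x.2 < e x.1} := FiniteDimensional.fintypeBasisIndex b
  obtain ⟨s, hs⟩ : ∃ s : {x : ι × ℕ // x.2 < e x.1} → F,
      ∀ x, s x = if x.1.1 = i₀ then t else 1 := ⟨_, fun _ => rfl⟩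
  obtain ⟨C, hC⟩ : ∃ C : Module.End F V, ∀ x, C (b x) = s x • b x :=
    ⟨b.constr F (fun x => s x • b x), fun x => by simp⟩
  refine ⟨C, ?_, ?_⟩
  · apply b.ext
    intro x
    rw [Module.End.mul_apply, Module.End.mul_apply, hC x, map_smul, hb x]
    split_ifs with h
    · rw [hC]
      have : s ⟨(x.1.1, x.1.2 + 1), h⟩ = s x := by rw [hs, hs]
      rw [this]
    · rw [map_zero, smul_zero]
  · rw [← LinearMap.det_toMatrix b]
    have hd : LinearMap.toMatrix b b C = diagonal s := by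
      ext x y
      rw [LinearMap.toMatrix_apply, hC, map_smul, b.repr_self, Finsupp.smul_apply,
        Finsupp.single_apply, diagonal_apply]
      by_cases hxy : x = y
      · subst hxy; simp
      · rw [if_neg (Ne.symm hxy), if_neg hxy]; simp
    rw [hd, det_diagonal]
    simp only [hs]
    rw [Finset.prod_ite, Finset.prod_const, Finset.prod_const_one, mul_one]
    congr 1
    rw [← Fintype.card_subtype, ← Fintype.card_fin (e i₀)]
    apply Fintype.card_congr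
    exact
      { toFun := fun x => ⟨x.1.1.2, by have h := x.1.2; rw [x.2] at h; exact h⟩
        invFun := fun a => ⟨⟨(i₀, a.1), a.2⟩, rfl⟩
        left_inv := fun x => Subtype.ext (Subtype.ext (Prod.ext x.2.symm rfl))
        right_inv := fun a => rfl }

open Cfsg.Agent.Lib.helper18.Jordan in
theorem conj_of_cube [Fintype F] [CharP F 3] (F₀ : Subfield F) (hn : 0 < n)
    (x : SpecialLinearGroup (Fin n) F) (z : F)
    (hz : ((x ^ 3 : SpecialLinearGroup (Fin n) F) : Matrix (Fin n) (Fin n) F)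
      = z • (1 : Matrix (Fin n) (Fin n) F))
    (hsq : Odd n ∨ ∀ τ : F, τ ≠ 0 → ∃ (t : F) (f₀ : F₀), t ≠ 0 ∧ f₀ ≠ 0 ∧ τ = t ^ 2 * (f₀ : F)) :
    ∃ P : SpecialLinearGroup (Fin n) F, P⁻¹ * x * P
      ∈ (Cfsg.Geo.subfieldSubgroup F₀ (1 : GL (Fin n) F)).comap
        (SpecialLinearGroup.toGL : SpecialLinearGroup (Fin n) F →* GL (Fin n) F) := by
  classical
  haveI : Fact (Nat.Prime 3) := ⟨Nat.prime_three⟩
  haveI : Nonempty (Fin n) := ⟨⟨0, hn⟩⟩
  obtain ⟨A, hA⟩ : ∃ A : Matrix (Fin n) (Fin n) F, A = x.1 := ⟨_, rfl⟩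
  have hdetA : A.det = 1 := by rw [hA]; exact x.2
  have hA3 : A ^ 3 = z • (1 : Matrix (Fin n) (Fin n) F) := by rw [hA, ← hz]; rfl
  have hz0 : z ≠ 0 := by
    rintro rfl
    have := congrArg Matrix.det hA3
    rw [det_pow, hdetA, one_pow, zero_smul, det_zero] at this
    exact one_ne_zero this
  obtain ⟨w, hw⟩ := SubfieldConj.exists_cube_root F z
  have hw0 : w ≠ 0 := by
    rintro rfl
    apply hz0
    rw [← hw]
    simp
  obtain ⟨Nm, hNm⟩ : ∃ Nm : Matrix (Fin n) (Fin n) F, Nm = w⁻¹ • A - 1 := ⟨_, rfl⟩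
  have hANm : A = w • (1 + Nm) := by
    rw [hNm, add_sub_cancel, smul_smul, mul_inv_cancel₀ hw0, one_smul]
  have h3 : (3 : F) = 0 := by exact_mod_cast CharP.cast_eq_zero F 3
  have hNm3 : Nm ^ 3 = 0 := by
    have e1 : (w⁻¹ • A) ^ 3 = 1 := by
      rw [smul_pow, hA3, smul_smul, inv_pow, hw, inv_mul_cancel₀ hz0, one_smul]
    have e2 : Nm ^ 3 = (w⁻¹ • A) ^ 3 - 1 - (3 : F) • ((w⁻¹ • A) ^ 2 - w⁻¹ • A) := by
      rw [hNm]
      have : (3 : F) • ((w⁻¹ • A) ^ 2 - w⁻¹ • A) = ((w⁻¹ • A) ^ 2 - w⁻¹ • A)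
          + ((w⁻¹ • A) ^ 2 - w⁻¹ • A) + ((w⁻¹ • A) ^ 2 - w⁻¹ • A) := by
        rw [show (3 : F) = 1 + 1 + 1 by norm_num, add_smul, add_smul, one_smul]
      rw [this]
      generalize w⁻¹ • A = B
      noncomm_ring
    rw [e2, e1, h3, zero_smul, sub_self, sub_zero]
  obtain ⟨N, hNdef⟩ : ∃ N : Module.End F (Fin n → F), N = Matrix.toLinAlgEquiv' Nm := ⟨_, rfl⟩
  have hN3 : N ^ 3 = 0 := by rw [hNdef, ← map_pow, hNm3, map_zero]
  have hN : IsNilpotent N := ⟨3, hN3⟩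
  obtain ⟨ι, _, e, b, hb⟩ := exists_isJB N hN
  haveI : Fintype {x : ι × ℕ // x.2 < e x.1} := FiniteDimensional.fintypeBasisIndex b
  have hcard : Fintype.card {x : ι × ℕ // x.2 < e x.1} = n := by
    rw [← Module.finrank_eq_card_basis b, Module.finrank_fin_fun]
  obtain ⟨σ⟩ : Nonempty ({x : ι × ℕ // x.2 < e x.1} ≃ Fin n) :=
    ⟨Fintype.equivOfCardEq (by rw [hcard, Fintype.card_fin])⟩
  obtain ⟨b', hb'⟩ : ∃ b' : Module.Basis (Fin n) F (Fin n → F), b' = b.reindex σ := ⟨_, rfl⟩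
  obtain ⟨g₀, hg₀⟩ : ∃ g₀ : Matrix (Fin n) (Fin n) F,
      g₀ = (Pi.basisFun F (Fin n)).toMatrix b' := ⟨_, rfl⟩
  obtain ⟨g₁, hg₁⟩ : ∃ g₁ : Matrix (Fin n) (Fin n) F,
      g₁ = b'.toMatrix (Pi.basisFun F (Fin n)) := ⟨_, rfl⟩
  have h01 : g₀ * g₁ = 1 := by
    rw [hg₀, hg₁]; exact Module.Basis.toMatrix_mul_toMatrix_flip _ _
  have h10 : g₁ * g₀ = 1 := by
    rw [hg₀, hg₁]; exact Module.Basis.toMatrix_mul_toMatrix_flip _ _
  obtain ⟨M₀, hM₀⟩ : ∃ M₀ : Matrix (Fin n) (Fin n) F, M₀ = LinearMap.toMatrix b' b' N :=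
    ⟨_, rfl⟩
  have hconj : g₀ * M₀ * g₁ = Nm := by
    rw [hg₀, hg₁, hM₀, basis_toMatrix_mul_linearMap_toMatrix_mul_basis_toMatrix,
      LinearMap.toMatrix_eq_toMatrix', hNdef]
    exact LinearMap.toMatrix'_toLin' Nm
  have hM₀01 : ∀ i j, M₀ i j = 0 ∨ M₀ i j = 1 := by
    intro i j
    rw [hM₀, LinearMap.toMatrix_apply, hb', Module.Basis.reindex_apply, hb (σ.symm j)]
    split_ifs with h
    · rw [Module.Basis.repr_reindex_apply, Module.Basis.repr_self, Finsupp.single_apply]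
      split_ifs
      · right; rfl
      · left; rfl
    · left
      rw [map_zero]
      rfl
  obtain ⟨M₀', hM₀'⟩ : ∃ M₀' : Matrix (Fin n) (Fin n) F₀,
      M₀' = Matrix.of (fun i j => if M₀ i j = 1 then (1 : F₀) else 0) := ⟨_, rfl⟩
  have hmap : M₀'.map F₀.subtype = M₀ := by
    ext i j
    rw [Matrix.map_apply, hM₀', Matrix.of_apply]
    rcases hM₀01 i j with h | h
    · rw [h]; simp
    · rw [h]; simp
  have hmap1 : (1 + M₀').map F₀.subtype = 1 + M₀ := by
    rw [← hmap]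
    ext i j
    simp [Matrix.one_apply, apply_ite]
  have hg1A : g₁ * A * g₀ = w • (1 + M₀) := by
    rw [hANm, ← hconj, Matrix.mul_smul, Matrix.smul_mul, mul_add, add_mul, mul_one, h10]
    congr 2
    calc g₁ * (g₀ * M₀ * g₁) * g₀ = (g₁ * g₀) * M₀ * (g₁ * g₀) := by simp only [mul_assoc]
      _ = M₀ := by rw [h10, one_mul, mul_one]
  have hdet10 : g₁.det * g₀.det = 1 := by rw [← det_mul, h10, det_one]
  have hunit : IsUnit (1 + M₀) := by
    have e1 : 1 + M₀ = w⁻¹ • (g₁ * A * g₀) := by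
      rw [hg1A, smul_smul, inv_mul_cancel₀ hw0, one_smul]
    rw [e1, Matrix.isUnit_iff_isUnit_det, det_smul, det_mul, det_mul, hdetA, mul_one, hdet10,
      mul_one]
    exact isUnit_iff_ne_zero.mpr (pow_ne_zero _ (inv_ne_zero hw0))
  have hdetY : (1 + M₀').det ≠ 0 := by
    intro h0
    have h1 : ((1 + M₀').map F₀.subtype).det = 0 := by
      have := RingHom.map_det (F₀.subtype : F₀ →+* F) (1 + M₀')
      rw [RingHom.mapMatrix_apply] at this
      rw [← this, h0, map_zero]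
    rw [hmap1] at h1
    exact ((Matrix.isUnit_iff_isUnit_det _).mp hunit).ne_zero h1
  obtain ⟨yG, hyG⟩ : ∃ yG : GL (Fin n) F₀, (yG : Matrix (Fin n) (Fin n) F₀) = 1 + M₀' :=
    ⟨Matrix.GeneralLinearGroup.mkOfDetNeZero _ hdetY, rfl⟩
  obtain ⟨g₀G, hg₀G, hg₀G'⟩ : ∃ g₀G : GL (Fin n) F, (g₀G : Matrix (Fin n) (Fin n) F) = g₀ ∧
      ((g₀G⁻¹ : GL (Fin n) F) : Matrix (Fin n) (Fin n) F) = g₁ := ⟨⟨g₀, g₁, h01, h10⟩, rfl, rfl⟩
  obtain ⟨wG, hwG⟩ : ∃ wG : GL (Fin n) F, (wG : Matrix (Fin n) (Fin n) F) = w • 1 :=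
    ⟨⟨w • 1, w⁻¹ • 1, by rw [smul_mul_smul_comm, mul_one, mul_inv_cancel₀ hw0, one_smul],
      by rw [smul_mul_smul_comm, mul_one, inv_mul_cancel₀ hw0, one_smul]⟩, rfl⟩
  have h₀ : g₀G⁻¹ * SpecialLinearGroup.toGL x * g₀G
      ∈ Cfsg.Geo.subfieldSubgroup F₀ (1 : GL (Fin n) F) := by
    have e : g₀G⁻¹ * SpecialLinearGroup.toGL x * g₀G
        = Matrix.GeneralLinearGroup.map (F₀.subtype : F₀ →+* F) yG * wG := by
      apply Units.ext
      rw [Units.val_mul, Units.val_mul, Units.val_mul, hg₀G, hg₀G', hwG]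
      show g₁ * x.1 * g₀ = (yG : Matrix (Fin n) (Fin n) F₀).map F₀.subtype * (w • 1)
      rw [← hA, hg1A, hyG, Matrix.mul_smul, mul_one, hmap1]
    rw [e]
    exact Subgroup.mul_mem _ (SubfieldConj.map_mem F₀ yG)
      (SubfieldConj.scalar_mem F₀ (Units.mk0 w hw0) wG hwG)
  have he3 : ∀ i, e i ≤ 3 := by
    intro i
    by_contra hcon
    push Not at hcon
    have p0 : ((i, 0) : ι × ℕ).2 < e ((i, 0) : ι × ℕ).1 := by show 0 < e i; omega
    have p1 : ((i, 1) : ι × ℕ).2 < e ((i, 1) : ι × ℕ).1 := by show 1 < e i; omega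
    have p2 : ((i, 2) : ι × ℕ).2 < e ((i, 2) : ι × ℕ).1 := by show 2 < e i; omega
    have p3 : ((i, 3) : ι × ℕ).2 < e ((i, 3) : ι × ℕ).1 := by show 3 < e i; omega
    have h1 : N (b ⟨(i, 0), p0⟩) = b ⟨(i, 1), p1⟩ :=
      (hb ⟨(i, 0), p0⟩).trans (dif_pos p1)
    have h2 : N (b ⟨(i, 1), p1⟩) = b ⟨(i, 2), p2⟩ :=
      (hb ⟨(i, 1), p1⟩).trans (dif_pos p2)
    have h3' : N (b ⟨(i, 2), p2⟩) = b ⟨(i, 3), p3⟩ :=
      (hb ⟨(i, 2), p2⟩).trans (dif_pos p3)
    have h4 : (N ^ 3) (b ⟨(i, 0), p0⟩) = b ⟨(i, 3), p3⟩ := by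
      rw [pow_succ, pow_succ, pow_one, Module.End.mul_apply, Module.End.mul_apply, h1, h2, h3']
    rw [hN3] at h4
    exact b.ne_zero _ h4.symm
  obtain ⟨x₀⟩ : Nonempty {x : ι × ℕ // x.2 < e x.1} := ⟨σ.symm ⟨0, hn⟩⟩
  have hdet₀ : g₀.det ≠ 0 := by
    intro h
    have := congrArg Matrix.det h01
    rw [det_mul, h, zero_mul, det_one] at this
    exact zero_ne_one this
  have key : ∃ (i₀ : ι) (t : F) (f₀ : F₀), f₀ ≠ 0 ∧ t ^ (e i₀) * g₀.det * (f₀ : F) = 1 := by
    by_cases h1 : ∃ i, e i = 1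
    · obtain ⟨i, hi⟩ := h1
      refine ⟨i, g₀.det⁻¹, 1, one_ne_zero, ?_⟩
      rw [hi, pow_one, inv_mul_cancel₀ hdet₀]
      simp
    by_cases h3 : ∃ i, e i = 3
    · obtain ⟨i, hi⟩ := h3
      obtain ⟨t, ht⟩ := SubfieldConj.exists_cube_root F g₀.det⁻¹
      refine ⟨i, t, 1, one_ne_zero, ?_⟩
      rw [hi, ht, inv_mul_cancel₀ hdet₀]
      simp
    · push Not at h1 h3
      have h2 : ∀ i, e i = 0 ∨ e i = 2 := fun i => by
        have := he3 i
        have := h1 i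
        have := h3 i
        omega
      have heven : Even n := by
        rw [← hcard]
        have : Fintype.card {x : ι × ℕ // x.2 < e x.1}
            = Fintype.card ({i : ι // e i = 2} × Fin 2) := by
          apply Fintype.card_congr
          exact
            { toFun := fun x => (⟨x.1.1, by have := x.2; have := h2 x.1.1; omega⟩,
                ⟨x.1.2, by have := x.2; have := h2 x.1.1; omega⟩)
              invFun := fun p => ⟨(p.1.1, p.2.1), by rw [p.1.2]; exact p.2.2⟩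
              left_inv := fun x => rfl
              right_inv := fun p => rfl }
        rw [this, Fintype.card_prod, Fintype.card_fin]
        exact even_two.mul_left _
      rcases hsq with ho | hs
      · exact absurd heven (Nat.not_even_iff_odd.mpr ho)
      · obtain ⟨t, f₀, ht, hf₀, hτ⟩ := hs g₀.det⁻¹ (inv_ne_zero hdet₀)
        have hx2 : e x₀.1.1 = 2 := by
          have := h2 x₀.1.1
          have := x₀.2
          omega
        refine ⟨x₀.1.1, t, f₀, hf₀, ?_⟩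
        rw [hx2]
        calc t ^ 2 * g₀.det * (f₀ : F) = (t ^ 2 * (f₀ : F)) * g₀.det := by ring
          _ = 1 := by rw [← hτ, inv_mul_cancel₀ hdet₀]
  obtain ⟨i₀, t, f₀, hf₀, hkey⟩ := key
  obtain ⟨C, hCN, hCdet⟩ := exists_cent N e b hb i₀ t
  obtain ⟨cM, hcM⟩ : ∃ cM : Matrix (Fin n) (Fin n) F, cM = LinearMap.toMatrix' C := ⟨_, rfl⟩
  have hcdet : cM.det = t ^ (e i₀) := by rw [hcM, LinearMap.det_toMatrix', hCdet]
  have hNm' : LinearMap.toMatrix' N = Nm := by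
    rw [hNdef]; exact LinearMap.toMatrix'_toLin' Nm
  have hcNm : cM * Nm = Nm * cM := by
    have := congrArg LinearMap.toMatrix' hCN
    rw [LinearMap.toMatrix'_mul, LinearMap.toMatrix'_mul, hNm'] at this
    rw [hcM]; exact this
  have hcdet0 : cM.det ≠ 0 := by
    rw [hcdet]
    intro h
    rw [h, zero_mul, zero_mul] at hkey
    exact zero_ne_one hkey
  obtain ⟨cG, hcG⟩ : ∃ cG : GL (Fin n) F, (cG : Matrix (Fin n) (Fin n) F) = cM :=
    ⟨Matrix.GeneralLinearGroup.mkOfDetNeZero _ hcdet0, rfl⟩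
  obtain ⟨dM, hdM⟩ : ∃ dM : Matrix (Fin n) (Fin n) F₀,
      dM = diagonal (fun i => if i = (⟨0, hn⟩ : Fin n) then f₀ else 1) := ⟨_, rfl⟩
  have hddet : dM.det = f₀ := by
    rw [hdM, det_diagonal, Finset.prod_ite_eq' Finset.univ (⟨0, hn⟩ : Fin n) (fun _ => f₀)]
    simp
  obtain ⟨dG, hdG⟩ : ∃ dG : GL (Fin n) F₀, (dG : Matrix (Fin n) (Fin n) F₀) = dM :=
    ⟨Matrix.GeneralLinearGroup.mkOfDetNeZero _ (by rw [hddet]; exact hf₀), rfl⟩
  have hdGdet : ((Matrix.GeneralLinearGroup.map (F₀.subtype : F₀ →+* F) dG : GL (Fin n) F) :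
      Matrix (Fin n) (Fin n) F).det = (f₀ : F) := by
    have := RingHom.map_det (F₀.subtype : F₀ →+* F) dM
    rw [hddet] at this
    show ((dG : Matrix (Fin n) (Fin n) F₀).map F₀.subtype).det = (f₀ : F)
    rw [hdG]
    exact this.symm
  have hc : cG * SpecialLinearGroup.toGL x = SpecialLinearGroup.toGL x * cG := by
    apply Units.ext
    rw [Units.val_mul, Units.val_mul, hcG]
    show cM * x.1 = x.1 * cM
    rw [← hA, hANm, Matrix.mul_smul, Matrix.smul_mul, mul_add, add_mul, mul_one, one_mul, hcNm]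
  have hmem := SubfieldConj.conj_mem_of (Cfsg.Geo.subfieldSubgroup F₀ (1 : GL (Fin n) F))
    (SpecialLinearGroup.toGL x) g₀G cG
    (Matrix.GeneralLinearGroup.map (F₀.subtype : F₀ →+* F) dG) hc h₀ (SubfieldConj.map_mem F₀ dG)
  apply SubfieldConj.exists_sl_conj F₀ x _ hmem
  rw [Units.val_mul, Units.val_mul, det_mul, det_mul, hcG, hcdet, hg₀G, hdGdet]
  exact hkey

theorem conj_cube {G : Type*} [Group G] (a b : G) : (a⁻¹ * b * a) ^ 3 = a⁻¹ * b ^ 3 * a := by
  have := conj_pow (a := a⁻¹) (b := b) (i := 3)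
  rwa [inv_inv] at this

/-- The standard nilpotent matrix of type `(2^m)`. -/
def N₀ (R : Type*) [Field R] (m : ℕ) : Matrix (Fin (m + m)) (Fin (m + m)) R :=
  (fromBlocks 0 1 0 0 : Matrix (Fin m ⊕ Fin m) (Fin m ⊕ Fin m) R).submatrix
    finSumFinEquiv.symm finSumFinEquiv.symm

theorem N₀_sq (R : Type*) [Field R] (m : ℕ) : N₀ R m * N₀ R m = 0 := by
  unfold N₀
  rw [submatrix_mul_equiv, fromBlocks_multiply]
  simp

theorem N₀_map {R S : Type*} [Field R] [Field S] (f : R →+* S) (m : ℕ) :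
    (N₀ R m).map f = N₀ S m := by
  unfold N₀
  ext i j
  rcases h : (finSumFinEquiv.symm i : Fin m ⊕ Fin m) with a | a <;>
    rcases h' : (finSumFinEquiv.symm j : Fin m ⊕ Fin m) with b | b <;>
    simp [h, h', Matrix.one_apply, apply_ite]

theorem cube_one [CharP F 3] {k : ℕ} (N : Matrix (Fin k) (Fin k) F) (hN : N * N = 0) :
    (1 + N) ^ 3 = 1 := by
  have h3 : (3 : F) = 0 := by exact_mod_cast CharP.cast_eq_zero F 3
  have h3N : N + N + N = 0 := by
    have : N + N + N = (3 : F) • N := by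
      rw [show (3 : F) = 1 + 1 + 1 by norm_num, add_smul, add_smul, one_smul]
    rw [this, h3, zero_smul]
  calc (1 + N) ^ 3 = 1 + (N + N + N) + (N * N + N * N + N * N) + N * N * N := by noncomm_ring
    _ = 1 := by rw [hN, h3N]; simp

/-- A conjugating element from the standard unipotent element of type `(2^m)` into the subfield
group has square determinant, when the non-zero elements of the subfield are squares. -/
theorem det_sq_of_conj [Fintype F] [CharP F 3] (F₀ : Subfield F) (m : ℕ) (hm : 0 < m)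
    (hsq : ∀ a : F₀, a ≠ 0 → IsSquare (a : F))
    (X₀ : GL (Fin (m + m)) F)
    (hX₀ : (X₀ : Matrix (Fin (m + m)) (Fin (m + m)) F) = 1 + N₀ F m)
    (P : GL (Fin (m + m)) F)
    (hP : P⁻¹ * X₀ * P ∈ Cfsg.Geo.subfieldSubgroup F₀ (1 : GL (Fin (m + m)) F)) :
    IsSquare (P : Matrix (Fin (m + m)) (Fin (m + m)) F).det := by
  classical
  haveI : Fact (Nat.Prime 3) := ⟨Nat.prime_three⟩
  haveI : CharP F₀ 3 := RingHom.charP F₀.subtype F₀.subtype.injective 3
  obtain ⟨y, c, hyc⟩ := SubfieldConj.mem_elim F₀ _ hP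
  have hval : ((P⁻¹ * X₀ * P : GL (Fin (m + m)) F) : Matrix (Fin (m + m)) (Fin (m + m)) F)
      = ((P⁻¹ : GL (Fin (m + m)) F) : Matrix (Fin (m + m)) (Fin (m + m)) F) * (1 + N₀ F m)
        * (P : Matrix (Fin (m + m)) (Fin (m + m)) F) := by
    rw [Units.val_mul, Units.val_mul, hX₀]
  have hPP : (P : Matrix (Fin (m + m)) (Fin (m + m)) F)
      * ((P⁻¹ : GL (Fin (m + m)) F) : Matrix (Fin (m + m)) (Fin (m + m)) F) = 1 := by
    rw [← Units.val_mul, mul_inv_cancel, Units.val_one]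
  have hPP' : ((P⁻¹ : GL (Fin (m + m)) F) : Matrix (Fin (m + m)) (Fin (m + m)) F)
      * (P : Matrix (Fin (m + m)) (Fin (m + m)) F) = 1 := by
    rw [← Units.val_mul, inv_mul_cancel, Units.val_one]
  have h1 : (P : Matrix (Fin (m + m)) (Fin (m + m)) F)
      * ((c : F) • (y : Matrix (Fin (m + m)) (Fin (m + m)) F₀).map F₀.subtype)
      = (1 + N₀ F m) * (P : Matrix (Fin (m + m)) (Fin (m + m)) F) := by
    rw [← hyc, hval, ← mul_assoc, ← mul_assoc, hPP, one_mul]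
  have hX3 : X₀ ^ 3 = 1 := by
    apply Units.ext
    rw [Units.val_pow_eq_pow_val, hX₀, cube_one _ (N₀_sq F m)]
    rfl
  have h2 : ((c : F) • (y : Matrix (Fin (m + m)) (Fin (m + m)) F₀).map F₀.subtype) ^ 3 = 1 := by
    have e1 : (P⁻¹ * X₀ * P) ^ 3 = 1 := by
      rw [conj_cube, hX3]
      group
    have e2 := congrArg Units.val e1
    rw [Units.val_pow_eq_pow_val, hyc] at e2
    exact e2
  obtain ⟨i₀⟩ : Nonempty (Fin (m + m)) := ⟨⟨0, by omega⟩⟩
  have h3 : (c : F) ^ 3 * (((y : Matrix (Fin (m + m)) (Fin (m + m)) F₀) ^ 3) i₀ i₀ : F) = 1 := by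
    have e3 := congrFun (congrFun h2 i₀) i₀
    have e4 : ((y : Matrix (Fin (m + m)) (Fin (m + m)) F₀).map F₀.subtype) ^ 3
        = ((y : Matrix (Fin (m + m)) (Fin (m + m)) F₀) ^ 3).map F₀.subtype :=
      (map_pow (F₀.subtype : F₀ →+* F).mapMatrix (y : Matrix (Fin (m + m)) (Fin (m + m)) F₀) 3).symm
    rw [smul_pow, Matrix.smul_apply, Matrix.one_apply_eq, e4, Matrix.map_apply] at e3
    exact e3
  obtain ⟨β, hβ⟩ : ∃ β : F₀, β = ((y : Matrix (Fin (m + m)) (Fin (m + m)) F₀) ^ 3) i₀ i₀ :=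
    ⟨_, rfl⟩
  rw [← hβ] at h3
  have hβ0 : β ≠ 0 := by
    rintro rfl
    simp at h3
  obtain ⟨γ, hγ⟩ := SubfieldConj.exists_cube_root F₀ β⁻¹
  have hcγ : (c : F) = (γ : F) := by
    have e5 : ((c : F) - (γ : F)) ^ 3 = 0 := by
      rw [sub_pow_char (c : F) (γ : F)]
      have e6 : ((γ : F)) ^ 3 = ((β⁻¹ : F₀) : F) := by
        rw [← hγ]; simp
      rw [e6]
      have e7 : (c : F) ^ 3 = ((β : F))⁻¹ := eq_inv_of_mul_eq_one_left h3
      rw [e7]
      simp
    have e8 := pow_eq_zero_iff (n := 3) (by norm_num) |>.mp e5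
    exact sub_eq_zero.mp e8
  obtain ⟨M, hM⟩ : ∃ M : Matrix (Fin (m + m)) (Fin (m + m)) F₀,
      M = γ • (y : Matrix (Fin (m + m)) (Fin (m + m)) F₀) - 1 := ⟨_, rfl⟩
  have hMmap : M.map F₀.subtype
      = (c : F) • (y : Matrix (Fin (m + m)) (Fin (m + m)) F₀).map F₀.subtype - 1 := by
    rw [hM, hcγ]
    ext i j
    rw [Matrix.map_apply, Matrix.sub_apply, Matrix.sub_apply, Matrix.smul_apply,
      Matrix.smul_apply, Matrix.map_apply]
    by_cases hij : i = j
    · subst hij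
      simp
    · simp [Matrix.one_apply_ne hij]
  have h4 : (P : Matrix (Fin (m + m)) (Fin (m + m)) F) * M.map F₀.subtype
      = (N₀ F₀ m).map F₀.subtype * (P : Matrix (Fin (m + m)) (Fin (m + m)) F) := by
    rw [hMmap, mul_sub, h1, N₀_map, add_mul, one_mul, mul_one, add_sub_cancel_left]
  have hMM : M * M = 0 := by
    have e9 : (P : Matrix (Fin (m + m)) (Fin (m + m)) F) * (M.map F₀.subtype * M.map F₀.subtype)
        = 0 := by
      rw [← mul_assoc, h4, mul_assoc, h4, ← mul_assoc, N₀_map, N₀_sq, zero_mul]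
    have e10 : M.map F₀.subtype * M.map F₀.subtype = 0 := by
      have := congrArg (fun A => ((P⁻¹ : GL (Fin (m + m)) F) :
        Matrix (Fin (m + m)) (Fin (m + m)) F) * A) e9
      simp only [← mul_assoc, hPP', one_mul, mul_zero] at this
      simpa [mul_assoc] using this
    apply Matrix.map_injective F₀.subtype.injective
    show (M * M).map F₀.subtype = (0 : Matrix (Fin (m + m)) (Fin (m + m)) F₀).map F₀.subtype
    rw [Matrix.map_mul, e10]
    simp
  obtain ⟨a, ha, haM⟩ := SubfieldConj.rational_conj (F₀.subtype : F₀ →+* F) M (N₀ F₀ m) 2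
    (by rw [pow_two]; exact hMM) (by rw [pow_two]; exact N₀_sq F₀ m)
    (P : Matrix (Fin (m + m)) (Fin (m + m)) F) P.isUnit h4
  have haF : IsUnit (a.map F₀.subtype) := ha.map (F₀.subtype : F₀ →+* F).mapMatrix
  obtain ⟨u, hu⟩ := haF
  obtain ⟨aF, haF⟩ : ∃ aF : Matrix (Fin (m + m)) (Fin (m + m)) F, aF = a.map F₀.subtype :=
    ⟨_, rfl⟩
  obtain ⟨aI, haI⟩ : ∃ aI : Matrix (Fin (m + m)) (Fin (m + m)) F,
      aI = ((u⁻¹ : (Matrix (Fin (m + m)) (Fin (m + m)) F)ˣ) :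
        Matrix (Fin (m + m)) (Fin (m + m)) F) := ⟨_, rfl⟩
  have h5 : aF * aI = 1 := by rw [haF, haI, ← hu, ← Units.val_mul, mul_inv_cancel, Units.val_one]
  have h6 : aI * aF = 1 := by rw [haF, haI, ← hu, ← Units.val_mul, inv_mul_cancel, Units.val_one]
  have h7 : aF * M.map F₀.subtype = N₀ F m * aF := by
    have := congrArg (fun A => A.map F₀.subtype) haM
    simp only [Matrix.map_mul] at this
    rw [N₀_map] at this
    rw [haF]; exact this
  have h8 : M.map F₀.subtype * aI = aI * N₀ F m := by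
    have := congrArg (fun A => aI * A * aI) h7
    simp only [← mul_assoc, h6, one_mul] at this
    simp only [mul_assoc, h5, mul_one] at this
    exact this
  obtain ⟨Q, hQ⟩ : ∃ Q : Matrix (Fin (m + m)) (Fin (m + m)) F,
      Q = (P : Matrix (Fin (m + m)) (Fin (m + m)) F) * aI := ⟨_, rfl⟩
  have h9 : Q * N₀ F m = N₀ F m * Q := by
    rw [hQ, mul_assoc, ← h8, ← mul_assoc, h4, N₀_map, mul_assoc]
  have h10 : IsSquare ((P : Matrix (Fin (m + m)) (Fin (m + m)) F) * aI).det := by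
    rw [← hQ]
    have e11 := SubfieldConj.det_sq_of_comm
      (Q.submatrix finSumFinEquiv finSumFinEquiv)
      (by
        have := congrArg (fun A => A.submatrix (finSumFinEquiv : Fin m ⊕ Fin m ≃ Fin (m + m))
          (finSumFinEquiv : Fin m ⊕ Fin m ≃ Fin (m + m))) h9
        simp only [← submatrix_mul_equiv _ _ _ (finSumFinEquiv : Fin m ⊕ Fin m ≃ Fin (m + m))] at this
        have e12 : (N₀ F m).submatrix (finSumFinEquiv : Fin m ⊕ Fin m ≃ Fin (m + m))
            (finSumFinEquiv : Fin m ⊕ Fin m ≃ Fin (m + m)) = fromBlocks 0 1 0 0 := by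
          unfold N₀
          rw [submatrix_submatrix]
          simp
        rw [e12] at this
        exact this)
    rw [det_submatrix_equiv_self] at e11
    exact e11
  have h11 : (P : Matrix (Fin (m + m)) (Fin (m + m)) F).det
      = ((P : Matrix (Fin (m + m)) (Fin (m + m)) F) * aI).det * aF.det := by
    rw [← det_mul, mul_assoc, h6, mul_one]
  have h12 : IsSquare aF.det := by
    have e13 : aF.det = ((a.det : F₀) : F) := by
      have := RingHom.map_det (F₀.subtype : F₀ →+* F) a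
      rw [haF]
      exact this.symm
    rw [e13]
    apply hsq
    exact ((Matrix.isUnit_iff_isUnit_det _).mp ha).ne_zero
  rw [h11]
  exact h10.mul h12

theorem exists_bad [Fintype F] [CharP F 3] (F₀ : Subfield F) (m : ℕ) (hm : 0 < m)
    (hsq : ∀ a : F₀, a ≠ 0 → IsSquare (a : F)) (ν : F) (hν : ¬ IsSquare ν) :
    ∃ x : SpecialLinearGroup (Fin (m + m)) F,
      ((x ^ 3 : SpecialLinearGroup (Fin (m + m)) F) : Matrix (Fin (m + m)) (Fin (m + m)) F)
        = (1 : F) • (1 : Matrix (Fin (m + m)) (Fin (m + m)) F) ∧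
      (∀ z : F, (x : Matrix (Fin (m + m)) (Fin (m + m)) F)
        ≠ z • (1 : Matrix (Fin (m + m)) (Fin (m + m)) F)) ∧
      ∀ P : SpecialLinearGroup (Fin (m + m)) F, P⁻¹ * x * P
        ∉ (Cfsg.Geo.subfieldSubgroup F₀ (1 : GL (Fin (m + m)) F)).comap
          (SpecialLinearGroup.toGL : SpecialLinearGroup (Fin (m + m)) F →* GL (Fin (m + m)) F) := by
  classical
  haveI : Fact (Nat.Prime 3) := ⟨Nat.prime_three⟩
  have hν0 : ν ≠ 0 := fun h => hν (h ▸ IsSquare.zero)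
  obtain ⟨i₁, hi₁⟩ : ∃ i₁ : Fin (m + m), i₁ = finSumFinEquiv (Sum.inl (⟨0, hm⟩ : Fin m)) :=
    ⟨_, rfl⟩
  obtain ⟨j₁, hj₁⟩ : ∃ j₁ : Fin (m + m), j₁ = finSumFinEquiv (Sum.inr (⟨0, hm⟩ : Fin m)) :=
    ⟨_, rfl⟩
  have hij : i₁ ≠ j₁ := by
    rw [hi₁, hj₁]
    intro h
    have := finSumFinEquiv.injective h
    exact Sum.inl_ne_inr this
  obtain ⟨DG, hDG, hDG'⟩ : ∃ DG : GL (Fin (m + m)) F,
      (DG : Matrix (Fin (m + m)) (Fin (m + m)) F) = diagonal (fun i => if i = i₁ then ν else 1) ∧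
      ((DG⁻¹ : GL (Fin (m + m)) F) : Matrix (Fin (m + m)) (Fin (m + m)) F)
        = diagonal (fun i => if i = i₁ then ν⁻¹ else 1) := by
    refine ⟨⟨diagonal (fun i => if i = i₁ then ν else 1),
      diagonal (fun i => if i = i₁ then ν⁻¹ else 1), ?_, ?_⟩, rfl, rfl⟩
    · rw [diagonal_mul_diagonal, ← diagonal_one]
      congr 1
      funext i
      split_ifs
      · exact mul_inv_cancel₀ hν0
      · exact mul_one 1
    · rw [diagonal_mul_diagonal, ← diagonal_one]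
      congr 1
      funext i
      split_ifs
      · exact inv_mul_cancel₀ hν0
      · exact mul_one 1
  obtain ⟨X₀, hX₀⟩ : ∃ X₀ : GL (Fin (m + m)) F,
      (X₀ : Matrix (Fin (m + m)) (Fin (m + m)) F) = 1 + N₀ F m := by
    refine ⟨⟨1 + N₀ F m, 1 - N₀ F m, ?_, ?_⟩, rfl⟩
    · calc (1 + N₀ F m) * (1 - N₀ F m) = 1 - N₀ F m * N₀ F m := by noncomm_ring
        _ = 1 := by rw [N₀_sq, sub_zero]
    · calc (1 - N₀ F m) * (1 + N₀ F m) = 1 - N₀ F m * N₀ F m := by noncomm_ring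
        _ = 1 := by rw [N₀_sq, sub_zero]
  have hX3 : X₀ ^ 3 = 1 := by
    apply Units.ext
    rw [Units.val_pow_eq_pow_val, hX₀, cube_one _ (N₀_sq F m)]
    rfl
  obtain ⟨xG, hxG⟩ : ∃ xG : GL (Fin (m + m)) F, xG = DG * X₀ * DG⁻¹ := ⟨_, rfl⟩
  have hxG3 : xG ^ 3 = 1 := by
    rw [hxG, conj_pow, hX3]
    group
  have hdet : (xG : Matrix (Fin (m + m)) (Fin (m + m)) F).det = 1 := by
    have e1 := congrArg (fun g : GL (Fin (m + m)) F =>
      (g : Matrix (Fin (m + m)) (Fin (m + m)) F).det) hxG3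
    simp only [Units.val_pow_eq_pow_val, det_pow, Units.val_one, det_one] at e1
    have e2 : ((xG : Matrix (Fin (m + m)) (Fin (m + m)) F).det - 1) ^ 3 = 0 := by
      rw [sub_pow_char, e1]
      simp
    have e3 := pow_eq_zero_iff (n := 3) (by norm_num) |>.mp e2
    exact sub_eq_zero.mp e3
  obtain ⟨x, hx⟩ : ∃ x : SpecialLinearGroup (Fin (m + m)) F, SpecialLinearGroup.toGL x = xG :=
    ⟨⟨xG.1, hdet⟩, Units.ext rfl⟩
  have hxval : (x : Matrix (Fin (m + m)) (Fin (m + m)) F)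
      = (xG : Matrix (Fin (m + m)) (Fin (m + m)) F) := by
    rw [← hx]; rfl
  refine ⟨x, ?_, ?_, ?_⟩
  · have e1 : SpecialLinearGroup.toGL (x ^ 3) = 1 := by rw [map_pow, hx, hxG3]
    have e2 := congrArg (fun g : GL (Fin (m + m)) F =>
      (g : Matrix (Fin (m + m)) (Fin (m + m)) F)) e1
    rw [one_smul]
    exact e2
  · intro z hz
    rw [hxval, hxG, Units.val_mul, Units.val_mul, hDG, hDG', hX₀] at hz
    have e1 := congrFun (congrFun hz i₁) j₁
    rw [Matrix.mul_diagonal, Matrix.diagonal_mul, if_pos rfl, if_neg (Ne.symm hij),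
      Matrix.smul_apply, Matrix.one_apply_ne hij, Matrix.add_apply, Matrix.one_apply_ne hij] at e1
    have e2 : N₀ F m i₁ j₁ = 1 := by
      unfold N₀
      rw [hi₁, hj₁, Matrix.submatrix_apply, Equiv.symm_apply_apply, Equiv.symm_apply_apply,
        Matrix.fromBlocks_apply₁₂, Matrix.one_apply_eq]
    rw [e2] at e1
    simp at e1
    exact hν0 e1
  · intro P hP
    rw [Subgroup.mem_comap, map_mul, map_mul, map_inv, hx, hxG] at hP
    have e1 : (SpecialLinearGroup.toGL P)⁻¹ * (DG * X₀ * DG⁻¹) * SpecialLinearGroup.toGL P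
        = (DG⁻¹ * SpecialLinearGroup.toGL P)⁻¹ * X₀ * (DG⁻¹ * SpecialLinearGroup.toGL P) := by
      group
    rw [e1] at hP
    have e2 := det_sq_of_conj F₀ m hm hsq X₀ hX₀ _ hP
    rw [Units.val_mul, det_mul, hDG', det_diagonal,
      Finset.prod_ite_eq' Finset.univ i₁ (fun _ => ν⁻¹)] at e2
    have e3 : ((SpecialLinearGroup.toGL P : GL (Fin (m + m)) F) :
        Matrix (Fin (m + m)) (Fin (m + m)) F).det = 1 := P.2
    rw [e3, mul_one, if_pos (Finset.mem_univ _)] at e2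
    apply hν
    have := e2.inv
    rwa [inv_inv] at this

end Cfsg.Agent.Lib.helper4.Sub3
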