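import Mathlib
import Cfsg.Prelude.Def_GeometricClasses
import Cfsg.Agent.Lib.helper18.Jordan
import Cfsg.Agent.Lib.helper4.SubfieldConj
import Cfsg.Agent.Lib.helper4.Sub3

/-!
# Elements of `SL_n(q)` with scalar square and subfield subgroups: characteristic two
-/

namespace Cfsg.Agent.Lib.helper4.Sub2

open Matrix

open Cfsg.Agent.Lib.helper4

universe u

variable {F : Type u} [Field F] {n : ℕ}

theorem exists_sq_root (K : Type*) [Field K] [Finite K] [CharP K 2] (z : K) :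
    ∃ w : K, w ^ 2 = z := by
  haveI : Fact (Nat.Prime 2) := ⟨Nat.prime_two⟩
  have h := Finite.injective_iff_surjective.mp (frobenius_inj K 2)
  obtain ⟨w, hw⟩ := h z
  exact ⟨w, hw⟩

open Cfsg.Agent.Lib.helper18.Jordan in
theorem conj_of_sq_two [Fintype F] [CharP F 2] (F₀ : Subfield F) (hn : 0 < n)
    (x : SpecialLinearGroup (Fin n) F) (z : F)
    (hz : ((x ^ 2 : SpecialLinearGroup (Fin n) F) : Matrix (Fin n) (Fin n) F)
      = z • (1 : Matrix (Fin n) (Fin n) F)) :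
    ∃ P : SpecialLinearGroup (Fin n) F, P⁻¹ * x * P
      ∈ (Cfsg.Geo.subfieldSubgroup F₀ (1 : GL (Fin n) F)).comap
        (SpecialLinearGroup.toGL : SpecialLinearGroup (Fin n) F →* GL (Fin n) F) := by
  classical
  haveI : Fact (Nat.Prime 2) := ⟨Nat.prime_two⟩
  haveI : Nonempty (Fin n) := ⟨⟨0, hn⟩⟩
  obtain ⟨A, hA⟩ : ∃ A : Matrix (Fin n) (Fin n) F, A = x.1 := ⟨_, rfl⟩
  have hdetA : A.det = 1 := by rw [hA]; exact x.2
  have hA3 : A ^ 2 = z • (1 : Matrix (Fin n) (Fin n) F) := by rw [hA, ← hz]; rfl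
  have hz0 : z ≠ 0 := by
    rintro rfl
    have := congrArg Matrix.det hA3
    rw [det_pow, hdetA, one_pow, zero_smul, det_zero] at this
    exact one_ne_zero this
  obtain ⟨w, hw⟩ := exists_sq_root F z
  have hw0 : w ≠ 0 := by
    rintro rfl
    apply hz0
    rw [← hw]
    simp
  obtain ⟨Nm, hNm⟩ : ∃ Nm : Matrix (Fin n) (Fin n) F, Nm = w⁻¹ • A - 1 := ⟨_, rfl⟩
  have hANm : A = w • (1 + Nm) := by
    rw [hNm, add_sub_cancel, smul_smul, mul_inv_cancel₀ hw0, one_smul]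
  have h3 : (2 : F) = 0 := by exact_mod_cast CharP.cast_eq_zero F 2
  have hNm3 : Nm ^ 2 = 0 := by
    have e1 : (w⁻¹ • A) ^ 2 = 1 := by
      rw [smul_pow, hA3, smul_smul, inv_pow, hw, inv_mul_cancel₀ hz0, one_smul]
    have e2 : Nm ^ 2 = (w⁻¹ • A) ^ 2 - 1 - (2 : F) • (w⁻¹ • A - 1) := by
      rw [hNm]
      have : (2 : F) • (w⁻¹ • A - 1) = (w⁻¹ • A - 1) + (w⁻¹ • A - 1) := by
        rw [show (2 : F) = 1 + 1 by norm_num, add_smul, one_smul]
      rw [this]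
      generalize w⁻¹ • A = B
      noncomm_ring
    rw [e2, e1, h3, zero_smul, sub_self, sub_zero]
  obtain ⟨N, hNdef⟩ : ∃ N : Module.End F (Fin n → F), N = Matrix.toLinAlgEquiv' Nm := ⟨_, rfl⟩
  have hN3 : N ^ 2 = 0 := by rw [hNdef, ← map_pow, hNm3, map_zero]
  have hN : IsNilpotent N := ⟨2, hN3⟩
  obtain ⟨ι, _, e, b, hb⟩ := exists_isJB N hN
  haveI : Fintype {x : ι × ℕ // x.2 < e x.1} := FiniteDimensional.fintypeBasisIndex b
  have hcard : Fintype.card {x : ι × ℕ // x.2 < e x.1} = n := by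
    rw [← Module.finrank_eq_card_basis b, Module.finrank_fin_fun]
  obtain ⟨σ⟩ : Nonempty ({x : ι × ℕ // x.2 < e x.1} ≃ Fin n) :=
    ⟨Fintype.equivOfCardEq (by rw [hcard, Fintype.card_fin])⟩
  obtain ⟨b', hb'⟩ : ∃ b' : Module.Basis (Fin n) F (Fin n → F), b' = b.reindex σ := ⟨_, rfl⟩
  obtain ⟨g₀, hg₀⟩ : ∃ g₀ : Matrix (Fin n) (Fin n) F,
      g₀ = (Pi.basisFun F (Fin n)).toMatrix b' := ⟨_, rfl⟩
  obtain ⟨g₁, hg₁⟩ : ∃ g₁ : Matrix (Fin n) (Fin n) F,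
      g₁ = b'.toMatrix (Pi.basisFun F (Fin n)) := ⟨_, rfl⟩
  have h01 : g₀ * g₁ = 1 := by
    rw [hg₀, hg₁]; exact Module.Basis.toMatrix_mul_toMatrix_flip _ _
  have h10 : g₁ * g₀ = 1 := by
    rw [hg₀, hg₁]; exact Module.Basis.toMatrix_mul_toMatrix_flip _ _
  obtain ⟨M₀, hM₀⟩ : ∃ M₀ : Matrix (Fin n) (Fin n) F, M₀ = LinearMap.toMatrix b' b' N :=
    ⟨_, rfl⟩
  have hconj : g₀ * M₀ * g₁ = Nm := by
    rw [hg₀, hg₁, hM₀, basis_toMatrix_mul_linearMap_toMatrix_mul_basis_toMatrix,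
      LinearMap.toMatrix_eq_toMatrix', hNdef]
    exact LinearMap.toMatrix'_toLin' Nm
  have hM₀01 : ∀ i j, M₀ i j = 0 ∨ M₀ i j = 1 := by
    intro i j
    rw [hM₀, LinearMap.toMatrix_apply, hb', Module.Basis.reindex_apply, hb (σ.symm j)]
    split_ifs with h
    · rw [Module.Basis.repr_reindex_apply, Module.Basis.repr_self, Finsupp.single_apply]
      split_ifs
      · right; rfl
      · left; rfl
    · left
      rw [map_zero]
      rfl
  obtain ⟨M₀', hM₀'⟩ : ∃ M₀' : Matrix (Fin n) (Fin n) F₀,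
      M₀' = Matrix.of (fun i j => if M₀ i j = 1 then (1 : F₀) else 0) := ⟨_, rfl⟩
  have hmap : M₀'.map F₀.subtype = M₀ := by
    ext i j
    rw [Matrix.map_apply, hM₀', Matrix.of_apply]
    rcases hM₀01 i j with h | h
    · rw [h]; simp
    · rw [h]; simp
  have hmap1 : (1 + M₀').map F₀.subtype = 1 + M₀ := by
    rw [← hmap]
    ext i j
    simp [Matrix.one_apply, apply_ite]
  have hg1A : g₁ * A * g₀ = w • (1 + M₀) := by
    rw [hANm, ← hconj, Matrix.mul_smul, Matrix.smul_mul, mul_add, add_mul, mul_one, h10]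
    congr 2
    calc g₁ * (g₀ * M₀ * g₁) * g₀ = (g₁ * g₀) * M₀ * (g₁ * g₀) := by simp only [mul_assoc]
      _ = M₀ := by rw [h10, one_mul, mul_one]
  have hdet10 : g₁.det * g₀.det = 1 := by rw [← det_mul, h10, det_one]
  have hunit : IsUnit (1 + M₀) := by
    have e1 : 1 + M₀ = w⁻¹ • (g₁ * A * g₀) := by
      rw [hg1A, smul_smul, inv_mul_cancel₀ hw0, one_smul]
    rw [e1, Matrix.isUnit_iff_isUnit_det, det_smul, det_mul, det_mul, hdetA, mul_one, hdet10,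
      mul_one]
    exact isUnit_iff_ne_zero.mpr (pow_ne_zero _ (inv_ne_zero hw0))
  have hdetY : (1 + M₀').det ≠ 0 := by
    intro h0
    have h1 : ((1 + M₀').map F₀.subtype).det = 0 := by
      have := RingHom.map_det (F₀.subtype : F₀ →+* F) (1 + M₀')
      rw [RingHom.mapMatrix_apply] at this
      rw [← this, h0, map_zero]
    rw [hmap1] at h1
    exact ((Matrix.isUnit_iff_isUnit_det _).mp hunit).ne_zero h1
  obtain ⟨yG, hyG⟩ : ∃ yG : GL (Fin n) F₀, (yG : Matrix (Fin n) (Fin n) F₀) = 1 + M₀' :=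
    ⟨Matrix.GeneralLinearGroup.mkOfDetNeZero _ hdetY, rfl⟩
  obtain ⟨g₀G, hg₀G, hg₀G'⟩ : ∃ g₀G : GL (Fin n) F, (g₀G : Matrix (Fin n) (Fin n) F) = g₀ ∧
      ((g₀G⁻¹ : GL (Fin n) F) : Matrix (Fin n) (Fin n) F) = g₁ := ⟨⟨g₀, g₁, h01, h10⟩, rfl, rfl⟩
  obtain ⟨wG, hwG⟩ : ∃ wG : GL (Fin n) F, (wG : Matrix (Fin n) (Fin n) F) = w • 1 :=
    ⟨⟨w • 1, w⁻¹ • 1, by rw [smul_mul_smul_comm, mul_one, mul_inv_cancel₀ hw0, one_smul],
      by rw [smul_mul_smul_comm, mul_one, inv_mul_cancel₀ hw0, one_smul]⟩, rfl⟩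
  have h₀ : g₀G⁻¹ * SpecialLinearGroup.toGL x * g₀G
      ∈ Cfsg.Geo.subfieldSubgroup F₀ (1 : GL (Fin n) F) := by
    have e : g₀G⁻¹ * SpecialLinearGroup.toGL x * g₀G
        = Matrix.GeneralLinearGroup.map (F₀.subtype : F₀ →+* F) yG * wG := by
      apply Units.ext
      rw [Units.val_mul, Units.val_mul, Units.val_mul, hg₀G, hg₀G', hwG]
      show g₁ * x.1 * g₀ = (yG : Matrix (Fin n) (Fin n) F₀).map F₀.subtype * (w • 1)
      rw [← hA, hg1A, hyG, Matrix.mul_smul, mul_one, hmap1]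
    rw [e]
    exact Subgroup.mul_mem _ (SubfieldConj.map_mem F₀ yG)
      (SubfieldConj.scalar_mem F₀ (Units.mk0 w hw0) wG hwG)
  have he3 : ∀ i, e i ≤ 2 := by
    intro i
    by_contra hcon
    push Not at hcon
    have p0 : ((i, 0) : ι × ℕ).2 < e ((i, 0) : ι × ℕ).1 := by show 0 < e i; omega
    have p1 : ((i, 1) : ι × ℕ).2 < e ((i, 1) : ι × ℕ).1 := by show 1 < e i; omega
    have p2 : ((i, 2) : ι × ℕ).2 < e ((i, 2) : ι × ℕ).1 := by show 2 < e i; omega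
    have h1 : N (b ⟨(i, 0), p0⟩) = b ⟨(i, 1), p1⟩ :=
      (hb ⟨(i, 0), p0⟩).trans (dif_pos p1)
    have h2 : N (b ⟨(i, 1), p1⟩) = b ⟨(i, 2), p2⟩ :=
      (hb ⟨(i, 1), p1⟩).trans (dif_pos p2)
    have h4 : (N ^ 2) (b ⟨(i, 0), p0⟩) = b ⟨(i, 2), p2⟩ := by
      rw [pow_succ, pow_one, Module.End.mul_apply, h1, h2]
    rw [hN3] at h4
    exact b.ne_zero _ h4.symm
  obtain ⟨x₀⟩ : Nonempty {x : ι × ℕ // x.2 < e x.1} := ⟨σ.symm ⟨0, hn⟩⟩
  have hdet₀ : g₀.det ≠ 0 := by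
    intro h
    have := congrArg Matrix.det h01
    rw [det_mul, h, zero_mul, det_one] at this
    exact zero_ne_one this
  have key : ∃ (i₀ : ι) (t : F), t ^ (e i₀) * g₀.det = 1 := by
    by_cases h1 : ∃ i, e i = 1
    · obtain ⟨i, hi⟩ := h1
      refine ⟨i, g₀.det⁻¹, ?_⟩
      rw [hi, pow_one, inv_mul_cancel₀ hdet₀]
    · push Not at h1
      have hx2 : e x₀.1.1 = 2 := by
        have := he3 x₀.1.1
        have := h1 x₀.1.1
        have := x₀.2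
        omega
      obtain ⟨t, ht⟩ := exists_sq_root F g₀.det⁻¹
      refine ⟨x₀.1.1, t, ?_⟩
      rw [hx2, ht, inv_mul_cancel₀ hdet₀]
  obtain ⟨i₀, t, hkey⟩ := key
  obtain ⟨C, hCN, hCdet⟩ := Sub3.exists_cent N e b hb i₀ t
  obtain ⟨cM, hcM⟩ : ∃ cM : Matrix (Fin n) (Fin n) F, cM = LinearMap.toMatrix' C := ⟨_, rfl⟩
  have hcdet : cM.det = t ^ (e i₀) := by rw [hcM, LinearMap.det_toMatrix', hCdet]
  have hNm' : LinearMap.toMatrix' N = Nm := by
    rw [hNdef]; exact LinearMap.toMatrix'_toLin' Nm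
  have hcNm : cM * Nm = Nm * cM := by
    have := congrArg LinearMap.toMatrix' hCN
    rw [LinearMap.toMatrix'_mul, LinearMap.toMatrix'_mul, hNm'] at this
    rw [hcM]; exact this
  have hcdet0 : cM.det ≠ 0 := by
    rw [hcdet]
    intro h
    rw [h, zero_mul] at hkey
    exact zero_ne_one hkey
  obtain ⟨cG, hcG⟩ : ∃ cG : GL (Fin n) F, (cG : Matrix (Fin n) (Fin n) F) = cM :=
    ⟨Matrix.GeneralLinearGroup.mkOfDetNeZero _ hcdet0, rfl⟩
  have hc : cG * SpecialLinearGroup.toGL x = SpecialLinearGroup.toGL x * cG := by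
    apply Units.ext
    rw [Units.val_mul, Units.val_mul, hcG]
    show cM * x.1 = x.1 * cM
    rw [← hA, hANm, Matrix.mul_smul, Matrix.smul_mul, mul_add, add_mul, mul_one, one_mul, hcNm]
  have hmem := SubfieldConj.conj_mem_of (Cfsg.Geo.subfieldSubgroup F₀ (1 : GL (Fin n) F))
    (SpecialLinearGroup.toGL x) g₀G cG 1 hc h₀ (Subgroup.one_mem _)
  apply SubfieldConj.exists_sl_conj F₀ x _ hmem
  rw [Units.val_mul, Units.val_mul, det_mul, det_mul, hcG, hcdet, hg₀G, Units.val_one, det_one,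
    mul_one]
  exact hkey

end Cfsg.Agent.Lib.helper4.Sub2
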