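import Mathlib
import Cfsg.Prelude.Def_GeometricClasses
import Cfsg.Agent.Lib.helper4.Quad2
import Cfsg.Agent.Lib.helper4.Sub2

/-!
# Quadratic field subalgebras of matrix algebras: characteristic two
-/

namespace Cfsg.Agent.Lib.helper4.Quad

open Matrix Polynomial

universe u

variable {F : Type u} [Field F] {n : ℕ}

theorem exists_kappa [Fintype F] [CharP F 2] (hn : 0 < n)
    (K : Subalgebra F (Matrix (Fin n) (Fin n) F)) (hK : Cfsg.Geo.IsFieldSubalgebra 2 K) :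
    ∃ (κ : Matrix (Fin n) (Fin n) F) (b : F), κ * κ = κ + b • 1 ∧
      (∀ t : F, t * t + t + b ≠ 0) ∧ κ ∈ K ∧ (∀ a : F, κ ≠ a • 1) := by
  have h2 : (2 : F) = 0 := by exact_mod_cast CharP.cast_eq_zero F 2
  obtain ⟨κ₀, hκK, hκns⟩ := exists_nonscalar K hK.finrank_eq
  have hmem := mem_iff_of_nonscalar hn K hK.finrank_eq κ₀ hκK hκns
  obtain ⟨b₀, a₀, hab⟩ := (hmem (κ₀ * κ₀)).mp (K.mul_mem hκK hκK)
  have ha₀ : a₀ ≠ 0 := by
    rintro rfl
    rw [zero_smul, add_zero] at hab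
    obtain ⟨d, hd⟩ := Sub2.exists_sq_root F b₀
    have h1 : (κ₀ + d • 1) * (κ₀ + d • 1) = 0 := by
      simp only [add_mul, mul_add, Matrix.mul_smul, Matrix.smul_mul, mul_one, one_mul]
      rw [hab]
      linear_combination (norm := module) (d * h2) • κ₀ + (b₀ * h2) • (1 : Matrix (Fin n) (Fin n) F)
        + hd • (1 : Matrix (Fin n) (Fin n) F)
    have h3 : κ₀ + d • 1 ≠ 0 := fun h =>
      hκns (-d) (by rw [neg_smul]; exact eq_neg_of_add_eq_zero_left h)
    obtain ⟨y, -, hy⟩ := hK.inv _ (K.add_mem hκK (K.smul_mem K.one_mem d)) h3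
    apply h3
    calc κ₀ + d • 1 = (κ₀ + d • 1) * ((κ₀ + d • 1) * y) := by rw [hy, mul_one]
      _ = ((κ₀ + d • 1) * (κ₀ + d • 1)) * y := by rw [mul_assoc]
      _ = 0 := by rw [h1, zero_mul]
  obtain ⟨κ, hκ⟩ : ∃ κ : Matrix (Fin n) (Fin n) F, κ = a₀⁻¹ • κ₀ := ⟨_, rfl⟩
  have hκκ : κ * κ = κ + (a₀⁻¹ * a₀⁻¹ * b₀) • (1 : Matrix (Fin n) (Fin n) F) := by
    rw [hκ, Matrix.smul_mul, Matrix.mul_smul, hab, smul_smul, smul_add, smul_smul, smul_smul]
    have : a₀⁻¹ * a₀⁻¹ * a₀ = a₀⁻¹ := by field_simp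
    rw [this, add_comm]
  have hκK' : κ ∈ K := by rw [hκ]; exact K.smul_mem hκK _
  have hκns' : ∀ a : F, κ ≠ a • 1 := by
    intro a h
    apply hκns (a₀ * a)
    rw [← smul_smul, ← h, hκ, smul_smul, mul_inv_cancel₀ ha₀, one_smul]
  refine ⟨κ, a₀⁻¹ * a₀⁻¹ * b₀, hκκ, ?_, hκK', hκns'⟩
  intro t ht
  have h1 : (κ + t • 1) * (κ + (t + 1) • 1) = 0 := by
    simp only [add_mul, mul_add, Matrix.mul_smul, Matrix.smul_mul, mul_one, one_mul]
    rw [hκκ]
    linear_combination (norm := module) ((t + 1) * h2) • κ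
      + ht • (1 : Matrix (Fin n) (Fin n) F)
  have h3 : κ + t • 1 ≠ 0 := fun h =>
    hκns' (-t) (by rw [neg_smul]; exact eq_neg_of_add_eq_zero_left h)
  have h4 : κ + (t + 1) • 1 ≠ 0 := fun h =>
    hκns' (-(t + 1)) (by rw [neg_smul]; exact eq_neg_of_add_eq_zero_left h)
  obtain ⟨y, -, hy⟩ := hK.inv _ (K.add_mem hκK' (K.smul_mem K.one_mem (t + 1))) h4
  apply h3
  calc κ + t • 1 = (κ + t • 1) * ((κ + (t + 1) • 1) * y) := by rw [hy, mul_one]
    _ = ((κ + t • 1) * (κ + (t + 1) • 1)) * y := by rw [mul_assoc]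
    _ = 0 := by rw [h1, zero_mul]

theorem mem_norm_of_shift (K : Subalgebra F (Matrix (Fin n) (Fin n) F))
    (κ : Matrix (Fin n) (Fin n) F)
    (hKκ : ∀ y, y ∈ K ↔ ∃ α β : F, y = α • 1 + β • κ) (y : GL (Fin n) F)
    (hy : (y : Matrix (Fin n) (Fin n) F) * κ = (κ + 1) * (y : Matrix (Fin n) (Fin n) F)) :
    y ∈ Cfsg.Geo.subalgebraNormalizer K := by
  have hgg : (y : Matrix (Fin n) (Fin n) F)
      * ((y⁻¹ : GL (Fin n) F) : Matrix (Fin n) (Fin n) F) = 1 := by
    rw [← Units.val_mul, mul_inv_cancel, Units.val_one]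
  have hgg' : ((y⁻¹ : GL (Fin n) F) : Matrix (Fin n) (Fin n) F)
      * (y : Matrix (Fin n) (Fin n) F) = 1 := by
    rw [← Units.val_mul, inv_mul_cancel, Units.val_one]
  apply mem_norm_of K κ hKκ y
  · rw [hy, mul_assoc, hgg, mul_one]
    exact (hKκ _).mpr ⟨1, 1, by rw [one_smul, one_smul, add_comm]⟩
  · have e1 : κ * (y : Matrix (Fin n) (Fin n) F) = (y : Matrix (Fin n) (Fin n) F) * (κ - 1) := by
      rw [mul_sub, hy, add_mul, one_mul, mul_one, add_sub_cancel_right]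
    rw [mul_assoc, e1, ← mul_assoc, hgg', one_mul]
    exact (hKκ _).mpr ⟨-1, 1, by rw [neg_smul, one_smul, one_smul]; abel⟩

theorem norm_even (h2 : (2 : F) = 0) (hn : 0 < n)
    (K : Subalgebra F (Matrix (Fin n) (Fin n) F))
    (κ : Matrix (Fin n) (Fin n) F) (b : F)
    (hκκ : κ * κ = κ + b • (1 : Matrix (Fin n) (Fin n) F))
    (hb : ∀ t : F, t * t + t + b ≠ 0) (hκns : ∀ a : F, κ ≠ a • 1)
    (hKκ : ∀ y, y ∈ K ↔ ∃ α β : F, y = α • 1 + β • κ) (g : GL (Fin n) F)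
    (hg : g ∈ Cfsg.Geo.subalgebraNormalizer K) :
    (g : Matrix (Fin n) (Fin n) F) * κ = κ * (g : Matrix (Fin n) (Fin n) F) ∨
      (g : Matrix (Fin n) (Fin n) F) * κ = (κ + 1) * (g : Matrix (Fin n) (Fin n) F) := by
  have hgg : (g : Matrix (Fin n) (Fin n) F)
      * ((g⁻¹ : GL (Fin n) F) : Matrix (Fin n) (Fin n) F) = 1 := by
    rw [← Units.val_mul, mul_inv_cancel, Units.val_one]
  have hgg' : ((g⁻¹ : GL (Fin n) F) : Matrix (Fin n) (Fin n) F)
      * (g : Matrix (Fin n) (Fin n) F) = 1 := by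
    rw [← Units.val_mul, inv_mul_cancel, Units.val_one]
  have hκK : κ ∈ K := (hKκ κ).mpr ⟨0, 1, by rw [zero_smul, zero_add, one_smul]⟩
  have h1 : (g : Matrix (Fin n) (Fin n) F) * κ
      * ((g⁻¹ : GL (Fin n) F) : Matrix (Fin n) (Fin n) F) ∈ K := (hg κ).mp hκK
  obtain ⟨α, β, hαβ⟩ := (hKκ _).mp h1
  have hsq : ((g : Matrix (Fin n) (Fin n) F) * κ
      * ((g⁻¹ : GL (Fin n) F) : Matrix (Fin n) (Fin n) F)) * ((g : Matrix (Fin n) (Fin n) F) * κ
      * ((g⁻¹ : GL (Fin n) F) : Matrix (Fin n) (Fin n) F))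
      = ((g : Matrix (Fin n) (Fin n) F) * κ
      * ((g⁻¹ : GL (Fin n) F) : Matrix (Fin n) (Fin n) F)) + b • 1 := by
    calc _ = (g : Matrix (Fin n) (Fin n) F) * (κ * (((g⁻¹ : GL (Fin n) F) :
          Matrix (Fin n) (Fin n) F) * (g : Matrix (Fin n) (Fin n) F)) * κ)
          * ((g⁻¹ : GL (Fin n) F) : Matrix (Fin n) (Fin n) F) := by simp only [mul_assoc]
      _ = _ := by
          rw [hgg', mul_one, hκκ, mul_add, add_mul, Matrix.mul_smul, Matrix.smul_mul, mul_one, hgg]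
  rw [hαβ] at hsq
  have h3 : (α * α + β * β * b - α - b) • (1 : Matrix (Fin n) (Fin n) F)
      + (β * β - β) • κ = 0 := by
    have e : (α • (1 : Matrix (Fin n) (Fin n) F) + β • κ) * (α • 1 + β • κ)
        = (α * α + β * β * b) • 1 + (β * β) • κ := by
      simp only [mul_add, add_mul, Matrix.mul_smul, Matrix.smul_mul, mul_one, one_mul, hκκ]
      linear_combination (norm := module) (α * β * h2) • κ
    rw [e] at hsq
    linear_combination (norm := module) hsq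
  obtain ⟨e1, e2⟩ := coeff_zero hn κ hκns _ _ h3
  have hmove : ∀ M : Matrix (Fin n) (Fin n) F, (g : Matrix (Fin n) (Fin n) F) * κ
      * ((g⁻¹ : GL (Fin n) F) : Matrix (Fin n) (Fin n) F) = M →
      (g : Matrix (Fin n) (Fin n) F) * κ = M * (g : Matrix (Fin n) (Fin n) F) := by
    intro M hM
    calc (g : Matrix (Fin n) (Fin n) F) * κ = (g : Matrix (Fin n) (Fin n) F) * κ
          * (((g⁻¹ : GL (Fin n) F) : Matrix (Fin n) (Fin n) F)
          * (g : Matrix (Fin n) (Fin n) F)) := by rw [hgg', mul_one]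
      _ = ((g : Matrix (Fin n) (Fin n) F) * κ
          * ((g⁻¹ : GL (Fin n) F) : Matrix (Fin n) (Fin n) F))
          * (g : Matrix (Fin n) (Fin n) F) := by simp only [mul_assoc]
      _ = M * (g : Matrix (Fin n) (Fin n) F) := by rw [hM]
  have hβ : β = 0 ∨ β = 1 := by
    have : β * (β - 1) = 0 := by linear_combination e2
    rcases mul_eq_zero.mp this with h | h
    · exact Or.inl h
    · exact Or.inr (sub_eq_zero.mp h)
  rcases hβ with h | h
  · subst h
    exfalso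
    exact hb α (by linear_combination e1 + (α + b) * h2)
  · subst h
    have : α * (α - 1) = 0 := by linear_combination e1
    rcases mul_eq_zero.mp this with h | h
    · left
      subst h
      exact hmove κ (by rw [hαβ, zero_smul, zero_add, one_smul])
    · right
      have hα : α = 1 := sub_eq_zero.mp h
      subst hα
      exact hmove (κ + 1) (by rw [hαβ, one_smul, one_smul, add_comm])

theorem exists_M (Nm : Matrix (Fin 2) (Fin 2) F) (hNN : Nm * Nm = 0) (hN0 : Nm ≠ 0) :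
    ∃ M : Matrix (Fin 2) (Fin 2) F, M * M = 0 ∧ Nm * M + M * Nm = 1 := by
  have hN := Matrix.eta_fin_two Nm
  obtain ⟨p, hp⟩ : ∃ p : F, p = Nm 0 0 := ⟨_, rfl⟩
  obtain ⟨q, hq⟩ : ∃ q : F, q = Nm 0 1 := ⟨_, rfl⟩
  obtain ⟨r, hr⟩ : ∃ r : F, r = Nm 1 0 := ⟨_, rfl⟩
  obtain ⟨s, hs⟩ : ∃ s : F, s = Nm 1 1 := ⟨_, rfl⟩
  rw [← hp, ← hq, ← hr, ← hs] at hN
  rw [hN, Matrix.mul_fin_two] at hNN
  have e00 : p * p + q * r = 0 := by
    have := congrFun (congrFun hNN 0) 0
    simpa using this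
  have e01 : p * q + q * s = 0 := by
    have := congrFun (congrFun hNN 0) 1
    simpa using this
  have e11 : r * q + s * s = 0 := by
    have := congrFun (congrFun hNN 1) 1
    simpa using this
  by_cases hq0 : q = 0
  · have hp0 : p = 0 := by
      rw [hq0, zero_mul, add_zero] at e00; exact mul_self_eq_zero.mp e00
    have hs0 : s = 0 := by
      rw [hq0, mul_zero, zero_add] at e11; exact mul_self_eq_zero.mp e11
    have hr0 : r ≠ 0 := by
      rintro rfl
      apply hN0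
      rw [hN, hq0, hp0, hs0]
      ext i j
      fin_cases i <;> fin_cases j <;> rfl
    refine ⟨!![0, r⁻¹; 0, 0], ?_, ?_⟩
    · rw [Matrix.mul_fin_two]
      ext i j
      fin_cases i <;> fin_cases j <;> simp
    · rw [hN, hq0, hp0, hs0, Matrix.mul_fin_two, Matrix.mul_fin_two, Matrix.one_fin_two]
      ext i j
      fin_cases i <;> fin_cases j <;> simp [hr0]
  · have hps : p + s = 0 := by
      have : q * (p + s) = 0 := by linear_combination e01
      exact (mul_eq_zero.mp this).resolve_left hq0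
    refine ⟨!![0, 0; q⁻¹, 0], ?_, ?_⟩
    · rw [Matrix.mul_fin_two]
      ext i j
      fin_cases i <;> fin_cases j <;> simp
    · rw [hN, Matrix.mul_fin_two, Matrix.mul_fin_two, Matrix.one_fin_two]
      ext i j
      fin_cases i <;> fin_cases j <;> simp [hq0]
      have : s * q⁻¹ + q⁻¹ * p = q⁻¹ * (p + s) := by ring
      rw [this, hps, mul_zero]

end Cfsg.Agent.Lib.helper4.Quad
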