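import Mathlib
import Cfsg.Prelude.Def_GeometricClasses
import Cfsg.Agent.Lib.helper4.Quad6

/-!
# Quadratic field subalgebras of matrix algebras: involutions in characteristic two
-/

namespace Cfsg.Agent.Lib.helper4.Quad

open Matrix Polynomial

universe u

variable {F : Type u} [Field F] {n : ℕ}

theorem good_even_two [Fintype F] [CharP F 2] (K : Subalgebra F (Matrix (Fin 2) (Fin 2) F))
    (κ : Matrix (Fin 2) (Fin 2) F) (b : F)
    (hκκ : κ * κ = κ + b • (1 : Matrix (Fin 2) (Fin 2) F))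
    (hb : ∀ t : F, t * t + t + b ≠ 0)
    (hKκ : ∀ y, y ∈ K ↔ ∃ α β : F, y = α • 1 + β • κ)
    (x : SpecialLinearGroup (Fin 2) F) (z : F)
    (hx : (x : Matrix (Fin 2) (Fin 2) F) * (x : Matrix (Fin 2) (Fin 2) F)
      = z • (1 : Matrix (Fin 2) (Fin 2) F))
    (hxns : ∀ a : F, (x : Matrix (Fin 2) (Fin 2) F) ≠ a • 1) :
    ∃ P : SpecialLinearGroup (Fin 2) F, P⁻¹ * x * P
      ∈ (Cfsg.Geo.subalgebraNormalizer K).comap
        (SpecialLinearGroup.toGL : SpecialLinearGroup (Fin 2) F →* GL (Fin 2) F) := by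
  classical
  have h2 : (2 : F) = 0 := by exact_mod_cast CharP.cast_eq_zero F 2
  obtain ⟨A, hA⟩ : ∃ A : Matrix (Fin 2) (Fin 2) F, A = x.1 := ⟨_, rfl⟩
  have hdetA : A.det = 1 := by rw [hA]; exact x.2
  rw [← hA] at hx hxns
  have hz0 : z ≠ 0 := by
    rintro rfl
    have := congrArg Matrix.det hx
    rw [det_mul, hdetA, mul_one, zero_smul, det_zero] at this
    exact one_ne_zero this
  obtain ⟨w, hw⟩ := Sub2.exists_sq_root F z
  have hw0 : w ≠ 0 := by
    rintro rfl
    apply hz0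
    rw [← hw]
    simp
  obtain ⟨Nm, hNm⟩ : ∃ Nm : Matrix (Fin 2) (Fin 2) F, Nm = w⁻¹ • A - 1 := ⟨_, rfl⟩
  have hANm : A = w • (1 + Nm) := by
    rw [hNm, add_sub_cancel, smul_smul, mul_inv_cancel₀ hw0, one_smul]
  have hBB : (w⁻¹ • A) * (w⁻¹ • A) = 1 := by
    rw [Matrix.smul_mul, Matrix.mul_smul, hx, smul_smul, smul_smul, ← hw]
    have : w⁻¹ * w⁻¹ * w ^ 2 = 1 := by field_simp
    rw [this, one_smul]
  have hNN : Nm * Nm = 0 := by
    rw [hNm]
    simp only [sub_mul, mul_sub, mul_one, one_mul]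
    rw [hBB]
    linear_combination (norm := module) h2 • ((1 : Matrix (Fin 2) (Fin 2) F) - w⁻¹ • A)
  have hN0 : Nm ≠ 0 := by
    intro h
    apply hxns w
    rw [hANm, h, add_zero]
  obtain ⟨M, hMM, hsum⟩ := exists_M Nm hNN hN0
  have hNMN : Nm * (M * Nm) = Nm := by
    calc Nm * (M * Nm) = (Nm * M + M * Nm) * Nm - M * (Nm * Nm) := by
          rw [add_mul, mul_assoc M, add_sub_cancel_right, mul_assoc]
      _ = Nm := by rw [hsum, hNN, mul_zero, sub_zero, one_mul]
  have hMNM : M * (Nm * M) = M := by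
    calc M * (Nm * M) = M * (Nm * M + M * Nm) - (M * M) * Nm := by
          rw [mul_add, ← mul_assoc M M, add_sub_cancel_right]
      _ = M := by rw [hsum, hMM, zero_mul, sub_zero, mul_one]
  have hMMN : M * (M * Nm) = 0 := by rw [← mul_assoc, hMM, zero_mul]
  obtain ⟨κ', hκ'⟩ : ∃ κ' : Matrix (Fin 2) (Fin 2) F, κ' = b • Nm + M + M * Nm := ⟨_, rfl⟩
  have hκ'κ' : κ' * κ' = κ' + b • (1 : Matrix (Fin 2) (Fin 2) F) := by
    rw [hκ']
    simp only [add_mul, mul_add, Matrix.smul_mul, Matrix.mul_smul, mul_assoc, hNN, hMM, hNMN,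
      hMNM, hMMN, mul_zero, smul_zero, zero_add, add_zero]
    linear_combination (norm := module) b • hsum
  have hcomm : Nm * κ' + κ' * Nm = 1 + Nm := by
    rw [hκ']
    simp only [add_mul, mul_add, Matrix.smul_mul, Matrix.mul_smul, mul_assoc, hNN, hNMN,
      mul_zero, smul_zero, zero_add, add_zero]
    linear_combination (norm := module) hsum
  have hAκ' : A * κ' = (κ' + 1) * A := by
    rw [hANm, Matrix.smul_mul, Matrix.mul_smul]
    congr 1
    simp only [add_mul, mul_add, one_mul, mul_one]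
    linear_combination (norm := module) hcomm - h2 • (κ' * Nm)
  obtain ⟨P, hP⟩ : ∃ P : F[X], P = C (1 : F) * X ^ 2 + C (-1 : F) * X + C (-b) := ⟨_, rfl⟩
  have hPm : P.Monic := by rw [hP]; exact leadingCoeff_quadratic one_ne_zero
  have hPd : P.natDegree = 2 := by rw [hP]; exact natDegree_quadratic one_ne_zero
  have hirr : Irreducible P := by
    rw [hPm.irreducible_iff_roots_eq_zero_of_degree_le_three (by rw [hPd]) (by rw [hPd]; norm_num)]
    apply Multiset.eq_zero_of_forall_notMem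
    intro a ha
    have e1 := (mem_roots'.mp ha).2
    rw [IsRoot.def, hP] at e1
    simp only [eval_add, eval_mul, eval_C, eval_pow, eval_X] at e1
    exact hb a (by linear_combination e1 + (a + b) * h2)
  have haev : ∀ Y : Matrix (Fin 2) (Fin 2) F, Y * Y = Y + b • 1 → aeval Y P = 0 := by
    intro Y hY
    rw [hP, map_add, map_add, map_mul, map_mul, map_pow, aeval_X, aeval_C, aeval_C, aeval_C,
      Algebra.algebraMap_eq_smul_one, Algebra.algebraMap_eq_smul_one,
      Algebra.algebraMap_eq_smul_one, pow_two, hY, Matrix.smul_mul, Matrix.smul_mul, one_mul,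
      one_mul]
    module
  obtain ⟨Cm, D, hCD, hDC, hCκ⟩ := irr_conj P hPm hirr κ κ' (haev κ hκκ) (haev κ' hκ'κ')
  obtain ⟨g, hg, hg'⟩ : ∃ g : GL (Fin 2) F, (g : Matrix (Fin 2) (Fin 2) F) = Cm ∧
      ((g⁻¹ : GL (Fin 2) F) : Matrix (Fin 2) (Fin 2) F) = D := ⟨⟨Cm, D, hCD, hDC⟩, rfl, rfl⟩
  have e1 : κ * D = D * κ' := by
    calc κ * D = (D * Cm) * κ * D := by rw [hDC, one_mul]
      _ = D * (Cm * κ) * D := by simp only [mul_assoc]
      _ = D * κ' * (Cm * D) := by rw [hCκ]; simp only [mul_assoc]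
      _ = D * κ' := by rw [hCD, mul_one]
  have hyκ : D * A * Cm * κ = (κ + 1) * (D * A * Cm) := by
    calc D * A * Cm * κ = D * (A * (Cm * κ)) := by simp only [mul_assoc]
      _ = D * ((A * κ') * Cm) := by rw [hCκ, mul_assoc]
      _ = (D * κ' + D) * (A * Cm) := by
          rw [hAκ']; simp only [add_mul, mul_add, one_mul, mul_one, mul_assoc]
      _ = (κ * D + D) * (A * Cm) := by rw [← e1]
      _ = (κ + 1) * (D * A * Cm) := by simp only [add_mul, one_mul, mul_assoc]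
  have hgN : g⁻¹ * SpecialLinearGroup.toGL x * g ∈ Cfsg.Geo.subalgebraNormalizer K := by
    apply mem_norm_of_shift K κ hKκ
    rw [Units.val_mul, Units.val_mul, hg, hg']
    show D * (x : Matrix (Fin 2) (Fin 2) F) * Cm * κ
      = (κ + 1) * (D * (x : Matrix (Fin 2) (Fin 2) F) * Cm)
    rw [← hA]
    exact hyκ
  have hdetC : Cm.det ≠ 0 := by
    intro h
    have := congrArg Matrix.det hCD
    rw [det_mul, h, zero_mul, det_one] at this
    exact zero_ne_one this
  obtain ⟨s, hs⟩ := Sub2.exists_sq_root F (Cm.det)⁻¹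
  have hs0 : s ≠ 0 := by
    rintro rfl
    rw [zero_pow two_ne_zero] at hs
    exact inv_ne_zero hdetC hs.symm
  obtain ⟨sG, hsG⟩ : ∃ sG : GL (Fin 2) F, (sG : Matrix (Fin 2) (Fin 2) F) = s • 1 :=
    ⟨⟨s • 1, s⁻¹ • 1, by rw [smul_mul_smul_comm, mul_one, mul_inv_cancel₀ hs0, one_smul],
      by rw [smul_mul_smul_comm, mul_one, inv_mul_cancel₀ hs0, one_smul]⟩, rfl⟩
  have hsN : sG ∈ Cfsg.Geo.subalgebraNormalizer K :=
    mem_norm_of_comm K κ hKκ sG 1 (one_mul 1)
      (by rw [hsG, one_smul, Matrix.smul_mul, Matrix.mul_smul, one_mul, mul_one])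
  have hmem : (g * sG)⁻¹ * SpecialLinearGroup.toGL x * (g * sG)
      ∈ Cfsg.Geo.subalgebraNormalizer K := by
    have e : (g * sG)⁻¹ * SpecialLinearGroup.toGL x * (g * sG)
        = sG⁻¹ * (g⁻¹ * SpecialLinearGroup.toGL x * g) * sG := by group
    rw [e]
    exact Subgroup.mul_mem _ (Subgroup.mul_mem _ (Subgroup.inv_mem _ hsN) hgN) hsN
  apply sl_of_gl _ x _ hmem
  rw [Units.val_mul, det_mul, hg, hsG, det_smul, det_one, mul_one, Fintype.card_fin, hs,
    mul_inv_cancel₀ hdetC]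

theorem bad_even (h2 : (2 : F) = 0) (hn3 : 3 ≤ n)
    (K : Subalgebra F (Matrix (Fin n) (Fin n) F))
    (κ : Matrix (Fin n) (Fin n) F) (b : F)
    (hκκ : κ * κ = κ + b • (1 : Matrix (Fin n) (Fin n) F))
    (hb : ∀ t : F, t * t + t + b ≠ 0)
    (hnorm : ∀ g : GL (Fin n) F, g ∈ Cfsg.Geo.subalgebraNormalizer K →
      (g : Matrix (Fin n) (Fin n) F) * κ = κ * (g : Matrix (Fin n) (Fin n) F) ∨
      (g : Matrix (Fin n) (Fin n) F) * κ = (κ + 1) * (g : Matrix (Fin n) (Fin n) F)) :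
    ∃ x : SpecialLinearGroup (Fin n) F,
      ((x ^ 2 : SpecialLinearGroup (Fin n) F) : Matrix (Fin n) (Fin n) F)
        = (1 : F) • (1 : Matrix (Fin n) (Fin n) F) ∧
      (∀ z : F, (x : Matrix (Fin n) (Fin n) F) ≠ z • (1 : Matrix (Fin n) (Fin n) F)) ∧
      ∀ P : SpecialLinearGroup (Fin n) F, P⁻¹ * x * P
        ∉ (Cfsg.Geo.subalgebraNormalizer K).comap
          (SpecialLinearGroup.toGL : SpecialLinearGroup (Fin n) F →* GL (Fin n) F) := by
  classical
  obtain ⟨i0, hi0⟩ : ∃ i0 : Fin n, i0 = ⟨0, by omega⟩ := ⟨_, rfl⟩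
  obtain ⟨i1, hi1⟩ : ∃ i1 : Fin n, i1 = ⟨1, by omega⟩ := ⟨_, rfl⟩
  obtain ⟨i2, hi2⟩ : ∃ i2 : Fin n, i2 = ⟨2, by omega⟩ := ⟨_, rfl⟩
  have h10 : i1 ≠ i0 := by
    rw [hi0, hi1]; intro h; have := congrArg Fin.val h; simp at this
  have h20 : i2 ≠ i0 := by
    rw [hi0, hi2]; intro h; have := congrArg Fin.val h; simp at this
  have h21 : i2 ≠ i1 := by
    rw [hi1, hi2]; intro h; have := congrArg Fin.val h; simp at this
  obtain ⟨E, hE⟩ : ∃ E : Matrix (Fin n) (Fin n) F, E = Matrix.single i0 i1 (1 : F) := ⟨_, rfl⟩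
  obtain ⟨X, hX⟩ : ∃ X : Matrix (Fin n) (Fin n) F, X = 1 + E := ⟨_, rfl⟩
  have hdet : X.det = 1 := by
    rw [hX, hE]; exact det_transvection_of_ne i0 i1 (Ne.symm h10) 1
  have hEE : E * E = 0 := by
    rw [hE]; exact single_mul_single_of_ne 1 i0 i1 i0 h10 1
  have hXX : X * X = (1 : F) • (1 : Matrix (Fin n) (Fin n) F) := by
    rw [hX, one_smul]
    simp only [add_mul, mul_add, mul_one, one_mul, hEE, add_zero]
    linear_combination (norm := module) h2 • E
  obtain ⟨x, hx⟩ : ∃ x : SpecialLinearGroup (Fin n) F,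
      (x : Matrix (Fin n) (Fin n) F) = X := ⟨⟨X, hdet⟩, rfl⟩
  have hx2 : ((x ^ 2 : SpecialLinearGroup (Fin n) F) : Matrix (Fin n) (Fin n) F)
      = (1 : F) • 1 := by
    have e0 : ((x ^ 2 : SpecialLinearGroup (Fin n) F) : Matrix (Fin n) (Fin n) F) = X ^ 2 := by
      rw [← hx]; rfl
    rw [e0, pow_two, hXX]
  refine ⟨x, hx2, ?_, ?_⟩
  · intro z hz
    rw [hx, hX] at hz
    have e1 := congrFun (congrFun hz i0) i1
    rw [Matrix.add_apply, Matrix.one_apply_ne (Ne.symm h10), hE, single_apply_same,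
      Matrix.smul_apply, Matrix.one_apply_ne (Ne.symm h10), smul_zero, zero_add] at e1
    exact one_ne_zero e1
  · intro P hP
    rw [Subgroup.mem_comap] at hP
    have hy := hnorm _ hP
    obtain ⟨Pm, hPm⟩ : ∃ Pm : Matrix (Fin n) (Fin n) F,
        Pm = (P : Matrix (Fin n) (Fin n) F) := ⟨_, rfl⟩
    obtain ⟨Pi, hPi⟩ : ∃ Pi : Matrix (Fin n) (Fin n) F,
        Pi = ((P⁻¹ : SpecialLinearGroup (Fin n) F) : Matrix (Fin n) (Fin n) F) := ⟨_, rfl⟩
    have hPP : Pm * Pi = 1 := by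
      rw [hPm, hPi]
      have := congrArg Subtype.val (mul_inv_cancel P)
      exact this
    have hPP' : Pi * Pm = 1 := by
      rw [hPm, hPi]
      have := congrArg Subtype.val (inv_mul_cancel P)
      exact this
    have hY : ((SpecialLinearGroup.toGL (P⁻¹ * x * P) : GL (Fin n) F) :
        Matrix (Fin n) (Fin n) F) = Pi * X * Pm := by
      rw [hPm, hPi, ← hx]; rfl
    rw [hY] at hy
    obtain ⟨κ'', hκ''⟩ : ∃ κ'' : Matrix (Fin n) (Fin n) F, κ'' = Pm * κ * Pi := ⟨_, rfl⟩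
    have hκ''2 : κ'' * κ'' = κ'' + b • (1 : Matrix (Fin n) (Fin n) F) := by
      rw [hκ'']
      calc Pm * κ * Pi * (Pm * κ * Pi) = Pm * (κ * (Pi * Pm) * κ) * Pi := by
            simp only [mul_assoc]
        _ = Pm * κ * Pi + b • 1 := by
            rw [hPP', mul_one, hκκ, mul_add, add_mul, Matrix.mul_smul, Matrix.smul_mul, mul_one,
              hPP]
    have hXκ1 : X * κ'' = Pm * (Pi * X * Pm * κ) * Pi := by
      rw [hκ'']
      calc X * (Pm * κ * Pi) = (Pm * Pi) * X * (Pm * κ * Pi) := by rw [hPP, one_mul]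
        _ = Pm * (Pi * X * Pm * κ) * Pi := by simp only [mul_assoc]
    have hXκ2 : κ'' * X = Pm * (κ * (Pi * X * Pm)) * Pi := by
      rw [hκ'']
      calc Pm * κ * Pi * X = Pm * κ * Pi * X * (Pm * Pi) := by rw [hPP, mul_one]
        _ = Pm * (κ * (Pi * X * Pm)) * Pi := by simp only [mul_assoc]
    rcases hy with hy | hy
    · have e1 : E * κ'' = κ'' * E := by
        have e0 : X * κ'' = κ'' * X := by rw [hXκ1, hXκ2, hy]
        rw [hX, add_mul, mul_add, one_mul, mul_one] at e0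
        exact add_left_cancel e0
      have h1j : ∀ j, j ≠ i1 → κ'' i1 j = 0 := by
        intro j hj
        have e2 := congrFun (congrFun e1 i0) j
        rw [hE, single_mul_apply_same, mul_single_apply_of_ne 1 i0 i1 i0 j hj, one_mul] at e2
        exact e2
      have e4 := congrFun (congrFun hκ''2 i1) i1
      rw [Matrix.mul_apply, Finset.sum_eq_single i1 (fun j _ hj => by rw [h1j j hj, zero_mul])
        (fun h => absurd (Finset.mem_univ _) h), Matrix.add_apply, Matrix.smul_apply,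
        Matrix.one_apply_eq, smul_eq_mul, mul_one] at e4
      exact hb (κ'' i1 i1) (by linear_combination e4 + (κ'' i1 i1 + b) * h2)
    · have e0 : X * κ'' = κ'' * X + X := by
        rw [hXκ1, hXκ2, hy]
        have : Pm * ((κ + 1) * (Pi * X * Pm)) * Pi
            = Pm * (κ * (Pi * X * Pm)) * Pi + (Pm * Pi) * X * (Pm * Pi) := by
          simp only [add_mul, mul_add, one_mul, mul_assoc]
        rw [this, hPP, one_mul, mul_one]
      have e1 : E * κ'' = κ'' * E + 1 + E := by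
        rw [hX, add_mul, mul_add, one_mul, mul_one] at e0
        have e0' : E * κ'' = κ'' * E + (1 + E) := by
          apply add_left_cancel (a := κ'')
          rw [e0]; abel
        rw [e0', add_assoc]
      have e2 := congrFun (congrFun e1 i2) i2
      rw [hE, single_mul_apply_of_ne 1 i0 i1 i2 i2 h20, Matrix.add_apply, Matrix.add_apply,
        mul_single_apply_of_ne 1 i0 i1 i2 i2 h21, Matrix.one_apply_eq,
        single_apply, if_neg (fun h => h20 h.1.symm), zero_add, add_zero] at e2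
      exact zero_ne_one e2

end Cfsg.Agent.Lib.helper4.Quad
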