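import Mathlib
import Cfsg.Agent.Lib.helper4.SLSymp
import Cfsg.Agent.Lib.helper4.SpMax

set_option autoImplicit false
set_option linter.unusedSectionVars false

/-!
# Transvections of `SL_n(F)` given by a vector and a linear functional; subspace stabilisers
-/

namespace Cfsg.Agent.Lib.helper4

open Matrix

section SLTv

variable {F : Type*} [Field F] {n : ℕ}

/-- the matrix of `x ↦ x + φ(x) a`. -/
def ltv (a : Fin n → F) (φ : (Fin n → F) →ₗ[F] F) : Matrix (Fin n) (Fin n) F :=
  1 + Matrix.vecMulVec a (fun j => φ (Pi.single j 1))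

theorem l_sum (φ : (Fin n → F) →ₗ[F] F) (x : Fin n → F) :
    φ x = ∑ j, x j * φ (Pi.single j 1) := by
  classical
  have h := LinearMap.pi_apply_eq_sum_univ φ x
  simp only [smul_eq_mul] at h
  rw [h]
  refine Finset.sum_congr rfl (fun j _ => ?_)
  congr 2
  funext j'
  rw [Pi.single_apply]
  by_cases hj : j = j'
  · rw [if_pos hj, if_pos hj.symm]
  · rw [if_neg hj, if_neg (fun h => hj h.symm)]

theorem ltv_mulVec (a : Fin n → F) (φ : (Fin n → F) →ₗ[F] F) (x : Fin n → F) :
    ltv a φ *ᵥ x = x + φ x • a := by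
  unfold ltv
  rw [Matrix.add_mulVec, Matrix.one_mulVec, Matrix.vecMulVec_mulVec, op_smul_eq_smul]
  congr 2
  rw [l_sum φ x]
  simp only [dotProduct]
  exact Finset.sum_congr rfl (fun j _ => mul_comm _ _)

theorem ltv_det (a : Fin n → F) (φ : (Fin n → F) →ₗ[F] F) :
    (ltv a φ).det = 1 + φ a := by
  unfold ltv
  rw [Matrix.vecMulVec_eq (ι := Unit), Matrix.det_one_add_replicateCol_mul_replicateRow,
    l_sum φ a]
  congr 1
  simp only [dotProduct]
  exact Finset.sum_congr rfl (fun j _ => mul_comm _ _)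

open Classical in
/-- the element of `GL` acting as `x ↦ x + φ(x) a` (when `φ(a) = 0`). -/
noncomputable def ltvGL (a : Fin n → F) (φ : (Fin n → F) →ₗ[F] F) :
    Matrix.GeneralLinearGroup (Fin n) F :=
  if h : (ltv a φ).det ≠ 0 then Matrix.GeneralLinearGroup.mkOfDetNeZero (ltv a φ) h else 1

theorem ltvGL_val (a : Fin n → F) (φ : (Fin n → F) →ₗ[F] F) (h : φ a = 0) :
    ((ltvGL a φ : Matrix.GeneralLinearGroup (Fin n) F) : Matrix (Fin n) (Fin n) F)
      = ltv a φ := by
  have hdet : (ltv a φ).det ≠ 0 := by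
    rw [ltv_det, h, add_zero]
    exact one_ne_zero
  unfold ltvGL
  rw [dif_pos hdet]
  rfl

theorem ltvGL_mulVec (a : Fin n → F) (φ : (Fin n → F) →ₗ[F] F) (h : φ a = 0)
    (x : Fin n → F) :
    ((ltvGL a φ : Matrix.GeneralLinearGroup (Fin n) F) : Matrix (Fin n) (Fin n) F) *ᵥ x
      = x + φ x • a := by
  rw [ltvGL_val a φ h, ltv_mulVec]

theorem ltvGL_mem_sl (a : Fin n → F) (φ : (Fin n → F) →ₗ[F] F) (h : φ a = 0) :
    ltvGL a φ ∈ Cfsg.Geo.specialLinear (Fin n) F := by
  show ltvGL a φ ∈ (Matrix.GeneralLinearGroup.det :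
    Matrix.GeneralLinearGroup (Fin n) F →* Fˣ).ker
  rw [MonoidHom.mem_ker]
  apply Units.ext
  rw [Matrix.GeneralLinearGroup.val_det_apply, Units.val_one, ltvGL_val a φ h,
    ltv_det, h, add_zero]

/-- conjugating a transvection: `s T(a, φ ∘ s) s⁻¹ = T(s a, φ)`. -/
theorem ltvGL_conj (s : Matrix.GeneralLinearGroup (Fin n) F) (a : Fin n → F)
    (φ : (Fin n → F) →ₗ[F] F)
    (h : φ ((s : Matrix (Fin n) (Fin n) F) *ᵥ a) = 0) :
    s * ltvGL a (φ.comp (Matrix.mulVecLin (s : Matrix (Fin n) (Fin n) F))) * s⁻¹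
      = ltvGL ((s : Matrix (Fin n) (Fin n) F) *ᵥ a) φ := by
  have h' : (φ.comp (Matrix.mulVecLin (s : Matrix (Fin n) (Fin n) F))) a = 0 := h
  apply gl_ext
  intro x
  rw [Units.val_mul, Units.val_mul, ← Matrix.mulVec_mulVec, ← Matrix.mulVec_mulVec,
    ltvGL_mulVec a _ h', ltvGL_mulVec _ φ h, Matrix.mulVec_add, Matrix.mulVec_smul,
    gl_mulVec_inv]
  congr 2
  show φ ((s : Matrix (Fin n) (Fin n) F) *ᵥ
    (((s⁻¹ : Matrix.GeneralLinearGroup (Fin n) F) : Matrix (Fin n) (Fin n) F) *ᵥ x)) = φ x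
  rw [gl_mulVec_inv]

/-- if `H` contains all transvections then it contains `SL_n`. -/
theorem sl_le_of_ltv (hn : 2 ≤ n)
    (H : Subgroup (Matrix.GeneralLinearGroup (Fin n) F))
    (hall : ∀ (a : Fin n → F) (φ : (Fin n → F) →ₗ[F] F), φ a = 0 → ltvGL a φ ∈ H) :
    Cfsg.Geo.specialLinear (Fin n) F ≤ H := by
  classical
  have : Nontrivial (Fin n) := Fin.nontrivial_iff_two_le.mpr hn
  have hP' : ∀ A : Matrix.SpecialLinearGroup (Fin n) F,
      Matrix.SpecialLinearGroup.toGL A ∈ H := by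
    intro A
    refine Cfsg.Agent.Lib.helper2.SLGen.transvection_induction
      (fun A => Matrix.SpecialLinearGroup.toGL A ∈ H) ?_ ?_ A
    · intro i j hij c
      have h0 : (c • (LinearMap.proj j : (Fin n → F) →ₗ[F] F)) (Pi.single i 1) = 0 := by
        show c • (Pi.single i (1 : F) : Fin n → F) j = 0
        rw [Pi.single_apply, if_neg hij.symm, smul_zero]
      have h1 : Matrix.SpecialLinearGroup.toGL (Matrix.SpecialLinearGroup.transvection hij c)
          = ltvGL (Pi.single i 1) (c • (LinearMap.proj j : (Fin n → F) →ₗ[F] F)) := by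
        apply gl_ext
        intro x
        rw [ltvGL_mulVec _ _ h0]
        show ((Matrix.SpecialLinearGroup.transvection hij c : Matrix.SpecialLinearGroup (Fin n) F) :
          Matrix (Fin n) (Fin n) F) *ᵥ x = x + (c • x j) • Pi.single i 1
        rw [Matrix.SpecialLinearGroup.transvection_coe]
        rw [Matrix.add_mulVec, Matrix.one_mulVec, Matrix.single_mulVec]
        congr 1
        funext k
        rw [Function.update_apply, Pi.smul_apply, Pi.single_apply, smul_eq_mul, smul_eq_mul]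
        by_cases hk : k = i
        · rw [if_pos hk, if_pos hk, mul_one]
        · rw [if_neg hk, if_neg hk, mul_zero]
          rfl
      show Matrix.SpecialLinearGroup.toGL (Matrix.SpecialLinearGroup.transvection hij c) ∈ H
      rw [h1]
      exact hall _ _ h0
    · intro A B hA hB
      show Matrix.SpecialLinearGroup.toGL (A * B) ∈ H
      rw [map_mul]
      exact H.mul_mem hA hB
  intro g hg
  have hdet : (g : Matrix (Fin n) (Fin n) F).det = 1 := by
    have h1 : g ∈ (Matrix.GeneralLinearGroup.det :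
      Matrix.GeneralLinearGroup (Fin n) F →* Fˣ).ker := hg
    rw [MonoidHom.mem_ker] at h1
    have h2 := congrArg Units.val h1
    rw [Matrix.GeneralLinearGroup.val_det_apply, Units.val_one] at h2
    exact h2
  have h3 : g = Matrix.SpecialLinearGroup.toGL
      (⟨(g : Matrix (Fin n) (Fin n) F), hdet⟩ : Matrix.SpecialLinearGroup (Fin n) F) :=
    Units.ext rfl
  rw [h3]
  exact hP' _

theorem gl_mulVec_injective (g : Matrix.GeneralLinearGroup (Fin n) F) :
    Function.Injective (g : Matrix (Fin n) (Fin n) F).mulVec := by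
  intro x y hxy
  have h := congrArg (fun z => ((g⁻¹ : Matrix.GeneralLinearGroup (Fin n) F) :
    Matrix (Fin n) (Fin n) F) *ᵥ z) hxy
  simp only [gl_inv_mulVec] at h
  exact h

/-- a functional vanishing on `W` with value `1` at a vector outside `W`. -/
theorem exists_dual_one (W : Submodule F (Fin n → F)) (x : Fin n → F) (hx : x ∉ W) :
    ∃ ψ : (Fin n → F) →ₗ[F] F, ψ x = 1 ∧ ∀ w ∈ W, ψ w = 0 := by
  obtain ⟨ψ, hψx, hψW⟩ := Submodule.exists_dual_map_eq_bot_of_notMem hx inferInstance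
  refine ⟨(ψ x)⁻¹ • ψ, ?_, ?_⟩
  · rw [LinearMap.smul_apply, smul_eq_mul, inv_mul_cancel₀ hψx]
  · intro w hw
    have h1 : ψ w ∈ W.map ψ := ⟨w, hw, rfl⟩
    rw [hψW] at h1
    rw [LinearMap.smul_apply, (Submodule.mem_bot F).mp h1, smul_zero]

/-- a transvection with centre in `W` stabilises `W`. -/
theorem ltv_stab_centre (W : Submodule F (Fin n → F)) (a : Fin n → F) (ha : a ∈ W)
    (φ : (Fin n → F) →ₗ[F] F) (h : φ a = 0) :
    ltvGL a φ ∈ Cfsg.Geo.subspaceStabilizer W := by
  show ∀ v, v ∈ (W : Set (Fin n → F)) ↔ _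
  apply stab_of_inj_le W _ (gl_mulVec_injective (ltvGL a φ))
  intro w hw
  rw [ltvGL_mulVec a φ h]
  exact W.add_mem hw (W.smul_mem _ ha)

/-- a transvection whose functional vanishes on `W` stabilises `W`. -/
theorem ltv_stab_axis (W : Submodule F (Fin n → F)) (a : Fin n → F)
    (φ : (Fin n → F) →ₗ[F] F) (h : φ a = 0) (hφ : ∀ w ∈ W, φ w = 0) :
    ltvGL a φ ∈ Cfsg.Geo.subspaceStabilizer W := by
  show ∀ v, v ∈ (W : Set (Fin n → F)) ↔ _
  apply stab_of_inj_le W _ (gl_mulVec_injective (ltvGL a φ))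
  intro w hw
  rw [ltvGL_mulVec a φ h, hφ w hw, zero_smul, add_zero]
  exact hw

/-- a transvection moving some vector of `W` out of `W` does not stabilise `W`. -/
theorem ltv_not_stab (W : Submodule F (Fin n → F)) (a : Fin n → F) (ha : a ∉ W)
    (φ : (Fin n → F) →ₗ[F] F) (h : φ a = 0) (w : Fin n → F) (hw : w ∈ W) (hφ : φ w ≠ 0) :
    ltvGL a φ ∉ Cfsg.Geo.subspaceStabilizer W := by
  intro hmem
  have h1 : ∀ v, v ∈ (W : Set (Fin n → F)) ↔
    ((ltvGL a φ : Matrix.GeneralLinearGroup (Fin n) F) : Matrix (Fin n) (Fin n) F) *ᵥ v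
      ∈ (W : Set (Fin n → F)) := hmem
  have h2 := (h1 w).mp hw
  rw [ltvGL_mulVec a φ h] at h2
  have h3 : φ w • a ∈ W := by
    have h4 := W.sub_mem h2 hw
    rw [add_sub_cancel_left] at h4
    exact h4
  exact ha ((W.smul_mem_iff hφ).mp h3)

/-- there is an element of `SL_n` not stabilising a proper nonzero subspace. -/
theorem exists_sl_not_stab (W : Submodule F (Fin n → F)) (hW0 : W ≠ ⊥) (hW1 : W ≠ ⊤) :
    ∃ g ∈ Cfsg.Geo.specialLinear (Fin n) F, g ∉ Cfsg.Geo.subspaceStabilizer W := by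
  obtain ⟨w, hw, hw0⟩ := (Submodule.ne_bot_iff W).mp hW0
  obtain ⟨a, ha⟩ : ∃ a : Fin n → F, a ∉ W := by
    by_contra hcon
    push Not at hcon
    exact hW1 (eq_top_iff.mpr (fun x _ => hcon x))
  have hwa : w ∉ Submodule.span F {a} := by
    intro hmem
    obtain ⟨c, hc⟩ := Submodule.mem_span_singleton.mp hmem
    have hc0 : c ≠ 0 := by
      intro h0
      rw [h0, zero_smul] at hc
      exact hw0 hc.symm
    apply ha
    rw [← hc] at hw
    exact (W.smul_mem_iff hc0).mp hw
  obtain ⟨ψ, hψw, hψa⟩ := exists_dual_one (Submodule.span F {a}) w hwa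
  have h0 : ψ a = 0 := hψa a (Submodule.mem_span_singleton_self a)
  refine ⟨ltvGL a ψ, ltvGL_mem_sl a ψ h0, ltv_not_stab W a ha ψ h0 w hw ?_⟩
  rw [hψw]
  exact one_ne_zero

/-- The stabiliser of a proper nonzero subspace is maximal in `SL_n(F)`. -/
theorem sl_sub_max (hn : 2 ≤ n) (W : Submodule F (Fin n → F)) (hW0 : W ≠ ⊥) (hW1 : W ≠ ⊤) :
    Cfsg.Geo.IsMaximalIn (Cfsg.Geo.specialLinear (Fin n) F)
      (Cfsg.Geo.subspaceStabilizer W ⊓ Cfsg.Geo.specialLinear (Fin n) F) := by
  classical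
  refine ⟨lt_of_le_of_ne inf_le_right ?_, ?_⟩
  · intro heq
    obtain ⟨g, hg, hgW⟩ := exists_sl_not_stab W hW0 hW1
    rw [← heq] at hg
    exact hgW hg.1
  · intro M hPM hMS
    by_cases hMP : M ≤ Cfsg.Geo.subspaceStabilizer W ⊓ Cfsg.Geo.specialLinear (Fin n) F
    · left
      exact le_antisymm hMP hPM
    · right
      obtain ⟨g, hgM, hgP⟩ := SetLike.not_le_iff_exists.mp hMP
      have hg : g ∉ Cfsg.Geo.subspaceStabilizer W := fun h => hgP ⟨h, hMS hgM⟩
      -- the transvections of `P`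
      have hC : ∀ (a : Fin n → F) (φ : (Fin n → F) →ₗ[F] F), a ∈ W → φ a = 0 →
          ltvGL a φ ∈ M := fun a φ ha h =>
        hPM ⟨ltv_stab_centre W a ha φ h, ltvGL_mem_sl a φ h⟩
      have hA : ∀ (a : Fin n → F) (φ : (Fin n → F) →ₗ[F] F), φ a = 0 → (∀ w ∈ W, φ w = 0) →
          ltvGL a φ ∈ M := fun a φ h hφ =>
        hPM ⟨ltv_stab_axis W a φ h hφ, ltvGL_mem_sl a φ h⟩
      -- invariance under `M`
      have hinv : ∀ (s : Matrix.GeneralLinearGroup (Fin n) F) (a : Fin n → F), s ∈ M →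
          (∀ φ : (Fin n → F) →ₗ[F] F, φ a = 0 → ltvGL a φ ∈ M) →
          ∀ φ : (Fin n → F) →ₗ[F] F, φ ((s : Matrix (Fin n) (Fin n) F) *ᵥ a) = 0 →
            ltvGL ((s : Matrix (Fin n) (Fin n) F) *ᵥ a) φ ∈ M := by
        intro s a hs hall φ hφ
        rw [← ltvGL_conj s a φ hφ]
        exact M.mul_mem (M.mul_mem hs (hall _ hφ)) (M.inv_mem hs)
      have hscal : ∀ (c : F) (a : Fin n → F), c ≠ 0 →
          (∀ φ : (Fin n → F) →ₗ[F] F, φ a = 0 → ltvGL a φ ∈ M) →
          ∀ φ : (Fin n → F) →ₗ[F] F, φ (c • a) = 0 → ltvGL (c • a) φ ∈ M := by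
        intro c a hc hall φ hφ
        have h1 : φ a = 0 := by
          rw [map_smul, smul_eq_mul] at hφ
          exact (mul_eq_zero.mp hφ).resolve_left hc
        have h2 : (c • φ) a = 0 := by rw [LinearMap.smul_apply, h1, smul_zero]
        have h3 : ltvGL (c • a) φ = ltvGL a (c • φ) := by
          apply gl_ext
          intro x
          rw [ltvGL_mulVec _ _ hφ, ltvGL_mulVec _ _ h2, LinearMap.smul_apply, smul_smul,
            smul_eq_mul, mul_comm]
        rw [h3]
        exact hall _ h2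
      have hmove : ∀ (a b : Fin n → F) (ψ : (Fin n → F) →ₗ[F] F), ψ b = 0 → ltvGL b ψ ∈ M →
          (∀ φ : (Fin n → F) →ₗ[F] F, φ a = 0 → ltvGL a φ ∈ M) →
          ∀ φ : (Fin n → F) →ₗ[F] F, φ (a + ψ a • b) = 0 → ltvGL (a + ψ a • b) φ ∈ M := by
        intro a b ψ hψ hmem hall φ hφ
        have h1 := hinv (ltvGL b ψ) a hmem hall
        rw [ltvGL_mulVec b ψ hψ] at h1
        exact h1 φ hφ
      -- a vector of `W` moved out of `W`
      have hex : ∃ w₀ ∈ W, (g : Matrix (Fin n) (Fin n) F) *ᵥ w₀ ∉ W := by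
        by_contra hcon
        push Not at hcon
        exact hg (stab_of_inj_le W _ (gl_mulVec_injective g) hcon)
      obtain ⟨w₀, hw₀, ha₀W⟩ := hex
      obtain ⟨a₀, ha₀⟩ : ∃ a₀ : Fin n → F, a₀ = (g : Matrix (Fin n) (Fin n) F) *ᵥ w₀ := ⟨_, rfl⟩
      rw [← ha₀] at ha₀W
      have hfull₀ : ∀ φ : (Fin n → F) →ₗ[F] F, φ a₀ = 0 → ltvGL a₀ φ ∈ M := by
        rw [ha₀]
        exact hinv g w₀ hgM (fun φ h => hC w₀ φ hw₀ h)
      refine le_antisymm hMS (sl_le_of_ltv hn M ?_)
      intro a φ hφ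
      by_cases haW : a ∈ W
      · exact hC a φ haW hφ
      by_cases hcase : a₀ ∈ W ⊔ Submodule.span F {a - a₀}
      · obtain ⟨w, hw, y, hy, hwy⟩ := Submodule.mem_sup.mp hcase
        obtain ⟨c, hc⟩ := Submodule.mem_span_singleton.mp hy
        have hc0 : c ≠ 0 := by
          intro h0
          rw [h0, zero_smul] at hc
          rw [← hc, add_zero] at hwy
          rw [← hwy] at ha₀W
          exact ha₀W hw
        have hc1 : 1 + c ≠ 0 := by
          intro h1
          have h2 : c • a = -w := by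
            have hwy' : w + (c • a - c • a₀) = a₀ := by
              rw [← smul_sub, hc]
              exact hwy
            have h3 : (1 + c) • a₀ = w + c • a := by
              rw [add_smul, one_smul]
              linear_combination (exp := 1) -hwy'
            rw [h1, zero_smul] at h3
            linear_combination (exp := 1) -h3
          apply haW
          have h4 : c • a ∈ W := by
            rw [h2]
            exact W.neg_mem hw
          exact (W.smul_mem_iff hc0).mp h4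
        have hadef : a = (c⁻¹ * (1 + c)) • a₀ + (1 : F) • (-(c⁻¹ • w)) := by
          rw [← hc, smul_sub] at hwy
          have h3 : c • a = (1 + c) • a₀ - w := by
            rw [add_smul, one_smul]
            linear_combination (exp := 1) hwy
          have h6 : (1 + c) • a₀ = c • a + w := by
            rw [h3]
            abel
          rw [one_smul, mul_smul, h6, smul_add, smul_smul, inv_mul_cancel₀ hc0, one_smul]
          abel
        have hc' : c⁻¹ * (1 + c) ≠ 0 := mul_ne_zero (inv_ne_zero hc0) hc1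
        have hca₀ : (c⁻¹ * (1 + c)) • a₀ ∉ W := fun h => ha₀W ((W.smul_mem_iff hc').mp h)
        have hw' : -(c⁻¹ • w) ∈ W := W.neg_mem (W.smul_mem _ hw)
        have hnot : (c⁻¹ * (1 + c)) • a₀ ∉ Submodule.span F {-(c⁻¹ • w)} := by
          intro hmem
          apply hca₀
          exact (Submodule.span_le.mpr (Set.singleton_subset_iff.mpr hw')) hmem
        obtain ⟨ψ, hψ1, hψ0⟩ := exists_dual_one _ _ hnot
        have hψb : ψ (-(c⁻¹ • w)) = 0 := hψ0 _ (Submodule.mem_span_singleton_self _)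
        have h5 := hmove ((c⁻¹ * (1 + c)) • a₀) (-(c⁻¹ • w)) ψ hψb (hC _ ψ hw' hψb)
          (hscal _ a₀ hc' hfull₀)
        rw [hψ1, ← hadef] at h5
        exact h5 φ hφ
      · obtain ⟨ψ, hψ1, hψ0⟩ := exists_dual_one _ _ hcase
        have hψb : ψ (a - a₀) = 0 :=
          hψ0 _ (Submodule.mem_sup_right (Submodule.mem_span_singleton_self _))
        have hψW : ∀ w ∈ W, ψ w = 0 := fun w hw => hψ0 w (Submodule.mem_sup_left hw)
        have h5 := hmove a₀ (a - a₀) ψ hψb (hA _ ψ hψb hψW) hfull₀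
        rw [hψ1, one_smul, add_sub_cancel] at h5
        exact h5 φ hφ

end SLTv

end Cfsg.Agent.Lib.helper4
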