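import Mathlib
import Cfsg.Agent.S0751
import Cfsg.Agent.S0755
import Cfsg.Agent.Lib.helper4.SLTv

set_option autoImplicit false
set_option linter.unusedSectionVars false

/-!
# The similarity group of a unitary form is maximal in `SL_n(F)`
-/

namespace Cfsg.Agent.Lib.helper4

open Matrix

section SLUnit

variable {F : Type*} [Field F] [Fintype F] {n : ℕ} (σ : F ≃+* F)
  (f : (Fin n → F) → (Fin n → F) → F)

theorem uf_add_right (hf : Cfsg.Geo.IsUnitaryForm σ f) (v x y : Fin n → F) :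
    f v (x + y) = f v x + f v y := by
  rw [hf.herm, hf.add_left, map_add, ← hf.herm, ← hf.herm]

theorem uf_smul_right (hf : Cfsg.Geo.IsUnitaryForm σ f) (c : F) (v x : Fin n → F) :
    f v (c • x) = σ c * f v x := by
  rw [hf.herm, hf.smul_left, map_mul, ← hf.herm]

theorem uf_zero_left (hf : Cfsg.Geo.IsUnitaryForm σ f) (v : Fin n → F) : f 0 v = 0 := by
  have h := hf.smul_left 0 0 v
  rw [zero_smul, zero_mul] at h
  exact h

theorem uf_zero_right (hf : Cfsg.Geo.IsUnitaryForm σ f) (v : Fin n → F) : f v 0 = 0 := by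
  rw [hf.herm, uf_zero_left σ f hf, map_zero]

theorem uf_neg_left (hf : Cfsg.Geo.IsUnitaryForm σ f) (x v : Fin n → F) : f (-x) v = - f x v := by
  have h := hf.smul_left (-1) x v
  rw [neg_one_smul, neg_one_mul] at h
  exact h

theorem uf_neg_right (hf : Cfsg.Geo.IsUnitaryForm σ f) (v x : Fin n → F) : f v (-x) = - f v x := by
  rw [hf.herm, uf_neg_left σ f hf, map_neg, ← hf.herm]

theorem uf_sub_left (hf : Cfsg.Geo.IsUnitaryForm σ f) (x y v : Fin n → F) :
    f (x - y) v = f x v - f y v := by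
  rw [sub_eq_add_neg, hf.add_left, uf_neg_left σ f hf, ← sub_eq_add_neg]

theorem uf_sub_right (hf : Cfsg.Geo.IsUnitaryForm σ f) (v x y : Fin n → F) :
    f v (x - y) = f v x - f v y := by
  rw [sub_eq_add_neg, uf_add_right σ f hf, uf_neg_right σ f hf, ← sub_eq_add_neg]

theorem uf_self_fixed (hf : Cfsg.Geo.IsUnitaryForm σ f) (v : Fin n → F) : σ (f v v) = f v v :=
  (hf.herm v v).symm

theorem usig_ne (hf : Cfsg.Geo.IsUnitaryForm σ f) : (σ : F →+* F) ≠ RingHom.id F := by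
  intro h
  apply hf.ne_refl
  ext a
  exact RingHom.congr_fun h a

/-- the sesquilinear map `(u, v) ↦ f v u`. -/
noncomputable def ufB (hf : Cfsg.Geo.IsUnitaryForm σ f) :
    (Fin n → F) →ₛₗ[(σ : F →+* F)] (Fin n → F) →ₗ[F] F :=
  LinearMap.mk₂'ₛₗ (σ : F →+* F) (RingHom.id F) (fun u v => f v u)
    (fun u u' v => uf_add_right σ f hf v u u')
    (fun c u v => by rw [uf_smul_right σ f hf, smul_eq_mul]; rfl)
    (fun u v v' => hf.add_left v v' u)
    (fun c u v => by rw [hf.smul_left]; rfl)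

theorem ufB_apply (hf : Cfsg.Geo.IsUnitaryForm σ f) (u v : Fin n → F) :
    ufB σ f hf u v = f v u := rfl

theorem ufB_symm (hf : Cfsg.Geo.IsUnitaryForm σ f) : (ufB σ f hf).IsSymm :=
  ⟨fun x y => by rw [ufB_apply, ufB_apply]; exact (hf.herm x y).symm⟩

theorem ufB_nondeg (hf : Cfsg.Geo.IsUnitaryForm σ f) : (ufB σ f hf).Nondegenerate := by
  refine ⟨fun x hx => ?_, fun y hy => ?_⟩
  · by_contra hx0
    obtain ⟨y, hy⟩ := (hf.nondegenerate x hx0).1
    exact hy (hx y)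
  · by_contra hy0
    obtain ⟨x, hx⟩ := (hf.nondegenerate y hy0).2
    exact hx (hy x)

/-- norm surjectivity. -/
theorem uf_norm_surj (hf : Cfsg.Geo.IsUnitaryForm σ f) (a : F) (ha : σ a = a) :
    ∃ c : F, c * σ c = a := by
  by_cases ha0 : a = 0
  · exact ⟨0, by rw [ha0, zero_mul]⟩
  · exact Cfsg.Agent.S0755.norm_surj (σ : F →+* F) (usig_ne σ f hf) hf.involutive a ha ha0

/-- trace surjectivity. -/
theorem uf_trace_surj (hf : Cfsg.Geo.IsUnitaryForm σ f) (a : F) (ha : σ a = a) :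
    ∃ t : F, t + σ t = a :=
  Cfsg.Agent.S0751.trace_surj (σ := (σ : F →+* F)) (usig_ne σ f hf) hf.involutive a ha

theorem uf_exists_trace_zero (hf : Cfsg.Geo.IsUnitaryForm σ f) : ∃ ε : F, ε ≠ 0 ∧ ε + σ ε = 0 := by
  have hex : ∃ d : F, σ d ≠ d := by
    by_contra hcon
    push Not at hcon
    apply hf.ne_refl
    ext a
    exact hcon a
  obtain ⟨d, hd⟩ := hex
  refine ⟨d - σ d, fun h => hd (sub_eq_zero.mp h).symm, ?_⟩
  rw [map_sub, hf.involutive]
  ring

/-- dual vectors: prescribed values `f v (x i)` on a linearly independent family. -/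
theorem uf_dual (hf : Cfsg.Geo.IsUnitaryForm σ f) {k : ℕ} (x : Fin k → (Fin n → F))
    (hx : LinearIndependent F x) (b : Fin k → F) : ∃ v : Fin n → F, ∀ i, f v (x i) = b i :=
  Cfsg.Agent.S0751.L_surj (σ : F →+* F) (ufB σ f hf) hf.involutive (ufB_nondeg σ f hf) x hx b

/-- the functional `f(·, w)`. -/
def ufφ (hf : Cfsg.Geo.IsUnitaryForm σ f) (w : Fin n → F) : (Fin n → F) →ₗ[F] F where
  toFun := fun x => f x w
  map_add' := fun x y => hf.add_left x y w
  map_smul' := fun c x => by rw [hf.smul_left]; rfl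

theorem ufφ_apply (hf : Cfsg.Geo.IsUnitaryForm σ f) (w x : Fin n → F) :
    ufφ σ f hf w x = f x w := rfl

/-- Riesz representation: every linear functional is `f(·, w)`. -/
theorem uf_riesz (hf : Cfsg.Geo.IsUnitaryForm σ f) (φ : (Fin n → F) →ₗ[F] F) :
    ∃ w : Fin n → F, ∀ x, f x w = φ x := by
  classical
  obtain ⟨w, hw⟩ := uf_dual σ f hf (fun j : Fin n => (Pi.single j 1 : Fin n → F))
    (Pi.linearIndependent_single_one (Fin n) F) (fun j => σ (φ (Pi.single j 1)))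
  refine ⟨w, fun x => ?_⟩
  have h1 := l_sum (ufφ σ f hf w) x
  rw [ufφ_apply] at h1
  rw [h1, l_sum φ x]
  refine Finset.sum_congr rfl (fun j _ => ?_)
  rw [ufφ_apply, hf.herm, hw j, hf.involutive]

/-- the transvection `x ↦ x + f(x, w) a`. -/
noncomputable def utv (hf : Cfsg.Geo.IsUnitaryForm σ f) (a w : Fin n → F) :
    Matrix.GeneralLinearGroup (Fin n) F := ltvGL a (ufφ σ f hf w)

theorem utv_mulVec (hf : Cfsg.Geo.IsUnitaryForm σ f) (a w : Fin n → F) (h : f a w = 0)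
    (x : Fin n → F) :
    ((utv σ f hf a w : Matrix.GeneralLinearGroup (Fin n) F) : Matrix (Fin n) (Fin n) F) *ᵥ x
      = x + f x w • a := ltvGL_mulVec a _ h x

theorem utv_mem_sl (hf : Cfsg.Geo.IsUnitaryForm σ f) (a w : Fin n → F) (h : f a w = 0) :
    utv σ f hf a w ∈ Cfsg.Geo.specialLinear (Fin n) F := ltvGL_mem_sl a _ h

theorem utv_add_right (hf : Cfsg.Geo.IsUnitaryForm σ f) (a w w' : Fin n → F) (h : f a w = 0)
    (h' : f a w' = 0) : utv σ f hf a w * utv σ f hf a w' = utv σ f hf a (w + w') := by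
  have h2 : f a (w + w') = 0 := by rw [uf_add_right σ f hf, h, h', add_zero]
  apply gl_ext
  intro x
  rw [Units.val_mul, ← Matrix.mulVec_mulVec, utv_mulVec σ f hf a w' h', utv_mulVec σ f hf a w h,
    utv_mulVec σ f hf a _ h2, hf.add_left, hf.smul_left, h, mul_zero, add_zero,
    uf_add_right σ f hf, add_smul]
  abel

theorem utv_add_left (hf : Cfsg.Geo.IsUnitaryForm σ f) (a a' w : Fin n → F) (h : f a w = 0)
    (h' : f a' w = 0) : utv σ f hf a w * utv σ f hf a' w = utv σ f hf (a + a') w := by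
  have h2 : f (a + a') w = 0 := by rw [hf.add_left, h, h', add_zero]
  apply gl_ext
  intro x
  rw [Units.val_mul, ← Matrix.mulVec_mulVec, utv_mulVec σ f hf a' w h', utv_mulVec σ f hf a w h,
    utv_mulVec σ f hf _ w h2, hf.add_left, hf.smul_left, h', mul_zero, add_zero, smul_add]
  abel

theorem utv_zero_right (hf : Cfsg.Geo.IsUnitaryForm σ f) (a : Fin n → F) :
    utv σ f hf a 0 = 1 := by
  apply gl_ext
  intro x
  rw [utv_mulVec σ f hf a 0 (uf_zero_right σ f hf a), uf_zero_right σ f hf, zero_smul, add_zero,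
    Units.val_one, Matrix.one_mulVec]

theorem utv_zero_left (hf : Cfsg.Geo.IsUnitaryForm σ f) (w : Fin n → F) :
    utv σ f hf 0 w = 1 := by
  apply gl_ext
  intro x
  rw [utv_mulVec σ f hf 0 w (uf_zero_left σ f hf w), smul_zero, add_zero,
    Units.val_one, Matrix.one_mulVec]

theorem utv_neg_right (hf : Cfsg.Geo.IsUnitaryForm σ f) (a w : Fin n → F) (h : f a w = 0) :
    (utv σ f hf a w)⁻¹ = utv σ f hf a (-w) := by
  have h' : f a (-w) = 0 := by rw [uf_neg_right σ f hf, h, neg_zero]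
  have h1 := utv_add_right σ f hf a w (-w) h h'
  rw [add_neg_cancel, utv_zero_right] at h1
  exact inv_eq_of_mul_eq_one_right h1

theorem utv_neg_left (hf : Cfsg.Geo.IsUnitaryForm σ f) (a w : Fin n → F) (h : f a w = 0) :
    (utv σ f hf a w)⁻¹ = utv σ f hf (-a) w := by
  have h' : f (-a) w = 0 := by rw [uf_neg_left σ f hf, h, neg_zero]
  have h1 := utv_add_left σ f hf a (-a) w h h'
  rw [add_neg_cancel, utv_zero_left] at h1
  exact inv_eq_of_mul_eq_one_right h1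

/-- conjugation by an isometry. -/
theorem utv_conj (hf : Cfsg.Geo.IsUnitaryForm σ f) (s : Matrix.GeneralLinearGroup (Fin n) F)
    (hs : ∀ x y, f ((s : Matrix (Fin n) (Fin n) F) *ᵥ x) ((s : Matrix (Fin n) (Fin n) F) *ᵥ y)
      = f x y) (a w : Fin n → F) (h : f a w = 0) :
    s * utv σ f hf a w * s⁻¹ = utv σ f hf ((s : Matrix (Fin n) (Fin n) F) *ᵥ a)
      ((s : Matrix (Fin n) (Fin n) F) *ᵥ w) := by
  have h1 : (ufφ σ f hf ((s : Matrix (Fin n) (Fin n) F) *ᵥ w)).comp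
      (Matrix.mulVecLin (s : Matrix (Fin n) (Fin n) F)) = ufφ σ f hf w := by
    apply LinearMap.ext
    intro x
    show f ((s : Matrix (Fin n) (Fin n) F) *ᵥ x) ((s : Matrix (Fin n) (Fin n) F) *ᵥ w) = f x w
    exact hs x w
  have h2 := ltvGL_conj s a (ufφ σ f hf ((s : Matrix (Fin n) (Fin n) F) *ᵥ w))
    (by show f _ _ = 0; rw [hs]; exact h)
  rw [h1] at h2
  exact h2

/-- the unitary transvections are isometries. -/
theorem utv_iso (hf : Cfsg.Geo.IsUnitaryForm σ f) (b : Fin n → F) (hb : f b b = 0) (c : F)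
    (hc : c + σ c = 0) (x y : Fin n → F) :
    f (((utv σ f hf b (c • b) : Matrix.GeneralLinearGroup (Fin n) F) :
        Matrix (Fin n) (Fin n) F) *ᵥ x)
      (((utv σ f hf b (c • b) : Matrix.GeneralLinearGroup (Fin n) F) :
        Matrix (Fin n) (Fin n) F) *ᵥ y) = f x y := by
  have h0 : f b (c • b) = 0 := by rw [uf_smul_right σ f hf, hb, mul_zero]
  rw [utv_mulVec σ f hf b _ h0, utv_mulVec σ f hf b _ h0]
  simp only [hf.add_left, uf_add_right σ f hf, hf.smul_left, uf_smul_right σ f hf, hb,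
    map_mul, hf.involutive]
  rw [← hf.herm b y]
  linear_combination f x b * f b y * hc

theorem utv_iso_mem (hf : Cfsg.Geo.IsUnitaryForm σ f) (b : Fin n → F) (hb : f b b = 0) (c : F)
    (hc : c + σ c = 0) :
    utv σ f hf b (c • b) ∈ Cfsg.Geo.similarityGroup f ⊓ Cfsg.Geo.specialLinear (Fin n) F :=
  ⟨⟨1, fun u v => by rw [utv_iso σ f hf b hb c hc, Units.val_one, one_mul]⟩,
    utv_mem_sl σ f hf b (c • b) (by rw [uf_smul_right σ f hf, hb, mul_zero])⟩


theorem uf_orth_symm (hf : Cfsg.Geo.IsUnitaryForm σ f) (a b : Fin n → F) (h : f a b = 0) :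
    f b a = 0 := by
  rw [hf.herm, h, map_zero]

theorem uf_ne_symm (hf : Cfsg.Geo.IsUnitaryForm σ f) (a b : Fin n → F) (h : f a b ≠ 0) :
    f b a ≠ 0 := fun h0 => h (uf_orth_symm σ f hf b a h0)

theorem uf_sum_left (hf : Cfsg.Geo.IsUnitaryForm σ f) {ι : Type*} (s : Finset ι) (c : ι → F)
    (u : ι → (Fin n → F)) (v : Fin n → F) :
    f (∑ l ∈ s, c l • u l) v = ∑ l ∈ s, c l * f (u l) v := by
  have h := map_sum (ufφ σ f hf v) (fun l => c l • u l) s
  rw [ufφ_apply] at h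
  rw [h]
  exact Finset.sum_congr rfl (fun l _ => hf.smul_left _ _ _)

/-- a non-isotropic vector orthogonal to `k` given vectors and to `j` mutually orthogonal
non-isotropic vectors, when `2k + j < n`. -/
theorem uf_exists_aniso (hf : Cfsg.Geo.IsUnitaryForm σ f) {k j : ℕ} (hn : 2 * k + j < n)
    (x : Fin k → (Fin n → F)) (u : Fin j → (Fin n → F))
    (hu : ∀ l m, l ≠ m → f (u l) (u m) = 0) (hu' : ∀ l, f (u l) (u l) ≠ 0) :
    ∃ v : Fin n → F, (∀ i, f v (x i) = 0) ∧ (∀ l, f v (u l) = 0) ∧ f v v ≠ 0 := by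
  classical
  by_contra hcon
  push Not at hcon
  obtain ⟨Φ, hΦ⟩ : ∃ Φ : (Fin n → F) →ₗ[F] ((Fin k → F) × (Fin j → F)),
      ∀ v, Φ v = (fun i => f v (x i), fun l => f v (u l)) :=
    ⟨LinearMap.prod (LinearMap.pi (fun i => ufφ σ f hf (x i)))
      (LinearMap.pi (fun l => ufφ σ f hf (u l))), fun v => rfl⟩
  obtain ⟨Z, hZ⟩ : ∃ Z : Submodule F (Fin n → F), Z = LinearMap.ker Φ := ⟨_, rfl⟩
  have hZmem : ∀ v, v ∈ Z ↔ (∀ i, f v (x i) = 0) ∧ (∀ l, f v (u l) = 0) := by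
    intro v
    rw [hZ, LinearMap.mem_ker, hΦ, Prod.ext_iff]
    constructor
    · rintro ⟨h1, h2⟩
      exact ⟨fun i => congrFun h1 i, fun l => congrFun h2 l⟩
    · rintro ⟨h1, h2⟩
      exact ⟨funext h1, funext h2⟩
  have hdimZ : n ≤ Module.finrank F Z + (k + j) := by
    have h1 := LinearMap.finrank_range_add_finrank_ker Φ
    have h2 : Module.finrank F (LinearMap.range Φ) ≤ k + j := by
      have h3 := Submodule.finrank_le (LinearMap.range Φ)
      rw [Module.finrank_prod, Module.finrank_fin_fun, Module.finrank_fin_fun] at h3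
      exact h3
    rw [Module.finrank_fin_fun, ← hZ] at h1
    omega
  have hZiso : ∀ z ∈ Z, ∀ z' ∈ Z, f z' z = 0 := by
    have h1 := Cfsg.Agent.S0751.iso_of_norm_zero (σ : F →+* F) (ufB σ f hf) (usig_ne σ f hf)
      (ufB_symm σ f hf) Z
      (fun z hz => by
        rw [ufB_apply]
        exact hcon z ((hZmem z).mp hz).1 ((hZmem z).mp hz).2)
    intro z hz z' hz'
    exact h1 z hz z' hz'
  obtain ⟨d, hd⟩ : ∃ d : ℕ, d = Module.finrank F Z := ⟨_, rfl⟩
  obtain ⟨bZ⟩ : Nonempty (Module.Basis (Fin d) F Z) := ⟨by rw [hd]; exact Module.finBasis F Z⟩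
  have hz : LinearIndependent F (fun i => ((bZ i : Z) : Fin n → F)) :=
    bZ.linearIndependent.map' Z.subtype (Submodule.ker_subtype Z)
  have huLI : LinearIndependent F u := by
    rw [linearIndependent_iff']
    intro s g hg m hm
    have h1 : f (∑ l ∈ s, g l • u l) (u m) = 0 := by rw [hg, uf_zero_left σ f hf]
    rw [uf_sum_left σ f hf, Finset.sum_eq_single m (fun l _ hl => by rw [hu l m hl, mul_zero])
      (fun h => absurd hm h)] at h1
    exact (mul_eq_zero.mp h1).resolve_right (hu' m)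
  have hLI : LinearIndependent F (Sum.elim (fun i => ((bZ i : Z) : Fin n → F)) u) := by
    apply LinearIndependent.sum_type hz huLI
    rw [Submodule.disjoint_def]
    intro y hy1 hy2
    have hyZ : y ∈ Z := by
      refine (Submodule.span_le.mpr ?_) hy1
      rintro _ ⟨i, rfl⟩
      exact (bZ i).2
    obtain ⟨c, hc⟩ := (Submodule.mem_span_range_iff_exists_fun F).mp hy2
    have hc0 : ∀ m, c m = 0 := by
      intro m
      have h1 : f y (u m) = 0 := ((hZmem y).mp hyZ).2 m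
      rw [← hc, uf_sum_left σ f hf, Finset.sum_eq_single m
        (fun l _ hl => by rw [hu l m hl, mul_zero])
        (fun h => absurd (Finset.mem_univ m) h)] at h1
      exact (mul_eq_zero.mp h1).resolve_right (hu' m)
    rw [← hc]
    exact Finset.sum_eq_zero (fun l _ => by rw [hc0 l, zero_smul])
  obtain ⟨fam, hfam⟩ : ∃ fam : Fin (d + j) → (Fin n → F),
      fam = (Sum.elim (fun i => ((bZ i : Z) : Fin n → F)) u) ∘ (finSumFinEquiv (m := d) (n := j)).symm :=
    ⟨_, rfl⟩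
  have hLI' : LinearIndependent F fam := by
    rw [hfam]
    exact hLI.comp _ (finSumFinEquiv.symm.injective)
  obtain ⟨Ψ, hΨ⟩ : ∃ Ψ : (Fin n → F) →ₗ[F] (Fin (d + j) → F), ∀ v i, Ψ v i = f v (fam i) :=
    ⟨LinearMap.pi (fun i => ufφ σ f hf (fam i)), fun v i => rfl⟩
  have hsurj : Function.Surjective Ψ := by
    intro b
    obtain ⟨v, hv⟩ := uf_dual σ f hf fam hLI' b
    exact ⟨v, funext (fun i => by rw [hΨ]; exact hv i)⟩
  have hZker : Z ≤ LinearMap.ker Ψ := by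
    intro z hz
    rw [LinearMap.mem_ker]
    funext i
    rw [hΨ, hfam]
    obtain ⟨s, rfl⟩ := (finSumFinEquiv (m := d) (n := j)).surjective i
    rw [Function.comp_apply, Equiv.symm_apply_apply]
    cases s with
    | inl i' => exact hZiso _ (bZ i').2 z hz
    | inr l => exact ((hZmem z).mp hz).2 l
  have h1 := LinearMap.finrank_range_add_finrank_ker Ψ
  rw [LinearMap.range_eq_top.mpr hsurj, finrank_top, Module.finrank_fin_fun,
    Module.finrank_fin_fun] at h1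
  have h2 := Submodule.finrank_mono hZker
  omega

/-- an orthogonal family of `j` non-isotropic vectors orthogonal to `k` given vectors. -/
theorem uf_exists_orth_fam (hf : Cfsg.Geo.IsUnitaryForm σ f) {k : ℕ} (x : Fin k → (Fin n → F)) :
    ∀ j : ℕ, 2 * k + j ≤ n → ∃ u : Fin j → (Fin n → F), (∀ l i, f (u l) (x i) = 0) ∧
      (∀ l m, l ≠ m → f (u l) (u m) = 0) ∧ ∀ l, f (u l) (u l) ≠ 0 := by
  intro j
  induction j with
  | zero =>
    intro _
    exact ⟨fun l => l.elim0, fun l => l.elim0, fun l => l.elim0, fun l => l.elim0⟩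
  | succ j ih =>
    intro hj
    obtain ⟨u, hux, huu, hu'⟩ := ih (by omega)
    obtain ⟨v, hvx, hvu, hvv⟩ := uf_exists_aniso σ f hf (by omega) x u huu hu'
    refine ⟨Fin.cons v u, ?_, ?_, ?_⟩
    · intro l i
      refine Fin.cases ?_ (fun l' => ?_) l
      · rw [Fin.cons_zero]
        exact hvx i
      · rw [Fin.cons_succ]
        exact hux l' i
    · intro l m
      refine Fin.cases ?_ (fun l' => ?_) l
      · refine Fin.cases ?_ (fun m' => ?_) m
        · intro h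
          exact absurd rfl h
        · intro _
          rw [Fin.cons_zero, Fin.cons_succ]
          exact hvu m'
      · refine Fin.cases ?_ (fun m' => ?_) m
        · intro _
          rw [Fin.cons_zero, Fin.cons_succ]
          exact uf_orth_symm σ f hf _ _ (hvu l')
        · intro h
          rw [Fin.cons_succ, Fin.cons_succ]
          exact huu l' m' (fun h' => h (congrArg Fin.succ h'))
    · intro l
      refine Fin.cases ?_ (fun l' => ?_) l
      · rw [Fin.cons_zero]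
        exact hvv
      · rw [Fin.cons_succ]
        exact hu' l'

/-- an isotropic combination of two orthogonal non-isotropic vectors. -/
theorem uf_exists_iso_comb (hf : Cfsg.Geo.IsUnitaryForm σ f) (u₁ u₂ : Fin n → F)
    (h12 : f u₁ u₂ = 0) (h1 : f u₁ u₁ ≠ 0) (h2 : f u₂ u₂ ≠ 0) :
    ∃ c : F, f (u₁ + c • u₂) (u₁ + c • u₂) = 0 := by
  have hfix : σ (-(f u₁ u₁) / f u₂ u₂) = -(f u₁ u₁) / f u₂ u₂ := by
    rw [map_div₀, map_neg, uf_self_fixed σ f hf, uf_self_fixed σ f hf]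
  obtain ⟨c, hc⟩ := uf_norm_surj σ f hf _ hfix
  refine ⟨c, ?_⟩
  have h21 : f u₂ u₁ = 0 := uf_orth_symm σ f hf _ _ h12
  simp only [hf.add_left, uf_add_right σ f hf, hf.smul_left, uf_smul_right σ f hf, h12, h21,
    mul_zero, add_zero, zero_add]
  have h3 : c * (σ c * f u₂ u₂) = (c * σ c) * f u₂ u₂ := by ring
  rw [h3, hc]
  field_simp
  ring

theorem li_pair_of_sep (hf : Cfsg.Geo.IsUnitaryForm σ f) (a w p : Fin n → F) (ha : a ≠ 0)
    (h1 : f a p = 0) (h2 : f w p ≠ 0) : LinearIndependent F ![a, w] := by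
  rw [LinearIndependent.pair_iff]
  intro s t hst
  have h3 : f (s • a + t • w) p = 0 := by rw [hst, uf_zero_left σ f hf]
  rw [hf.add_left, hf.smul_left, hf.smul_left, h1, mul_zero, zero_add] at h3
  have ht : t = 0 := (mul_eq_zero.mp h3).resolve_right h2
  rw [ht, zero_smul, add_zero] at hst
  exact ⟨(smul_eq_zero.mp hst).resolve_right ha, ht⟩

theorem li_pair_of_sep' (hf : Cfsg.Geo.IsUnitaryForm σ f) (a w p : Fin n → F) (hw : w ≠ 0)
    (h1 : f w p = 0) (h2 : f a p ≠ 0) : LinearIndependent F ![a, w] := by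
  rw [LinearIndependent.pair_iff]
  intro s t hst
  have h3 : f (s • a + t • w) p = 0 := by rw [hst, uf_zero_left σ f hf]
  rw [hf.add_left, hf.smul_left, hf.smul_left, h1, mul_zero, add_zero] at h3
  have hs : s = 0 := (mul_eq_zero.mp h3).resolve_right h2
  rw [hs, zero_smul, zero_add] at hst
  exact ⟨hs, (smul_eq_zero.mp hst).resolve_right hw⟩

theorem li_pair_ne_zero (a w : Fin n → F) (h : LinearIndependent F ![a, w]) : a ≠ 0 := by
  have h1 := h.ne_zero 0
  exact h1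

theorem not_li_pair (a w : Fin n → F) (ha : a ≠ 0) (h : ¬ LinearIndependent F ![a, w]) :
    ∃ c : F, w = c • a := by
  rw [LinearIndependent.pair_iff] at h
  push Not at h
  obtain ⟨s, t, hst, hne⟩ := h
  have ht : t ≠ 0 := by
    intro ht
    rw [ht, zero_smul, add_zero] at hst
    exact hne ((smul_eq_zero.mp hst).resolve_right ha) ht
  refine ⟨-(t⁻¹ * s), ?_⟩
  have h1 : t • w = -(s • a) := eq_neg_of_add_eq_zero_right hst
  have h2 : w = t⁻¹ • (t • w) := by rw [smul_smul, inv_mul_cancel₀ ht, one_smul]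
  rw [h2, h1, smul_neg, smul_smul, neg_smul]

/-- the isotropic vectors of `p^⊥` generate `p^⊥` additively. -/
theorem uf_iso_gen (hf : Cfsg.Geo.IsUnitaryForm σ f) (hn : 4 ≤ n) (p : Fin n → F)
    (S : AddSubgroup (Fin n → F)) (hS : ∀ b, f b p = 0 → f b b = 0 → b ∈ S)
    (y : Fin n → F) (hy : f y p = 0) : y ∈ S := by
  obtain ⟨u, hux, huu, hu'⟩ := uf_exists_orth_fam σ f hf (fun _ : Fin 1 => p) 2 (by omega)
  obtain ⟨c, hc⟩ := uf_exists_iso_comb σ f hf (u 0) (u 1) (huu 0 1 (by decide)) (hu' 0) (hu' 1)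
  obtain ⟨e, he⟩ : ∃ e : Fin n → F, e = u 0 + c • u 1 := ⟨_, rfl⟩
  rw [← he] at hc
  have hep : f e p = 0 := by
    rw [he, hf.add_left, hf.smul_left, hux 0 0, hux 1 0, mul_zero, add_zero]
  have heu : f e (u 0) ≠ 0 := by
    rw [he, hf.add_left, hf.smul_left, huu 1 0 (by decide), mul_zero, add_zero]
    exact hu' 0
  have hsmul : ∀ μ : F, μ • e ∈ S := by
    intro μ
    apply hS
    · rw [hf.smul_left, hep, mul_zero]
    · rw [hf.smul_left, uf_smul_right σ f hf, hc, mul_zero, mul_zero]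
  have key : ∀ v : Fin n → F, f v p = 0 → f e v ≠ 0 → v ∈ S := by
    intro v hvp hev
    obtain ⟨t, ht⟩ := uf_trace_surj σ f hf (-(f v v))
      (by rw [map_neg, uf_self_fixed σ f hf])
    have h1 : v + (t / f e v) • e ∈ S := by
      apply hS
      · rw [hf.add_left, hf.smul_left, hvp, hep, mul_zero, add_zero]
      · simp only [hf.add_left, uf_add_right σ f hf, hf.smul_left, uf_smul_right σ f hf, hc,
          mul_zero, add_zero]
        have h2 : f v e = σ (f e v) := hf.herm v e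
        have h3 : σ (f e v) ≠ 0 := by
          rw [← h2]
          exact uf_ne_symm σ f hf _ _ hev
        rw [map_div₀, h2]
        field_simp
        linear_combination ht
    have h4 := S.sub_mem h1 (hsmul (t / f e v))
    rw [add_sub_cancel_right] at h4
    exact h4
  by_cases hey : f e y = 0
  · have h1 : y + u 0 ∈ S := by
      apply key
      · rw [hf.add_left, hy, hux 0 0, add_zero]
      · rw [uf_add_right σ f hf, hey, zero_add]
        exact heu
    have h2 : u 0 ∈ S := key _ (hux 0 0) heu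
    have h3 := S.sub_mem h1 h2
    rw [add_sub_cancel_right] at h3
    exact h3
  · exact key y hy hey

/-- an isotropic vector orthogonal to `p` and not orthogonal to `q`. -/
theorem uf_exists_iso_sep (hf : Cfsg.Geo.IsUnitaryForm σ f) (hn : 4 ≤ n) (p q : Fin n → F)
    (hpq : LinearIndependent F ![p, q]) : ∃ b : Fin n → F, f b b = 0 ∧ f b p = 0 ∧ f b q ≠ 0 := by
  by_contra hcon
  push Not at hcon
  obtain ⟨d, hd⟩ := uf_dual σ f hf ![p, q] hpq ![0, 1]
  have hdp : f d p = 0 := hd 0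
  have hdq : f d q = 1 := hd 1
  have h1 : d ∈ (ufφ σ f hf q).toAddMonoidHom.ker :=
    uf_iso_gen σ f hf hn p _ (fun b hbp hbb => by
      rw [AddMonoidHom.mem_ker]
      exact hcon b hbb hbp) d hdp
  rw [AddMonoidHom.mem_ker] at h1
  have h2 : f d q = 0 := h1
  rw [hdq] at h2
  exact one_ne_zero h2


theorem gl_of_linearEquiv (g : (Fin n → F) ≃ₗ[F] (Fin n → F)) :
    ∃ s : Matrix.GeneralLinearGroup (Fin n) F, ∀ v, (s : Matrix (Fin n) (Fin n) F) *ᵥ v = g v := by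
  classical
  have h1 : LinearMap.toMatrix' g.toLinearMap * LinearMap.toMatrix' g.symm.toLinearMap = 1 := by
    rw [← LinearMap.toMatrix'_comp]
    have h : g.toLinearMap.comp g.symm.toLinearMap = LinearMap.id :=
      LinearMap.ext (fun x => g.apply_symm_apply x)
    rw [h, LinearMap.toMatrix'_id]
  have h2 : LinearMap.toMatrix' g.symm.toLinearMap * LinearMap.toMatrix' g.toLinearMap = 1 := by
    rw [← LinearMap.toMatrix'_comp]
    have h : g.symm.toLinearMap.comp g.toLinearMap = LinearMap.id :=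
      LinearMap.ext (fun x => g.symm_apply_apply x)
    rw [h, LinearMap.toMatrix'_id]
  refine ⟨⟨LinearMap.toMatrix' g.toLinearMap, LinearMap.toMatrix' g.symm.toLinearMap, h1, h2⟩,
    fun v => ?_⟩
  show LinearMap.toMatrix' g.toLinearMap *ᵥ v = g v
  rw [LinearMap.toMatrix'_mulVec]
  rfl

/-- Witt's theorem for families, as elements of `GL`. -/
theorem uf_witt (hf : Cfsg.Geo.IsUnitaryForm σ f) {k : ℕ} (x y : Fin k → (Fin n → F))
    (hx : LinearIndependent F x) (hy : LinearIndependent F y)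
    (hG : ∀ i j, f (x i) (x j) = f (y i) (y j)) :
    ∃ s : Matrix.GeneralLinearGroup (Fin n) F,
      (∀ u v, f ((s : Matrix (Fin n) (Fin n) F) *ᵥ u) ((s : Matrix (Fin n) (Fin n) F) *ᵥ v)
        = f u v) ∧ ∀ i, (s : Matrix (Fin n) (Fin n) F) *ᵥ x i = y i := by
  have hk : k ≤ n := by
    have h1 := hx.fintype_card_le_finrank
    rw [Fintype.card_fin, Module.finrank_fin_fun] at h1
    exact h1
  obtain ⟨g, hg1, hg2⟩ := Cfsg.Agent.S0751.main_ind (σ : F →+* F) (ufB σ f hf) (usig_ne σ f hf)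
    hf.involutive (ufB_symm σ f hf) (ufB_nondeg σ f hf) (n - k) k x y
    (by rw [Module.finrank_fin_fun]; omega) hx hy (fun i j => hG j i)
  obtain ⟨s, hs⟩ := gl_of_linearEquiv g
  refine ⟨s, fun u v => ?_, fun i => ?_⟩
  · rw [hs, hs]
    exact hg1 v u
  · rw [hs, hg2]

theorem uiso_mul (s t : Matrix.GeneralLinearGroup (Fin n) F)
    (hs : ∀ u v, f ((s : Matrix (Fin n) (Fin n) F) *ᵥ u) ((s : Matrix (Fin n) (Fin n) F) *ᵥ v)
      = f u v)
    (ht : ∀ u v, f ((t : Matrix (Fin n) (Fin n) F) *ᵥ u) ((t : Matrix (Fin n) (Fin n) F) *ᵥ v)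
      = f u v) :
    ∀ u v, f (((s * t : Matrix.GeneralLinearGroup (Fin n) F) : Matrix (Fin n) (Fin n) F) *ᵥ u)
      (((s * t : Matrix.GeneralLinearGroup (Fin n) F) : Matrix (Fin n) (Fin n) F) *ᵥ v)
      = f u v := by
  intro u v
  rw [Units.val_mul, ← Matrix.mulVec_mulVec, ← Matrix.mulVec_mulVec, hs, ht]

theorem uiso_inv (s : Matrix.GeneralLinearGroup (Fin n) F)
    (hs : ∀ u v, f ((s : Matrix (Fin n) (Fin n) F) *ᵥ u) ((s : Matrix (Fin n) (Fin n) F) *ᵥ v)
      = f u v) :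
    ∀ u v, f (((s⁻¹ : Matrix.GeneralLinearGroup (Fin n) F) : Matrix (Fin n) (Fin n) F) *ᵥ u)
      (((s⁻¹ : Matrix.GeneralLinearGroup (Fin n) F) : Matrix (Fin n) (Fin n) F) *ᵥ v)
      = f u v := by
  intro u v
  rw [← hs, gl_mulVec_inv, gl_mulVec_inv]

theorem li_four (hf : Cfsg.Geo.IsUnitaryForm σ f) (a₁ w₁ a₂ w₂ p q : Fin n → F)
    (h12 : LinearIndependent F ![a₁, w₁])
    (hp : f a₂ p ≠ 0) (hp' : f w₂ p = 0) (hpa : f a₁ p = 0) (hpw : f w₁ p = 0)
    (hq : f w₂ q ≠ 0) (hqa : f a₁ q = 0) (hqw : f w₁ q = 0) :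
    LinearIndependent F ![a₁, w₁, a₂, w₂] := by
  rw [Fintype.linearIndependent_iff]
  intro g hg
  rw [Fin.sum_univ_four] at hg
  replace hg : g 0 • a₁ + g 1 • w₁ + g 2 • a₂ + g 3 • w₂ = 0 := hg
  have h2 : g 2 = 0 := by
    have h3 : f (g 0 • a₁ + g 1 • w₁ + g 2 • a₂ + g 3 • w₂) p = 0 := by
      rw [hg, uf_zero_left σ f hf]
    simp only [hf.add_left, hf.smul_left, hp', hpa, hpw, mul_zero, add_zero, zero_add] at h3
    exact (mul_eq_zero.mp h3).resolve_right hp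
  have h3 : g 3 = 0 := by
    have h3 : f (g 0 • a₁ + g 1 • w₁ + g 2 • a₂ + g 3 • w₂) q = 0 := by
      rw [hg, uf_zero_left σ f hf]
    simp only [hf.add_left, hf.smul_left, h2, hqa, hqw, mul_zero, zero_mul, add_zero,
      zero_add] at h3
    exact (mul_eq_zero.mp h3).resolve_right hq
  rw [h2, h3, zero_smul, zero_smul, add_zero, add_zero] at hg
  have h4 := LinearIndependent.pair_iff.mp h12 (g 0) (g 1) hg
  intro i
  fin_cases i
  · exact h4.1
  · exact h4.2
  · exact h2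
  · exact h3

/-- `SU` is transitive on pairs of linearly independent, mutually orthogonal isotropic vectors. -/
theorem uf_pair_trans (hf : Cfsg.Geo.IsUnitaryForm σ f) (hn : 12 ≤ n) (a₁ w₁ a w : Fin n → F)
    (h₁ : LinearIndependent F ![a₁, w₁]) (h : LinearIndependent F ![a, w])
    (ha₁ : f a₁ a₁ = 0) (hw₁ : f w₁ w₁ = 0) (haw₁ : f a₁ w₁ = 0)
    (ha : f a a = 0) (hw : f w w = 0) (haw : f a w = 0) :
    ∃ s : Matrix.GeneralLinearGroup (Fin n) F,
      s ∈ Cfsg.Geo.similarityGroup f ⊓ Cfsg.Geo.specialLinear (Fin n) F ∧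
      (∀ u v, f ((s : Matrix (Fin n) (Fin n) F) *ᵥ u) ((s : Matrix (Fin n) (Fin n) F) *ᵥ v)
        = f u v) ∧ (s : Matrix (Fin n) (Fin n) F) *ᵥ a₁ = a ∧
      (s : Matrix (Fin n) (Fin n) F) *ᵥ w₁ = w := by
  obtain ⟨u, hux, huu, hu'⟩ := uf_exists_orth_fam σ f hf ![a₁, w₁, a, w] 4 (by omega)
  obtain ⟨c, hc⟩ := uf_exists_iso_comb σ f hf (u 0) (u 1) (huu 0 1 (by decide)) (hu' 0) (hu' 1)
  obtain ⟨c', hc'⟩ := uf_exists_iso_comb σ f hf (u 2) (u 3) (huu 2 3 (by decide)) (hu' 2) (hu' 3)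
  obtain ⟨a₂, ha₂⟩ : ∃ a₂ : Fin n → F, a₂ = u 0 + c • u 1 := ⟨_, rfl⟩
  obtain ⟨w₂, hw₂⟩ : ∃ w₂ : Fin n → F, w₂ = u 2 + c' • u 3 := ⟨_, rfl⟩
  rw [← ha₂] at hc
  rw [← hw₂] at hc'
  have hua₁ : ∀ l, f (u l) a₁ = 0 := fun l => hux l 0
  have huw₁ : ∀ l, f (u l) w₁ = 0 := fun l => hux l 1
  have hua : ∀ l, f (u l) a = 0 := fun l => hux l 2
  have huw : ∀ l, f (u l) w = 0 := fun l => hux l 3
  have ha₂x : ∀ z : Fin n → F, (∀ l, f (u l) z = 0) → f a₂ z = 0 := by
    intro z hz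
    rw [ha₂, hf.add_left, hf.smul_left, hz, hz, mul_zero, add_zero]
  have hw₂x : ∀ z : Fin n → F, (∀ l, f (u l) z = 0) → f w₂ z = 0 := by
    intro z hz
    rw [hw₂, hf.add_left, hf.smul_left, hz, hz, mul_zero, add_zero]
  have haw₂ : f a₂ w₂ = 0 := by
    rw [ha₂, hw₂]
    simp only [hf.add_left, uf_add_right σ f hf, hf.smul_left, uf_smul_right σ f hf,
      huu 0 2 (by decide), huu 0 3 (by decide), huu 1 2 (by decide), huu 1 3 (by decide),
      mul_zero, add_zero]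
  have hsym := uf_orth_symm σ f hf
  -- separators
  have hp1 : f a₂ (u 0) ≠ 0 := by
    rw [ha₂, hf.add_left, hf.smul_left, huu 1 0 (by decide), mul_zero, add_zero]
    exact hu' 0
  have hp2 : f w₂ (u 0) = 0 := by
    rw [hw₂, hf.add_left, hf.smul_left, huu 2 0 (by decide), huu 3 0 (by decide), mul_zero,
      add_zero]
  have hq1 : f w₂ (u 2) ≠ 0 := by
    rw [hw₂, hf.add_left, hf.smul_left, huu 3 2 (by decide), mul_zero, add_zero]
    exact hu' 2
  have hX : LinearIndependent F ![a₁, w₁, a₂, w₂] :=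
    li_four σ f hf a₁ w₁ a₂ w₂ (u 0) (u 2) h₁ hp1 hp2 (hsym _ _ (hua₁ 0)) (hsym _ _ (huw₁ 0))
      hq1 (hsym _ _ (hua₁ 2)) (hsym _ _ (huw₁ 2))
  have hY : LinearIndependent F ![a, w, a₂, w₂] :=
    li_four σ f hf a w a₂ w₂ (u 0) (u 2) h hp1 hp2 (hsym _ _ (hua 0)) (hsym _ _ (huw 0))
      hq1 (hsym _ _ (hua 2)) (hsym _ _ (huw 2))
  have hX0 : ∀ i j, f (![a₁, w₁, a₂, w₂] i) (![a₁, w₁, a₂, w₂] j) = 0 := by
    intro i j
    fin_cases i <;> fin_cases j <;>
      simp [ha₁, hw₁, haw₁, hsym _ _ haw₁, hc, hc', haw₂, hsym _ _ haw₂, ha₂x _ hua₁,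
        ha₂x _ huw₁, hw₂x _ hua₁, hw₂x _ huw₁, hsym _ _ (ha₂x _ hua₁), hsym _ _ (ha₂x _ huw₁),
        hsym _ _ (hw₂x _ hua₁), hsym _ _ (hw₂x _ huw₁)]
  have hY0 : ∀ i j, f (![a, w, a₂, w₂] i) (![a, w, a₂, w₂] j) = 0 := by
    intro i j
    fin_cases i <;> fin_cases j <;>
      simp [ha, hw, haw, hsym _ _ haw, hc, hc', haw₂, hsym _ _ haw₂, ha₂x _ hua,
        ha₂x _ huw, hw₂x _ hua, hw₂x _ huw, hsym _ _ (ha₂x _ hua), hsym _ _ (ha₂x _ huw),
        hsym _ _ (hw₂x _ hua), hsym _ _ (hw₂x _ huw)]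
  obtain ⟨s, hs, hsX⟩ := uf_witt σ f hf _ _ hX hY (fun i j => by rw [hX0, hY0])
  have hsa₁ : (s : Matrix (Fin n) (Fin n) F) *ᵥ a₁ = a := hsX 0
  have hsw₁ : (s : Matrix (Fin n) (Fin n) F) *ᵥ w₁ = w := hsX 1
  have hsa₂ : (s : Matrix (Fin n) (Fin n) F) *ᵥ a₂ = a₂ := hsX 2
  have hsw₂ : (s : Matrix (Fin n) (Fin n) F) *ᵥ w₂ = w₂ := hsX 3
  have ha₂0 : a₂ ≠ 0 := by
    intro h0
    rw [h0, uf_zero_left σ f hf] at hp1
    exact hp1 rfl
  have h₂ : LinearIndependent F ![a₂, w₂] :=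
    li_pair_of_sep σ f hf a₂ w₂ (u 2) ha₂0
      (by rw [ha₂, hf.add_left, hf.smul_left, huu 0 2 (by decide), huu 1 2 (by decide),
        mul_zero, add_zero]) hq1
  obtain ⟨t, ht, htX⟩ := uf_witt σ f hf ![a₂, w₂] ![a₁, w₁] h₂ h₁ (fun i j => by
    fin_cases i <;> fin_cases j <;> simp [ha₁, hw₁, haw₁, hsym _ _ haw₁, hc, hc', haw₂,
      hsym _ _ haw₂])
  have hta₂ : (t : Matrix (Fin n) (Fin n) F) *ᵥ a₂ = a₁ := htX 0
  have htw₂ : (t : Matrix (Fin n) (Fin n) F) *ᵥ w₂ = w₁ := htX 1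
  have hti1 : ((t⁻¹ : Matrix.GeneralLinearGroup (Fin n) F) : Matrix (Fin n) (Fin n) F) *ᵥ a₁
      = a₂ := by rw [← hta₂, gl_inv_mulVec]
  have hti2 : ((t⁻¹ : Matrix.GeneralLinearGroup (Fin n) F) : Matrix (Fin n) (Fin n) F) *ᵥ w₁
      = w₂ := by rw [← htw₂, gl_inv_mulVec]
  have hsi1 : ((s⁻¹ : Matrix.GeneralLinearGroup (Fin n) F) : Matrix (Fin n) (Fin n) F) *ᵥ a₂
      = a₂ := by
    have h1 := gl_inv_mulVec s a₂
    rw [hsa₂] at h1
    exact h1
  have hsi2 : ((s⁻¹ : Matrix.GeneralLinearGroup (Fin n) F) : Matrix (Fin n) (Fin n) F) *ᵥ w₂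
      = w₂ := by
    have h1 := gl_inv_mulVec s w₂
    rw [hsw₂] at h1
    exact h1
  have hiso : ∀ u v, f (((s * t * s⁻¹ * t⁻¹ : Matrix.GeneralLinearGroup (Fin n) F) :
      Matrix (Fin n) (Fin n) F) *ᵥ u)
      (((s * t * s⁻¹ * t⁻¹ : Matrix.GeneralLinearGroup (Fin n) F) :
        Matrix (Fin n) (Fin n) F) *ᵥ v) = f u v :=
    uiso_mul f _ _ (uiso_mul f _ _ (uiso_mul f _ _ hs ht) (uiso_inv f s hs)) (uiso_inv f t ht)
  refine ⟨s * t * s⁻¹ * t⁻¹, ⟨⟨1, fun u v => by rw [hiso, Units.val_one, one_mul]⟩, ?_⟩, hiso,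
    ?_, ?_⟩
  · show s * t * s⁻¹ * t⁻¹ ∈ (Matrix.GeneralLinearGroup.det :
      Matrix.GeneralLinearGroup (Fin n) F →* Fˣ).ker
    rw [MonoidHom.mem_ker, map_mul, map_mul, map_mul, map_inv, map_inv,
      mul_comm (Matrix.GeneralLinearGroup.det s) (Matrix.GeneralLinearGroup.det t),
      mul_inv_cancel_right, mul_inv_cancel]
  · rw [Units.val_mul, Units.val_mul, Units.val_mul, ← Matrix.mulVec_mulVec,
      ← Matrix.mulVec_mulVec, ← Matrix.mulVec_mulVec, hti1, hsi1, hta₂, hsa₁]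
  · rw [Units.val_mul, Units.val_mul, Units.val_mul, ← Matrix.mulVec_mulVec,
      ← Matrix.mulVec_mulVec, ← Matrix.mulVec_mulVec, hti2, hsi2, htw₂, hsw₁]


/-- conjugating a unitary transvection by an arbitrary element of `GL`. -/
theorem uf_conj_gen (hf : Cfsg.Geo.IsUnitaryForm σ f) (g : Matrix.GeneralLinearGroup (Fin n) F)
    (b : Fin n → F) (c : F) (hb : f b b = 0) :
    ∃ w' : Fin n → F, f ((g : Matrix (Fin n) (Fin n) F) *ᵥ b) w' = 0 ∧
      (∀ y, f ((g : Matrix (Fin n) (Fin n) F) *ᵥ y) w' = f y (c • b)) ∧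
      g * utv σ f hf b (c • b) * g⁻¹ = utv σ f hf ((g : Matrix (Fin n) (Fin n) F) *ᵥ b) w' := by
  obtain ⟨w', hw'⟩ := uf_riesz σ f hf ((ufφ σ f hf (c • b)).comp
    (Matrix.mulVecLin ((g⁻¹ : Matrix.GeneralLinearGroup (Fin n) F) : Matrix (Fin n) (Fin n) F)))
  have hw'' : ∀ x, f x w' = f (((g⁻¹ : Matrix.GeneralLinearGroup (Fin n) F) :
      Matrix (Fin n) (Fin n) F) *ᵥ x) (c • b) := fun x => hw' x
  have hy : ∀ y, f ((g : Matrix (Fin n) (Fin n) F) *ᵥ y) w' = f y (c • b) := by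
    intro y
    rw [hw'', gl_inv_mulVec]
  have h0 : f ((g : Matrix (Fin n) (Fin n) F) *ᵥ b) w' = 0 := by
    rw [hy, uf_smul_right σ f hf, hb, mul_zero]
  refine ⟨w', h0, hy, ?_⟩
  have h1 : (ufφ σ f hf w').comp (Matrix.mulVecLin (g : Matrix (Fin n) (Fin n) F))
      = ufφ σ f hf (c • b) := by
    apply LinearMap.ext
    intro x
    show f ((g : Matrix (Fin n) (Fin n) F) *ᵥ x) w' = f x (c • b)
    exact hy x
  have h2 := ltvGL_conj g b (ufφ σ f hf w') h0
  rw [h1] at h2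
  exact h2

/-- an element of `H` that is not a similarity produces a transvection `T(a, w)` in `H` with
`a`, `w` linearly independent. -/
theorem uf_initial (hf : Cfsg.Geo.IsUnitaryForm σ f) (hn : 4 ≤ n)
    (M : Subgroup (Matrix.GeneralLinearGroup (Fin n) F))
    (hP : Cfsg.Geo.similarityGroup f ⊓ Cfsg.Geo.specialLinear (Fin n) F ≤ M)
    (g : Matrix.GeneralLinearGroup (Fin n) F) (hgM : g ∈ M)
    (hg : g ∉ Cfsg.Geo.similarityGroup f) :
    ∃ a₀ w₀ : Fin n → F, LinearIndependent F ![a₀, w₀] ∧ f a₀ w₀ = 0 ∧ utv σ f hf a₀ w₀ ∈ M := by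
  classical
  by_contra hcon
  push Not at hcon
  obtain ⟨ε, hε0, hε⟩ := uf_exists_trace_zero σ f hf
  have hσε : σ ε ≠ 0 := (map_ne_zero σ).mpr hε0
  have hginj : ∀ x, (g : Matrix (Fin n) (Fin n) F) *ᵥ x = 0 → x = 0 := by
    intro x hx
    rw [← gl_inv_mulVec g x, hx, Matrix.mulVec_zero]
  have hA : ∀ b : Fin n → F, b ≠ 0 → f b b = 0 → ∃ κ : F, ∀ y,
      f ((g : Matrix (Fin n) (Fin n) F) *ᵥ y) ((g : Matrix (Fin n) (Fin n) F) *ᵥ b)
        = κ * f y b := by
    intro b hb0 hbb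
    obtain ⟨w', h0, hy, hconj⟩ := uf_conj_gen σ f hf g b ε hbb
    have hmem : utv σ f hf ((g : Matrix (Fin n) (Fin n) F) *ᵥ b) w' ∈ M := by
      rw [← hconj]
      exact M.mul_mem (M.mul_mem hgM (hP (utv_iso_mem σ f hf b hbb ε hε))) (M.inv_mem hgM)
    have hnli : ¬ LinearIndependent F ![(g : Matrix (Fin n) (Fin n) F) *ᵥ b, w'] :=
      fun hli => hcon _ _ hli h0 hmem
    obtain ⟨c, hc⟩ := not_li_pair _ _ (fun h => hb0 (hginj b h)) hnli
    have hc0 : c ≠ 0 := by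
      intro hc0
      rw [hc0, zero_smul] at hc
      obtain ⟨y, hy'⟩ := (hf.nondegenerate b hb0).1
      apply hy'
      have h1 := hy y
      rw [hc, uf_zero_right σ f hf, uf_smul_right σ f hf] at h1
      exact (mul_eq_zero.mp h1.symm).resolve_left hσε
    have hσc : σ c ≠ 0 := (map_ne_zero σ).mpr hc0
    refine ⟨σ ε / σ c, fun y => ?_⟩
    have h1 := hy y
    rw [hc, uf_smul_right σ f hf, uf_smul_right σ f hf] at h1
    field_simp
    linear_combination h1
  obtain ⟨b₀, hb₀0, hb₀⟩ : ∃ b₀ : Fin n → F, b₀ ≠ 0 ∧ f b₀ b₀ = 0 := by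
    obtain ⟨u, hux, huu, hu'⟩ := uf_exists_orth_fam σ f hf (fun i : Fin 0 => i.elim0) 2 (by omega)
    obtain ⟨c, hc⟩ := uf_exists_iso_comb σ f hf (u 0) (u 1) (huu 0 1 (by decide)) (hu' 0) (hu' 1)
    refine ⟨u 0 + c • u 1, ?_, hc⟩
    intro h0
    have h1 : f (u 0 + c • u 1) (u 0) = 0 := by rw [h0, uf_zero_left σ f hf]
    rw [hf.add_left, hf.smul_left, huu 1 0 (by decide), mul_zero, add_zero] at h1
    exact hu' 0 h1
  obtain ⟨κ₀, hκ₀⟩ := hA b₀ hb₀0 hb₀
  have hK : ∀ b : Fin n → F, f b b = 0 → ∀ y,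
      f ((g : Matrix (Fin n) (Fin n) F) *ᵥ y) ((g : Matrix (Fin n) (Fin n) F) *ᵥ b)
        = κ₀ * f y b := by
    intro b hbb y
    by_cases hb0 : b = 0
    · rw [hb0, Matrix.mulVec_zero, uf_zero_right σ f hf, uf_zero_right σ f hf, mul_zero]
    by_cases hli : LinearIndependent F ![b₀, b]
    · obtain ⟨κ, hκ⟩ := hA b hb0 hbb
      obtain ⟨μ, hμ0, hμ⟩ : ∃ μ : F, μ ≠ 0 ∧ σ μ * f b₀ b + μ * f b b₀ = 0 := by
        by_cases h0 : f b₀ b = 0
        · refine ⟨1, one_ne_zero, ?_⟩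
          rw [h0, uf_orth_symm σ f hf _ _ h0]
          ring
        · refine ⟨σ (ε / f b₀ b), (map_ne_zero σ).mpr (div_ne_zero hε0 h0), ?_⟩
          have h1 : ε / f b₀ b * f b₀ b = ε := by field_simp
          rw [hf.involutive, hf.herm b b₀, ← map_mul, h1]
          exact hε
      have hb₁ : f (b₀ + μ • b) (b₀ + μ • b) = 0 := by
        simp only [hf.add_left, uf_add_right σ f hf, hf.smul_left, uf_smul_right σ f hf, hb₀,
          hbb, mul_zero, add_zero, zero_add]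
        linear_combination hμ
      have hb₁0 : b₀ + μ • b ≠ 0 := by
        intro h0
        have h1 := LinearIndependent.pair_iff.mp hli 1 μ (by rw [one_smul]; exact h0)
        exact one_ne_zero h1.1
      obtain ⟨κ₁, hκ₁⟩ := hA _ hb₁0 hb₁
      obtain ⟨y₁, hy₁⟩ := uf_dual σ f hf ![b₀, b] hli ![1, 0]
      obtain ⟨y₂, hy₂⟩ := uf_dual σ f hf ![b₀, b] hli ![0, 1]
      have e1 := hκ₁ y₁
      have e2 := hκ₁ y₂
      rw [Matrix.mulVec_add, Matrix.mulVec_smul, uf_add_right σ f hf, uf_smul_right σ f hf, hκ₀,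
        hκ, uf_add_right σ f hf, uf_smul_right σ f hf] at e1 e2
      have e11 : f y₁ b₀ = 1 := hy₁ 0
      have e12 : f y₁ b = 0 := hy₁ 1
      have e21 : f y₂ b₀ = 0 := hy₂ 0
      have e22 : f y₂ b = 1 := hy₂ 1
      rw [e11, e12] at e1
      rw [e21, e22] at e2
      have hσμ : σ μ ≠ 0 := (map_ne_zero σ).mpr hμ0
      have h1 : κ₀ = κ₁ := by linear_combination e1
      have h2 : κ = κ₁ := by
        have h3 : σ μ * (κ - κ₁) = 0 := by linear_combination e2
        exact sub_eq_zero.mp ((mul_eq_zero.mp h3).resolve_left hσμ)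
      rw [hκ y, h2, ← h1]
    · obtain ⟨c, hc⟩ := not_li_pair b₀ b hb₀0 hli
      rw [hc, Matrix.mulVec_smul, uf_smul_right σ f hf, uf_smul_right σ f hf, hκ₀]
      ring
  have hall : ∀ v y : Fin n → F,
      f ((g : Matrix (Fin n) (Fin n) F) *ᵥ y) ((g : Matrix (Fin n) (Fin n) F) *ᵥ v)
        = κ₀ * f y v := by
    intro v
    let S : AddSubgroup (Fin n → F) :=
      { carrier := {v | ∀ y, f ((g : Matrix (Fin n) (Fin n) F) *ᵥ y)
          ((g : Matrix (Fin n) (Fin n) F) *ᵥ v) = κ₀ * f y v}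
        zero_mem' := fun y => by
          rw [Matrix.mulVec_zero, uf_zero_right σ f hf, uf_zero_right σ f hf, mul_zero]
        add_mem' := fun {a b} ha hb y => by
          rw [Matrix.mulVec_add, uf_add_right σ f hf, uf_add_right σ f hf, ha y, hb y, mul_add]
        neg_mem' := fun {x} hx y => by
          rw [Matrix.mulVec_neg, uf_neg_right σ f hf, uf_neg_right σ f hf, hx y, mul_neg] }
    exact uf_iso_gen σ f hf hn 0 S (fun b _ hbb => hK b hbb) v (uf_zero_right σ f hf v)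
  have hκ0 : κ₀ ≠ 0 := by
    intro h0
    obtain ⟨x, hx⟩ := (hf.nondegenerate ((g : Matrix (Fin n) (Fin n) F) *ᵥ b₀)
      (fun h => hb₀0 (hginj b₀ h))).1
    apply hx
    have h1 := hall b₀ (((g⁻¹ : Matrix.GeneralLinearGroup (Fin n) F) :
      Matrix (Fin n) (Fin n) F) *ᵥ x)
    rw [gl_mulVec_inv, h0, zero_mul] at h1
    exact h1
  exact hg ⟨Units.mk0 κ₀ hκ0, fun u v => by rw [Units.val_mk0]; exact hall v u⟩

/-- from a transvection with linearly independent `a`, `w` to one with `a`, `w` isotropic. -/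
theorem uf_pair00 (hf : Cfsg.Geo.IsUnitaryForm σ f) (hn : 4 ≤ n)
    (M : Subgroup (Matrix.GeneralLinearGroup (Fin n) F))
    (hP : Cfsg.Geo.similarityGroup f ⊓ Cfsg.Geo.specialLinear (Fin n) F ≤ M)
    (a w : Fin n → F) (hli : LinearIndependent F ![a, w]) (h : f a w = 0)
    (hmem : utv σ f hf a w ∈ M) :
    ∃ a₁ w₁ : Fin n → F, LinearIndependent F ![a₁, w₁] ∧ f a₁ a₁ = 0 ∧ f w₁ w₁ = 0 ∧
      f a₁ w₁ = 0 ∧ utv σ f hf a₁ w₁ ∈ M := by
  obtain ⟨ε, hε0, hε⟩ := uf_exists_trace_zero σ f hf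
  have hσε : σ ε ≠ 0 := (map_ne_zero σ).mpr hε0
  have ha0 : a ≠ 0 := li_pair_ne_zero a w hli
  obtain ⟨b, hbb, hba, hbw⟩ := uf_exists_iso_sep σ f hf hn a w hli
  have hab : f a b = 0 := uf_orth_symm σ f hf _ _ hba
  have hwb : f w b ≠ 0 := uf_ne_symm σ f hf _ _ hbw
  have hb0 : b ≠ 0 := by
    rintro rfl
    exact hbw (uf_zero_left σ f hf w)
  have h0b : f b (ε • b) = 0 := by rw [uf_smul_right σ f hf, hbb, mul_zero]
  obtain ⟨μ, hμ⟩ : ∃ μ : F, μ = σ ε * f w b := ⟨_, rfl⟩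
  have hμ0 : μ ≠ 0 := by
    rw [hμ]
    exact mul_ne_zero hσε hwb
  have haμ : f a (μ • b) = 0 := by rw [uf_smul_right σ f hf, hab, mul_zero]
  have h1 : utv σ f hf a (w + μ • b) ∈ M := by
    have h2 := utv_conj σ f hf (utv σ f hf b (ε • b)) (utv_iso σ f hf b hbb ε hε) a w h
    rw [utv_mulVec σ f hf b _ h0b, utv_mulVec σ f hf b _ h0b, uf_smul_right σ f hf,
      uf_smul_right σ f hf, hab, mul_zero, zero_smul, add_zero, ← hμ] at h2
    rw [← h2]
    exact M.mul_mem (M.mul_mem (hP (utv_iso_mem σ f hf b hbb ε hε)) hmem)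
      (M.inv_mem (hP (utv_iso_mem σ f hf b hbb ε hε)))
  have h3 : utv σ f hf a (μ • b) ∈ M := by
    have h4 := utv_add_right σ f hf a (w + μ • b) (-w)
      (by rw [uf_add_right σ f hf, h, haμ, add_zero]) (by rw [uf_neg_right σ f hf, h, neg_zero])
    have h5 : w + μ • b + -w = μ • b := by abel
    rw [h5] at h4
    rw [← h4, ← utv_neg_right σ f hf a w h]
    exact M.mul_mem h1 (M.inv_mem hmem)
  have hli2 : LinearIndependent F ![b, a] := li_pair_of_sep' σ f hf b a w ha0 h hbw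
  obtain ⟨b', hb'b', hb'b, hb'a⟩ := uf_exists_iso_sep σ f hf hn b a hli2
  have hbb' : f b b' = 0 := uf_orth_symm σ f hf _ _ hb'b
  have hab' : f a b' ≠ 0 := uf_ne_symm σ f hf _ _ hb'a
  have h0b' : f b' (ε • b') = 0 := by rw [uf_smul_right σ f hf, hb'b', mul_zero]
  obtain ⟨ν, hν⟩ : ∃ ν : F, ν = σ ε * f a b' := ⟨_, rfl⟩
  have hν0 : ν ≠ 0 := by
    rw [hν]
    exact mul_ne_zero hσε hab'
  have hνb : f (ν • b') (μ • b) = 0 := by
    rw [hf.smul_left, uf_smul_right σ f hf, hb'b, mul_zero, mul_zero]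
  have h5 : utv σ f hf (a + ν • b') (μ • b) ∈ M := by
    have h6 := utv_conj σ f hf (utv σ f hf b' (ε • b')) (utv_iso σ f hf b' hb'b' ε hε) a (μ • b)
      haμ
    rw [utv_mulVec σ f hf b' _ h0b', utv_mulVec σ f hf b' _ h0b', hf.smul_left μ b,
      uf_smul_right σ f hf, uf_smul_right σ f hf, hbb', mul_zero, mul_zero, zero_smul, add_zero,
      ← hν] at h6
    rw [← h6]
    exact M.mul_mem (M.mul_mem (hP (utv_iso_mem σ f hf b' hb'b' ε hε)) h3)
      (M.inv_mem (hP (utv_iso_mem σ f hf b' hb'b' ε hε)))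
  have h7 : utv σ f hf (ν • b') (μ • b) ∈ M := by
    have h8 := utv_add_left σ f hf (a + ν • b') (-a) (μ • b)
      (by rw [hf.add_left, haμ, hνb, add_zero]) (by rw [uf_neg_left σ f hf, haμ, neg_zero])
    have h9 : a + ν • b' + -a = ν • b' := by abel
    rw [h9] at h8
    rw [← h8, ← utv_neg_left σ f hf a (μ • b) haμ]
    exact M.mul_mem h5 (M.inv_mem h3)
  refine ⟨ν • b', μ • b, ?_, ?_, ?_, hνb, h7⟩
  · apply li_pair_of_sep' σ f hf (ν • b') (μ • b) a (smul_ne_zero hμ0 hb0)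
    · rw [hf.smul_left, hba, mul_zero]
    · rw [hf.smul_left]
      exact mul_ne_zero hν0 hb'a
  · rw [hf.smul_left, uf_smul_right σ f hf, hb'b', mul_zero, mul_zero]
  · rw [hf.smul_left, uf_smul_right σ f hf, hbb, mul_zero, mul_zero]

/-- all transvections `T(a, w)` with `a`, `w` independent orthogonal isotropic vectors. -/
theorem uf_all00 (hf : Cfsg.Geo.IsUnitaryForm σ f) (hn : 12 ≤ n)
    (M : Subgroup (Matrix.GeneralLinearGroup (Fin n) F))
    (hP : Cfsg.Geo.similarityGroup f ⊓ Cfsg.Geo.specialLinear (Fin n) F ≤ M)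
    (a₁ w₁ : Fin n → F) (h₁ : LinearIndependent F ![a₁, w₁]) (ha₁ : f a₁ a₁ = 0)
    (hw₁ : f w₁ w₁ = 0) (haw₁ : f a₁ w₁ = 0) (hmem : utv σ f hf a₁ w₁ ∈ M)
    (a w : Fin n → F) (h : LinearIndependent F ![a, w]) (ha : f a a = 0) (hw : f w w = 0)
    (haw : f a w = 0) : utv σ f hf a w ∈ M := by
  obtain ⟨s, hsP, hs, hsa, hsw⟩ := uf_pair_trans σ f hf hn a₁ w₁ a w h₁ h ha₁ hw₁ haw₁ ha hw haw
  have h1 := utv_conj σ f hf s hs a₁ w₁ haw₁
  rw [hsa, hsw] at h1
  rw [← h1]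
  exact M.mul_mem (M.mul_mem (hP hsP) hmem) (M.inv_mem (hP hsP))

/-- all transvections. -/
theorem uf_all (hf : Cfsg.Geo.IsUnitaryForm σ f) (hn : 12 ≤ n)
    (M : Subgroup (Matrix.GeneralLinearGroup (Fin n) F))
    (hP : Cfsg.Geo.similarityGroup f ⊓ Cfsg.Geo.specialLinear (Fin n) F ≤ M)
    (a₁ w₁ : Fin n → F) (h₁ : LinearIndependent F ![a₁, w₁]) (ha₁ : f a₁ a₁ = 0)
    (hw₁ : f w₁ w₁ = 0) (haw₁ : f a₁ w₁ = 0) (hmem : utv σ f hf a₁ w₁ ∈ M) :
    ∀ a w : Fin n → F, f a w = 0 → utv σ f hf a w ∈ M := by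
  have h00 := uf_all00 σ f hf hn M hP a₁ w₁ h₁ ha₁ hw₁ haw₁ hmem
  have hD : ∀ b w : Fin n → F, f b b = 0 → f w w = 0 → f b w = 0 → utv σ f hf b w ∈ M := by
    intro b w hbb hww hbw
    by_cases hli : LinearIndependent F ![b, w]
    · exact h00 b w hli hbb hww hbw
    by_cases hb0 : b = 0
    · rw [hb0, utv_zero_left]
      exact M.one_mem
    obtain ⟨c, hc⟩ := not_li_pair b w hb0 hli
    obtain ⟨u, hux, huu, hu'⟩ := uf_exists_orth_fam σ f hf (fun _ : Fin 1 => b) 2 (by omega)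
    obtain ⟨c', hc'⟩ := uf_exists_iso_comb σ f hf (u 0) (u 1) (huu 0 1 (by decide)) (hu' 0)
      (hu' 1)
    obtain ⟨b'', hb''⟩ : ∃ b'' : Fin n → F, b'' = u 0 + c' • u 1 := ⟨_, rfl⟩
    rw [← hb''] at hc'
    have hb''b : f b'' b = 0 := by
      rw [hb'', hf.add_left, hf.smul_left, hux 0 0, hux 1 0, mul_zero, add_zero]
    have hbb'' : f b b'' = 0 := uf_orth_symm σ f hf _ _ hb''b
    have hb''u : f b'' (u 0) ≠ 0 := by
      rw [hb'', hf.add_left, hf.smul_left, huu 1 0 (by decide), mul_zero, add_zero]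
      exact hu' 0
    have hbu : f b (u 0) = 0 := uf_orth_symm σ f hf _ _ (hux 0 0)
    have h1 : utv σ f hf b (w + b'') ∈ M := by
      apply h00
      · apply li_pair_of_sep σ f hf b (w + b'') (u 0) hb0 hbu
        rw [hf.add_left, hc, hf.smul_left, hbu, mul_zero, zero_add]
        exact hb''u
      · exact hbb
      · rw [hc]
        simp only [hf.add_left, uf_add_right σ f hf, hf.smul_left, uf_smul_right σ f hf, hbb,
          hbb'', hb''b, hc', mul_zero, add_zero]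
      · rw [uf_add_right σ f hf, hbw, hbb'', add_zero]
    have h2 : utv σ f hf b (-b'') ∈ M := by
      apply h00
      · apply li_pair_of_sep σ f hf b (-b'') (u 0) hb0 hbu
        rw [uf_neg_left σ f hf]
        exact neg_ne_zero.mpr hb''u
      · exact hbb
      · rw [uf_neg_left σ f hf, uf_neg_right σ f hf, hc', neg_zero, neg_zero]
      · rw [uf_neg_right σ f hf, hbb'', neg_zero]
    have h3 := utv_add_right σ f hf b (w + b'') (-b'')
      (by rw [uf_add_right σ f hf, hbw, hbb'', add_zero])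
      (by rw [uf_neg_right σ f hf, hbb'', neg_zero])
    rw [add_neg_cancel_right] at h3
    rw [← h3]
    exact M.mul_mem h1 h2
  have hE1 : ∀ a w : Fin n → F, f a a = 0 → f a w = 0 → utv σ f hf a w ∈ M := by
    intro a w haa haw
    let S : AddSubgroup (Fin n → F) :=
      { carrier := {w | f a w = 0 ∧ utv σ f hf a w ∈ M}
        zero_mem' := ⟨uf_zero_right σ f hf a, by rw [utv_zero_right]; exact M.one_mem⟩
        add_mem' := fun {x y} hx hy => ⟨by rw [uf_add_right σ f hf, hx.1, hy.1, add_zero], by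
          rw [← utv_add_right σ f hf a x y hx.1 hy.1]
          exact M.mul_mem hx.2 hy.2⟩
        neg_mem' := fun {x} hx => ⟨by rw [uf_neg_right σ f hf, hx.1, neg_zero], by
          rw [← utv_neg_right σ f hf a x hx.1]
          exact M.inv_mem hx.2⟩ }
    have h1 : w ∈ S := uf_iso_gen σ f hf (by omega) a S
      (fun b hba hbb => ⟨uf_orth_symm σ f hf _ _ hba,
        hD a b haa hbb (uf_orth_symm σ f hf _ _ hba)⟩) w (uf_orth_symm σ f hf _ _ haw)
    exact h1.2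
  intro a w haw
  let S : AddSubgroup (Fin n → F) :=
    { carrier := {a | f a w = 0 ∧ utv σ f hf a w ∈ M}
      zero_mem' := ⟨uf_zero_left σ f hf w, by rw [utv_zero_left]; exact M.one_mem⟩
      add_mem' := fun {x y} hx hy => ⟨by rw [hf.add_left, hx.1, hy.1, add_zero], by
        rw [← utv_add_left σ f hf x y w hx.1 hy.1]
        exact M.mul_mem hx.2 hy.2⟩
      neg_mem' := fun {x} hx => ⟨by rw [uf_neg_left σ f hf, hx.1, neg_zero], by
        rw [← utv_neg_left σ f hf x w hx.1]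
        exact M.inv_mem hx.2⟩ }
  have h1 : a ∈ S := uf_iso_gen σ f hf (by omega) w S
    (fun b hbw hbb => ⟨hbw, hE1 b w hbb hbw⟩) a haw
  exact h1.2

/-- a transvection `T(a, w)` with `a`, `w` linearly independent is not a similarity. -/
theorem utv_not_sim (hf : Cfsg.Geo.IsUnitaryForm σ f) (hn : 5 ≤ n) (a w : Fin n → F)
    (hli : LinearIndependent F ![a, w]) (h : f a w = 0) :
    utv σ f hf a w ∉ Cfsg.Geo.similarityGroup f := by
  rintro ⟨c, hc⟩
  have hT := utv_mulVec σ f hf a w h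
  obtain ⟨x₀, hx₀, -, hx₀x₀⟩ := uf_exists_aniso σ f hf (k := 2) (j := 0) (by omega) ![a, w]
    (fun l => l.elim0) (fun l => l.elim0) (fun l => l.elim0)
  have hx₀w : f x₀ w = 0 := hx₀ 1
  have hc1 : (c : F) = 1 := by
    have h1 := hc x₀ x₀
    rw [hT, hx₀w, zero_smul, add_zero] at h1
    have h2 : ((c : F) - 1) * f x₀ x₀ = 0 := by linear_combination -h1
    exact sub_eq_zero.mp ((mul_eq_zero.mp h2).resolve_right hx₀x₀)
  obtain ⟨x₁, hx₁⟩ := uf_dual σ f hf ![a, w] hli ![1, 0]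
  have e1 : f x₁ a = 1 := hx₁ 0
  have e2 : f x₁ w = 0 := hx₁ 1
  have hw0 : w ≠ 0 := hli.ne_zero 1
  obtain ⟨y, hy⟩ := (hf.nondegenerate w hw0).2
  have h1 := hc x₁ y
  rw [hc1, one_mul, hT, hT, e2, zero_smul, add_zero, uf_add_right σ f hf, uf_smul_right σ f hf,
    e1, mul_one] at h1
  have h2 : σ (f y w) = 0 := by linear_combination h1
  rw [← hf.herm w y] at h2
  exact hy h2

/-- The similarity group of a unitary form is maximal in `SL_n(F)`. -/
theorem sl_unit_max (hn : 13 ≤ n) (hf : Cfsg.Geo.IsUnitaryForm σ f) :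
    Cfsg.Geo.IsMaximalIn (Cfsg.Geo.specialLinear (Fin n) F)
      (Cfsg.Geo.similarityGroup f ⊓ Cfsg.Geo.specialLinear (Fin n) F) := by
  classical
  refine ⟨lt_of_le_of_ne inf_le_right ?_, ?_⟩
  · intro heq
    obtain ⟨u, hux, huu, hu'⟩ := uf_exists_orth_fam σ f hf (fun i : Fin 0 => i.elim0) 2 (by omega)
    have hli : LinearIndependent F ![u 0, u 1] :=
      li_pair_of_sep σ f hf (u 0) (u 1) (u 1)
        (by intro h0; apply hu' 0; rw [h0, uf_zero_left σ f hf])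
        (huu 0 1 (by decide)) (hu' 1)
    have h1 : utv σ f hf (u 0) (u 1) ∈
        Cfsg.Geo.similarityGroup f ⊓ Cfsg.Geo.specialLinear (Fin n) F := by
      rw [heq]
      exact utv_mem_sl σ f hf _ _ (huu 0 1 (by decide))
    exact utv_not_sim σ f hf (by omega) _ _ hli (huu 0 1 (by decide)) h1.1
  · intro M hPM hMS
    by_cases hMP : M ≤ Cfsg.Geo.similarityGroup f ⊓ Cfsg.Geo.specialLinear (Fin n) F
    · left
      exact le_antisymm hMP hPM
    · right
      obtain ⟨g, hgM, hgP⟩ := SetLike.not_le_iff_exists.mp hMP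
      have hg : g ∉ Cfsg.Geo.similarityGroup f := fun h => hgP ⟨h, hMS hgM⟩
      obtain ⟨a₀, w₀, hli₀, h₀, hmem₀⟩ := uf_initial σ f hf (by omega) M hPM g hgM hg
      obtain ⟨a₁, w₁, hli₁, ha₁, hw₁, haw₁, hmem₁⟩ :=
        uf_pair00 σ f hf (by omega) M hPM a₀ w₀ hli₀ h₀ hmem₀
      have hall := uf_all σ f hf (by omega) M hPM a₁ w₁ hli₁ ha₁ hw₁ haw₁ hmem₁
      refine le_antisymm hMS (sl_le_of_ltv (by omega) M ?_)
      intro a φ hφ
      obtain ⟨w, hw⟩ := uf_riesz σ f hf φ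
      have h1 : φ = ufφ σ f hf w := LinearMap.ext (fun x => (hw x).symm)
      rw [h1]
      exact hall a w (by rw [hw]; exact hφ)

end SLUnit

end Cfsg.Agent.Lib.helper4
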