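import Mathlib

set_option autoImplicit false
set_option linter.unusedSectionVars false
set_option linter.deprecated false

/-!
# Self-dual faithful irreducible modules of abelian groups over finite fields
-/

namespace Cfsg.Agent.Lib.helper4

open Polynomial

section FieldLemmas

variable {K L : Type*} [Field K] [Fintype K] [Field L] [Finite L] [Algebra K L]

theorem frobK_pow_apply (k : ℕ) (x : L) :
    (FiniteField.frobeniusAlgEquivOfAlgebraic K L ^ k) x = x ^ (Fintype.card K ^ k) := by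
  induction k generalizing x with
  | zero => simp
  | succ k ih =>
    have h := congrFun (FiniteField.coe_frobeniusAlgEquivOfAlgebraic K L)
      (x ^ (Fintype.card K ^ k))
    rw [pow_succ', AlgEquiv.mul_apply, ih, h, ← pow_mul, ← pow_succ]

theorem selfdual_field_even (θ : L) (hθ : Algebra.adjoin K {θ} = ⊤)
    (B : LinearMap.BilinForm K L) (hB : B.Nondegenerate)
    (hinv : ∀ x y, B (θ * x) (θ * y) = B x y) (hn : 2 ≤ Module.finrank K L) :
    Even (Module.finrank K L) ∧ θ ^ (Fintype.card K ^ (Module.finrank K L / 2) + 1) = 1 := by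
  classical
  have hθ0 : θ ≠ 0 := by
    intro h0
    have h1 : ∀ x y, B x y = 0 := by
      intro x y
      rw [← hinv, h0, zero_mul, map_zero, LinearMap.zero_apply]
    have h2 : (1 : L) = 0 := hB.1 1 (fun y => h1 1 y)
    exact one_ne_zero h2
  have hadj : ∀ x y, B (θ * x) y = B x (θ⁻¹ * y) := by
    intro x y
    have h1 := hinv x (θ⁻¹ * y)
    rw [← mul_assoc, mul_inv_cancel₀ hθ0, one_mul] at h1
    exact h1
  have hpow : ∀ (m : ℕ) x y, B (θ ^ m * x) y = B x (θ⁻¹ ^ m * y) := by
    intro m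
    induction m with
    | zero =>
      intro x y
      rw [pow_zero, pow_zero, one_mul, one_mul]
    | succ m ih =>
      intro x y
      rw [pow_succ, mul_assoc, ih, hadj, ← mul_assoc, ← pow_succ']
  have hpoly : ∀ (f : K[X]) x y, B (aeval θ f * x) y = B x (aeval θ⁻¹ f * y) := by
    intro f
    induction f using Polynomial.induction_on' with
    | add f g hf hg =>
      intro x y
      rw [map_add, map_add, add_mul, add_mul, map_add, LinearMap.add_apply, map_add, hf, hg]
    | monomial m a =>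
      intro x y
      rw [aeval_monomial, aeval_monomial, mul_assoc, mul_assoc, ← Algebra.smul_def,
        ← Algebra.smul_def, map_smul, LinearMap.smul_apply, map_smul, hpow]
  have hμ : aeval θ⁻¹ (minpoly K θ) = 0 := by
    have h1 : ∀ x, B x (aeval θ⁻¹ (minpoly K θ) * 1) = 0 := by
      intro x
      rw [← hpoly, minpoly.aeval, zero_mul, map_zero, LinearMap.zero_apply]
    have h2 := hB.2 _ h1
    rwa [mul_one] at h2
  obtain ⟨σ, hσ⟩ := minpoly.exists_algEquiv_of_root' (Algebra.IsAlgebraic.isAlgebraic θ) hμ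
  obtain ⟨k, hk⟩ := (FiniteField.bijective_frobeniusAlgEquivOfAlgebraic_pow K L).2 σ
  have hk' : θ ^ (Fintype.card K ^ (k : ℕ)) = θ⁻¹ := by
    have h1 : FiniteField.frobeniusAlgEquivOfAlgebraic K L ^ (k : ℕ) = σ := hk
    rw [← frobK_pow_apply (K := K), h1, hσ]
  have h2k : (FiniteField.frobeniusAlgEquivOfAlgebraic K L) ^ (2 * (k : ℕ)) = 1 := by
    apply AlgEquiv.coe_algHom_injective
    apply AlgHom.ext_of_adjoin_eq_top hθ
    intro x hx
    rw [Set.mem_singleton_iff] at hx
    subst hx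
    show (FiniteField.frobeniusAlgEquivOfAlgebraic K L ^ (2 * (k : ℕ))) x = x
    rw [frobK_pow_apply, two_mul, pow_add, pow_mul, hk', inv_pow, hk', inv_inv]
  have hdvd : Module.finrank K L ∣ 2 * (k : ℕ) := by
    have h := orderOf_dvd_of_pow_eq_one h2k
    rw [FiniteField.orderOf_frobeniusAlgEquivOfAlgebraic] at h
    exact h
  have hklt : (k : ℕ) < Module.finrank K L := k.2
  have hk0 : (k : ℕ) ≠ 0 := by
    intro h0
    rw [h0, pow_zero, pow_one] at hk'
    have h3 : θ * θ = 1 := by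
      nth_rewrite 2 [hk']
      exact mul_inv_cancel₀ hθ0
    have h4 : θ = 1 ∨ θ = -1 := by
      have h5 : (θ - 1) * (θ + 1) = 0 := by linear_combination h3
      rcases mul_eq_zero.mp h5 with h | h
      · left
        exact sub_eq_zero.mp h
      · right
        exact eq_neg_of_add_eq_zero_left h
    have h5 : θ ∈ (⊥ : Subalgebra K L) := by
      rcases h4 with h | h
      · rw [h]
        exact one_mem _
      · rw [h]
        exact neg_mem (one_mem _)
    have h6 : (⊥ : Subalgebra K L) = ⊤ := by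
      apply le_antisymm bot_le
      rw [← hθ]
      exact Algebra.adjoin_le (Set.singleton_subset_iff.mpr h5)
    rw [Subalgebra.bot_eq_top_iff_finrank_eq_one] at h6
    omega
  have hn2 : Module.finrank K L = 2 * (k : ℕ) := by
    obtain ⟨c, hc⟩ := hdvd
    rcases c with _ | _ | c
    · omega
    · omega
    · exfalso
      have h7 : Module.finrank K L * 2 ≤ Module.finrank K L * (c + 1 + 1) :=
        Nat.mul_le_mul_left _ (by omega)
      obtain ⟨P, hP⟩ : ∃ P, P = Module.finrank K L * (c + 1 + 1) := ⟨_, rfl⟩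
      rw [← hP] at hc h7
      omega
  refine ⟨⟨k, by omega⟩, ?_⟩
  have h8 : Module.finrank K L / 2 = k := by omega
  rw [h8, pow_succ, hk', inv_mul_cancel₀ hθ0]

theorem selfdual_field_exists (k : ℕ) :
    ∃ B : LinearMap.BilinForm K L, B.Nondegenerate ∧
      ∀ s x y : L, s ^ (Fintype.card K ^ k + 1) = 1 → B (s * x) (s * y) = B x y := by
  classical
  obtain ⟨σ, hσ⟩ : ∃ σ : L ≃ₐ[K] L, ∀ x, σ x = x ^ (Fintype.card K ^ k) :=
    ⟨FiniteField.frobeniusAlgEquivOfAlgebraic K L ^ k, frobK_pow_apply k⟩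
  refine ⟨(Algebra.traceForm K L).comp LinearMap.id σ.toLinearMap, ⟨?_, ?_⟩, ?_⟩
  · intro x hx
    apply (traceForm_nondegenerate K L).1
    intro y
    have h1 := hx (σ.symm y)
    simpa using h1
  · intro y hy
    have h1 : σ y = 0 := by
      apply (traceForm_nondegenerate K L).2
      intro x
      have h2 := hy x
      simpa using h2
    simpa using h1
  · intro s x y hs
    simp only [LinearMap.BilinForm.comp_apply, LinearMap.id_apply, AlgEquiv.toLinearMap_apply,
      Algebra.traceForm_apply, map_mul, hσ s]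
    congr 1
    have h1 : s * s ^ (Fintype.card K ^ k) = 1 := by
      rw [← pow_succ']
      exact hs
    calc s * x * (s ^ (Fintype.card K ^ k) * σ y)
        = (s * s ^ (Fintype.card K ^ k)) * (x * σ y) := by ring
      _ = x * σ y := by rw [h1, one_mul]

end FieldLemmas

section Operator

variable {F : Type*} [Field F] {V : Type*} [AddCommGroup V] [Module F V] [FiniteDimensional F V]

theorem aeval_comm_end (ζ : Module.End F V) (f : F[X]) (v : V) :
    aeval ζ f (ζ v) = ζ (aeval ζ f v) := by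
  have h : aeval ζ f * ζ = ζ * aeval ζ f := by
    have h1 : aeval ζ (f * X) = aeval ζ (X * f) := by rw [mul_comm]
    rw [map_mul, map_mul, aeval_X] at h1
    exact h1
  exact LinearMap.congr_fun h v

theorem schur_poly (ζ : Module.End F V)
    (hirr : ∀ U : Submodule F V, (∀ u ∈ U, ζ u ∈ U) → U = ⊥ ∨ U = ⊤) (f : F[X]) :
    aeval ζ f = 0 ∨ Function.Injective (aeval ζ f) := by
  have h1 := hirr (LinearMap.ker (aeval ζ f)) (fun u hu => by
    rw [LinearMap.mem_ker] at hu ⊢
    rw [aeval_comm_end, hu, map_zero])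
  rcases h1 with h | h
  · right
    exact LinearMap.ker_eq_bot.mp h
  · left
    exact LinearMap.ker_eq_top.mp h

theorem minpoly_irred [Nontrivial V] (ζ : Module.End F V)
    (hirr : ∀ U : Submodule F V, (∀ u ∈ U, ζ u ∈ U) → U = ⊥ ∨ U = ⊤) :
    Irreducible (minpoly F ζ) := by
  have hint : IsIntegral F ζ := Algebra.IsIntegral.isIntegral ζ
  have hμ0 : minpoly F ζ ≠ 0 := minpoly.ne_zero hint
  have key : ∀ a b : F[X], minpoly F ζ = a * b → aeval ζ a = 0 → IsUnit b := by
    intro a b hab ha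
    obtain ⟨c, hc⟩ := minpoly.dvd F ζ ha
    have h1 : minpoly F ζ * (c * b) = minpoly F ζ * 1 := by
      rw [mul_one, ← mul_assoc, ← hc, ← hab]
    have h2 := mul_left_cancel₀ hμ0 h1
    exact IsUnit.of_mul_eq_one c (by rw [mul_comm]; exact h2)
  rw [irreducible_iff]
  refine ⟨minpoly.not_isUnit F ζ, fun a b hab => ?_⟩
  rcases schur_poly ζ hirr a with ha | ha
  · right
    exact key a b hab ha
  · left
    apply key b a (by rw [hab, mul_comm])
    apply LinearMap.ext
    intro v
    apply ha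
    have h3 : aeval ζ a * aeval ζ b = 0 := by rw [← map_mul, ← hab, minpoly.aeval]
    have h4 := LinearMap.congr_fun h3 v
    rw [LinearMap.zero_apply, map_zero]
    exact h4

theorem exists_adjoinRoot_equiv [Nontrivial V] (ζ : Module.End F V)
    (hirr : ∀ U : Submodule F V, (∀ u ∈ U, ζ u ∈ U) → U = ⊥ ∨ U = ⊤) :
    ∃ ψ : AdjoinRoot (minpoly F ζ) ≃ₗ[F] V,
      ∀ ℓ, ψ (AdjoinRoot.root (minpoly F ζ) * ℓ) = ζ (ψ ℓ) := by
  classical
  obtain ⟨v₀, hv₀⟩ := exists_ne (0 : V)
  obtain ⟨ψ₀, hψ₀⟩ : ∃ ψ₀ : F[X] →ₗ[F] V, ∀ f, ψ₀ f = aeval ζ f v₀ :=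
    ⟨(LinearMap.applyₗ v₀).comp (aeval ζ).toLinearMap, fun f => rfl⟩
  have hker : ∀ f, ψ₀ f = 0 ↔ minpoly F ζ ∣ f := by
    intro f
    constructor
    · intro h
      apply minpoly.dvd
      rcases schur_poly ζ hirr f with h1 | h1
      · exact h1
      · exfalso
        apply hv₀
        apply h1
        rw [map_zero, ← hψ₀, h]
    · rintro ⟨c, rfl⟩
      rw [hψ₀, map_mul, minpoly.aeval, zero_mul, LinearMap.zero_apply]
  have hsurj : Function.Surjective ψ₀ := by
    rw [← LinearMap.range_eq_top]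
    rcases hirr (LinearMap.range ψ₀) (by
      rintro _ ⟨f, rfl⟩
      refine ⟨X * f, ?_⟩
      rw [hψ₀, hψ₀, map_mul, aeval_X]
      rfl) with h | h
    · exfalso
      apply hv₀
      have h1 : v₀ ∈ LinearMap.range ψ₀ := ⟨1, by rw [hψ₀, map_one]; rfl⟩
      rw [h, Submodule.mem_bot] at h1
      exact h1
    · exact h
  have hmk : Function.Surjective (AdjoinRoot.mk (minpoly F ζ)) := AdjoinRoot.mk_surjective
  have hkey : ∀ f g, AdjoinRoot.mk (minpoly F ζ) f = AdjoinRoot.mk (minpoly F ζ) g →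
      ψ₀ f = ψ₀ g := by
    intro f g h
    rw [AdjoinRoot.mk_eq_mk] at h
    have h1 := (hker (f - g)).mpr h
    rw [map_sub, sub_eq_zero] at h1
    exact h1
  have hχ : ∀ f, ψ₀ (Function.surjInv hmk (AdjoinRoot.mk (minpoly F ζ) f)) = ψ₀ f :=
    fun f => hkey _ _ (Function.surjInv_eq hmk _)
  obtain ⟨χ, hχ'⟩ : ∃ χ : AdjoinRoot (minpoly F ζ) →ₗ[F] V,
      ∀ f, χ (AdjoinRoot.mk (minpoly F ζ) f) = ψ₀ f := by
    refine ⟨{ toFun := fun ℓ => ψ₀ (Function.surjInv hmk ℓ)
              map_add' := ?_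
              map_smul' := ?_ }, hχ⟩
    · intro a b
      obtain ⟨f, rfl⟩ := hmk a
      obtain ⟨g, rfl⟩ := hmk b
      rw [← map_add, hχ, hχ, hχ, map_add]
    · intro c a
      obtain ⟨f, rfl⟩ := hmk a
      rw [AdjoinRoot.smul_mk, hχ, hχ, map_smul, RingHom.id_apply]
  have hinj : Function.Injective χ := by
    rw [← LinearMap.ker_eq_bot, LinearMap.ker_eq_bot']
    intro ℓ hℓ
    obtain ⟨f, rfl⟩ := hmk ℓ
    rw [hχ', hker] at hℓ
    exact AdjoinRoot.mk_eq_zero.mpr hℓ
  have hsurjχ : Function.Surjective χ := by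
    intro v
    obtain ⟨f, rfl⟩ := hsurj v
    exact ⟨AdjoinRoot.mk _ f, hχ' f⟩
  refine ⟨LinearEquiv.ofBijective χ ⟨hinj, hsurjχ⟩, fun ℓ => ?_⟩
  obtain ⟨f, rfl⟩ := hmk ℓ
  show χ (AdjoinRoot.root (minpoly F ζ) * (AdjoinRoot.mk (minpoly F ζ)) f)
    = ζ (χ ((AdjoinRoot.mk (minpoly F ζ)) f))
  rw [← AdjoinRoot.mk_X, ← map_mul, hχ', hχ', hψ₀, hψ₀, map_mul, aeval_X]
  rfl

end Operator

section GroupPart

variable {F : Type*} [Field F] [Fintype F] {H : Type*} [CommGroup H] [Finite H]
  {V : Type*} [AddCommGroup V] [Module F V] [FiniteDimensional F V]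

theorem cyclic_of_irred [Nontrivial V] (ρ : Representation F H V)
    (hfaith : Function.Injective ρ)
    (hirr : ∀ U : Submodule F V, (∀ h : H, ∀ u ∈ U, ρ h u ∈ U) → U = ⊥ ∨ U = ⊤) :
    ∃ h₀ : H, ∀ h, ∃ k : ℕ, h = h₀ ^ k := by
  classical
  have hcomm : ∀ a ∈ Set.range ρ, ∀ b ∈ Set.range ρ, a * b = b * a := by
    rintro _ ⟨g, rfl⟩ _ ⟨h, rfl⟩
    rw [← map_mul, ← map_mul, mul_comm]
  letI : CommRing (Algebra.adjoin F (Set.range ρ)) := Algebra.adjoinCommRingOfComm F hcomm
  have hcommE : ∀ (a : Algebra.adjoin F (Set.range ρ)) (h : H),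
      (a : Module.End F V) * ρ h = ρ h * (a : Module.End F V) := by
    intro a h
    have h1 := mul_comm a ⟨ρ h, Algebra.subset_adjoin ⟨h, rfl⟩⟩
    exact congrArg Subtype.val h1
  have hschur : ∀ a : Algebra.adjoin F (Set.range ρ), a ≠ 0 →
      Function.Injective (a : Module.End F V) := by
    intro a ha
    rcases hirr (LinearMap.ker (a : Module.End F V)) (fun h u hu => by
      rw [LinearMap.mem_ker] at hu ⊢
      have h1 := LinearMap.congr_fun (hcommE a h) u
      change (a : Module.End F V) (ρ h u) = (ρ h) ((a : Module.End F V) u) at h1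
      rw [h1, hu, map_zero]) with h | h
    · exact LinearMap.ker_eq_bot.mp h
    · exfalso
      apply ha
      apply Subtype.ext
      exact LinearMap.ker_eq_top.mp h
  haveI : Nontrivial (Algebra.adjoin F (Set.range ρ)) := ⟨⟨0, 1, fun h => by
    have h1 := congrArg Subtype.val h
    obtain ⟨v, hv⟩ := exists_ne (0 : V)
    have h2 := LinearMap.congr_fun h1 v
    exact hv h2.symm⟩⟩
  haveI : NoZeroDivisors (Algebra.adjoin F (Set.range ρ)) := ⟨fun {a b} hab => by
    by_contra hcon
    push Not at hcon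
    apply hcon.2
    apply Subtype.ext
    apply LinearMap.ext
    intro v
    apply hschur a hcon.1
    have h1 := LinearMap.congr_fun (congrArg Subtype.val hab) v
    have h2 : ((0 : Algebra.adjoin F (Set.range ρ)) : Module.End F V) v = 0 := rfl
    rw [h2, map_zero]
    rw [h2] at h1
    exact h1⟩
  haveI : IsDomain (Algebra.adjoin F (Set.range ρ)) := NoZeroDivisors.to_isDomain _
  obtain ⟨f, hf⟩ : ∃ f : H →* (Algebra.adjoin F (Set.range ρ)),
      ∀ h, (f h : Module.End F V) = ρ h :=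
    ⟨{ toFun := fun h => ⟨ρ h, Algebra.subset_adjoin ⟨h, rfl⟩⟩
       map_one' := Subtype.ext (map_one ρ)
       map_mul' := fun a b => Subtype.ext (map_mul ρ a b) }, fun h => rfl⟩
  haveI : IsCyclic H := isCyclic_of_subgroup_isDomain f
    (fun a b hab => hfaith (by rw [← hf, ← hf, hab]))
  obtain ⟨h₀, hh₀⟩ := IsCyclic.exists_monoid_generator (α := H)
  refine ⟨h₀, fun h => ?_⟩
  obtain ⟨k, hk⟩ := (Submonoid.mem_powers_iff _ _).mp (hh₀ h)
  exact ⟨k, hk.symm⟩

theorem selfdual_dim_one (ρ : Representation F H V) (hfaith : Function.Injective ρ)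
    (h1 : Module.finrank F V = 1) (B : LinearMap.BilinForm F V) (hB : B.Nondegenerate)
    (hBinv : ∀ h : H, ∀ x y : V, B (ρ h x) (ρ h y) = B x y) : Nat.card H ≤ 2 := by
  classical
  haveI : Nontrivial V := Module.nontrivial_of_finrank_pos (R := F) (by omega)
  obtain ⟨v₀, hv₀⟩ := exists_ne (0 : V)
  have hspan : ∀ y : V, ∃ c : F, c • v₀ = y := exists_smul_eq_of_finrank_eq_one h1 hv₀
  choose lam hlam using fun h : H => hspan (ρ h v₀)
  have hB0 : B v₀ v₀ ≠ 0 := by
    intro h0
    apply hv₀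
    apply hB.1
    intro y
    obtain ⟨c, rfl⟩ := hspan y
    rw [map_smul, smul_eq_mul, h0, mul_zero]
  have hsq : ∀ h, lam h * lam h = 1 := by
    intro h
    have h2 := hBinv h v₀ v₀
    rw [← hlam h, map_smul, map_smul, LinearMap.smul_apply, smul_eq_mul, smul_eq_mul] at h2
    have h3 : (lam h * lam h - 1) * B v₀ v₀ = 0 := by linear_combination h2
    rcases mul_eq_zero.mp h3 with h4 | h4
    · exact sub_eq_zero.mp h4
    · exact absurd h4 hB0
  have hpm : ∀ h, lam h = 1 ∨ lam h = -1 := by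
    intro h
    have h5 : (lam h - 1) * (lam h + 1) = 0 := by linear_combination hsq h
    rcases mul_eq_zero.mp h5 with h4 | h4
    · left
      exact sub_eq_zero.mp h4
    · right
      exact eq_neg_of_add_eq_zero_left h4
  have hinj : Function.Injective lam := by
    intro a b hab
    apply hfaith
    apply LinearMap.ext
    intro y
    obtain ⟨c, rfl⟩ := hspan y
    rw [map_smul, map_smul, ← hlam a, ← hlam b, hab]
  have hinj2 : Function.Injective (fun h : H => decide (lam h = 1)) := by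
    intro a b hab
    apply hinj
    simp only [decide_eq_decide] at hab
    rcases hpm a with ha | ha
    · rw [ha, hab.mp ha]
    · rcases hpm b with hb | hb
      · rw [hb, hab.mpr hb]
      · rw [ha, hb]
  have h6 := Nat.card_le_card_of_injective _ hinj2
  have h7 : Nat.card Bool = 2 := by rw [Nat.card_eq_fintype_card, Fintype.card_bool]
  rw [h7] at h6
  exact h6

theorem selfdual_main (ρ : Representation F H V) (hfaith : Function.Injective ρ)
    (hirr : ∀ U : Submodule F V, (∀ h : H, ∀ u ∈ U, ρ h u ∈ U) → U = ⊥ ∨ U = ⊤)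
    (hn : 2 ≤ Module.finrank F V) :
    (∃ B : LinearMap.BilinForm F V, B.Nondegenerate ∧
        ∀ h : H, ∀ x y : V, B (ρ h x) (ρ h y) = B x y) ↔
      (Even (Module.finrank F V) ∧
        Nat.card H ∣ Fintype.card F ^ (Module.finrank F V / 2) + 1) := by
  classical
  haveI : Nontrivial V := Module.nontrivial_of_finrank_pos (R := F) (by omega)
  haveI : Finite V := Module.finite_of_finite F
  obtain ⟨h₀, hh₀⟩ : ∃ h₀ : H, ∀ h, ∃ k : ℕ, h = h₀ ^ k := cyclic_of_irred ρ hfaith hirr
  obtain ⟨ζ, hζ⟩ : ∃ ζ : Module.End F V, ζ = ρ h₀ := ⟨_, rfl⟩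
  have hρ : ∀ k : ℕ, ρ (h₀ ^ k) = ζ ^ k := fun k => by rw [hζ, map_pow]
  have hζv : ∀ v, ζ v = ρ h₀ v := fun v => by rw [hζ]
  have hirrζ : ∀ U : Submodule F V, (∀ u ∈ U, ζ u ∈ U) → U = ⊥ ∨ U = ⊤ := by
    intro U hU
    apply hirr
    intro h u hu
    obtain ⟨k, rfl⟩ := hh₀ h
    rw [hρ]
    induction k with
    | zero =>
      rw [pow_zero]
      exact hu
    | succ k ih =>
      rw [pow_succ']
      exact hU _ ih
  haveI : Fact (Irreducible (minpoly F ζ)) := ⟨minpoly_irred ζ hirrζ⟩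
  obtain ⟨ψ, hψ⟩ := exists_adjoinRoot_equiv ζ hirrζ
  haveI : Finite (AdjoinRoot (minpoly F ζ)) := Finite.of_equiv V ψ.symm.toEquiv
  have hfr : Module.finrank F (AdjoinRoot (minpoly F ζ)) = Module.finrank F V := ψ.finrank_eq
  have hψk : ∀ (k : ℕ) ℓ, ψ (AdjoinRoot.root (minpoly F ζ) ^ k * ℓ) = (ζ ^ k) (ψ ℓ) := by
    intro k
    induction k with
    | zero =>
      intro ℓ
      rw [pow_zero, pow_zero, one_mul]
      rfl
    | succ k ih =>
      intro ℓ
      rw [pow_succ', mul_assoc, hψ, ih, pow_succ']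
      rfl
  have hord : orderOf h₀ = Nat.card H := by
    apply orderOf_eq_card_of_forall_mem_zpowers
    intro h
    obtain ⟨k, rfl⟩ := hh₀ h
    exact Subgroup.npow_mem_zpowers _ _
  constructor
  · rintro ⟨B, hB, hBinv⟩
    obtain ⟨he, hθ⟩ := selfdual_field_even (K := F) (AdjoinRoot.root (minpoly F ζ))
      AdjoinRoot.adjoinRoot_eq_top
      (LinearMap.BilinForm.congr ψ.symm B) (LinearMap.BilinForm.Nondegenerate.congr ψ.symm hB) (by
        intro x y
        rw [LinearMap.BilinForm.congr_apply, LinearMap.BilinForm.congr_apply,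
          LinearEquiv.symm_symm, hψ, hψ, hζv, hζv, hBinv]) (by rw [hfr]; exact hn)
    rw [hfr] at he hθ
    refine ⟨he, ?_⟩
    rw [← hord]
    apply orderOf_dvd_of_pow_eq_one
    apply hfaith
    rw [hρ, map_one]
    apply LinearMap.ext
    intro v
    obtain ⟨ℓ, rfl⟩ := ψ.surjective v
    rw [← hψk, hθ, one_mul]
    rfl
  · rintro ⟨he, hdvd⟩
    obtain ⟨B, hB, hBinv⟩ := selfdual_field_exists (K := F)
      (L := AdjoinRoot (minpoly F ζ)) (Module.finrank F V / 2)
    have hθ : AdjoinRoot.root (minpoly F ζ) ^ (Fintype.card F ^ (Module.finrank F V / 2) + 1)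
        = 1 := by
      have h1 : h₀ ^ (Fintype.card F ^ (Module.finrank F V / 2) + 1) = 1 := by
        obtain ⟨c, hc⟩ := hdvd
        rw [hc, pow_mul, pow_card_eq_one', one_pow]
      have h2 := hψk (Fintype.card F ^ (Module.finrank F V / 2) + 1) 1
      rw [← hρ, h1, map_one, mul_one] at h2
      exact ψ.injective h2
    refine ⟨LinearMap.BilinForm.congr ψ B, LinearMap.BilinForm.Nondegenerate.congr ψ hB, ?_⟩
    intro h x y
    obtain ⟨k, rfl⟩ := hh₀ h
    rw [hρ, LinearMap.BilinForm.congr_apply, LinearMap.BilinForm.congr_apply]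
    have h3 : ∀ z, ψ.symm ((ζ ^ k) z) = AdjoinRoot.root (minpoly F ζ) ^ k * ψ.symm z := by
      intro z
      apply ψ.injective
      rw [LinearEquiv.apply_symm_apply, hψk, LinearEquiv.apply_symm_apply]
    rw [h3, h3]
    apply hBinv
    rw [← pow_mul, mul_comm, pow_mul, hθ, one_pow]

end GroupPart

end Cfsg.Agent.Lib.helper4
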