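import Mathlib
import Cfsg.Prelude.Def_GeometricClasses
import Cfsg.Agent.Lib.helper4.Singer1

/-!
# Singer cycle normalisers: a bad element of order `n`
-/

namespace Cfsg.Agent.Lib.helper4.Singer

open Matrix Polynomial

universe u

variable {F : Type u} [Field F] {n : ℕ}

theorem exists_small [Fintype F] {p : ℕ} [Fact p.Prime] [CharP F p] (hn : n.Prime)
    (hn3 : 3 < n) (hnp : n ≠ p)
    (hord : orderOf ((Fintype.card F : ℕ) : ZMod n) ≠ n - 1) :
    ∃ m : ℕ, 1 ≤ m ∧ m + 2 ≤ n ∧ ∃ A : Matrix (Fin m) (Fin m) F,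
      A.det = 1 ∧ A ^ n = 1 ∧ A ≠ 1 := by
  classical
  haveI : Fact n.Prime := ⟨hn⟩
  obtain ⟨q, hq⟩ : ∃ q : ℕ, q = Fintype.card F := ⟨_, rfl⟩
  rw [← hq] at hord
  have hq1 : 1 < q := by rw [hq]; exact Fintype.one_lt_card
  have hq0 : (q : ZMod n) ≠ 0 := by
    intro h
    rw [ZMod.natCast_eq_zero_iff] at h
    obtain ⟨f, hp, hf⟩ := FiniteField.card F p
    rw [hq, hf] at h
    have h1 := hn.dvd_of_dvd_pow h
    exact hnp ((Nat.prime_dvd_prime_iff_eq hn hp).mp h1)
  obtain ⟨e, he⟩ : ∃ e : ℕ, e = orderOf (q : ZMod n) := ⟨_, rfl⟩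
  rw [← he] at hord
  have hpow : (q : ZMod n) ^ (n - 1) = 1 := ZMod.pow_card_sub_one_eq_one hq0
  have hedvd : e ∣ n - 1 := by rw [he]; exact orderOf_dvd_of_pow_eq_one hpow
  have he0 : 0 < e := Nat.pos_of_dvd_of_pos hedvd (by omega)
  have he2 : 2 * e ≤ n - 1 := by
    obtain ⟨c, hc⟩ := hedvd
    have hc2 : 2 ≤ c := by
      by_contra hlt
      have hc01 : c = 0 ∨ c = 1 := by omega
      rcases hc01 with h | h
      · rw [h, mul_zero] at hc; omega
      · rw [h, mul_one] at hc; exact hord hc.symm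
    calc 2 * e ≤ c * e := Nat.mul_le_mul_right e hc2
      _ = n - 1 := by rw [hc, mul_comm]
  have hqe : (q : ZMod n) ^ e = 1 := by rw [he]; exact pow_orderOf_eq_one _
  have hndvd : n ∣ q ^ e - 1 := by
    rw [← ZMod.natCast_eq_zero_iff, Nat.cast_sub (Nat.one_le_pow _ _ (by omega)), Nat.cast_pow,
      hqe, Nat.cast_one, sub_self]
  have hunits : ∀ δ : F, δ ≠ 0 → δ ^ n = 1 → δ ≠ 1 → e = 1 := by
    intro δ hδ0 hδn hδ1
    have h1 : (Units.mk0 δ hδ0) ^ n = 1 := by
      apply Units.ext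
      rw [Units.val_pow_eq_pow_val]
      exact hδn
    have h2 : Units.mk0 δ hδ0 ≠ 1 := by
      intro h
      apply hδ1
      have := congrArg Units.val h
      exact this
    have h3 : orderOf (Units.mk0 δ hδ0) = n := orderOf_eq_prime h1 h2
    have h4 : n ∣ Fintype.card Fˣ := by rw [← h3]; exact orderOf_dvd_card
    rw [Fintype.card_units, ← hq] at h4
    have h5 : (q : ZMod n) ^ 1 = 1 := by
      have : ((q - 1 : ℕ) : ZMod n) = 0 := (ZMod.natCast_eq_zero_iff _ _).mpr h4
      rw [Nat.cast_sub (by omega), Nat.cast_one, sub_eq_zero] at this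
      rw [pow_one, this]
    have h6 := orderOf_dvd_of_pow_eq_one h5
    rw [← he] at h6
    exact Nat.dvd_one.mp h6
  by_cases he1 : e = 1
  · rw [he1, pow_one] at hndvd
    have h4 : n ∣ Fintype.card Fˣ := by rw [Fintype.card_units, ← hq]; exact hndvd
    obtain ⟨ζ, hζ⟩ := exists_prime_orderOf_dvd_card n h4
    have hζn : (ζ : F) ^ n = 1 := by
      rw [← Units.val_pow_eq_pow_val, ← hζ, pow_orderOf_eq_one, Units.val_one]
    have hζ1 : (ζ : F) ≠ 1 := by
      intro h
      have : ζ = 1 := Units.ext h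
      rw [this, orderOf_one] at hζ
      exact hn.one_lt.ne hζ
    refine ⟨2, by omega, by omega, diagonal ![(ζ : F), ((ζ⁻¹ : Fˣ) : F)], ?_, ?_, ?_⟩
    · rw [det_diagonal, Fin.prod_univ_two]
      simp
    · rw [diagonal_pow, ← diagonal_one]
      congr 1
      funext i
      fin_cases i
      · simpa using hζn
      · simp only [Fin.mk_one, Fin.isValue, Pi.pow_apply, Matrix.cons_val_one,
          Matrix.cons_val_fin_one, Pi.one_apply]
        rw [← Units.val_pow_eq_pow_val, inv_pow, ← hζ, pow_orderOf_eq_one, inv_one,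
          Units.val_one]
    · intro h
      have := congrFun (congrFun h 0) 0
      rw [diagonal_apply_eq, Matrix.one_apply_eq] at this
      exact hζ1 (by simpa using this)
  · have he2' : 2 ≤ e := by omega
    have hcard := Matrix.card_GL_field (𝔽 := F) (n := e)
    have h4 : n ∣ Nat.card (GL (Fin e) F) := by
      rw [hcard, ← hq]
      have h5 : q ^ e - q ^ ((⟨0, he0⟩ : Fin e) : ℕ) ∣ ∏ i : Fin e, (q ^ e - q ^ (i : ℕ)) :=
        Finset.dvd_prod_of_mem _ (Finset.mem_univ _)
      exact dvd_trans (by simpa using hndvd) h5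
    obtain ⟨g, hg⟩ := exists_prime_orderOf_dvd_card' n h4
    have hgn : (g : Matrix (Fin e) (Fin e) F) ^ n = 1 := by
      rw [← Units.val_pow_eq_pow_val, ← hg, pow_orderOf_eq_one, Units.val_one]
    have hg1 : (g : Matrix (Fin e) (Fin e) F) ≠ 1 := by
      intro h
      have : g = 1 := Units.ext h
      rw [this, orderOf_one] at hg
      exact hn.one_lt.ne hg
    refine ⟨e, he0, by omega, (g : Matrix (Fin e) (Fin e) F), ?_, hgn, hg1⟩
    by_contra hdet
    have hδn : (g : Matrix (Fin e) (Fin e) F).det ^ n = 1 := by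
      rw [← det_pow, hgn, det_one]
    have hδ0 : (g : Matrix (Fin e) (Fin e) F).det ≠ 0 := by
      intro h
      rw [h, zero_pow hn.ne_zero] at hδn
      exact zero_ne_one hδn
    exact he1 (hunits _ hδ0 hδn hdet)

end Cfsg.Agent.Lib.helper4.Singer
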