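import Mathlib
import Cfsg.Prelude.Def_GeometricClasses
import Cfsg.Agent.Lib.helper4.Singer2

/-!
# Singer cycle normalisers: a bad element of order `n`, II
-/

namespace Cfsg.Agent.Lib.helper4.Singer

open Matrix Polynomial

universe u

variable {F : Type u} [Field F] {n : ℕ}

theorem exists_bad [Fintype F] {p : ℕ} [Fact p.Prime] [CharP F p] (hn : n.Prime)
    (hn3 : 3 < n) (hnp : n ≠ p) (K : Subalgebra F (Matrix (Fin n) (Fin n) F))
    (hK : Cfsg.Geo.IsFieldSubalgebra n K)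
    (hord : orderOf ((Fintype.card F : ℕ) : ZMod n) ≠ n - 1) :
    ∃ x : SpecialLinearGroup (Fin n) F,
      ((x ^ n : SpecialLinearGroup (Fin n) F) : Matrix (Fin n) (Fin n) F)
        = (1 : F) • (1 : Matrix (Fin n) (Fin n) F) ∧
      (∀ z : F, (x : Matrix (Fin n) (Fin n) F) ≠ z • (1 : Matrix (Fin n) (Fin n) F)) ∧
      ∀ P : SpecialLinearGroup (Fin n) F, P⁻¹ * x * P
        ∉ (Cfsg.Geo.subalgebraNormalizer K).comap
          (SpecialLinearGroup.toGL : SpecialLinearGroup (Fin n) F →* GL (Fin n) F) := by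
  classical
  obtain ⟨m, hm1, hm2, A, hdetA, hAn, hA1⟩ := exists_small (F := F) hn hn3 hnp hord
  have hcard : Fintype.card (Fin m ⊕ Fin (n - m)) = Fintype.card (Fin n) := by
    rw [Fintype.card_sum, Fintype.card_fin, Fintype.card_fin, Fintype.card_fin]
    omega
  obtain ⟨σ⟩ : Nonempty (Fin m ⊕ Fin (n - m) ≃ Fin n) := ⟨Fintype.equivOfCardEq hcard⟩
  obtain ⟨B, hB⟩ : ∃ B : Matrix (Fin m ⊕ Fin (n - m)) (Fin m ⊕ Fin (n - m)) F,
      B = fromBlocks A 0 0 1 := ⟨_, rfl⟩
  obtain ⟨X, hX⟩ : ∃ X : Matrix (Fin n) (Fin n) F, X = Matrix.reindexAlgEquiv F F σ B :=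
    ⟨_, rfl⟩
  have hXapp : ∀ a b, X (σ a) (σ b) = B a b := by
    intro a b
    rw [hX, Matrix.coe_reindexAlgEquiv, Matrix.reindex_apply, Matrix.submatrix_apply,
      Equiv.symm_apply_apply, Equiv.symm_apply_apply]
  have hdet : X.det = 1 := by
    rw [hX, Matrix.coe_reindexAlgEquiv, Matrix.reindex_apply, det_submatrix_equiv_self, hB,
      det_fromBlocks_zero₂₁, hdetA, det_one, mul_one]
  have hXn : X ^ n = 1 := by
    rw [hX, ← map_pow, hB, fromBlocks_diagonal_pow, hAn, one_pow, fromBlocks_one, map_one]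
  have hX1 : X ≠ 1 := by
    intro h
    apply hA1
    ext a b
    have e1 := hXapp (Sum.inl a) (Sum.inl b)
    rw [h, hB, fromBlocks_apply₁₁] at e1
    rw [← e1, Matrix.one_apply, Matrix.one_apply]
    simp
  obtain ⟨j₁, hj₁⟩ : ∃ j₁ : Fin (n - m), j₁ = ⟨0, by omega⟩ := ⟨_, rfl⟩
  obtain ⟨j₂, hj₂⟩ : ∃ j₂ : Fin (n - m), j₂ = ⟨1, by omega⟩ := ⟨_, rfl⟩
  have hj12 : j₁ ≠ j₂ := by
    rw [hj₁, hj₂]; intro h; have := congrArg Fin.val h; simp at this
  have hfix : ∀ j : Fin (n - m), X *ᵥ Pi.single (σ (Sum.inr j)) (1 : F)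
      = Pi.single (σ (Sum.inr j)) (1 : F) := by
    intro j
    rw [mulVec_single_one]
    funext a
    obtain ⟨c, rfl⟩ := σ.surjective a
    rw [Matrix.col_apply, hXapp, hB]
    rcases c with b | b
    · rw [fromBlocks_apply₁₂, Pi.single_apply, if_neg (fun h => by
        have := σ.injective h
        exact Sum.inl_ne_inr this)]
      rfl
    · rw [fromBlocks_apply₂₂, Matrix.one_apply, Pi.single_apply]
      by_cases hbj : b = j
      · rw [if_pos hbj, if_pos (by rw [hbj])]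
      · rw [if_neg hbj, if_neg (fun h => hbj (Sum.inr_injective (σ.injective h)))]
  obtain ⟨x, hx⟩ : ∃ x : SpecialLinearGroup (Fin n) F,
      (x : Matrix (Fin n) (Fin n) F) = X := ⟨⟨X, hdet⟩, rfl⟩
  have hxn : ((x ^ n : SpecialLinearGroup (Fin n) F) : Matrix (Fin n) (Fin n) F)
      = (1 : F) • 1 := by
    have e0 : ((x ^ n : SpecialLinearGroup (Fin n) F) : Matrix (Fin n) (Fin n) F) = X ^ n := by
      rw [← hx]; rfl
    rw [e0, hXn, one_smul]
  refine ⟨x, hxn, ?_, ?_⟩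
  · intro z hz
    rw [hx] at hz
    apply hX1
    have e1 := hfix j₁
    rw [hz, smul_mulVec, one_mulVec] at e1
    have e2 := congrFun e1 (σ (Sum.inr j₁))
    rw [Pi.smul_apply, Pi.single_eq_same, smul_eq_mul, mul_one] at e2
    rw [hz, e2, one_smul]
  · intro P hP
    rw [Subgroup.mem_comap] at hP
    obtain ⟨Pm, hPm⟩ : ∃ Pm : Matrix (Fin n) (Fin n) F,
        Pm = (P : Matrix (Fin n) (Fin n) F) := ⟨_, rfl⟩
    obtain ⟨Pi', hPi⟩ : ∃ Pi' : Matrix (Fin n) (Fin n) F,
        Pi' = ((P⁻¹ : SpecialLinearGroup (Fin n) F) : Matrix (Fin n) (Fin n) F) := ⟨_, rfl⟩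
    have hPP : Pm * Pi' = 1 := by
      rw [hPm, hPi]
      have := congrArg Subtype.val (mul_inv_cancel P)
      exact this
    have hPP' : Pi' * Pm = 1 := by
      rw [hPm, hPi]
      have := congrArg Subtype.val (inv_mul_cancel P)
      exact this
    have hY : ((SpecialLinearGroup.toGL (P⁻¹ * x * P) : GL (Fin n) F) :
        Matrix (Fin n) (Fin n) F) = Pi' * X * Pm := by
      rw [hPm, hPi, ← hx]; rfl
    have hfix' : ∀ j : Fin (n - m), (Pi' * X * Pm) *ᵥ (Pi' *ᵥ Pi.single (σ (Sum.inr j)) (1 : F))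
        = Pi' *ᵥ Pi.single (σ (Sum.inr j)) (1 : F) := by
      intro j
      rw [mulVec_mulVec, mul_assoc (Pi' * X), hPP, mul_one, ← mulVec_mulVec, hfix j]
    have hback : ∀ u : Fin n → F, Pm *ᵥ (Pi' *ᵥ u) = u := by
      intro u
      rw [mulVec_mulVec, hPP, one_mulVec]
    have h1 := no_fix2 hn K hK _ hP (Pi' *ᵥ Pi.single (σ (Sum.inr j₁)) (1 : F))
      (Pi' *ᵥ Pi.single (σ (Sum.inr j₂)) (1 : F))
      (by rw [hY]; exact hfix' j₁) (by rw [hY]; exact hfix' j₂)
      (by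
        intro a ha
        have e1 := congrArg (fun u => Pm *ᵥ u) ha
        simp only [mulVec_smul, hback] at e1
        have e2 := congrFun e1 (σ (Sum.inr j₂))
        rw [Pi.single_eq_same, Pi.smul_apply, Pi.single_apply,
          if_neg (fun h => hj12 (Sum.inr_injective (σ.injective h)).symm), smul_zero] at e2
        exact one_ne_zero e2)
      (by
        intro h0
        have e1 := congrArg (fun u => Pm *ᵥ u) h0
        simp only [hback, mulVec_zero] at e1
        have e2 := congrFun e1 (σ (Sum.inr j₁))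
        rw [Pi.single_eq_same, Pi.zero_apply] at e2
        exact one_ne_zero e2)
    rw [hY] at h1
    apply hX1
    calc X = (Pm * Pi') * X * (Pm * Pi') := by rw [hPP, one_mul, mul_one]
      _ = Pm * (Pi' * X * Pm) * Pi' := by simp only [mul_assoc]
      _ = 1 := by rw [h1, mul_one, hPP]

end Cfsg.Agent.Lib.helper4.Singer
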