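import Mathlib
import Cfsg.Prelude.Def_GeometricClasses
import Cfsg.Agent.Lib.helper4.Singer5

/-!
# Singer cycle normalisers: all elements of order `n` are conjugate into the normaliser
-/

namespace Cfsg.Agent.Lib.helper4.Singer

open Matrix Polynomial

universe u

variable {F : Type u} [Field F] {n : ℕ}

theorem good [Fintype F] {p : ℕ} [Fact p.Prime] [CharP F p] (hn : n.Prime) (hn3 : 3 < n)
    (hnp : n ≠ p) (K : Subalgebra F (Matrix (Fin n) (Fin n) F))
    (hK : Cfsg.Geo.IsFieldSubalgebra n K)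
    (hord : orderOf ((Fintype.card F : ℕ) : ZMod n) = n - 1)
    (x : SpecialLinearGroup (Fin n) F) (z : F)
    (hx : (x : Matrix (Fin n) (Fin n) F) ^ n = z • (1 : Matrix (Fin n) (Fin n) F))
    (hxns : ∀ z : F, (x : Matrix (Fin n) (Fin n) F) ≠ z • (1 : Matrix (Fin n) (Fin n) F)) :
    ∃ P : SpecialLinearGroup (Fin n) F, P⁻¹ * x * P
      ∈ (Cfsg.Geo.subalgebraNormalizer K).comap
        (SpecialLinearGroup.toGL : SpecialLinearGroup (Fin n) F →* GL (Fin n) F) := by
  classical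
  haveI : Nonempty (Fin n) := ⟨⟨0, hn.pos⟩⟩
  haveI : Fact n.Prime := ⟨hn⟩
  have hnF : (n : F) ≠ 0 := by
    intro h
    rw [CharP.cast_eq_zero_iff F p n] at h
    exact hnp ((Nat.prime_dvd_prime_iff_eq (Fact.out : p.Prime) hn).mp h).symm
  obtain ⟨A, hA⟩ : ∃ A : Matrix (Fin n) (Fin n) F, A = x.1 := ⟨_, rfl⟩
  have hdetA : A.det = 1 := by rw [hA]; exact x.2
  rw [← hA] at hx hxns
  have hz0 : z ≠ 0 := by
    rintro rfl
    have := congrArg Matrix.det hx
    rw [det_pow, hdetA, one_pow, zero_smul, det_zero] at this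
    exact one_ne_zero this
  have hq1 : 1 < Fintype.card F := Fintype.one_lt_card
  have hcop : (Nat.card Fˣ).Coprime n := by
    rw [Nat.card_eq_fintype_card, Fintype.card_units]
    apply Nat.Coprime.symm
    rw [hn.coprime_iff_not_dvd]
    intro h5
    have h6 : ((Fintype.card F : ℕ) : ZMod n) ^ 1 = 1 := by
      have e1 : ((Fintype.card F - 1 : ℕ) : ZMod n) = 0 := (ZMod.natCast_eq_zero_iff _ _).mpr h5
      rw [Nat.cast_sub (by omega), Nat.cast_one, sub_eq_zero] at e1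
      rw [pow_one, e1]
    have h7 := orderOf_dvd_of_pow_eq_one h6
    rw [hord] at h7
    have := Nat.le_of_dvd (by norm_num) h7
    omega
  obtain ⟨l, hl⟩ := (powCoprime hcop).surjective (Units.mk0 z hz0)
  rw [powCoprime_apply] at hl
  have hln : (l : F) ^ n = z := by
    have := congrArg Units.val hl
    rw [Units.val_pow_eq_pow_val] at this
    exact this
  obtain ⟨A', hA'⟩ : ∃ A' : Matrix (Fin n) (Fin n) F, A' = ((l⁻¹ : Fˣ) : F) • A := ⟨_, rfl⟩
  have hA'n : A' ^ n = 1 := by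
    rw [hA', _root_.smul_pow, hx, smul_smul, ← hln, ← Units.val_pow_eq_pow_val,
      ← Units.val_pow_eq_pow_val, ← Units.val_mul, inv_pow, inv_mul_cancel, Units.val_one,
      one_smul]
  have hxA' : A = (l : F) • A' := by
    rw [hA', smul_smul, ← Units.val_mul, mul_inv_cancel, Units.val_one, one_smul]
  have hA'1 : A' ≠ 1 := by
    intro h
    apply hxns (l : F)
    rw [hxA', h]
  have hcpA := charpoly_eq hn hn3 hnF hord A' hA'n hA'1
  obtain ⟨S, hSN, hSn, hS1⟩ := exists_frob hn K hK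
  have hcpS := charpoly_eq hn hn3 hnF hord (S : Matrix (Fin n) (Fin n) F) hSn hS1
  obtain ⟨C, D, hCD, hDC, hCA⟩ := Cfsg.Agent.Lib.helper18.RCF.ss_conj_mat A'
    (S : Matrix (Fin n) (Fin n) F) n n hnF hnF hA'n hSn (by rw [hcpA, hcpS])
  obtain ⟨g, hg, hg'⟩ : ∃ g : GL (Fin n) F, (g : Matrix (Fin n) (Fin n) F) = D ∧
      ((g⁻¹ : GL (Fin n) F) : Matrix (Fin n) (Fin n) F) = C := ⟨⟨D, C, hDC, hCD⟩, rfl, rfl⟩
  obtain ⟨lG, hlG⟩ : ∃ lG : GL (Fin n) F, (lG : Matrix (Fin n) (Fin n) F) = (l : F) • 1 :=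
    ⟨⟨(l : F) • 1, ((l⁻¹ : Fˣ) : F) • 1,
      by rw [smul_mul_smul_comm, mul_one, ← Units.val_mul, mul_inv_cancel, Units.val_one,
        one_smul],
      by rw [smul_mul_smul_comm, mul_one, ← Units.val_mul, inv_mul_cancel, Units.val_one,
        one_smul]⟩, rfl⟩
  have hlN : lG ∈ Cfsg.Geo.subalgebraNormalizer K := by
    apply mem_norm_of_forall
    intro κ hκ
    have e1 : (lG : Matrix (Fin n) (Fin n) F) * κ = κ * (lG : Matrix (Fin n) (Fin n) F) := by
      rw [hlG, Matrix.smul_mul, Matrix.mul_smul, one_mul, mul_one]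
    rw [e1, mul_assoc, ← Units.val_mul, mul_inv_cancel, Units.val_one, mul_one]
    exact hκ
  have hconj : g⁻¹ * SpecialLinearGroup.toGL x * g = lG * S := by
    apply Units.ext
    rw [Units.val_mul, Units.val_mul, Units.val_mul, hg, hg', hlG]
    show C * (x : Matrix (Fin n) (Fin n) F) * D = (l : F) • 1 * (S : Matrix (Fin n) (Fin n) F)
    rw [← hA, hxA', Matrix.mul_smul, Matrix.smul_mul, hCA, mul_assoc, hCD, mul_one,
      Matrix.smul_mul, one_mul]
  have hmem : g⁻¹ * SpecialLinearGroup.toGL x * g ∈ Cfsg.Geo.subalgebraNormalizer K := by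
    rw [hconj]; exact Subgroup.mul_mem _ hlN hSN
  have hm : ((n * (Fintype.card F - 1) : ℕ) : F) ≠ 0 := by
    rw [Nat.cast_mul, Nat.cast_sub Fintype.card_pos, FiniteField.cast_card_eq_zero]
    simp only [Nat.cast_one, zero_sub, mul_neg, mul_one, ne_eq, neg_eq_zero]
    exact hnF
  have hxm : (x : Matrix (Fin n) (Fin n) F) ^ (n * (Fintype.card F - 1)) = 1 := by
    rw [pow_mul, ← hA, hx, _root_.smul_pow, one_pow, FiniteField.pow_card_sub_one_eq_one z hz0,
      one_smul]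
  exact ss_sl_conj' _ hn.pos x _ hm hxm g hmem

end Cfsg.Agent.Lib.helper4.Singer
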