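import Mathlib
import Cfsg.Agent.Lib.helper4.SpDecomp

set_option autoImplicit false
set_option linter.unusedSectionVars false

/-!
# The decomposition of `F_2^(2m)` into nondegenerate planes: the stabiliser lies in an
orthogonal group
-/

namespace Cfsg.Agent.Lib.helper4

open Matrix
open Cfsg.Agent.S0776 Cfsg.Agent.S0766 Cfsg.Agent.S0765

section SpDecomp2

variable {F : Type*} [Field F] [Fintype F] {m : ℕ} {t : ℕ}
  (D : Fin t → Submodule F (Fin m ⊕ Fin m → F))

omit D in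
theorem f2_cases (hq : Fintype.card F = 2) (c : F) : c = 0 ∨ c = 1 := by
  classical
  have h1 : ({0, 1} : Finset F) = Finset.univ := by
    apply Finset.eq_univ_of_card
    rw [Finset.card_pair zero_ne_one, hq]
  have h2 : c ∈ ({0, 1} : Finset F) := by
    rw [h1]
    exact Finset.mem_univ c
  rw [Finset.mem_insert, Finset.mem_singleton] at h2
  exact h2

omit D in
theorem f2_two (hq : Fintype.card F = 2) : (1 : F) + 1 = 0 := by
  have h := FiniteField.cast_card_eq_zero F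
  rw [hq] at h
  have h2 : ((2 : ℕ) : F) = 1 + 1 := by norm_num
  rw [h2] at h
  exact h

omit D in
theorem f2_add_self (hq : Fintype.card F = 2) (v : Fin m ⊕ Fin m → F) : v + v = 0 := by
  have h1 : v + v = ((1 : F) + 1) • v := by rw [add_smul, one_smul]
  rw [h1, f2_two hq, zero_smul]

open Classical in
/-- the quadratic form: parity of the number of nonzero components. -/
noncomputable def dQ (v : Fin m ⊕ Fin m → F) : F :=
  ∑ i, if ∃ y ∈ D i, Cfsg.sympForm m F v y ≠ 0 then 1 else 0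

open Classical in
theorem dQ_fam (hnd : ∀ i, ∀ w ∈ D i, w ≠ 0 → ∃ x ∈ D i, Cfsg.sympForm m F w x ≠ 0)
    (horth : ∀ i j, i ≠ j → ∀ u ∈ D i, ∀ v ∈ D j, Cfsg.sympForm m F u v = 0)
    (f : Fin t → (Fin m ⊕ Fin m → F)) (hf : ∀ i, f i ∈ D i) :
    dQ D (∑ i, f i) = ∑ i, if f i = 0 then (0 : F) else 1 := by
  classical
  unfold dQ
  refine Finset.sum_congr rfl (fun i _ => ?_)
  by_cases hfi : f i = 0
  · rw [if_pos hfi, if_neg]
    rintro ⟨y, hy, hne⟩
    rw [sf_fam_left D horth f hf i y hy, hfi, sf_zero_left] at hne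
    exact hne rfl
  · rw [if_neg hfi, if_pos]
    obtain ⟨y, hy, hne⟩ := hnd i (f i) (hf i) hfi
    exact ⟨y, hy, by rw [sf_fam_left D horth f hf i y hy]; exact hne⟩

open Classical in
theorem chi_add (hq : Fintype.card F = 2)
    (hnd : ∀ i, ∀ w ∈ D i, w ≠ 0 → ∃ x ∈ D i, Cfsg.sympForm m F w x ≠ 0)
    (hfr2 : ∀ i, Module.finrank F (D i) = 2) (i : Fin t) (a b : Fin m ⊕ Fin m → F)
    (haD : a ∈ D i) (hbD : b ∈ D i) :
    (if a + b = 0 then (0 : F) else 1)
      = (if a = 0 then 0 else 1) + (if b = 0 then 0 else 1) + Cfsg.sympForm m F a b := by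
  classical
  by_cases ha : a = 0
  · rw [ha, zero_add, if_pos rfl, sf_zero_left]
    ring
  · by_cases hb : b = 0
    · rw [hb, add_zero, if_pos rfl, sf_zero_right, if_neg ha]
      ring
    · rw [if_neg ha, if_neg hb]
      by_cases hab : a = b
      · rw [hab, f2_add_self hq, if_pos rfl, sf_self, f2_two hq, add_zero]
      · have hne : a + b ≠ 0 := by
          intro h
          apply hab
          have h1 : a = a + (b + b) := by rw [f2_add_self hq, add_zero]
          rw [h1, ← add_assoc, h, zero_add]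
        rw [if_neg hne]
        have hB : Cfsg.sympForm m F a b = 1 := by
          rcases f2_cases hq (Cfsg.sympForm m F a b) with h0 | h1
          · exfalso
            have hLI : LinearIndependent F ![a, b] := by
              rw [LinearIndependent.pair_iff]
              intro s t' hst
              rcases f2_cases hq s with rfl | rfl <;> rcases f2_cases hq t' with rfl | rfl
              · exact ⟨rfl, rfl⟩
              · rw [zero_smul, one_smul, zero_add] at hst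
                exact absurd hst hb
              · rw [zero_smul, one_smul, add_zero] at hst
                exact absurd hst ha
              · rw [one_smul, one_smul] at hst
                exact absurd hst hne
            have hspan : Submodule.span F (Set.range ![a, b]) = D i := by
              apply Submodule.eq_of_le_of_finrank_eq
              · rw [Submodule.span_le]
                rintro _ ⟨s, rfl⟩
                fin_cases s
                · exact haD
                · exact hbD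
              · rw [finrank_span_eq_card hLI, hfr2, Fintype.card_fin]
            obtain ⟨x, hxD, hx⟩ := hnd i a haD ha
            rw [← hspan, Matrix.range_cons_cons_empty, Submodule.mem_span_pair] at hxD
            obtain ⟨s, t', hst⟩ := hxD
            apply hx
            rw [← hst, sf_add_right, sf_smul_right, sf_smul_right, sf_self, h0]
            ring
          · exact h1
        rw [hB, f2_two hq, zero_add]

theorem dQ_polar (hq : Fintype.card F = 2)
    (hnd : ∀ i, ∀ w ∈ D i, w ≠ 0 → ∃ x ∈ D i, Cfsg.sympForm m F w x ≠ 0)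
    (horth : ∀ i j, i ≠ j → ∀ u ∈ D i, ∀ v ∈ D j, Cfsg.sympForm m F u v = 0)
    (hsup : iSup D = ⊤) (hfr2 : ∀ i, Module.finrank F (D i) = 2) (x v : Fin m ⊕ Fin m → F) :
    dQ D (x + v) = dQ D x + dQ D v + Cfsg.sympForm m F x v := by
  obtain ⟨f, hf, rfl⟩ := exists_fam D hsup x
  obtain ⟨h, hh, rfl⟩ := exists_fam D hsup v
  rw [← Finset.sum_add_distrib, dQ_fam D hnd horth _ (fun i => (D i).add_mem (hf i) (hh i)),
    dQ_fam D hnd horth f hf, dQ_fam D hnd horth h hh, sf_fam_fam D horth f h hf hh,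
    ← Finset.sum_add_distrib, ← Finset.sum_add_distrib]
  exact Finset.sum_congr rfl (fun i _ => chi_add D hq hnd hfr2 i (f i) (h i) (hf i) (hh i))

theorem dQ_single (hnd : ∀ i, ∀ w ∈ D i, w ≠ 0 → ∃ x ∈ D i, Cfsg.sympForm m F w x ≠ 0)
    (horth : ∀ i j, i ≠ j → ∀ u ∈ D i, ∀ v ∈ D j, Cfsg.sympForm m F u v = 0)
    (i : Fin t) (a : Fin m ⊕ Fin m → F) (ha : a ∈ D i) (ha0 : a ≠ 0) : dQ D a = 1 := by
  classical
  unfold dQ
  rw [Finset.sum_eq_single i]
  · rw [if_pos (hnd i a ha ha0)]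
  · intro j _ hj
    rw [if_neg]
    rintro ⟨y, hy, hne⟩
    exact hne (horth i j hj.symm a ha y hy)
  · intro h
    exact absurd (Finset.mem_univ i) h

/-- a transvection with nonsingular centre preserves `dQ`. -/
theorem tv_pres_dQ (hq : Fintype.card F = 2)
    (hnd : ∀ i, ∀ w ∈ D i, w ≠ 0 → ∃ x ∈ D i, Cfsg.sympForm m F w x ≠ 0)
    (horth : ∀ i j, i ≠ j → ∀ u ∈ D i, ∀ v ∈ D j, Cfsg.sympForm m F u v = 0)
    (hsup : iSup D = ⊤) (hfr2 : ∀ i, Module.finrank F (D i) = 2) (v : Fin m ⊕ Fin m → F)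
    (hv : dQ D v = 1) (x : Fin m ⊕ Fin m → F) :
    dQ D (((tv v 1 : Matrix.symplecticGroup (Fin m) F) :
      Matrix (Fin m ⊕ Fin m) (Fin m ⊕ Fin m) F) *ᵥ x) = dQ D x := by
  rw [tv_val, tv_apply, one_mul]
  rcases f2_cases hq (Cfsg.sympForm m F x v) with h0 | h1
  · rw [h0, zero_smul, add_zero]
  · rw [h1, one_smul, dQ_polar D hq hnd horth hsup hfr2, hv, h1, add_assoc, f2_two hq, add_zero]

/-- elements of the decomposition stabiliser preserve `dQ`. -/
theorem decompStab_pres_dQ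
    (hnd : ∀ i, ∀ w ∈ D i, w ≠ 0 → ∃ x ∈ D i, Cfsg.sympForm m F w x ≠ 0)
    (horth : ∀ i j, i ≠ j → ∀ u ∈ D i, ∀ v ∈ D j, Cfsg.sympForm m F u v = 0)
    (hsup : iSup D = ⊤) (g : Matrix.GeneralLinearGroup (Fin m ⊕ Fin m) F)
    (hg : g ∈ Cfsg.Geo.decompositionStabilizer D) (v : Fin m ⊕ Fin m → F) :
    dQ D ((g : Matrix (Fin m ⊕ Fin m) (Fin m ⊕ Fin m) F) *ᵥ v) = dQ D v := by
  classical
  obtain ⟨σ, hσ⟩ := hg
  obtain ⟨f, hf, rfl⟩ := exists_fam D hsup v
  have hginj : ∀ x, (g : Matrix (Fin m ⊕ Fin m) (Fin m ⊕ Fin m) F) *ᵥ x = 0 → x = 0 := by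
    intro x hx
    have h1 : ((g⁻¹ : Matrix.GeneralLinearGroup (Fin m ⊕ Fin m) F) :
        Matrix (Fin m ⊕ Fin m) (Fin m ⊕ Fin m) F) *ᵥ
        ((g : Matrix (Fin m ⊕ Fin m) (Fin m ⊕ Fin m) F) *ᵥ x) = x := by
      rw [Matrix.mulVec_mulVec, ← Units.val_mul, inv_mul_cancel, Units.val_one,
        Matrix.one_mulVec]
    rw [← h1, hx, Matrix.mulVec_zero]
  have hf' : ∀ j, (g : Matrix (Fin m ⊕ Fin m) (Fin m ⊕ Fin m) F) *ᵥ f (σ.symm j) ∈ D j := by
    intro j
    have h1 : (g : Matrix (Fin m ⊕ Fin m) (Fin m ⊕ Fin m) F) *ᵥ f (σ.symm j)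
        ∈ (D (σ.symm j)).map (Matrix.toLin' (g : Matrix (Fin m ⊕ Fin m) (Fin m ⊕ Fin m) F)) :=
      ⟨f (σ.symm j), hf _, Matrix.toLin'_apply _ _⟩
    rw [hσ, Equiv.apply_symm_apply] at h1
    exact h1
  have h2 : (g : Matrix (Fin m ⊕ Fin m) (Fin m ⊕ Fin m) F) *ᵥ (∑ i, f i)
      = ∑ j, (g : Matrix (Fin m ⊕ Fin m) (Fin m ⊕ Fin m) F) *ᵥ f (σ.symm j) := by
    rw [Matrix.mulVec_sum]
    exact (Equiv.sum_comp σ.symm
      (fun i => (g : Matrix (Fin m ⊕ Fin m) (Fin m ⊕ Fin m) F) *ᵥ f i)).symm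
  rw [h2, dQ_fam D hnd horth _ hf', dQ_fam D hnd horth f hf,
    ← Equiv.sum_comp σ.symm (fun i => if f i = 0 then (0 : F) else 1)]
  refine Finset.sum_congr rfl (fun j _ => ?_)
  by_cases h0 : f (σ.symm j) = 0
  · rw [if_pos h0, if_pos (by rw [h0, Matrix.mulVec_zero])]
  · rw [if_neg h0, if_neg (fun h => h0 (hginj _ h))]

/-- over `F_2`, the stabiliser of a decomposition into nondegenerate planes is not maximal in
`Sp_2m(2)` (`m ≥ 3`): it lies in the orthogonal group of `dQ`. -/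
theorem sp_decomp2_not_max (hm : 3 ≤ m) (hq : Fintype.card F = 2)
    (hD : Cfsg.Geo.IsNondegenerateMDecomposition (Cfsg.sympForm m F) 2 D) :
    ∃ K : Subgroup (Matrix.GeneralLinearGroup (Fin m ⊕ Fin m) F),
      Cfsg.Geo.decompositionStabilizer D ⊓ Cfsg.spGL m F < K ∧ K < Cfsg.spGL m F := by
  classical
  have hnd : ∀ i, ∀ w ∈ D i, w ≠ 0 → ∃ x ∈ D i, Cfsg.sympForm m F w x ≠ 0 :=
    fun i w hw hw0 => (hD.nondegenerate i w hw hw0).2
  have horth : ∀ i j, i ≠ j → ∀ u ∈ D i, ∀ v ∈ D j, Cfsg.sympForm m F u v = 0 :=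
    fun i j hij => hD.orthogonal i j hij
  have hsup := hD.decomp.iSup_eq_top
  have hfr2 := hD.decomp.finrank_eq
  have ht : 3 ≤ t := by
    obtain ⟨Φ, hΦ⟩ : ∃ Φ : ((i : Fin t) → ↥(D i)) →ₗ[F] (Fin m ⊕ Fin m → F),
        ∀ f, Φ f = ∑ i, (f i : Fin m ⊕ Fin m → F) :=
      ⟨∑ i, (D i).subtype.comp (LinearMap.proj i), fun f => by
        rw [LinearMap.sum_apply]
        rfl⟩
    have hsurj : Function.Surjective Φ := by
      intro v
      obtain ⟨f, hf, hfv⟩ := exists_fam D hsup v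
      exact ⟨fun i => ⟨f i, hf i⟩, by rw [hΦ]; exact hfv⟩
    have h1 := LinearMap.finrank_range_add_finrank_ker Φ
    have h2 : Module.finrank F ((i : Fin t) → ↥(D i)) = t * 2 := by
      rw [Module.finrank_pi_fintype]
      simp only [hfr2, Finset.sum_const, Finset.card_univ, Fintype.card_fin, smul_eq_mul]
    have h3 : Module.finrank F (Fin m ⊕ Fin m → F) = m + m := by
      rw [Module.finrank_fintype_fun_eq_card, Fintype.card_sum, Fintype.card_fin]
    rw [LinearMap.range_eq_top.mpr hsurj, finrank_top, h2, h3] at h1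
    omega
  have hDne : ∀ i, ∃ x ∈ D i, x ≠ 0 := fun i =>
    Submodule.exists_mem_ne_zero_of_ne_bot (by
      intro h
      have h1 := hfr2 i
      rw [h, finrank_bot] at h1
      omega)
  choose d hd hd0 using hDne
  obtain ⟨i₀, hi₀⟩ : ∃ i₀ : Fin t, i₀ = ⟨0, by omega⟩ := ⟨_, rfl⟩
  obtain ⟨i₁, hi₁⟩ : ∃ i₁ : Fin t, i₁ = ⟨1, by omega⟩ := ⟨_, rfl⟩
  obtain ⟨i₂, hi₂⟩ : ∃ i₂ : Fin t, i₂ = ⟨2, by omega⟩ := ⟨_, rfl⟩
  have h01 : i₀ ≠ i₁ := by
    rw [hi₀, hi₁]
    intro h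
    exact absurd (Fin.mk.inj h) (by omega)
  have h02 : i₀ ≠ i₂ := by
    rw [hi₀, hi₂]
    intro h
    exact absurd (Fin.mk.inj h) (by omega)
  have h12 : i₁ ≠ i₂ := by
    rw [hi₁, hi₂]
    intro h
    exact absurd (Fin.mk.inj h) (by omega)
  obtain ⟨x, hxD, hx⟩ := hnd i₀ (d i₀) (hd i₀) (hd0 i₀)
  have hx1 : Cfsg.sympForm m F x (d i₀) = 1 := by
    rcases f2_cases hq (Cfsg.sympForm m F x (d i₀)) with h | h
    · exfalso
      apply hx
      rw [sf_anti, h, neg_zero]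
    · exact h
  have hx0 : x ≠ 0 := by
    rintro rfl
    rw [sf_zero_left] at hx1
    exact zero_ne_one hx1
  have hQ01 : dQ D (d i₀ + d i₁) = 0 := by
    rw [dQ_polar D hq hnd horth hsup hfr2, dQ_single D hnd horth i₀ _ (hd i₀) (hd0 i₀),
      dQ_single D hnd horth i₁ _ (hd i₁) (hd0 i₁), horth i₀ i₁ h01 _ (hd i₀) _ (hd i₁), add_zero,
      f2_two hq]
  have hQ012 : dQ D (d i₀ + d i₁ + d i₂) = 1 := by
    rw [dQ_polar D hq hnd horth hsup hfr2, hQ01, dQ_single D hnd horth i₂ _ (hd i₂) (hd0 i₂),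
      sf_add_left, horth i₀ i₂ h02 _ (hd i₀) _ (hd i₂), horth i₁ i₂ h12 _ (hd i₁) _ (hd i₂)]
    ring
  refine ⟨Cfsg.stabilizing (Cfsg.glToMat (Fin m ⊕ Fin m) F) {v | dQ D v = 1} ⊓ Cfsg.spGL m F,
    ?_, ?_⟩
  · refine lt_of_le_of_ne ?_ ?_
    · intro g hg
      refine ⟨?_, hg.2⟩
      intro v
      show dQ D v = 1 ↔ dQ D ((g : Matrix (Fin m ⊕ Fin m) (Fin m ⊕ Fin m) F) *ᵥ v) = 1
      rw [decompStab_pres_dQ D hnd horth hsup g hg.1 v]
    · intro heq
      have hA : ((spEquiv m F (tv (d i₀ + d i₁ + d i₂) 1) : ↥(Cfsg.spGL m F)) :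
          Matrix.GeneralLinearGroup (Fin m ⊕ Fin m) F)
          ∈ Cfsg.stabilizing (Cfsg.glToMat (Fin m ⊕ Fin m) F) {v | dQ D v = 1}
            ⊓ Cfsg.spGL m F := by
        refine ⟨fun v => ?_, (spEquiv m F _).2⟩
        show dQ D v = 1 ↔ dQ D (((tv (d i₀ + d i₁ + d i₂) 1 : Matrix.symplecticGroup (Fin m) F) :
          Matrix (Fin m ⊕ Fin m) (Fin m ⊕ Fin m) F) *ᵥ v) = 1
        rw [tv_pres_dQ D hq hnd horth hsup hfr2 _ hQ012 v]
      rw [← heq] at hA
      obtain ⟨σ, hσ⟩ := hA.1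
      have h1 : ((tv (d i₀ + d i₁ + d i₂) 1 : Matrix.symplecticGroup (Fin m) F) :
          Matrix (Fin m ⊕ Fin m) (Fin m ⊕ Fin m) F) *ᵥ x ∈ D (σ i₀) := by
        rw [← hσ i₀]
        exact ⟨x, hxD, Matrix.toLin'_apply _ _⟩
      rw [tv_val, tv_apply, one_mul, sf_add_right, sf_add_right, hx1,
        horth i₀ i₁ h01 x hxD (d i₁) (hd i₁), horth i₀ i₂ h02 x hxD (d i₂) (hd i₂), add_zero,
        add_zero, one_smul] at h1
      by_cases hr : σ i₀ = i₁
      · apply hd0 i₂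
        apply eq_zero_of_perp D hnd i₂ (d i₂) (hd i₂)
        intro y hy
        have h2 := horth (σ i₀) i₂ (by rw [hr]; exact h12) _ h1 y hy
        rw [sf_add_left, sf_add_left, sf_add_left, horth i₀ i₂ h02 x hxD y hy,
          horth i₀ i₂ h02 _ (hd i₀) y hy, horth i₁ i₂ h12 _ (hd i₁) y hy] at h2
        linear_combination h2
      · apply hd0 i₁
        apply eq_zero_of_perp D hnd i₁ (d i₁) (hd i₁)
        intro y hy
        have h2 := horth (σ i₀) i₁ hr _ h1 y hy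
        rw [sf_add_left, sf_add_left, sf_add_left, horth i₀ i₁ h01 x hxD y hy,
          horth i₀ i₁ h01 _ (hd i₀) y hy, horth i₂ i₁ h12.symm _ (hd i₂) y hy] at h2
        linear_combination h2
  · refine lt_of_le_of_ne inf_le_right ?_
    intro heq
    have hA : ((spEquiv m F (tv (d i₀ + d i₁) 1) : ↥(Cfsg.spGL m F)) :
        Matrix.GeneralLinearGroup (Fin m ⊕ Fin m) F)
        ∈ Cfsg.stabilizing (Cfsg.glToMat (Fin m ⊕ Fin m) F) {v | dQ D v = 1}
          ⊓ Cfsg.spGL m F := by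
      rw [heq]
      exact (spEquiv m F _).2
    have h1 : dQ D (((tv (d i₀ + d i₁) 1 : Matrix.symplecticGroup (Fin m) F) :
        Matrix (Fin m ⊕ Fin m) (Fin m ⊕ Fin m) F) *ᵥ x) = 1 :=
      (hA.1 x).mp (dQ_single D hnd horth i₀ x hxD hx0)
    rw [tv_val, tv_apply, one_mul, sf_add_right, hx1, horth i₀ i₁ h01 x hxD (d i₁) (hd i₁),
      add_zero, one_smul, dQ_polar D hq hnd horth hsup hfr2,
      dQ_single D hnd horth i₀ x hxD hx0, hQ01, sf_add_right, hx1,
      horth i₀ i₁ h01 x hxD (d i₁) (hd i₁)] at h1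
    simp only [add_zero] at h1
    rw [f2_two hq] at h1
    exact zero_ne_one h1

end SpDecomp2

end Cfsg.Agent.Lib.helper4
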