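import Mathlib
import Cfsg.Agent.Lib.helper4.SpInvCent
import Cfsg.Agent.Lib.helper4.OrthDotCount

set_option autoImplicit false
set_option linter.unusedSectionVars false

/-!
# Centralizers of involutions of `Sp_2m(q)`, `q` even: the non-alternating types
-/

namespace Cfsg.Agent.Lib.helper4

open Matrix
open Cfsg.Agent.S0776 Cfsg.Agent.S0766

section SpInvCent2

variable {F : Type*} [Field F] [Fintype F] [CharP F 2] {m : ℕ}

theorem sp_cent_of_nf_id {q : ℕ} (hF : Fintype.card F = q) {s : ℕ}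
    (t : Matrix.symplecticGroup (Fin m) F) (h : IsSpNF (id : Fin s → Fin s) t) :
    ((t : Matrix (Fin m ⊕ Fin m) (Fin m ⊕ Fin m) F) - 1).rank = s ∧ s ≤ m ∧
    Nat.card ↥(Subgroup.centralizer ({t} : Set ↥(Matrix.symplecticGroup (Fin m) F)))
      = Nat.card {a : Fin s → (Fin s → F) // IsON a}
        * (q ^ (s * (s + 1) / 2 + 2 * s * (m - s))
          * (q ^ ((m - s) ^ 2) * ∏ i ∈ Finset.range (m - s), (q ^ (2 * (i + 1)) - 1))) := by
  classical
  have hrank := spnf_rank id (fun x => rfl) t h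
  rw [Fintype.card_fin] at hrank
  have hle := spnf_card_le id t h
  rw [Fintype.card_fin] at hle
  obtain ⟨u, hli, hti, htf⟩ := spnf_formula id t h
  have hc := card_centralizer_nf id (fun x => rfl) t u hli hti htf
  have hfix := card_fix_frame hF s (Fintype.card_fin s) hle u hli hti
  have hG : Nat.card {A : Matrix (Fin s) (Fin s) F // A * permMat F id * Aᵀ = permMat F id}
      = Nat.card {a : Fin s → (Fin s → F) // IsON a} := by
    have hP : permMat F (id : Fin s → Fin s) = 1 := by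
      ext x y
      simp [permMat, Matrix.one_apply]
    rw [hP, ← card_orth_dot_eq]
    apply Nat.card_congr
    apply Equiv.subtypeEquivRight
    intro A
    rw [Matrix.mul_one]
  refine ⟨hrank, hle, ?_⟩
  rw [hc, hG, hfix]

theorem cent_exp_arith2 (m s : ℕ) (hs : 1 ≤ s) (h : s ≤ m) :
    2 * m * s - (3 * s ^ 2 - 3 * s) / 2 - 1 = s * (s + 1) / 2 + 2 * s * (m - s) + (s - 1) := by
  obtain ⟨d, rfl⟩ := Nat.exists_eq_add_of_le h
  obtain ⟨a, ha⟩ : ∃ a, a = s * (s + 1) / 2 := ⟨_, rfl⟩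
  have h1 : 2 * a = s ^ 2 + s := by
    rw [ha, Nat.two_mul_div_two_of_even (Nat.even_mul_succ_self s)]
    ring
  have hX : s ≤ s ^ 2 := Nat.le_self_pow (by norm_num) s
  have h2 : (3 * s ^ 2 - 3 * s) / 2 = 2 * s ^ 2 - a - s := by
    have h3 : 3 * s ^ 2 - 3 * s = 2 * (2 * s ^ 2 - a - s) := by omega
    rw [h3, Nat.mul_div_cancel_left _ (by norm_num)]
  have e2 : 2 * (s + d) * s = 2 * s ^ 2 + 2 * (s * d) := by ring
  have e3 : 2 * s * (s + d - s) = 2 * (s * d) := by
    rw [Nat.add_sub_cancel_left]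
    ring
  rw [h2, ← ha, e2, e3]
  omega

end SpInvCent2

end Cfsg.Agent.Lib.helper4
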