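import Mathlib
import Cfsg.Agent.Lib.helper4.SpInvNF

set_option autoImplicit false

/-!
# The number of classes of involutions of `Sp_2m(q)`, `q` even
-/

namespace Cfsg.Agent.Lib.helper4

open Cfsg.Agent.Lib.helper13

section SpCount

variable {F : Type*} [Field F] [CharP F 2] [Fintype F]

/-- the number of classes of involutions of `Sp_2m(q)`, `q` even -/
theorem sp_invol_class_count (m : ℕ) :
    Nat.card {C : ConjClasses ↥(Matrix.symplecticGroup (Fin m) F) //
      ∃ g : Matrix.symplecticGroup (Fin m) F, ConjClasses.mk g = C ∧ orderOf g = 2}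
      = m + m / 2 := by
  classical
  have hswfp : ∀ (k : ℕ) (x : Fin k ⊕ Fin k), Sum.swap x ≠ x := by
    intro k x
    rcases x with i | i <;> simp
  have hNA : ∀ s, 1 ≤ s → s ≤ m →
      ∃ t : Matrix.symplecticGroup (Fin m) F, IsSpNF (id : Fin s → Fin s) t := by
    intro s h1 h2
    obtain ⟨t₀, h⟩ := plus_hNA (F := F) m s h1 h2
    exact spnf_of_orth id t₀ h
  have hAL : ∀ k, 1 ≤ k → 2 * k ≤ m → ∃ t : Matrix.symplecticGroup (Fin m) F,
      IsSpNF (Sum.swap : Fin k ⊕ Fin k → Fin k ⊕ Fin k) t := by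
    intro k h1 h2
    obtain ⟨t₀, h⟩ := plus_hAL (F := F) m k h1 h2
    exact spnf_of_orth Sum.swap t₀ h
  choose tNA htNA using hNA
  choose tAL htAL using hAL
  obtain ⟨rep, hrepNA, hrepAL⟩ : ∃ rep : Fin m ⊕ Fin (m / 2) →
        Matrix.symplecticGroup (Fin m) F,
      (∀ i : Fin m, IsSpNF (id : Fin (i.1 + 1) → Fin (i.1 + 1)) (rep (Sum.inl i))) ∧
      (∀ j : Fin (m / 2), IsSpNF (Sum.swap : Fin (j.1 + 1) ⊕ Fin (j.1 + 1) → _)
        (rep (Sum.inr j))) :=
    ⟨Sum.elim (fun i => tNA (i.1 + 1) (by omega) (by have := i.2; omega))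
      (fun j => tAL (j.1 + 1) (by omega) (by have := j.2; omega)),
      fun i => htNA _ _ _, fun j => htAL _ _ _⟩
  have hrepord : ∀ x, orderOf (rep x) = 2 := by
    intro x
    rcases x with i | j
    · exact spnf_orderOf id (fun _ => rfl) _ (hrepNA i)
    · exact spnf_orderOf Sum.swap Sum.swap_swap _ (hrepAL j)
  obtain ⟨Ψ, hΨ⟩ : ∃ Ψ : Fin m ⊕ Fin (m / 2) →
      {C : ConjClasses ↥(Matrix.symplecticGroup (Fin m) F) //
        ∃ g : Matrix.symplecticGroup (Fin m) F, ConjClasses.mk g = C ∧ orderOf g = 2},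
      ∀ x, (Ψ x).1 = ConjClasses.mk (rep x) :=
    ⟨fun x => ⟨ConjClasses.mk (rep x), rep x, rfl, hrepord x⟩, fun x => rfl⟩
  have hinj : Function.Injective Ψ := by
    intro x y hxy
    have h1 : IsConj (rep x) (rep y) := by
      rw [← ConjClasses.mk_eq_mk_iff_isConj, ← hΨ, ← hΨ, hxy]
    have hr := sp_rank_conj _ _ h1
    rcases x with i | j <;> rcases y with i' | j'
    · rw [spnf_rank id (fun _ => rfl) _ (hrepNA i),
        spnf_rank id (fun _ => rfl) _ (hrepNA i'), Fintype.card_fin, Fintype.card_fin] at hr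
      congr 1
      apply Fin.ext
      omega
    · exfalso
      exact spnf_not_alt id (fun _ => rfl) _ (hrepNA i) (sp_alt_conj _ _ h1.symm
        (spnf_alt Sum.swap Sum.swap_swap (hswfp _) _ (hrepAL j')))
    · exfalso
      exact spnf_not_alt id (fun _ => rfl) _ (hrepNA i') (sp_alt_conj _ _ h1
        (spnf_alt Sum.swap Sum.swap_swap (hswfp _) _ (hrepAL j)))
    · rw [spnf_rank Sum.swap Sum.swap_swap _ (hrepAL j),
        spnf_rank Sum.swap Sum.swap_swap _ (hrepAL j'), Fintype.card_sum, Fintype.card_sum,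
        Fintype.card_fin, Fintype.card_fin] at hr
      congr 1
      apply Fin.ext
      omega
  have hsurj : Function.Surjective Ψ := by
    rintro ⟨C, g, rfl, hg⟩
    rcases spnf_of_invol g hg with ⟨s, hs1, hnf⟩ | ⟨k, hk1, hnf⟩
    · have h1 := spnf_card_le id g hnf
      rw [Fintype.card_fin] at h1
      have hsm : s - 1 < m := by omega
      refine ⟨Sum.inl ⟨s - 1, hsm⟩, ?_⟩
      apply Subtype.ext
      rw [hΨ]
      show ConjClasses.mk (rep (Sum.inl ⟨s - 1, hsm⟩)) = ConjClasses.mk g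
      rw [ConjClasses.mk_eq_mk_iff_isConj]
      have h2 := hrepNA ⟨s - 1, hsm⟩
      have h3 : s - 1 + 1 = s := by omega
      revert h2
      show IsSpNF (id : Fin (s - 1 + 1) → Fin (s - 1 + 1)) (rep (Sum.inl ⟨s - 1, hsm⟩)) → _
      rw [h3]
      intro h2
      exact spnf_conj id _ _ h2 hnf
    · have h1 := spnf_card_le Sum.swap g hnf
      rw [Fintype.card_sum, Fintype.card_fin] at h1
      have hkw : k - 1 < m / 2 := by omega
      refine ⟨Sum.inr ⟨k - 1, hkw⟩, ?_⟩
      apply Subtype.ext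
      rw [hΨ]
      show ConjClasses.mk (rep (Sum.inr ⟨k - 1, hkw⟩)) = ConjClasses.mk g
      rw [ConjClasses.mk_eq_mk_iff_isConj]
      have h2 := hrepAL ⟨k - 1, hkw⟩
      have h3 : k - 1 + 1 = k := by omega
      revert h2
      show IsSpNF (Sum.swap : Fin (k - 1 + 1) ⊕ Fin (k - 1 + 1) → _)
        (rep (Sum.inr ⟨k - 1, hkw⟩)) → _
      rw [h3]
      intro h2
      exact spnf_conj Sum.swap _ _ h2 hnf
  rw [← Nat.card_congr (Equiv.ofBijective Ψ ⟨hinj, hsurj⟩), Nat.card_eq_fintype_card,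
    Fintype.card_sum, Fintype.card_fin, Fintype.card_fin]

end SpCount

end Cfsg.Agent.Lib.helper4
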