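import Mathlib
import Cfsg.Agent.S0749
import Cfsg.Agent.Lib.helper4.SpCard

set_option autoImplicit false

/-!
# Symplectic frames, Witt transitivity on totally isotropic subspaces, coordinates
-/

namespace Cfsg.Agent.Lib.helper4

open Matrix
open Cfsg.Agent.S0776 Cfsg.Agent.S0766 Cfsg.Agent.S0765

section Frames

variable {F : Type*} [Field F] {m : ℕ}

/-- the form in frame coordinates. -/
theorem sf_frame {κ : Type*} [Fintype κ] [DecidableEq κ] (Q : Matrix (Fin m ⊕ Fin m) κ F)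
    (z z' : κ → F) :
    Cfsg.sympForm m F (Q *ᵥ z) (Q *ᵥ z') = z ⬝ᵥ ((Qᵀ * J (Fin m) F * Q) *ᵥ z') := by
  show (Q *ᵥ z) ⬝ᵥ (J (Fin m) F *ᵥ (Q *ᵥ z')) = _
  rw [← Matrix.vecMul_transpose, ← Matrix.dotProduct_mulVec, Matrix.mulVec_mulVec,
    Matrix.mulVec_mulVec, Matrix.mul_assoc]

/-- structure of the pointwise stabiliser of the first block of a frame. -/
theorem fix_struct (k k₂ : ℕ) (hkk : k + k₂ = m)
    (Q : Matrix (Fin m ⊕ Fin m) ((Fin k ⊕ Fin k) ⊕ (Fin k₂ ⊕ Fin k₂)) F)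
    (hQ : Qᵀ * J (Fin m) F * Q = fromBlocks (J (Fin k) F) 0 0 (J (Fin k₂) F)) :
    ∃ R : Matrix ((Fin k ⊕ Fin k) ⊕ (Fin k₂ ⊕ Fin k₂)) (Fin m ⊕ Fin m) F,
      R * Q = 1 ∧ Q * R = 1 ∧
      (∀ A' : Matrix.symplecticGroup (Fin k₂) F,
        Q * fromBlocks (1 : Matrix (Fin k ⊕ Fin k) (Fin k ⊕ Fin k) F) 0 0 A'.1 * R
          ∈ Matrix.symplecticGroup (Fin m) F) ∧
      (∀ g : Matrix.symplecticGroup (Fin m) F, (∀ s : Fin k ⊕ Fin k,
        (g : Matrix (Fin m ⊕ Fin m) (Fin m ⊕ Fin m) F) *ᵥ (fun i => Q i (Sum.inl s))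
          = fun i => Q i (Sum.inl s)) →
        ∃ A' : Matrix.symplecticGroup (Fin k₂) F,
          (g : Matrix (Fin m ⊕ Fin m) (Fin m ⊕ Fin m) F)
            = Q * fromBlocks (1 : Matrix (Fin k ⊕ Fin k) (Fin k ⊕ Fin k) F) 0 0 A'.1 * R) := by
  classical
  obtain ⟨J', hJ'⟩ : ∃ J' : Matrix ((Fin k ⊕ Fin k) ⊕ (Fin k₂ ⊕ Fin k₂))
      ((Fin k ⊕ Fin k) ⊕ (Fin k₂ ⊕ Fin k₂)) F,
      J' = fromBlocks (J (Fin k) F) 0 0 (J (Fin k₂) F) := ⟨_, rfl⟩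
  rw [← hJ'] at hQ
  have hJ'sq : J' * J' = -1 := by
    rw [hJ', fromBlocks_multiply]
    simp only [Matrix.J_squared, Matrix.mul_zero, Matrix.zero_mul, add_zero, zero_add]
    ext a b
    rcases a with a | a <;> rcases b with b | b <;> simp [Matrix.one_apply]
  obtain ⟨R, hR⟩ : ∃ R : Matrix ((Fin k ⊕ Fin k) ⊕ (Fin k₂ ⊕ Fin k₂)) (Fin m ⊕ Fin m) F,
      R = -(J' * Qᵀ * J (Fin m) F) := ⟨_, rfl⟩
  have hRQ : R * Q = 1 := by
    rw [hR, Matrix.neg_mul, Matrix.mul_assoc, Matrix.mul_assoc, ← Matrix.mul_assoc Qᵀ, hQ, hJ'sq,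
      neg_neg]
  have hQR : Q * R = 1 := by
    have e : (Fin k ⊕ Fin k) ⊕ (Fin k₂ ⊕ Fin k₂) ≃ Fin m ⊕ Fin m :=
      Fintype.equivOfCardEq (by simp; omega)
    exact (Matrix.mul_eq_one_comm_of_equiv e).mp hRQ
  have hRJR : Rᵀ * J' * R = J (Fin m) F := by
    have h1 : (Q * R)ᵀ * J (Fin m) F * (Q * R) = J (Fin m) F := by rw [hQR]; simp
    rw [← h1, ← hQ]
    simp only [Matrix.transpose_mul, Matrix.mul_assoc]
  have hmem : ∀ D : Matrix ((Fin k ⊕ Fin k) ⊕ (Fin k₂ ⊕ Fin k₂))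
      ((Fin k ⊕ Fin k) ⊕ (Fin k₂ ⊕ Fin k₂)) F, Dᵀ * J' * D = J' →
      (Q * D * R)ᵀ * J (Fin m) F * (Q * D * R) = J (Fin m) F := by
    intro D hDD
    calc (Q * D * R)ᵀ * J (Fin m) F * (Q * D * R)
        = Rᵀ * (Dᵀ * (Qᵀ * J (Fin m) F * Q) * D) * R := by
          simp only [Matrix.transpose_mul, Matrix.mul_assoc]
      _ = Rᵀ * J' * R := by rw [hQ, hDD]
      _ = J (Fin m) F := hRJR
  have hD : ∀ (A' : Matrix.symplecticGroup (Fin k₂) F),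
      (fromBlocks (1 : Matrix (Fin k ⊕ Fin k) (Fin k ⊕ Fin k) F) 0 0 A'.1)ᵀ * J'
        * fromBlocks (1 : Matrix (Fin k ⊕ Fin k) (Fin k ⊕ Fin k) F) 0 0 A'.1 = J' := by
    intro A'
    have hA' := SymplecticGroup.mem_iff'.mp A'.2
    rw [hJ', fromBlocks_transpose, fromBlocks_multiply, fromBlocks_multiply]
    simp only [Matrix.mul_zero, Matrix.zero_mul, add_zero, zero_add, Matrix.transpose_zero,
      Matrix.transpose_one, Matrix.one_mul, Matrix.mul_one]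
    rw [hA']
  have hcol : ∀ c, (fun i => Q i c) = Q *ᵥ Pi.single c (1 : F) := by
    intro c
    funext i
    rw [Matrix.mulVec_single_one]; rfl
  refine ⟨R, hRQ, hQR, fun A' => SymplecticGroup.mem_iff'.mpr (hmem _ (hD A')), ?_⟩
  intro g hg
  obtain ⟨D, hDdef⟩ : ∃ D : Matrix ((Fin k ⊕ Fin k) ⊕ (Fin k₂ ⊕ Fin k₂))
      ((Fin k ⊕ Fin k) ⊕ (Fin k₂ ⊕ Fin k₂)) F,
      D = R * (g : Matrix (Fin m ⊕ Fin m) (Fin m ⊕ Fin m) F) * Q := ⟨_, rfl⟩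
  have hgD : (g : Matrix (Fin m ⊕ Fin m) (Fin m ⊕ Fin m) F) = Q * D * R := by
    rw [hDdef]
    calc (g : Matrix (Fin m ⊕ Fin m) (Fin m ⊕ Fin m) F)
        = (Q * R) * (g : Matrix (Fin m ⊕ Fin m) (Fin m ⊕ Fin m) F) * (Q * R) := by
          rw [hQR, Matrix.one_mul, Matrix.mul_one]
      _ = _ := by simp only [Matrix.mul_assoc]
  have hDD : Dᵀ * J' * D = J' := by
    have hgs := SymplecticGroup.mem_iff'.mp g.2
    calc Dᵀ * J' * D
        = Qᵀ * ((g : Matrix (Fin m ⊕ Fin m) (Fin m ⊕ Fin m) F)ᵀ * (Rᵀ * J' * R)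
            * (g : Matrix (Fin m ⊕ Fin m) (Fin m ⊕ Fin m) F)) * Q := by
          rw [hDdef]; simp only [Matrix.transpose_mul, Matrix.mul_assoc]
      _ = Qᵀ * J (Fin m) F * Q := by rw [hRJR, hgs]
      _ = J' := hQ
  have hDcol : ∀ s : Fin k ⊕ Fin k, D *ᵥ Pi.single (Sum.inl s) (1 : F) = Pi.single (Sum.inl s) 1 := by
    intro s
    rw [hDdef, ← Matrix.mulVec_mulVec, ← hcol, ← Matrix.mulVec_mulVec, hg s, hcol,
      Matrix.mulVec_mulVec, hRQ, Matrix.one_mulVec]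
  have h11 : D.toBlocks₁₁ = 1 := by
    ext s t
    have h1 := congrFun (hDcol t) (Sum.inl s)
    rw [Matrix.mulVec_single_one] at h1
    show D (Sum.inl s) (Sum.inl t) = _
    rw [Matrix.one_apply]
    rw [Pi.single_apply] at h1
    simp only [Sum.inl.injEq] at h1
    exact h1
  have h21 : D.toBlocks₂₁ = 0 := by
    ext s t
    have h1 := congrFun (hDcol t) (Sum.inr s)
    rw [Matrix.mulVec_single_one] at h1
    show D (Sum.inr s) (Sum.inl t) = _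
    rw [Pi.single_apply, if_neg (by simp)] at h1
    exact h1
  obtain ⟨B, hB⟩ : ∃ B, B = D.toBlocks₁₂ := ⟨_, rfl⟩
  obtain ⟨A', hA'⟩ : ∃ A', A' = D.toBlocks₂₂ := ⟨_, rfl⟩
  have hDb : D = fromBlocks 1 B 0 A' := by
    rw [hB, hA', ← h11, ← h21, fromBlocks_toBlocks]
  rw [hDb, hJ', fromBlocks_transpose, fromBlocks_multiply, fromBlocks_multiply] at hDD
  simp only [Matrix.mul_zero, Matrix.zero_mul, add_zero, zero_add, Matrix.transpose_zero,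
    Matrix.transpose_one, Matrix.one_mul, Matrix.mul_one] at hDD
  rw [fromBlocks_inj] at hDD
  obtain ⟨-, e2, -, e4⟩ := hDD
  have hB0 : B = 0 := by
    have h6 : J (Fin k) F * (J (Fin k) F * B) = -B := by
      rw [← Matrix.mul_assoc, Matrix.J_squared]; simp
    rw [e2, Matrix.mul_zero] at h6
    exact neg_eq_zero.mp h6.symm
  rw [hB0] at e4
  simp only [Matrix.transpose_zero, Matrix.zero_mul, Matrix.mul_zero, zero_add] at e4
  have hA's : A' ∈ Matrix.symplecticGroup (Fin k₂) F := SymplecticGroup.mem_iff'.mpr e4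
  refine ⟨⟨A', hA's⟩, ?_⟩
  rw [hgD, hDb, hB0]

/-- a frame whose first block is a given hyperbolic pair. -/
theorem exists_frame (m' : ℕ) (w y : Fin (m' + 1) ⊕ Fin (m' + 1) → F)
    (hwy : Cfsg.sympForm (m' + 1) F w y = 1) :
    ∃ Q : Matrix (Fin (m' + 1) ⊕ Fin (m' + 1)) ((Fin 1 ⊕ Fin 1) ⊕ (Fin m' ⊕ Fin m')) F,
      Qᵀ * J (Fin (m' + 1)) F * Q = fromBlocks (J (Fin 1) F) 0 0 (J (Fin m') F) ∧
      (fun i => Q i (Sum.inl (Sum.inl 0))) = y ∧ (fun i => Q i (Sum.inl (Sum.inr 0))) = w := by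
  classical
  have h₀ : Cfsg.sympForm (m' + 1) F (Pi.single (Sum.inr (Fin.last m')) 1)
      (Pi.single (Sum.inl (Fin.last m')) 1) = 1 := by
    rw [sf_e_right]; simp
  obtain ⟨A, -, hAu, hAv⟩ := Cfsg.Agent.S0766.result (m' + 1) _ _ w y h₀ hwy
  have hAs := SymplecticGroup.mem_iff'.mp A.2
  refine ⟨(A : Matrix (Fin (m' + 1) ⊕ Fin (m' + 1)) (Fin (m' + 1) ⊕ Fin (m' + 1)) F) * Qstd F m', ?_, ?_, ?_⟩
  · calc ((A : Matrix (Fin (m' + 1) ⊕ Fin (m' + 1)) (Fin (m' + 1) ⊕ Fin (m' + 1)) F) * Qstd F m')ᵀ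
          * J (Fin (m' + 1)) F
          * ((A : Matrix (Fin (m' + 1) ⊕ Fin (m' + 1)) (Fin (m' + 1) ⊕ Fin (m' + 1)) F) * Qstd F m')
        = (Qstd F m')ᵀ * ((A : Matrix (Fin (m' + 1) ⊕ Fin (m' + 1)) (Fin (m' + 1) ⊕ Fin (m' + 1)) F)ᵀ
            * J (Fin (m' + 1)) F
            * (A : Matrix (Fin (m' + 1) ⊕ Fin (m' + 1)) (Fin (m' + 1) ⊕ Fin (m' + 1)) F)) * Qstd F m' := by
          simp only [Matrix.transpose_mul, Matrix.mul_assoc]
      _ = _ := by rw [hAs, hQstd]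
  · have h1 : (fun i => ((A : Matrix (Fin (m' + 1) ⊕ Fin (m' + 1)) (Fin (m' + 1) ⊕ Fin (m' + 1)) F)
        * Qstd F m') i (Sum.inl (Sum.inl 0)))
        = (A : Matrix (Fin (m' + 1) ⊕ Fin (m' + 1)) (Fin (m' + 1) ⊕ Fin (m' + 1)) F) *ᵥ
          (fun i => Qstd F m' i (Sum.inl (Sum.inl 0))) := by
      funext i; rfl
    rw [h1, Qstd_col]
    exact hAv
  · have h1 : (fun i => ((A : Matrix (Fin (m' + 1) ⊕ Fin (m' + 1)) (Fin (m' + 1) ⊕ Fin (m' + 1)) F)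
        * Qstd F m') i (Sum.inl (Sum.inr 0)))
        = (A : Matrix (Fin (m' + 1) ⊕ Fin (m' + 1)) (Fin (m' + 1) ⊕ Fin (m' + 1)) F) *ᵥ
          (fun i => Qstd F m' i (Sum.inl (Sum.inr 0))) := by
      funext i; rfl
    rw [h1, Qstd_col]
    exact hAu

end Frames

end Cfsg.Agent.Lib.helper4
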