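import Mathlib
import Cfsg.Agent.Lib.helper4.SpDecomp
import Cfsg.Agent.Lib.helper4.SpCard
import Cfsg.Agent.Lib.helper4.SpTI

set_option autoImplicit false
set_option linter.unusedSectionVars false

/-!
# Counting pairs of complementary totally isotropic `d`-spaces of the symplectic space
-/

namespace Cfsg.Agent.Lib.helper4

open Matrix
open Cfsg.Agent.S0776 Cfsg.Agent.S0766 Cfsg.Agent.S0765

section PolarCount

variable {F : Type*} [Field F] {d : ℕ}

theorem li_of_gram_J (e : Fin d ⊕ Fin d → (Fin d ⊕ Fin d → F))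
    (h : ∀ a b, Cfsg.sympForm d F (e a) (e b) = J (Fin d) F a b) : LinearIndependent F e := by
  classical
  rw [Fintype.linearIndependent_iff]
  intro c hc
  have h1 : ∀ b, ∑ a, c a * J (Fin d) F a b = 0 := by
    intro b
    have h2 : Cfsg.sympForm d F (∑ a, c a • e a) (e b) = 0 := by rw [hc, sf_zero_left]
    rw [sf_sum_left] at h2
    simp only [sf_smul_left, h] at h2
    exact h2
  intro a
  rcases a with i | i
  · have h3 := h1 (Sum.inr i)
    rw [Fintype.sum_sum_type] at h3
    simpa [Matrix.J, Matrix.one_apply, Matrix.neg_apply] using h3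
  · have h3 := h1 (Sum.inl i)
    rw [Fintype.sum_sum_type] at h3
    simpa [Matrix.J, Matrix.one_apply] using h3

theorem card_hyp_frames :
    Nat.card {e : Fin d ⊕ Fin d → (Fin d ⊕ Fin d → F) //
        ∀ a b, Cfsg.sympForm d F (e a) (e b) = J (Fin d) F a b}
      = Nat.card (Matrix.symplecticGroup (Fin d) F) := by
  classical
  symm
  refine Nat.card_congr (Equiv.ofBijective (fun g =>
    ⟨fun a => (g : Matrix (Fin d ⊕ Fin d) (Fin d ⊕ Fin d) F) *ᵥ Pi.single a 1,
      fun a b => by rw [sp_pres, sf_single]⟩) ⟨?_, ?_⟩)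
  · intro g g' h
    have h1 : ∀ a, (g : Matrix (Fin d ⊕ Fin d) (Fin d ⊕ Fin d) F) *ᵥ Pi.single a 1
        = (g' : Matrix (Fin d ⊕ Fin d) (Fin d ⊕ Fin d) F) *ᵥ Pi.single a 1 :=
      fun a => congrFun (congrArg Subtype.val h) a
    apply Subtype.ext
    ext i a
    have h2 := congrFun (h1 a) i
    rw [Matrix.mulVec_single_one, Matrix.mulVec_single_one] at h2
    exact h2
  · intro e
    obtain ⟨A, hA⟩ := witt_frames_fintype (fun a => Pi.single a (1 : F)) e.1
      (li_of_gram_J _ (fun a b => sf_single d a b)) (li_of_gram_J e.1 e.2)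
      (fun a b => by rw [e.2, sf_single])
    exact ⟨A, Subtype.ext (funext hA)⟩

theorem finrank_sp_space : Module.finrank F (Fin d ⊕ Fin d → F) = 2 * d := by
  rw [Module.finrank_fintype_fun_eq_card, Fintype.card_sum, Fintype.card_fin]
  omega

theorem ti_compl_finrank_le (U W : Submodule F (Fin d ⊕ Fin d → F)) (hc : IsCompl U W)
    (hW : ∀ u ∈ W, ∀ v ∈ W, Cfsg.sympForm d F u v = 0) :
    Module.finrank F W ≤ Module.finrank F U := by
  classical
  obtain ⟨k, hk⟩ : ∃ k, k = Module.finrank F U := ⟨_, rfl⟩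
  obtain ⟨b⟩ : Nonempty (Module.Basis (Fin k) F U) := ⟨by rw [hk]; exact Module.finBasis F U⟩
  have hspan : Submodule.span F (Set.range (fun i => (b i : Fin d ⊕ Fin d → F))) = U := by
    have h2 : (fun i => (b i : Fin d ⊕ Fin d → F)) = U.subtype ∘ b := rfl
    rw [h2, Set.range_comp, ← Submodule.map_span, b.span_eq, Submodule.map_top,
      Submodule.range_subtype]
  obtain ⟨Ψ, hΨ⟩ : ∃ Ψ : W →ₗ[F] (Fin k → F), ∀ w i,
      Ψ w i = Cfsg.sympForm d F (b i : Fin d ⊕ Fin d → F) (w : Fin d ⊕ Fin d → F) :=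
    ⟨(LinearMap.pi (fun i => sB d F (b i : Fin d ⊕ Fin d → F))).comp W.subtype,
      fun w i => sB_apply _ _⟩
  have hinj : Function.Injective Ψ := by
    rw [← LinearMap.ker_eq_bot, LinearMap.ker_eq_bot']
    intro w hw
    apply Subtype.ext
    apply (sB_nondeg (m := d) (F := F)).2
    intro v
    have hv : v ∈ U ⊔ W := by
      rw [hc.sup_eq_top]
      trivial
    obtain ⟨u, hu, w', hw', rfl⟩ := Submodule.mem_sup.mp hv
    have hu' : ∀ n ∈ Submodule.span F (Set.range (fun i => (b i : Fin d ⊕ Fin d → F))),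
        sB d F n (w : Fin d ⊕ Fin d → F) = 0 := by
      rw [orth_span]
      intro i
      rw [← hΨ, hw]
      rfl
    rw [hspan] at hu'
    rw [map_add, LinearMap.add_apply, hu' u hu, sB_apply, hW w' hw' w w.2, add_zero]
  have h1 := LinearMap.finrank_le_finrank_of_injective hinj
  rw [Module.finrank_fin_fun] at h1
  rw [← hk]
  exact h1

theorem sf_ti_symm (W : Submodule F (Fin d ⊕ Fin d → F))
    (hW : ∀ u ∈ W, ∀ v ∈ W, Cfsg.sympForm d F u v = 0) :
    ∀ u ∈ W, ∀ v ∈ W, Cfsg.sympForm d F u v = 0 := hW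

theorem polar_finrank (U W : Submodule F (Fin d ⊕ Fin d → F)) (hc : IsCompl U W)
    (hU : ∀ u ∈ U, ∀ v ∈ U, Cfsg.sympForm d F u v = 0)
    (hW : ∀ u ∈ W, ∀ v ∈ W, Cfsg.sympForm d F u v = 0) :
    Module.finrank F U = d ∧ Module.finrank F W = d := by
  have h1 := ti_compl_finrank_le U W hc hW
  have h2 := ti_compl_finrank_le W U hc.symm hU
  have h3 := Submodule.finrank_add_eq_of_isCompl hc
  rw [finrank_sp_space] at h3
  omega

end PolarCount

section PolarCard

variable {F : Type*} [Field F] [Fintype F] {d : ℕ}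

theorem card_polar_pairs {q : ℕ} (hF : Fintype.card F = q) :
    Nat.card {P : Submodule F (Fin d ⊕ Fin d → F) × Submodule F (Fin d ⊕ Fin d → F) //
        IsCompl P.1 P.2 ∧ (∀ u ∈ P.1, ∀ v ∈ P.1, Cfsg.sympForm d F u v = 0) ∧
          (∀ u ∈ P.2, ∀ v ∈ P.2, Cfsg.sympForm d F u v = 0)}
      * (∏ i : Fin d, (q ^ d - q ^ (i : ℕ)))
    = Nat.card (Matrix.symplecticGroup (Fin d) F) := by
  classical
  rw [← card_hyp_frames]
  obtain ⟨φ, hφ⟩ : ∃ φ : {e : Fin d ⊕ Fin d → (Fin d ⊕ Fin d → F) //
        ∀ a b, Cfsg.sympForm d F (e a) (e b) = J (Fin d) F a b}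
      → {P : Submodule F (Fin d ⊕ Fin d → F) × Submodule F (Fin d ⊕ Fin d → F) //
        IsCompl P.1 P.2 ∧ (∀ u ∈ P.1, ∀ v ∈ P.1, Cfsg.sympForm d F u v = 0) ∧
          (∀ u ∈ P.2, ∀ v ∈ P.2, Cfsg.sympForm d F u v = 0)},
      ∀ e, (φ e).1 = (Submodule.span F (Set.range (fun i => e.1 (Sum.inl i))),
        Submodule.span F (Set.range (fun i => e.1 (Sum.inr i)))) := by
    refine ⟨fun e => ⟨(Submodule.span F (Set.range (fun i => e.1 (Sum.inl i))),
        Submodule.span F (Set.range (fun i => e.1 (Sum.inr i)))), ?_, ?_, ?_⟩, fun e => rfl⟩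
    · have hli := li_of_gram_J e.1 e.2
      constructor
      · have h1 := hli.disjoint_span_image (s := Set.range Sum.inl) (t := Set.range Sum.inr)
          Set.isCompl_range_inl_range_inr.disjoint
        rw [← Set.range_comp, ← Set.range_comp] at h1
        exact h1
      · rw [codisjoint_iff, eq_top_iff]
        have h2 : Submodule.span F (Set.range e.1) = ⊤ := by
          apply hli.span_eq_top_of_card_eq_finrank'
          rw [finrank_sp_space, Fintype.card_sum, Fintype.card_fin]
          omega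
        rw [← h2, Submodule.span_le]
        rintro _ ⟨a, rfl⟩
        rcases a with i | i
        · exact Submodule.mem_sup_left (Submodule.subset_span ⟨i, rfl⟩)
        · exact Submodule.mem_sup_right (Submodule.subset_span ⟨i, rfl⟩)
    · exact ti_span_range (fun i => e.1 (Sum.inl i)) (fun i j => by rw [e.2]; simp [Matrix.J])
    · exact ti_span_range (fun i => e.1 (Sum.inr i)) (fun i j => by rw [e.2]; simp [Matrix.J])
  have hfib : ∀ P, Nat.card {e // φ e = P} = ∏ i : Fin d, (q ^ d - q ^ (i : ℕ)) := by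
    intro P
    obtain ⟨hU, hW⟩ := polar_finrank P.1.1 P.1.2 P.2.1 P.2.2.1 P.2.2.2
    have h1 := card_linearIndependent (K := F) (V := P.1.1) (k := d) (le_of_eq hU.symm)
    rw [hU, hF] at h1
    have hmem : ∀ e : {e // φ e = P},
        Submodule.span F (Set.range (fun i => e.1.1 (Sum.inl i))) = P.1.1
        ∧ Submodule.span F (Set.range (fun i => e.1.1 (Sum.inr i))) = P.1.2 := by
      intro e
      have h2 := congrArg Subtype.val e.2
      rw [hφ] at h2
      exact ⟨congrArg Prod.fst h2, congrArg Prod.snd h2⟩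
    obtain ⟨ψ, hψ⟩ : ∃ ψ : {e // φ e = P} → {u : Fin d → ↥P.1.1 // LinearIndependent F u},
        ∀ e i, ((ψ e).1 i : Fin d ⊕ Fin d → F) = e.1.1 (Sum.inl i) := by
      refine ⟨fun e => ⟨fun i => ⟨e.1.1 (Sum.inl i), ?_⟩, ?_⟩, fun e i => rfl⟩
      · rw [← (hmem e).1]
        exact Submodule.subset_span ⟨i, rfl⟩
      · apply LinearIndependent.of_comp P.1.1.subtype
        exact (li_of_gram_J e.1.1 e.1.2).comp Sum.inl Sum.inl_injective
    refine (Nat.card_congr (Equiv.ofBijective ψ ⟨?_, ?_⟩)).trans h1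
    · intro e e' h
      have h1 : ∀ i, e.1.1 (Sum.inl i) = e'.1.1 (Sum.inl i) := by
        intro i
        rw [← hψ, ← hψ, h]
      apply Subtype.ext
      apply Subtype.ext
      funext a
      rcases a with i | j
      · exact h1 i
      · rw [← sub_eq_zero]
        apply (sB_nondeg (m := d) (F := F)).2
        intro v
        have hv : v ∈ P.1.1 ⊔ P.1.2 := by
          rw [P.2.1.sup_eq_top]
          trivial
        obtain ⟨u, hu, w, hw, rfl⟩ := Submodule.mem_sup.mp hv
        have hu' : ∀ n ∈ Submodule.span F (Set.range (fun i => e.1.1 (Sum.inl i))),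
            sB d F n (e.1.1 (Sum.inr j) - e'.1.1 (Sum.inr j)) = 0 := by
          rw [orth_span]
          intro i
          rw [sf_sub_right, e.1.2, h1 i, e'.1.2, sub_self]
        rw [(hmem e).1] at hu'
        have hδ : e.1.1 (Sum.inr j) - e'.1.1 (Sum.inr j) ∈ P.1.2 := by
          apply Submodule.sub_mem
          · rw [← (hmem e).2]
            exact Submodule.subset_span ⟨j, rfl⟩
          · rw [← (hmem e').2]
            exact Submodule.subset_span ⟨j, rfl⟩
        rw [map_add, LinearMap.add_apply, hu' u hu, sB_apply, P.2.2.2 w hw _ hδ, add_zero]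
    · intro u
      have hũ : LinearIndependent F (fun i => (u.1 i : Fin d ⊕ Fin d → F)) :=
        u.2.map' P.1.1.subtype (Submodule.ker_subtype P.1.1)
      have hw : ∀ j : Fin d, ∃ w ∈ P.1.2, ∀ i,
          Cfsg.sympForm d F (u.1 i : Fin d ⊕ Fin d → F) w = J (Fin d) F (Sum.inl i) (Sum.inr j) := by
        intro j
        obtain ⟨v, hv⟩ := Cfsg.Agent.S0751.L_surj (RingHom.id F) (sB d F) (fun a => rfl)
          sB_nondeg _ hũ (fun i => J (Fin d) F (Sum.inl i) (Sum.inr j))
        have hv' : v ∈ P.1.1 ⊔ P.1.2 := by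
          rw [P.2.1.sup_eq_top]
          trivial
        obtain ⟨v₁, hv₁, v₂, hv₂, rfl⟩ := Submodule.mem_sup.mp hv'
        refine ⟨v₂, hv₂, fun i => ?_⟩
        have h2 := hv i
        rw [sB_apply, sf_add_right, P.2.2.1 _ (u.1 i).2 _ hv₁, zero_add] at h2
        exact h2
      choose w hwW hw using hw
      have hgram : ∀ a b, Cfsg.sympForm d F
          (Sum.elim (fun i => (u.1 i : Fin d ⊕ Fin d → F)) w a)
          (Sum.elim (fun i => (u.1 i : Fin d ⊕ Fin d → F)) w b) = J (Fin d) F a b := by
        intro a b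
        rcases a with i | i <;> rcases b with j | j
        · simp only [Sum.elim_inl]
          rw [P.2.2.1 _ (u.1 i).2 _ (u.1 j).2]
          simp [Matrix.J]
        · simp only [Sum.elim_inl, Sum.elim_inr]
          exact hw j i
        · simp only [Sum.elim_inl, Sum.elim_inr]
          rw [sf_anti, hw i j]
          simp [Matrix.J, Matrix.one_apply, eq_comm]
        · simp only [Sum.elim_inr]
          rw [P.2.2.2 _ (hwW i) _ (hwW j)]
          simp [Matrix.J]
      refine ⟨⟨⟨Sum.elim (fun i => (u.1 i : Fin d ⊕ Fin d → F)) w, hgram⟩, ?_⟩, ?_⟩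
      · apply Subtype.ext
        rw [hφ]
        have hli := li_of_gram_J _ hgram
        apply Prod.ext
        · show Submodule.span F (Set.range (fun i => (u.1 i : Fin d ⊕ Fin d → F))) = P.1.1
          apply Submodule.eq_of_le_of_finrank_eq
          · rw [Submodule.span_le]
            rintro _ ⟨i, rfl⟩
            exact (u.1 i).2
          · rw [finrank_span_eq_card hũ, Fintype.card_fin, hU]
        · show Submodule.span F (Set.range w) = P.1.2
          apply Submodule.eq_of_le_of_finrank_eq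
          · rw [Submodule.span_le]
            rintro _ ⟨i, rfl⟩
            exact hwW i
          · have hwli : LinearIndependent F w := hli.comp Sum.inr Sum.inr_injective
            rw [finrank_span_eq_card hwli, Fintype.card_fin, hW]
      · apply Subtype.ext
        funext i
        apply Subtype.ext
        rw [hψ]
        rfl
  rw [card_fiber_count φ _ hfib]

end PolarCard

end Cfsg.Agent.Lib.helper4
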