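import Mathlib
import Cfsg.Agent.Lib.helper4.SpPolarCount
import Cfsg.Agent.Lib.helper13.Embed

set_option autoImplicit false
set_option linter.unusedSectionVars false

/-!
# Elements of odd prime order of `Sp(2d, q)`, `q` odd, fixing no polar pair
-/

namespace Cfsg.Agent.Lib.helper4

open Matrix
open Cfsg.Agent.S0776 Cfsg.Agent.S0766 Cfsg.Agent.S0765
open Cfsg.Agent.Lib.helper13

section Arith

theorem polar_prime_dvd {F : Type*} [Field F] [Fintype F] {p : ℕ} [Fact p.Prime] [CharP F p]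
    {q : ℕ} (hq : Fintype.card F = q) (d : ℕ) (hd : 1 ≤ d) (hodd : Odd q) (r : ℕ)
    [Fact r.Prime] (hrp : r ≠ p)
    (hΩ : r ∣ Nat.card {P : Submodule F (Fin d ⊕ Fin d → F) × Submodule F (Fin d ⊕ Fin d → F) //
        IsCompl P.1 P.2 ∧ (∀ u ∈ P.1, ∀ v ∈ P.1, Cfsg.sympForm d F u v = 0) ∧
          (∀ u ∈ P.2, ∀ v ∈ P.2, Cfsg.sympForm d F u v = 0)} / 2) :
    ∃ j, 1 ≤ j ∧ j ≤ d ∧ r ∣ q ^ j + 1 := by
  classical
  have hcount := card_polar_pairs (d := d) hq
  rw [card_sp hq d] at hcount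
  obtain ⟨N, hN⟩ : ∃ N, N = Nat.card {P : Submodule F (Fin d ⊕ Fin d → F) ×
        Submodule F (Fin d ⊕ Fin d → F) //
        IsCompl P.1 P.2 ∧ (∀ u ∈ P.1, ∀ v ∈ P.1, Cfsg.sympForm d F u v = 0) ∧
          (∀ u ∈ P.2, ∀ v ∈ P.2, Cfsg.sympForm d F u v = 0)} := ⟨_, rfl⟩
  rw [← hN] at hcount hΩ
  have hq2 : 2 ≤ q := hq ▸ Fintype.one_lt_card
  have hr : r.Prime := Fact.out
  have hA : ∏ i : Fin d, (q ^ d - q ^ (i : ℕ))
      = (∏ i ∈ Finset.range d, q ^ (d - 1 - i)) * ∏ i ∈ Finset.range d, (q ^ (i + 1) - 1) := by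
    rw [Fin.prod_univ_eq_prod_range (fun i => q ^ d - q ^ i) d]
    have h0 := Finset.prod_range_reflect (fun i => q ^ d - q ^ i) d
    rw [← h0, ← Finset.prod_mul_distrib]
    apply Finset.prod_congr rfl
    intro i hi
    rw [Finset.mem_range] at hi
    have h1 : q ^ d = q ^ (d - 1 - i) * q ^ (i + 1) := by
      rw [← pow_add]
      congr 1
      omega
    rw [Nat.mul_sub, mul_one, ← h1]
  have hB : ∏ i ∈ Finset.range d, (q ^ (2 * (i + 1)) - 1)
      = (∏ i ∈ Finset.range d, (q ^ (i + 1) - 1)) * ∏ i ∈ Finset.range d, (q ^ (i + 1) + 1) := by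
    rw [← Finset.prod_mul_distrib]
    apply Finset.prod_congr rfl
    intro i _
    obtain ⟨y, hy⟩ : ∃ y, q ^ (i + 1) = y + 1 :=
      ⟨q ^ (i + 1) - 1, by have := Nat.one_le_pow (i + 1) q (by omega); omega⟩
    rw [mul_comm 2, pow_mul, hy, Nat.add_sub_cancel]
    apply Nat.sub_eq_of_eq_add
    ring
  have hPm : 0 < ∏ i ∈ Finset.range d, (q ^ (i + 1) - 1) := by
    apply Finset.prod_pos
    intro i _
    have := Nat.pow_le_pow_left hq2 (i + 1)
    have h2 : 2 ≤ 2 ^ (i + 1) := Nat.le_self_pow (by omega) 2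
    omega
  have hmain : N * (∏ i ∈ Finset.range d, q ^ (d - 1 - i))
      = q ^ (d ^ 2) * ∏ i ∈ Finset.range d, (q ^ (i + 1) + 1) := by
    apply Nat.eq_of_mul_eq_mul_right hPm
    rw [hA, hB] at hcount
    rw [mul_assoc, hcount]
    ring
  have h2P : 2 ∣ ∏ i ∈ Finset.range d, (q ^ (i + 1) + 1) := by
    have h1 : q ^ (0 + 1) + 1 ∣ ∏ i ∈ Finset.range d, (q ^ (i + 1) + 1) :=
      Finset.dvd_prod_of_mem (fun i => q ^ (i + 1) + 1) (Finset.mem_range.mpr (by omega))
    exact dvd_trans (even_iff_two_dvd.mp (hodd.pow.add_one)) h1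
  have hcop : Nat.Coprime 2 (∏ i ∈ Finset.range d, q ^ (d - 1 - i)) := by
    apply Nat.Coprime.prod_right
    intro i _
    exact Nat.Coprime.pow_right _ (Nat.coprime_two_left.mpr hodd)
  have h2N : 2 ∣ N := by
    apply Nat.Coprime.dvd_of_dvd_mul_right hcop
    rw [hmain]
    exact Dvd.dvd.mul_left h2P _
  have hrN : r ∣ N := dvd_trans hΩ (Nat.div_dvd_of_dvd h2N)
  have hr2 : r ∣ q ^ (d ^ 2) * ∏ i ∈ Finset.range d, (q ^ (i + 1) + 1) := by
    rw [← hmain]
    exact Dvd.dvd.mul_right hrN _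
  rcases (Nat.Prime.dvd_mul hr).mp hr2 with h | h
  · exfalso
    have h1 := hr.dvd_of_dvd_pow h
    obtain ⟨n, hp, hcard⟩ := FiniteField.card F p
    rw [← hq, hcard] at h1
    exact hrp ((Nat.prime_dvd_prime_iff_eq hr hp).mp (hr.dvd_of_dvd_pow h1))
  · obtain ⟨i, hi, hri⟩ := (Prime.dvd_finsetProd_iff hr.prime _).mp h
    rw [Finset.mem_range] at hi
    exact ⟨i + 1, by omega, by omega, hri⟩

theorem minimal_plus_order (q r k : ℕ) [Fact r.Prime] (hr2 : r ≠ 2) (hk : 1 ≤ k)
    (hr : r ∣ q ^ k + 1) (hmin : ∀ f, 1 ≤ f → r ∣ q ^ f + 1 → k ≤ f) (m : ℕ) (hm : 1 ≤ m)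
    (hrm : r ∣ q ^ m - 1) : 2 * k ≤ m := by
  have hrp : r.Prime := Fact.out
  have hq1 : 1 ≤ q := by
    rcases Nat.eq_zero_or_pos q with h | h
    · exfalso
      rw [h, zero_pow (by omega), zero_add, Nat.dvd_one] at hr
      exact hrp.ne_one hr
    · exact h
  have hx : (q : ZMod r) ^ k = -1 := by
    have h1 := (ZMod.natCast_eq_zero_iff (q ^ k + 1) r).mpr hr
    push_cast at h1
    exact eq_neg_of_add_eq_zero_left h1
  have hne : (-1 : ZMod r) ≠ 1 := by
    intro h
    have h1 : ((2 : ℕ) : ZMod r) = 0 := by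
      push_cast
      linear_combination -h
    have h2 := (ZMod.natCast_eq_zero_iff 2 r).mp h1
    exact hr2 ((Nat.prime_dvd_prime_iff_eq hrp Nat.prime_two).mp h2)
  have hx2 : (q : ZMod r) ^ (2 * k) = 1 := by
    rw [mul_comm, pow_mul, hx]
    ring
  have hxm : (q : ZMod r) ^ m = 1 := by
    have h1 := (ZMod.natCast_eq_zero_iff (q ^ m - 1) r).mpr hrm
    rw [Nat.cast_sub (Nat.one_le_pow _ _ hq1)] at h1
    push_cast at h1
    exact sub_eq_zero.mp h1
  obtain ⟨e, he⟩ : ∃ e, e = orderOf (q : ZMod r) := ⟨_, rfl⟩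
  have he2 : e ∣ 2 * k := he ▸ orderOf_dvd_of_pow_eq_one hx2
  have hem : e ∣ m := he ▸ orderOf_dvd_of_pow_eq_one hxm
  have hepos : 0 < e := Nat.pos_of_dvd_of_pos he2 (by omega)
  have hek : ¬ e ∣ k := by
    intro h
    rw [he] at h
    have h1 := orderOf_dvd_iff_pow_eq_one.mp h
    rw [hx] at h1
    exact hne h1
  have heven : Even e := by
    by_contra hodd
    rw [Nat.not_even_iff_odd] at hodd
    apply hek
    have hc : Nat.Coprime e 2 := (Nat.coprime_two_right).mpr hodd
    exact hc.dvd_of_dvd_mul_left he2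
  obtain ⟨f, hf⟩ := heven
  have hf1 : 1 ≤ f := by omega
  have hsq : (q : ZMod r) ^ f * (q : ZMod r) ^ f = 1 := by
    rw [← pow_add, ← hf, he, pow_orderOf_eq_one]
  have hle : 2 * k ≤ e := by
    rcases mul_self_eq_one_iff.mp hsq with h | h
    · exfalso
      have h1 := orderOf_dvd_of_pow_eq_one h
      rw [← he] at h1
      have := Nat.le_of_dvd (by omega) h1
      omega
    · have h1 : r ∣ q ^ f + 1 := by
        apply (ZMod.natCast_eq_zero_iff (q ^ f + 1) r).mp
        push_cast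
        rw [h]
        ring
      have := hmin f hf1 h1
      omega
  exact le_trans hle (Nat.le_of_dvd (by omega) hem)

end Arith

section Singer

variable {F : Type*} [Field F] [Fintype F] {p : ℕ} [Fact p.Prime] [CharP F p]

/-- an alternating form on the extension of degree `2k` with an irreducible isometry of prime
order `r ∣ q ^ k + 1` given by a multiplication -/
theorem exists_singer_symp (hp2 : p ≠ 2) (n k : ℕ) [NeZero n] (hn : n = 2 * k) (r : ℕ)
    [Fact r.Prime] (hr : r ∣ Fintype.card F ^ k + 1)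
    (hmin : ∀ m, 1 ≤ m → r ∣ Fintype.card F ^ m - 1 → n ≤ m) :
    ∃ (B₀ : LinearMap.BilinForm F (FiniteField.Extension F p n))
      (ζ : (FiniteField.Extension F p n)ˣ),
      B₀.IsAlt ∧ B₀.Nondegenerate ∧ orderOf ζ = r ∧
      (∀ x y, B₀ ((ζ : FiniteField.Extension F p n) * x) ((ζ : FiniteField.Extension F p n) * y)
        = B₀ x y) ∧
      (∀ U : Submodule F (FiniteField.Extension F p n),
        (∀ u ∈ U, (ζ : FiniteField.Extension F p n) * u ∈ U) → U = ⊥ ∨ U = ⊤) := by
  classical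
  haveI : Fintype (FiniteField.Extension F p n) := Fintype.ofFinite _
  have hrp : r.Prime := Fact.out
  have hk : 1 ≤ k := by
    have := NeZero.ne n
    omega
  obtain ⟨q, hq⟩ : ∃ q, q = Fintype.card F := ⟨_, rfl⟩
  rw [← hq] at hr hmin
  have hq2 : 2 ≤ q := hq ▸ Fintype.one_lt_card
  have hqd : 2 ≤ q ^ k := le_trans hq2 (Nat.le_self_pow (by omega) q)
  have hcardK : Fintype.card (FiniteField.Extension F p n) = q ^ n := by
    rw [Fintype.card_eq_nat_card, FiniteField.natCard_extension, Nat.card_eq_fintype_card, hq]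
  have hqn : q ^ n = q ^ k * q ^ k := by rw [hn, two_mul, pow_add]
  obtain ⟨σ, hσdef⟩ : ∃ σ : FiniteField.Extension F p n ≃ₐ[F] FiniteField.Extension F p n,
      σ = (FiniteField.Extension.frob F p n) ^ k := ⟨_, rfl⟩
  have hσ : ∀ x : FiniteField.Extension F p n, σ x = x ^ (q ^ k) := by
    intro x
    rw [hσdef, hq, ← Nat.card_eq_fintype_card]
    exact FiniteField.Extension.frob_iterate_apply F p n k
  have hσσ : ∀ x : FiniteField.Extension F p n, σ (σ x) = x := by
    intro x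
    rw [hσ, hσ, ← pow_mul, ← hqn, ← hcardK]
    exact FiniteField.pow_card x
  have hcardU : Nat.card (FiniteField.Extension F p n)ˣ = q ^ n - 1 := by
    rw [Nat.card_units, FiniteField.natCard_extension, Nat.card_eq_fintype_card, hq]
  have hdiv : r ∣ q ^ n - 1 := by
    have h1 : q ^ n - 1 = (q ^ k - 1) * (q ^ k + 1) := by
      rw [hqn]
      obtain ⟨a, ha⟩ : ∃ a, q ^ k = a + 1 := ⟨q ^ k - 1, by omega⟩
      rw [ha, Nat.add_sub_cancel]
      apply Nat.sub_eq_of_eq_add
      ring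
    rw [h1]
    exact Dvd.dvd.mul_left hr _
  obtain ⟨ζ, hζ⟩ := exists_prime_orderOf_dvd_card' (G := (FiniteField.Extension F p n)ˣ) r
    (by rw [hcardU]; exact hdiv)
  have hζ1 : ζ ≠ 1 := by
    intro h
    rw [h, orderOf_one] at hζ
    exact hrp.ne_one hζ.symm
  have hζN : (ζ : FiniteField.Extension F p n) * σ ζ = 1 := by
    rw [hσ, ← pow_succ']
    obtain ⟨j, hj⟩ := hr
    rw [hj, pow_mul, ← Units.val_pow_eq_pow_val, ← hζ, pow_orderOf_eq_one, Units.val_one, one_pow]
  obtain ⟨a, ha⟩ : ∃ a : FiniteField.Extension F p n, σ a ≠ a := by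
    by_contra hcon
    push Not at hcon
    obtain ⟨g, hg⟩ := IsCyclic.exists_generator (α := (FiniteField.Extension F p n)ˣ)
    have h1 : orderOf g = q ^ n - 1 := by
      rw [orderOf_eq_card_of_forall_mem_zpowers hg, hcardU]
    have h2 : g ^ (q ^ k - 1) = 1 := by
      apply Units.ext
      have h3 := hcon (g : FiniteField.Extension F p n)
      rw [hσ] at h3
      have h4 : (g : FiniteField.Extension F p n) ^ (q ^ k - 1)
          * (g : FiniteField.Extension F p n) = (g : FiniteField.Extension F p n) := by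
        rw [← pow_succ, Nat.sub_add_cancel (by omega)]
        exact h3
      rw [Units.val_pow_eq_pow_val, Units.val_one]
      exact mul_right_cancel₀ (Units.ne_zero g) (h4.trans (one_mul _).symm)
    have h5 := orderOf_dvd_of_pow_eq_one h2
    rw [h1] at h5
    have h6 := Nat.le_of_dvd (by omega) h5
    rw [hqn] at h6
    have h7 : 2 * q ^ k ≤ q ^ k * q ^ k := Nat.mul_le_mul_right _ hqd
    omega
  obtain ⟨c, hc, hc0⟩ : ∃ c : FiniteField.Extension F p n, σ c = -c ∧ c ≠ 0 :=
    ⟨a - σ a, by rw [map_sub, hσσ]; ring, sub_ne_zero.mpr (Ne.symm ha)⟩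
  have h2ne : (2 : F) ≠ 0 := by
    intro h
    have h1 : ((2 : ℕ) : F) = 0 := by exact_mod_cast h
    have h2 := (CharP.cast_eq_zero_iff F p 2).mp h1
    exact hp2 ((Nat.prime_dvd_prime_iff_eq Fact.out Nat.prime_two).mp h2)
  obtain ⟨B₀, hB₀def⟩ : ∃ B₀ : LinearMap.BilinForm F (FiniteField.Extension F p n),
      B₀ = ((LinearMap.mul F (FiniteField.Extension F p n)).compl₂ σ.toLinearMap).compr₂
        ((Algebra.trace F (FiniteField.Extension F p n)).comp (LinearMap.mulLeft F c)) := ⟨_, rfl⟩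
  have hB₀ : ∀ x y, B₀ x y = Algebra.trace F (FiniteField.Extension F p n) (c * (x * σ y)) := by
    intro x y
    rw [hB₀def]
    rfl
  have hanti : ∀ x y, B₀ y x = - B₀ x y := by
    intro x y
    rw [hB₀, hB₀, ← Algebra.trace_eq_of_algEquiv σ (c * (y * σ x)),
      ← map_neg (Algebra.trace F (FiniteField.Extension F p n))]
    congr 1
    rw [map_mul σ, map_mul σ, hσσ, hc]
    ring
  have hAlt : B₀.IsAlt := by
    intro x
    have h1 := hanti x x
    have h2 : (2 : F) * B₀ x x = 0 := by linear_combination h1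
    rcases mul_eq_zero.mp h2 with h | h
    · exact absurd h h2ne
    · exact h
  have hsepL : ∀ x, (∀ y, B₀ x y = 0) → x = 0 := by
    intro x hx
    have h1 : ∀ z, Algebra.traceForm F (FiniteField.Extension F p n) (c * x) z = 0 := by
      intro z
      have h2 := hx (σ z)
      rw [hB₀, hσσ] at h2
      rw [Algebra.traceForm_apply, ← h2]
      congr 1
      ring
    have h3 := (traceForm_nondegenerate F (FiniteField.Extension F p n)).1 _ h1
    rcases mul_eq_zero.mp h3 with h4 | h4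
    · exact absurd h4 hc0
    · exact h4
  refine ⟨B₀, ζ, hAlt, ⟨hsepL, fun y hy => hsepL y (fun x => by rw [hanti, hy, neg_zero])⟩,
    hζ, ?_, ?_⟩
  · intro x y
    rw [hB₀, hB₀, map_mul σ]
    have h1 : c * ((ζ : FiniteField.Extension F p n) * x * (σ ζ * σ y))
        = ((ζ : FiniteField.Extension F p n) * σ ζ) * (c * (x * σ y)) := by ring
    rw [h1, hζN, one_mul]
  · intro U hU
    by_cases hbot : U = ⊥
    · exact Or.inl hbot
    right
    have hpow : ∀ (j : ℕ), ∀ u ∈ U, ((ζ ^ j : (FiniteField.Extension F p n)ˣ) :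
        FiniteField.Extension F p n) * u ∈ U := by
      intro j
      induction j with
      | zero =>
        intro u hu
        simpa using hu
      | succ j ih =>
        intro u hu
        rw [pow_succ, Units.val_mul, mul_assoc]
        exact ih _ (hU u hu)
    have hp : ∀ w : FiniteField.Extension F p n,
        ((Units.mulLeft ζ) w ∈ U ∧ (Units.mulLeft ζ) w ≠ 0) ↔ (w ∈ U ∧ w ≠ 0) := by
      intro w
      show ((ζ : FiniteField.Extension F p n) * w ∈ U ∧ (ζ : FiniteField.Extension F p n) * w ≠ 0)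
        ↔ _
      constructor
      · rintro ⟨h1, h2⟩
        refine ⟨?_, right_ne_zero_of_mul h2⟩
        have h3 := hpow (r - 1) _ h1
        rw [← mul_assoc, ← Units.val_mul, ← pow_succ, Nat.sub_add_cancel hrp.one_le, ← hζ,
          pow_orderOf_eq_one, Units.val_one, one_mul] at h3
        exact h3
      · rintro ⟨h1, h2⟩
        exact ⟨hU w h1, mul_ne_zero (Units.ne_zero ζ) h2⟩
    obtain ⟨τ, hτ⟩ : ∃ τ : Equiv.Perm {w : FiniteField.Extension F p n // w ∈ U ∧ w ≠ 0},
        ∀ a, (τ a : FiniteField.Extension F p n) = (ζ : FiniteField.Extension F p n) * a :=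
      ⟨(Units.mulLeft ζ).subtypePerm hp, fun a => rfl⟩
    have hτk : ∀ (j : ℕ) a, ((τ ^ j) a : FiniteField.Extension F p n)
        = ((ζ ^ j : (FiniteField.Extension F p n)ˣ) : FiniteField.Extension F p n) * a := by
      intro j
      induction j with
      | zero =>
        intro a
        simp
      | succ j ih =>
        intro a
        rw [pow_succ', Equiv.Perm.mul_apply, hτ, ih, pow_succ', Units.val_mul, mul_assoc]
    have hτr : τ ^ r ^ 1 = 1 := by
      rw [pow_one]
      ext a : 2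
      rw [hτk, ← hζ, pow_orderOf_eq_one, Units.val_one, one_mul]
      rfl
    have hfix : ∀ a, τ a ≠ a := by
      intro a h
      have h1 := congrArg Subtype.val h
      rw [hτ] at h1
      have h2 : ((ζ : FiniteField.Extension F p n) - 1) * (a : FiniteField.Extension F p n) = 0 := by
        rw [sub_mul, h1, one_mul, sub_self]
      rcases mul_eq_zero.mp h2 with h3 | h3
      · exact hζ1 (Units.ext (sub_eq_zero.mp h3))
      · exact a.2.2 h3
    have hdvd : r ∣ Fintype.card {w : FiniteField.Extension F p n // w ∈ U ∧ w ≠ 0} := by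
      by_contra hα
      obtain ⟨a, ha⟩ := Equiv.Perm.exists_fixed_point_of_prime (p := r) (n := 1) hα hτr
      exact hfix a ha
    obtain ⟨m, hm⟩ : ∃ m, m = Module.finrank F U := ⟨_, rfl⟩
    have hcU : Nat.card U = q ^ m := by
      rw [hm, hq, ← Nat.card_eq_fintype_card]
      exact Module.natCard_eq_pow_finrank
    have hcU' : Fintype.card {w : FiniteField.Extension F p n // w ∈ U ∧ w ≠ 0} = q ^ m - 1 := by
      rw [← hcU, ← Nat.card_eq_fintype_card]
      have e : {w : FiniteField.Extension F p n // w ∈ U ∧ w ≠ 0} ≃ {u : U // u ≠ 0} :=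
        { toFun := fun a => ⟨⟨a.1, a.2.1⟩, fun h => a.2.2 (congrArg Subtype.val h)⟩
          invFun := fun b => ⟨b.1.1, b.1.2, fun h => b.2 (Subtype.ext h)⟩
          left_inv := fun _ => rfl
          right_inv := fun _ => rfl }
      rw [Nat.card_congr e, Nat.card_eq_fintype_card, Nat.card_eq_fintype_card,
        Fintype.card_subtype_compl, Fintype.card_subtype_eq]
    rw [hcU'] at hdvd
    have hm1 : 1 ≤ m := by
      by_contra h0
      have h1 : Module.finrank F U = 0 := by omega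
      exact hbot (Submodule.finrank_eq_zero.mp h1)
    have h1 := hmin m hm1 hdvd
    have h3 := Submodule.finrank_le U
    have h4 := FiniteField.finrank_extension F p n
    apply Submodule.eq_top_of_finrank_eq
    omega

end Singer

section Abstract

variable {F : Type*} [Field F] {V : Type*} [AddCommGroup V] [Module F V]

theorem no_polar_pair (B : LinearMap.BilinForm F V) (y : V →ₗ[F] V) (V₁ : Submodule F V)
    (r : ℕ) (hrodd : Odd r) (hyr : ∀ v, (⇑y)^[r] v = v)
    (hy1 : ∀ v, y v - v ∈ V₁)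
    (hirr : ∀ U' : Submodule F V, U' ≤ V₁ → (∀ u ∈ U', y u ∈ U') → U' = ⊥ ∨ U' = V₁)
    (hnd : ∃ a ∈ V₁, ∃ b ∈ V₁, B a b ≠ 0)
    (hne : ∃ v, y v ≠ v)
    (U W : Submodule F V) (hc : IsCompl U W) (hU : ∀ u ∈ U, ∀ v ∈ U, B u v = 0)
    (hW : ∀ u ∈ W, ∀ v ∈ W, B u v = 0)
    (h : ((∀ u ∈ U, y u ∈ U) ∧ (∀ w ∈ W, y w ∈ W)) ∨ ((∀ u ∈ U, y u ∈ W) ∧ (∀ w ∈ W, y w ∈ U))) :
    False := by
  obtain ⟨v₀, hv₀⟩ := hne
  have hfixed : ∀ X : Submodule F V, (∀ u ∈ X, ∀ v ∈ X, B u v = 0) → (∀ u ∈ X, y u ∈ X) →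
      ∀ u ∈ X, y u = u := by
    intro X hX hyX u hu
    have h1 : X ⊓ V₁ = ⊥ := by
      have hinv : ∀ u ∈ X ⊓ V₁, y u ∈ X ⊓ V₁ := by
        intro u hu
        rw [Submodule.mem_inf] at hu ⊢
        refine ⟨hyX u hu.1, ?_⟩
        have h2 := V₁.add_mem (hy1 u) hu.2
        rw [sub_add_cancel] at h2
        exact h2
      rcases hirr (X ⊓ V₁) inf_le_right hinv with h | h
      · exact h
      · exfalso
        obtain ⟨a, ha, b, hb, hab⟩ := hnd
        have hle : V₁ ≤ X := by
          rw [← h]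
          exact inf_le_left
        exact hab (hX a (hle ha) b (hle hb))
    have h2 : y u - u ∈ X ⊓ V₁ := Submodule.mem_inf.mpr ⟨X.sub_mem (hyX u hu) hu, hy1 u⟩
    rw [h1, Submodule.mem_bot] at h2
    exact sub_eq_zero.mp h2
  have hv : v₀ ∈ U ⊔ W := by
    rw [hc.sup_eq_top]
    trivial
  obtain ⟨u, hu, w, hw, rfl⟩ := Submodule.mem_sup.mp hv
  rcases h with ⟨h1, h2⟩ | ⟨h1, h2⟩
  · apply hv₀
    rw [map_add, hfixed U hU h1 u hu, hfixed W hW h2 w hw]
  · have hiter : ∀ j : ℕ, (∀ u ∈ U, (⇑y)^[2 * j] u ∈ U) ∧ (∀ w ∈ W, (⇑y)^[2 * j] w ∈ W) := by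
      intro j
      induction j with
      | zero => exact ⟨fun u hu => hu, fun w hw => hw⟩
      | succ j ih =>
        have e : 2 * (j + 1) = 2 * j + 1 + 1 := by ring
        rw [e]
        constructor
        · intro u hu
          rw [Function.iterate_succ_apply', Function.iterate_succ_apply']
          exact h2 _ (h1 _ (ih.1 u hu))
        · intro w hw
          rw [Function.iterate_succ_apply', Function.iterate_succ_apply']
          exact h1 _ (h2 _ (ih.2 w hw))
    obtain ⟨j, hj⟩ := hrodd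
    have hUW : ∀ u ∈ U, u ∈ W := by
      intro u hu
      have h3 := h1 _ ((hiter j).1 u hu)
      have h4 : (⇑y)^[r] u = y ((⇑y)^[2 * j] u) := by
        rw [hj]
        exact Function.iterate_succ_apply' _ _ _
      rw [← h4, hyr] at h3
      exact h3
    have hWU : ∀ w ∈ W, w ∈ U := by
      intro w hw
      have h3 := h2 _ ((hiter j).2 w hw)
      have h4 : (⇑y)^[r] w = y ((⇑y)^[2 * j] w) := by
        rw [hj]
        exact Function.iterate_succ_apply' _ _ _
      rw [← h4, hyr] at h3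
      exact h3
    have hu0 : u = 0 := by
      have h3 : u ∈ U ⊓ W := Submodule.mem_inf.mpr ⟨hu, hUW u hu⟩
      rw [hc.inf_eq_bot, Submodule.mem_bot] at h3
      exact h3
    have hw0 : w = 0 := by
      have h3 : w ∈ U ⊓ W := Submodule.mem_inf.mpr ⟨hWU w hw, hw⟩
      rw [hc.inf_eq_bot, Submodule.mem_bot] at h3
      exact h3
    apply hv₀
    rw [hu0, hw0, add_zero, map_zero]

theorem not_scalar_of_irr (B : LinearMap.BilinForm F V) (hA : B.IsAlt) (y : V →ₗ[F] V)
    (V₁ : Submodule F V)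
    (hirr : ∀ U' : Submodule F V, U' ≤ V₁ → (∀ u ∈ U', y u ∈ U') → U' = ⊥ ∨ U' = V₁)
    (hnd : ∃ a ∈ V₁, ∃ b ∈ V₁, B a b ≠ 0) (z : F) (hz : ∀ v, y v = z • v) : False := by
  obtain ⟨a, ha, b, hb, hab⟩ := hnd
  rcases hirr (Submodule.span F {a})
      (by rw [Submodule.span_le]; exact Set.singleton_subset_iff.mpr ha)
      (fun u hu => by rw [hz]; exact Submodule.smul_mem _ _ hu) with h | h
  · have h1 : a ∈ Submodule.span F {a} := Submodule.mem_span_singleton_self a
    rw [h, Submodule.mem_bot] at h1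
    rw [h1, map_zero, LinearMap.zero_apply] at hab
    exact hab rfl
  · rw [← h] at hb
    obtain ⟨c, rfl⟩ := Submodule.mem_span_singleton.mp hb
    rw [map_smul, smul_eq_mul, hA a, mul_zero] at hab
    exact hab rfl

end Abstract

section Assembly

variable {F : Type*} [Field F] [Fintype F] {p : ℕ} [Fact p.Prime] [CharP F p]

theorem exists_sp_no_pair (hp2 : p ≠ 2) (d k : ℕ) (hk : 1 ≤ k) (hkd : k ≤ d) (r : ℕ)
    [Fact r.Prime] (hr2 : r ≠ 2) (hr : r ∣ Fintype.card F ^ k + 1)
    (hmin : ∀ m, 1 ≤ m → r ∣ Fintype.card F ^ m - 1 → 2 * k ≤ m) :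
    ∃ x : ↥(Matrix.symplecticGroup (Fin d) F),
      ((x ^ r : ↥(Matrix.symplecticGroup (Fin d) F)) : Matrix (Fin d ⊕ Fin d) (Fin d ⊕ Fin d) F)
        = 1 ∧
      (∀ z : F, (x : Matrix (Fin d ⊕ Fin d) (Fin d ⊕ Fin d) F)
        ≠ z • (1 : Matrix (Fin d ⊕ Fin d) (Fin d ⊕ Fin d) F)) ∧
      ¬ (∃ U W : Submodule F (Fin d ⊕ Fin d → F), IsCompl U W ∧
        (∀ u ∈ U, ∀ v ∈ U, Cfsg.sympForm d F u v = 0) ∧
        (∀ u ∈ W, ∀ v ∈ W, Cfsg.sympForm d F u v = 0) ∧
        ((U.map (Matrix.toLin' (x : Matrix (Fin d ⊕ Fin d) (Fin d ⊕ Fin d) F)) = U ∧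
          W.map (Matrix.toLin' (x : Matrix (Fin d ⊕ Fin d) (Fin d ⊕ Fin d) F)) = W) ∨
         (U.map (Matrix.toLin' (x : Matrix (Fin d ⊕ Fin d) (Fin d ⊕ Fin d) F)) = W ∧
          W.map (Matrix.toLin' (x : Matrix (Fin d ⊕ Fin d) (Fin d ⊕ Fin d) F)) = U))) := by
  classical
  haveI : NeZero (2 * k) := ⟨by omega⟩
  have hrp : r.Prime := Fact.out
  obtain ⟨B₀, ζ, hAlt, hnd, hζ, hinv, hirr⟩ :=
    exists_singer_symp (F := F) hp2 (2 * k) k rfl r hr hmin
  have hζ1 : ζ ≠ 1 := by
    intro h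
    rw [h, orderOf_one] at hζ
    exact hrp.ne_one hζ.symm
  obtain ⟨B', hB'⟩ : ∃ B' : LinearMap.BilinForm F
      (FiniteField.Extension F p (2 * k) × (Fin (d - k) ⊕ Fin (d - k) → F)),
      ∀ x y, B' x y = B₀ x.1 y.1 + sB (d - k) F x.2 y.2 :=
    ⟨B₀.compl₁₂ (LinearMap.fst F _ _) (LinearMap.fst F _ _)
      + (sB (d - k) F).compl₁₂ (LinearMap.snd F _ _) (LinearMap.snd F _ _), fun x y => rfl⟩
  have hA' : B'.IsAlt := by
    intro x
    rw [hB', hAlt x.1, sB_alt x.2, add_zero]
  have hN' : B'.Nondegenerate := by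
    constructor
    · intro x hx
      apply Prod.ext
      · apply hnd.1
        intro y₁
        have h1 := hx (y₁, 0)
        rw [hB'] at h1
        simpa using h1
      · apply (sB_nondeg (m := d - k) (F := F)).1
        intro y₂
        have h1 := hx (0, y₂)
        rw [hB'] at h1
        simpa using h1
    · intro x hx
      apply Prod.ext
      · apply hnd.2
        intro y₁
        have h1 := hx (y₁, 0)
        rw [hB'] at h1
        simpa using h1
      · apply (sB_nondeg (m := d - k) (F := F)).2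
        intro y₂
        have h1 := hx (0, y₂)
        rw [hB'] at h1
        simpa using h1
  have hV : Module.finrank F
      (FiniteField.Extension F p (2 * k) × (Fin (d - k) ⊕ Fin (d - k) → F)) = 2 * d := by
    rw [Module.finrank_prod, FiniteField.finrank_extension, finrank_sp_space]
    omega
  obtain ⟨g, hg⟩ := symp_basis_equiv B' hA' hN' hV
  obtain ⟨yE, hyE⟩ : ∃ yE : (FiniteField.Extension F p (2 * k) × (Fin (d - k) ⊕ Fin (d - k) → F))
      ≃ₗ[F] (FiniteField.Extension F p (2 * k) × (Fin (d - k) ⊕ Fin (d - k) → F)),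
      ∀ v, yE v = ((ζ : FiniteField.Extension F p (2 * k)) * v.1, v.2) :=
    ⟨{ toFun := fun v => ((ζ : FiniteField.Extension F p (2 * k)) * v.1, v.2)
       map_add' := fun a b => by ext <;> simp [mul_add]
       map_smul' := fun c a => by ext <;> simp
       invFun := fun v => (((ζ⁻¹ : (FiniteField.Extension F p (2 * k))ˣ) :
          FiniteField.Extension F p (2 * k)) * v.1, v.2)
       left_inv := fun v => by ext <;> simp
       right_inv := fun v => by ext <;> simp }, fun v => rfl⟩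
  have hyB : ∀ a b, B' (yE a) (yE b) = B' a b := by
    intro a b
    rw [hB', hB', hyE, hyE, hinv]
  have hg1 : ∀ a b : FiniteField.Extension F p (2 * k) × (Fin (d - k) ⊕ Fin (d - k) → F),
      Cfsg.sympForm d F (g a) (g b) = - B' a b := by
    intro a b
    rw [hg, neg_neg]
  obtain ⟨A, hAv⟩ := sp_of_linearEquiv (g.symm.trans (yE.trans g)) (by
    intro u v
    show Cfsg.sympForm d F (g (yE (g.symm u))) (g (yE (g.symm v))) = _
    rw [hg1, hyB, ← hg1, LinearEquiv.apply_symm_apply, LinearEquiv.apply_symm_apply])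
  have hAv' : ∀ v, (A : Matrix (Fin d ⊕ Fin d) (Fin d ⊕ Fin d) F) *ᵥ v = g (yE (g.symm v)) :=
    fun v => hAv v
  have hpowA : ∀ (j : ℕ) v, ((A : Matrix (Fin d ⊕ Fin d) (Fin d ⊕ Fin d) F) ^ j) *ᵥ v
      = g ((((ζ ^ j : (FiniteField.Extension F p (2 * k))ˣ) :
          FiniteField.Extension F p (2 * k)) * (g.symm v).1, (g.symm v).2)) := by
    intro j
    induction j with
    | zero =>
      intro v
      simp
    | succ j ih =>
      intro v
      rw [pow_succ, ← Matrix.mulVec_mulVec, hAv', ih, LinearEquiv.symm_apply_apply, hyE,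
        pow_succ, Units.val_mul, mul_assoc]
  have hAr : (A : Matrix (Fin d ⊕ Fin d) (Fin d ⊕ Fin d) F) ^ r = 1 := by
    apply Matrix.ext_of_mulVec_single
    intro i
    rw [hpowA, ← hζ, pow_orderOf_eq_one, Units.val_one, one_mul, Prod.mk.eta,
      LinearEquiv.apply_symm_apply, Matrix.one_mulVec]
  obtain ⟨y, hydef⟩ : ∃ y : (Fin d ⊕ Fin d → F) →ₗ[F] (Fin d ⊕ Fin d → F),
      y = Matrix.toLin' (A : Matrix (Fin d ⊕ Fin d) (Fin d ⊕ Fin d) F) := ⟨_, rfl⟩
  have hy : ∀ a m, y (g (a, m)) = g ((ζ : FiniteField.Extension F p (2 * k)) * a, m) := by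
    intro a m
    rw [hydef, Matrix.toLin'_apply, hAv', LinearEquiv.symm_apply_apply, hyE]
  have hyiter : ∀ (j : ℕ) v, (⇑y)^[j] v
      = ((A : Matrix (Fin d ⊕ Fin d) (Fin d ⊕ Fin d) F) ^ j) *ᵥ v := by
    intro j
    induction j with
    | zero =>
      intro v
      simp
    | succ j ih =>
      intro v
      rw [Function.iterate_succ_apply', ih, hydef, Matrix.toLin'_apply, Matrix.mulVec_mulVec,
        ← pow_succ']
  have hyr : ∀ v, (⇑y)^[r] v = v := by
    intro v
    rw [hyiter, hAr, Matrix.one_mulVec]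
  obtain ⟨V₁, hV₁⟩ : ∃ V₁ : Submodule F (Fin d ⊕ Fin d → F), V₁ = LinearMap.range
      (g.toLinearMap ∘ₗ LinearMap.inl F (FiniteField.Extension F p (2 * k))
        (Fin (d - k) ⊕ Fin (d - k) → F)) := ⟨_, rfl⟩
  have hmemV₁ : ∀ a, g (a, 0) ∈ V₁ := by
    intro a
    rw [hV₁]
    exact ⟨a, rfl⟩
  have hV₁mem : ∀ v ∈ V₁, ∃ a, v = g (a, 0) := by
    intro v hv
    rw [hV₁] at hv
    obtain ⟨a, rfl⟩ := hv
    exact ⟨a, rfl⟩
  have hsurj : ∀ v : Fin d ⊕ Fin d → F, ∃ a m, v = g (a, m) := by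
    intro v
    exact ⟨(g.symm v).1, (g.symm v).2, by rw [Prod.mk.eta, LinearEquiv.apply_symm_apply]⟩
  have hy1 : ∀ v, y v - v ∈ V₁ := by
    intro v
    obtain ⟨a, m, rfl⟩ := hsurj v
    rw [hy, ← map_sub]
    have h1 : (((ζ : FiniteField.Extension F p (2 * k)) * a, m) :
        FiniteField.Extension F p (2 * k) × (Fin (d - k) ⊕ Fin (d - k) → F)) - (a, m)
        = (((ζ : FiniteField.Extension F p (2 * k)) - 1) * a, 0) := by
      rw [Prod.mk_sub_mk, sub_self, sub_mul, one_mul]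
    rw [h1]
    exact hmemV₁ _
  have hirr' : ∀ U' : Submodule F (Fin d ⊕ Fin d → F), U' ≤ V₁ → (∀ u ∈ U', y u ∈ U') →
      U' = ⊥ ∨ U' = V₁ := by
    intro U' hle hinv'
    rcases hirr (U'.comap (g.toLinearMap ∘ₗ LinearMap.inl F (FiniteField.Extension F p (2 * k))
        (Fin (d - k) ⊕ Fin (d - k) → F))) (fun a ha => by
          have h1 : g (a, 0) ∈ U' := ha
          have h2 := hinv' _ h1
          rw [hy] at h2
          exact h2) with h | h
    · left
      rw [eq_bot_iff]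
      intro u hu
      obtain ⟨a, rfl⟩ := hV₁mem u (hle hu)
      have h1 : a ∈ U'.comap (g.toLinearMap ∘ₗ LinearMap.inl F
          (FiniteField.Extension F p (2 * k)) (Fin (d - k) ⊕ Fin (d - k) → F)) := hu
      rw [h, Submodule.mem_bot] at h1
      rw [h1, Submodule.mem_bot]
      exact map_zero g
    · right
      apply le_antisymm hle
      intro v hv
      obtain ⟨a, rfl⟩ := hV₁mem v hv
      have h1 : a ∈ U'.comap (g.toLinearMap ∘ₗ LinearMap.inl F
          (FiniteField.Extension F p (2 * k)) (Fin (d - k) ⊕ Fin (d - k) → F)) := by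
        rw [h]
        trivial
      exact h1
  have hnd' : ∃ a ∈ V₁, ∃ b ∈ V₁, sB d F a b ≠ 0 := by
    obtain ⟨b₀, hb₀⟩ : ∃ b₀, B₀ 1 b₀ ≠ 0 := by
      by_contra hcon
      push Not at hcon
      exact one_ne_zero (hnd.1 1 hcon)
    refine ⟨g (1, 0), hmemV₁ 1, g (b₀, 0), hmemV₁ b₀, ?_⟩
    rw [sB_apply, hg1, hB']
    simpa using hb₀
  have hne' : ∃ v, y v ≠ v := by
    refine ⟨g (1, 0), ?_⟩
    rw [hy]
    intro h
    have h1 := congrArg Prod.fst (g.injective h)
    apply hζ1
    apply Units.ext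
    simpa using h1
  refine ⟨A, ?_, ?_, ?_⟩
  · rw [SubmonoidClass.coe_pow]
    exact hAr
  · intro z hz
    apply not_scalar_of_irr (sB d F) sB_alt y V₁ hirr' hnd' z
    intro v
    rw [hydef, Matrix.toLin'_apply, hz, Matrix.smul_mulVec, Matrix.one_mulVec]
  · rintro ⟨U, W, hc, hU, hW, h⟩
    rw [← hydef] at h
    apply no_polar_pair (sB d F) y V₁ r (hrp.odd_of_ne_two hr2) hyr hy1 hirr' hnd' hne' U W hc
      (fun u hu v hv => by rw [sB_apply]; exact hU u hu v hv)
      (fun u hu v hv => by rw [sB_apply]; exact hW u hu v hv)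
    rcases h with ⟨h1, h2⟩ | ⟨h1, h2⟩
    · left
      constructor
      · intro u hu
        have h3 := Submodule.mem_map_of_mem (f := y) hu
        rw [h1] at h3
        exact h3
      · intro u hu
        have h3 := Submodule.mem_map_of_mem (f := y) hu
        rw [h2] at h3
        exact h3
    · right
      constructor
      · intro u hu
        have h3 := Submodule.mem_map_of_mem (f := y) hu
        rw [h1] at h3
        exact h3
      · intro u hu
        have h3 := Submodule.mem_map_of_mem (f := y) hu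
        rw [h2] at h3
        exact h3

end Assembly

end Cfsg.Agent.Lib.helper4
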