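import Mathlib
import Cfsg.Agent.Lib.helper4.OrthMinusDer
import Cfsg.Agent.Lib.helper4.SpInvNF
import Cfsg.Agent.Lib.helper4.SpCard
import Cfsg.Agent.Lib.helper4.SpSimple
import Cfsg.Agent.Lib.helper6.OrthOrd

set_option autoImplicit false

/-!
# Elements of prime order of `Sp(2d, q)`, `q` even, and the subgroups of orthogonal type
-/

namespace Cfsg.Agent.Lib.helper4

open Cfsg.Agent.Lib.helper13 Module
open Cfsg.Agent.S0776 Cfsg.Agent.S0766 Cfsg.Agent.S0765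

open scoped Matrix

section SpQuadDer

variable {F : Type*} [Field F] {d : ℕ}

/-- a function with the symplectic form as polar form is a quadratic form -/
lemma exists_quadForm_of_polar (Q : (Fin d ⊕ Fin d → F) → F)
    (hsm : ∀ (c : F) (v : Fin d ⊕ Fin d → F), Q (c • v) = c ^ 2 * Q v)
    (hpol : ∀ u v, QuadraticMap.polar Q u v = Cfsg.sympForm d F u v) :
    ∃ Qb : QuadraticForm F (Fin d ⊕ Fin d → F), ⇑Qb = Q := by
  refine ⟨{ toFun := Q, toFun_smul := ?_, exists_companion' := ⟨sB d F, ?_⟩ }, rfl⟩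
  · intro a x
    rw [hsm, smul_eq_mul, pow_two]
  · intro x y
    have h := hpol x y
    unfold QuadraticMap.polar at h
    rw [sB_apply]
    linear_combination h

/-- inside `Sp`, similarities of `Q` are isometries -/
lemma quadSim_iff (Q : (Fin d ⊕ Fin d → F) → F)
    (hpol : ∀ u v, QuadraticMap.polar Q u v = Cfsg.sympForm d F u v) (hd : 1 ≤ d)
    (g : GL (Fin d ⊕ Fin d) F) (hg : g ∈ Cfsg.spGL d F) :
    g ∈ Cfsg.Geo.quadSimilarityGroup Q ↔
      ∀ v, Q ((g : Matrix (Fin d ⊕ Fin d) (Fin d ⊕ Fin d) F) *ᵥ v) = Q v := by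
  classical
  constructor
  · rintro ⟨c, hc⟩ v
    have h1 : (c : F) = 1 := by
      have ha : (Pi.single (Sum.inl ⟨0, hd⟩) (1 : F) : Fin d ⊕ Fin d → F) ≠ 0 := by
        intro h
        have := congrFun h (Sum.inl ⟨0, hd⟩)
        simp at this
      obtain ⟨w, hw⟩ := sf_exists_ne _ ha
      have h2 : Cfsg.sympForm d F
          ((g : Matrix (Fin d ⊕ Fin d) (Fin d ⊕ Fin d) F) *ᵥ Pi.single (Sum.inl ⟨0, hd⟩) (1 : F))
          ((g : Matrix (Fin d ⊕ Fin d) (Fin d ⊕ Fin d) F) *ᵥ w)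
          = Cfsg.sympForm d F (Pi.single (Sum.inl ⟨0, hd⟩) (1 : F)) w := hg _ w
      rw [← hpol, ← hpol] at h2
      rw [← hpol] at hw
      unfold QuadraticMap.polar at h2 hw
      rw [← Matrix.mulVec_add, hc, hc, hc] at h2
      have h3 : ((c : F) - 1) * (Q (Pi.single (Sum.inl ⟨0, hd⟩) (1 : F) + w)
          - Q (Pi.single (Sum.inl ⟨0, hd⟩) (1 : F)) - Q w) = 0 := by linear_combination h2
      rcases mul_eq_zero.mp h3 with h | h
      · exact sub_eq_zero.mp h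
      · exact absurd h hw
    rw [hc, h1, one_mul]
  · intro h
    exact ⟨1, fun v => by rw [h, Units.val_one, one_mul]⟩

/-- conjugating into the similarity group of `Q` -/
lemma conj_quadSim_iff (Q : (Fin d ⊕ Fin d → F) → F)
    (hpol : ∀ u v, QuadraticMap.polar Q u v = Cfsg.sympForm d F u v) (hd : 1 ≤ d)
    (x g : GL (Fin d ⊕ Fin d) F) (hx : x ∈ Cfsg.spGL d F) (hg : g ∈ Cfsg.spGL d F) :
    g⁻¹ * x * g ∈ Cfsg.Geo.quadSimilarityGroup Q ↔
      ∀ w, Q (((g⁻¹ : GL (Fin d ⊕ Fin d) F) : Matrix (Fin d ⊕ Fin d) (Fin d ⊕ Fin d) F)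
          *ᵥ ((x : Matrix (Fin d ⊕ Fin d) (Fin d ⊕ Fin d) F) *ᵥ w))
        = Q (((g⁻¹ : GL (Fin d ⊕ Fin d) F) : Matrix (Fin d ⊕ Fin d) (Fin d ⊕ Fin d) F) *ᵥ w) := by
  rw [quadSim_iff Q hpol hd _ (mul_mem (mul_mem (inv_mem hg) hx) hg)]
  constructor
  · intro h w
    have h1 := h (((g⁻¹ : GL (Fin d ⊕ Fin d) F) : Matrix (Fin d ⊕ Fin d) (Fin d ⊕ Fin d) F) *ᵥ w)
    rw [Matrix.mulVec_mulVec, ← Units.val_mul] at h1
    have h2 : g⁻¹ * x * g * g⁻¹ = g⁻¹ * x := by group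
    rw [h2, Units.val_mul, ← Matrix.mulVec_mulVec] at h1
    exact h1
  · intro h v
    have h1 := h ((g : Matrix (Fin d ⊕ Fin d) (Fin d ⊕ Fin d) F) *ᵥ v)
    have e1 : ((g⁻¹ : GL (Fin d ⊕ Fin d) F) : Matrix (Fin d ⊕ Fin d) (Fin d ⊕ Fin d) F)
        *ᵥ ((g : Matrix (Fin d ⊕ Fin d) (Fin d ⊕ Fin d) F) *ᵥ v) = v := by
      rw [Matrix.mulVec_mulVec, ← Units.val_mul, inv_mul_cancel, Units.val_one, Matrix.one_mulVec]
    have e2 : ((g⁻¹ * x * g : GL (Fin d ⊕ Fin d) F) : Matrix (Fin d ⊕ Fin d) (Fin d ⊕ Fin d) F)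
        *ᵥ v = ((g⁻¹ : GL (Fin d ⊕ Fin d) F) : Matrix (Fin d ⊕ Fin d) (Fin d ⊕ Fin d) F)
        *ᵥ ((x : Matrix (Fin d ⊕ Fin d) (Fin d ⊕ Fin d) F)
          *ᵥ ((g : Matrix (Fin d ⊕ Fin d) (Fin d ⊕ Fin d) F) *ᵥ v)) := by
      rw [Units.val_mul, Units.val_mul, ← Matrix.mulVec_mulVec, ← Matrix.mulVec_mulVec]
    rw [e2, h1, e1]

/-- a totally singular subspace of half the dimension gives plus type -/
lemma plusType_of_ts (Q : (Fin d ⊕ Fin d → F) → F) (W : Submodule F (Fin d ⊕ Fin d → F))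
    (hW : ∀ w ∈ W, Q w = 0) (hdim : finrank F W = d) : Cfsg.Geo.IsPlusTypeOn Q ⊤ := by
  refine ⟨W, le_top, hW, ?_⟩
  rw [hdim, finrank_top, Module.finrank_fintype_fun_eq_card, Fintype.card_sum, Fintype.card_fin]
  ring

/-- the embedding of the first coordinates -/
def inlL (F : Type*) [Field F] (d : ℕ) : (Fin d → F) →ₗ[F] (Fin d ⊕ Fin d → F) where
  toFun a := Sum.elim a 0
  map_add' a b := by
    ext (i | i) <;> simp
  map_smul' c a := by
    ext (i | i) <;> simp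

lemma inlL_apply (a : Fin d → F) : inlL F d a = Sum.elim a 0 := rfl

lemma inlL_injective : Function.Injective (inlL F d) := by
  intro a b h
  ext i
  have := congrFun h (Sum.inl i)
  simpa [inlL_apply] using this

lemma finrank_range_inlL : finrank F (LinearMap.range (inlL F d)) = d := by
  rw [LinearMap.finrank_range_of_inj inlL_injective, Module.finrank_fintype_fun_eq_card,
    Fintype.card_fin]

lemma sf_inlL (a b : Fin d → F) : Cfsg.sympForm d F (inlL F d a) (inlL F d b) = 0 := by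
  unfold Cfsg.sympForm Matrix.J
  rw [Matrix.fromBlocks_mulVec]
  simp [dotProduct, Fintype.sum_sum_type, inlL_apply]

lemma anis_of_irred (ζ₀ : F) (h : ∀ t : F, t ^ 2 + t + ζ₀ ≠ 0) :
    ∀ z₁ z₂ : F, z₁ ^ 2 + 1 * z₁ * z₂ + ζ₀ * z₂ ^ 2 = 0 → z₁ = 0 ∧ z₂ = 0 := by
  intro z₁ z₂ hz
  by_cases h2 : z₂ = 0
  · subst h2
    have h3 : z₁ ^ 2 = 0 := by linear_combination hz
    exact ⟨pow_eq_zero_iff (by norm_num) |>.mp h3, rfl⟩
  · exfalso
    apply h (z₁ / z₂)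
    field_simp
    linear_combination hz

/-- inside `Sp`, the similarity group of `Q` is the isometry group of `Q` -/
lemma quadSim_inf_sp (hd : 1 ≤ d) (Q : (Fin d ⊕ Fin d → F) → F)
    (hpol : ∀ u v, QuadraticMap.polar Q u v = Cfsg.sympForm d F u v) :
    Cfsg.Geo.quadSimilarityGroup Q ⊓ Cfsg.spGL d F = Cfsg.isometryGroup F Q := by
  ext g
  constructor
  · rintro ⟨h1, h2⟩
    have h3 := (quadSim_iff Q hpol hd g h2).mp h1
    exact fun u _ => h3 u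
  · intro hg
    have hg' : ∀ v, Q ((g : Matrix (Fin d ⊕ Fin d) (Fin d ⊕ Fin d) F) *ᵥ v) = Q v :=
      fun v => hg v v
    have h2 : g ∈ Cfsg.spGL d F := by
      intro u v
      show Cfsg.sympForm d F ((g : Matrix (Fin d ⊕ Fin d) (Fin d ⊕ Fin d) F) *ᵥ u)
        ((g : Matrix (Fin d ⊕ Fin d) (Fin d ⊕ Fin d) F) *ᵥ v) = Cfsg.sympForm d F u v
      rw [← hpol, ← hpol]
      unfold QuadraticMap.polar
      rw [← Matrix.mulVec_add, hg', hg', hg']
    exact ⟨(quadSim_iff Q hpol hd g h2).mpr hg', h2⟩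

lemma relIndex_mul_card (hd : 1 ≤ d) (Q : (Fin d ⊕ Fin d → F) → F)
    (hpol : ∀ u v, QuadraticMap.polar Q u v = Cfsg.sympForm d F u v) :
    (Cfsg.Geo.quadSimilarityGroup Q).relIndex (Cfsg.spGL d F)
      * Nat.card ↥(Cfsg.isometryGroup F Q)
      = Nat.card (Matrix.symplecticGroup (Fin d) F) := by
  have h1 := Subgroup.card_mul_index
    ((Cfsg.Geo.quadSimilarityGroup Q).subgroupOf (Cfsg.spGL d F))
  have h2 : Nat.card ↥((Cfsg.Geo.quadSimilarityGroup Q).subgroupOf (Cfsg.spGL d F))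
      = Nat.card ↥(Cfsg.isometryGroup F Q) := by
    rw [← quadSim_inf_sp hd Q hpol, ← Subgroup.inf_subgroupOf_right]
    exact Nat.card_congr (Subgroup.subgroupOfEquivOfLe inf_le_right).toEquiv
  rw [h2] at h1
  rw [Subgroup.relIndex, mul_comm, h1]
  exact Nat.card_congr (spEquiv d F).toEquiv.symm

end SpQuadDer

section SpQuadDer2

variable {F : Type*} [Field F] [Fintype F] [CharP F 2] {d : ℕ}

/-- a quadratic form polarising to the symplectic form is of plus or of minus type -/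
lemma quad_dichotomy (Qb : QuadraticForm F (Fin d ⊕ Fin d → F))
    (hpol : ∀ u v, QuadraticMap.polar (⇑Qb) u v = Cfsg.sympForm d F u v) (hd : 1 ≤ d) :
    (∃ e : (Fin d ⊕ Fin d → F) ≃ₗ[F] (Fin d ⊕ Fin d → F),
      ∀ v, Qb v = Cfsg.Agent.S2562.qP F d (e v)) ∨
    (∃ (ζ₀ : F) (e : (Fin d ⊕ Fin d → F) ≃ₗ[F] ((Fin (d - 1) ⊕ Fin (d - 1)) ⊕ Fin 2 → F)),
      (∀ z₁ z₂ : F, z₁ ^ 2 + 1 * z₁ * z₂ + ζ₀ * z₂ ^ 2 = 0 → z₁ = 0 ∧ z₂ = 0) ∧
      ∀ v, Qb v = Cfsg.Agent.S2679.qMg F (d - 1) 1 ζ₀ (e v)) := by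
  have hV : finrank F (Fin d ⊕ Fin d → F) = 2 * d := by
    rw [Module.finrank_fintype_fun_eq_card, Fintype.card_sum, Fintype.card_fin]
    ring
  rcases quad_classify hV Qb (nondeg_of_polar_sf Qb hpol) with ⟨e, he⟩ | ⟨k, ζ₀, hk, hζ₀, e, he⟩
  · left
    exact ⟨e, fun v => by rw [he, Cfsg.Agent.S2562.qP_apply]⟩
  · right
    have hk' : k = d - 1 := by omega
    subst hk'
    exact ⟨ζ₀, e, anis_of_irred ζ₀ hζ₀, fun v => by rw [he, Cfsg.Agent.S2679.qMg_apply]⟩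

omit [Fintype F] [CharP F 2] in
lemma plusType_of_equiv (Q : (Fin d ⊕ Fin d → F) → F)
    (e : (Fin d ⊕ Fin d → F) ≃ₗ[F] (Fin d ⊕ Fin d → F))
    (he : ∀ v, Q v = Cfsg.Agent.S2562.qP F d (e v)) : Cfsg.Geo.IsPlusTypeOn Q ⊤ := by
  refine plusType_of_ts Q ((LinearMap.range (inlL F d)).map
    (e.symm : (Fin d ⊕ Fin d → F) →ₗ[F] (Fin d ⊕ Fin d → F))) ?_ ?_
  · rintro w ⟨u, ⟨a, rfl⟩, rfl⟩
    rw [he]
    show Cfsg.Agent.S2562.qP F d (e (e.symm (inlL F d a))) = 0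
    rw [LinearEquiv.apply_symm_apply, Cfsg.Agent.S2562.qP_apply]
    unfold Cfsg.quadFormPlus
    simp [inlL_apply]
  · rw [LinearEquiv.finrank_map_eq, finrank_range_inlL]

lemma not_plusType_of_equiv (hd : 1 ≤ d) (Q : (Fin d ⊕ Fin d → F) → F) (ζ₀ : F)
    (hab : ∀ z₁ z₂ : F, z₁ ^ 2 + 1 * z₁ * z₂ + ζ₀ * z₂ ^ 2 = 0 → z₁ = 0 ∧ z₂ = 0)
    (e : (Fin d ⊕ Fin d → F) ≃ₗ[F] ((Fin (d - 1) ⊕ Fin (d - 1)) ⊕ Fin 2 → F))
    (he : ∀ v, Q v = Cfsg.Agent.S2679.qMg F (d - 1) 1 ζ₀ (e v)) :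
    ¬ Cfsg.Geo.IsPlusTypeOn Q ⊤ := by
  rintro ⟨U, -, hU, hdim⟩
  rw [finrank_top, Module.finrank_fintype_fun_eq_card, Fintype.card_sum, Fintype.card_fin] at hdim
  refine minus_no_maxTS d hd 1 ζ₀ hab (U.map
    (e : (Fin d ⊕ Fin d → F) →ₗ[F] ((Fin (d - 1) ⊕ Fin (d - 1)) ⊕ Fin 2 → F))) ⟨?_, ?_⟩
  · rintro w ⟨u, hu, rfl⟩
    show Cfsg.Agent.S2679.qMg F (d - 1) 1 ζ₀ (e u) = 0
    rw [← he]
    exact hU u hu
  · rw [LinearEquiv.finrank_map_eq, Fintype.card_sum, Fintype.card_sum, Fintype.card_fin,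
      Fintype.card_fin]
    omega

omit [Fintype F] in
/-- normal forms transport along an isometry -/
lemma nf_exists_of_equiv {ι' : Type} [Fintype ι'] [DecidableEq ι']
    (Q₁ : QuadraticForm F (Fin d ⊕ Fin d → F)) (Q₂ : QuadraticForm F (ι' → F))
    (e : (Fin d ⊕ Fin d → F) ≃ₗ[F] (ι' → F)) (he : ∀ v, Q₁ v = Q₂ (e v))
    {κ : Type} [Fintype κ] [DecidableEq κ] (σ : κ → κ) (hσ : ∀ x, σ (σ x) = x)
    (t' : ↥(Cfsg.isometryGroup F ⇑Q₂)) (h : IsNF Q₂ σ t') :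
    ∃ t : ↥(Cfsg.isometryGroup F ⇑Q₁), IsNF Q₁ σ t := by
  obtain ⟨u', ⟨hli, hpol, hQu⟩, -⟩ := h
  refine nf_exists Q₁ σ hσ (fun x => e.symm (u' x)) ⟨?_, ?_, ?_⟩
  · exact hli.map' (e.symm : (ι' → F) →ₗ[F] (Fin d ⊕ Fin d → F)) (LinearEquiv.ker e.symm)
  · intro x y
    have h1 := hpol x y
    unfold QuadraticMap.polar at h1 ⊢
    rw [he, he, he, map_add, LinearEquiv.apply_symm_apply, LinearEquiv.apply_symm_apply]
    exact h1
  · intro x
    rw [he, LinearEquiv.apply_symm_apply]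
    exact hQu x

/-- every involution of `Sp` is conjugate into the isometry group of a form of plus type, and of
any form when `d` is odd -/
theorem sp_invol_conj_into (hd : 1 ≤ d) (Qb : QuadraticForm F (Fin d ⊕ Fin d → F))
    (hpol : ∀ u v, QuadraticMap.polar (⇑Qb) u v = Cfsg.sympForm d F u v)
    (hcase : Cfsg.Geo.IsPlusTypeOn (⇑Qb) ⊤ ∨ Odd d)
    (t : Matrix.symplecticGroup (Fin d) F) (ht : orderOf t = 2) :
    ∃ c : Matrix.symplecticGroup (Fin d) F, ∀ v,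
      Qb (((c * t * c⁻¹ : Matrix.symplecticGroup (Fin d) F) :
        Matrix (Fin d ⊕ Fin d) (Fin d ⊕ Fin d) F) *ᵥ v) = Qb v := by
  classical
  have key : ∀ {κ : Type} [Fintype κ] [DecidableEq κ] (σ : κ → κ), IsSpNF σ t →
      (∃ t₀ : ↥(Cfsg.isometryGroup F ⇑Qb), IsNF Qb σ t₀) →
      ∃ c : Matrix.symplecticGroup (Fin d) F, ∀ v,
        Qb (((c * t * c⁻¹ : Matrix.symplecticGroup (Fin d) F) :
          Matrix (Fin d ⊕ Fin d) (Fin d ⊕ Fin d) F) *ᵥ v) = Qb v := by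
    intro κ _ _ σ hNF ⟨t₀, h0⟩
    obtain ⟨t₁, ht₁⟩ : ∃ t₁ : Matrix.symplecticGroup (Fin d) F,
        (t₁ : Matrix (Fin d ⊕ Fin d) (Fin d ⊕ Fin d) F) = mat Qb t₀ :=
      ⟨⟨mat Qb t₀, mem_sp_of_pres _ (fun u v => by
        rw [← hpol, ← hpol]
        exact isom_polar Qb t₀ u v)⟩, rfl⟩
    have h1 : IsSpNF σ t₁ := ⟨Qb, t₀, hpol, ht₁.symm, h0⟩
    obtain ⟨c, hc⟩ := isConj_iff.mp (spnf_conj σ t t₁ hNF h1)
    refine ⟨c, fun v => ?_⟩
    rw [hc, ht₁]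
    exact isom_pres Qb t₀ v
  rcases spnf_of_invol t ht with ⟨s, hs, hNF⟩ | ⟨k, hk, hNF⟩
  · have hsd : s ≤ d := by
      have := spnf_card_le _ t hNF
      simpa using this
    apply key _ hNF
    rcases quad_dichotomy Qb hpol hd with ⟨e, he⟩ | ⟨ζ₀, e, hab, he⟩
    · obtain ⟨t', ht'⟩ := plus_hNA (F := F) d s hs hsd
      exact nf_exists_of_equiv Qb _ e he _ (fun _ => rfl) t' ht'
    · obtain ⟨t', ht'⟩ := minus_hNA (F := F) d hd 1 ζ₀ s hs hsd
      exact nf_exists_of_equiv Qb _ e he _ (fun _ => rfl) t' ht'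
  · have hkd : 2 * k ≤ d := by
      have := spnf_card_le _ t hNF
      simp only [Fintype.card_sum, Fintype.card_fin] at this
      omega
    apply key _ hNF
    rcases quad_dichotomy Qb hpol hd with ⟨e, he⟩ | ⟨ζ₀, e, hab, he⟩
    · obtain ⟨t', ht'⟩ := plus_hAL (F := F) d k hk hkd
      exact nf_exists_of_equiv Qb _ e he _ Sum.swap_swap t' ht'
    · have hkd' : 2 * k ≤ d - 1 := by
        rcases hcase with h | h
        · exact absurd h (not_plusType_of_equiv hd _ ζ₀ hab e he)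
        · obtain ⟨j, hj⟩ := h
          omega
      obtain ⟨t', ht'⟩ := minus_hAL (F := F) d 1 ζ₀ k hk hkd'
      exact nf_exists_of_equiv Qb _ e he _ Sum.swap_swap t' ht'

/-- a scalar in `Sp` is trivial in characteristic two -/
lemma sp_scalar_one (hd : 1 ≤ d) (x : GL (Fin d ⊕ Fin d) F) (hx : x ∈ Cfsg.spGL d F) (z : F)
    (hz : (x : Matrix (Fin d ⊕ Fin d) (Fin d ⊕ Fin d) F)
      = z • (1 : Matrix (Fin d ⊕ Fin d) (Fin d ⊕ Fin d) F)) : z = 1 := by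
  classical
  have ha : (Pi.single (Sum.inl ⟨0, hd⟩) (1 : F) : Fin d ⊕ Fin d → F) ≠ 0 := by
    intro h
    have := congrFun h (Sum.inl ⟨0, hd⟩)
    simp at this
  obtain ⟨w, hw⟩ := sf_exists_ne _ ha
  have h2 : Cfsg.sympForm d F
      ((x : Matrix (Fin d ⊕ Fin d) (Fin d ⊕ Fin d) F) *ᵥ Pi.single (Sum.inl ⟨0, hd⟩) (1 : F))
      ((x : Matrix (Fin d ⊕ Fin d) (Fin d ⊕ Fin d) F) *ᵥ w)
      = Cfsg.sympForm d F (Pi.single (Sum.inl ⟨0, hd⟩) (1 : F)) w := hx _ w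
  rw [hz, Matrix.smul_mulVec, Matrix.smul_mulVec, Matrix.one_mulVec, Matrix.one_mulVec,
    sf_smul_left, sf_smul_right] at h2
  have h3 : (z * z - 1) * Cfsg.sympForm d F (Pi.single (Sum.inl ⟨0, hd⟩) (1 : F)) w = 0 := by
    linear_combination h2
  have hzz : z * z - 1 = 0 := by
    rcases mul_eq_zero.mp h3 with h | h
    · exact h
    · exact absurd h hw
  have h4 : (z - 1) * (z - 1) = 0 := by
    have h2' : (2 : F) = 0 := CharTwo.two_eq_zero
    linear_combination hzz + (1 - z) * h2'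
  exact sub_eq_zero.mp (mul_self_eq_zero.mp h4)

/-- for a form of minus type with `d` even, some involution of `Sp` has no conjugate preserving
the form -/
theorem sp_invol_not_conj_into (hd : 1 ≤ d) (Q : (Fin d ⊕ Fin d → F) → F)
    (hpol : ∀ u v, QuadraticMap.polar Q u v = Cfsg.sympForm d F u v)
    (hnot : ¬ Cfsg.Geo.IsPlusTypeOn Q ⊤) (heven : Even d) :
    ∃ t : Matrix.symplecticGroup (Fin d) F, orderOf t = 2 ∧
      ∀ c : Matrix.symplecticGroup (Fin d) F, ¬ ∀ v,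
        Q (((c * t * c⁻¹ : Matrix.symplecticGroup (Fin d) F) :
          Matrix (Fin d ⊕ Fin d) (Fin d ⊕ Fin d) F) *ᵥ v) = Q v := by
  classical
  obtain ⟨k, hk⟩ := heven
  have hk1 : 1 ≤ k := by omega
  obtain ⟨t', ht'⟩ := plus_hAL (F := F) d k hk1 (by omega)
  obtain ⟨t, ht⟩ := spnf_of_orth Sum.swap t' ht'
  haveI : Nonempty (Fin k ⊕ Fin k) := ⟨Sum.inl ⟨0, hk1⟩⟩
  have hswfp : ∀ x : Fin k ⊕ Fin k, Sum.swap x ≠ x := by
    intro x
    rcases x with i | i <;> simp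
  refine ⟨t, spnf_orderOf Sum.swap Sum.swap_swap t ht, fun c hc => hnot ?_⟩
  obtain ⟨t₂, ht₂⟩ : ∃ t₂ : Matrix.symplecticGroup (Fin d) F, t₂ = c * t * c⁻¹ := ⟨_, rfl⟩
  rw [← ht₂] at hc
  have hconj : IsConj t t₂ := isConj_iff.mpr ⟨c, ht₂.symm⟩
  have hrank : ((t₂ : Matrix (Fin d ⊕ Fin d) (Fin d ⊕ Fin d) F) - 1).rank = d := by
    rw [← sp_rank_conj t t₂ hconj, spnf_rank Sum.swap Sum.swap_swap t ht, Fintype.card_sum,
      Fintype.card_fin, hk]
  have halt := sp_alt_conj t t₂ hconj (spnf_alt Sum.swap Sum.swap_swap hswfp t ht)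
  refine plusType_of_ts Q (LinearMap.range
    (Matrix.mulVecLin ((t₂ : Matrix (Fin d ⊕ Fin d) (Fin d ⊕ Fin d) F) - 1))) ?_ hrank
  rintro w ⟨v, rfl⟩
  rw [Matrix.mulVecLin_apply, Matrix.sub_mulVec, Matrix.one_mulVec]
  have h1 := hpol ((t₂ : Matrix (Fin d ⊕ Fin d) (Fin d ⊕ Fin d) F) *ᵥ v - v) v
  unfold QuadraticMap.polar at h1
  rw [sub_add_cancel, hc v, sf_anti, sf_sub_right, sf_self, halt v] at h1
  linear_combination -h1

/-- the index of the orthogonal group in the symplectic group -/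
lemma two_mul_relIndex (hd : 1 ≤ d) (Qb : QuadraticForm F (Fin d ⊕ Fin d → F))
    (hpol : ∀ u v, QuadraticMap.polar (⇑Qb) u v = Cfsg.sympForm d F u v) :
    (Cfsg.Geo.IsPlusTypeOn (⇑Qb) ⊤ →
      2 * (Cfsg.Geo.quadSimilarityGroup (⇑Qb)).relIndex (Cfsg.spGL d F)
        = Fintype.card F ^ d * (Fintype.card F ^ d + 1)) ∧
    (¬ Cfsg.Geo.IsPlusTypeOn (⇑Qb) ⊤ →
      2 * (Cfsg.Geo.quadSimilarityGroup (⇑Qb)).relIndex (Cfsg.spGL d F)
        = Fintype.card F ^ d * (Fintype.card F ^ d - 1)) := by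
  classical
  obtain ⟨q, hq⟩ : ∃ q, Fintype.card F = q := ⟨_, rfl⟩
  have hq2 : 2 ≤ q := hq ▸ Fintype.one_lt_card
  have hidx := relIndex_mul_card hd (⇑Qb) hpol
  obtain ⟨R, hR⟩ : ∃ R, R = (Cfsg.Geo.quadSimilarityGroup (⇑Qb)).relIndex (Cfsg.spGL d F) :=
    ⟨_, rfl⟩
  rw [← hR] at hidx ⊢
  rw [card_sp hq d] at hidx
  rw [hq]
  obtain ⟨e', rfl⟩ : ∃ e', d = e' + 1 := ⟨d - 1, by omega⟩
  rw [Finset.prod_range_succ] at hidx
  obtain ⟨P, hP⟩ : ∃ P, P = ∏ i ∈ Finset.range e', (q ^ (2 * (i + 1)) - 1) := ⟨_, rfl⟩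
  have hP0 : 0 < P := by
    rw [hP]
    apply Finset.prod_pos
    intro i _
    have h1 : 2 ≤ q ^ (2 * (i + 1)) := le_trans hq2 (Nat.le_self_pow (by omega) q)
    omega
  have hqd : 2 ≤ q ^ (e' + 1) := le_trans hq2 (Nat.le_self_pow (by omega) q)
  obtain ⟨Y, hY⟩ : ∃ Y, q ^ (e' + 1) = Y + 1 := ⟨q ^ (e' + 1) - 1, by omega⟩
  have hY0 : 0 < Y := by omega
  obtain ⟨A, hA⟩ : ∃ A, A = q ^ ((e' + 1) * e') := ⟨_, rfl⟩
  have hA0 : 0 < A := by
    rw [hA]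
    positivity
  have e1 : q ^ ((e' + 1) ^ 2) = A * (Y + 1) := by
    rw [hA, ← hY, ← pow_add]
    congr 1
    ring
  have e2 : q ^ (2 * (e' + 1)) - 1 = Y * (Y + 2) := by
    have h1 : q ^ (2 * (e' + 1)) = (Y + 1) * (Y + 1) := by
      rw [← hY, ← pow_add]
      congr 1
      ring
    rw [h1]
    apply Nat.sub_eq_of_eq_add
    ring
  rw [← hP, e1, e2] at hidx
  rw [hY]
  rcases quad_dichotomy Qb hpol hd with ⟨e, he⟩ | ⟨ζ₀, e, hab, he⟩
  · have hplus := plusType_of_equiv (⇑Qb) e he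
    refine ⟨fun _ => ?_, fun h => absurd hplus h⟩
    have hc : Nat.card ↥(Cfsg.isometryGroup F ⇑Qb) = 2 * A * Y * P := by
      rw [Cfsg.Agent.Lib.helper6.card_isometryGroup_eq,
        Cfsg.Agent.Lib.helper6.card_iso_congr e (⇑Qb) (Cfsg.quadFormPlus (e' + 1) F)
          (fun v => by rw [he, Cfsg.Agent.S2562.qP_apply]),
        ← Cfsg.Agent.Lib.helper6.card_isometryGroup_eq,
        Cfsg.Agent.Lib.helper6.card_GO_plus hq (e' + 1) hd]
      simp only [Nat.add_sub_cancel]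
      rw [← hP, hY, Nat.add_sub_cancel, ← hA]
    rw [hc] at hidx
    have h3 : 2 * R * (A * Y * P) = (Y + 1) * (Y + 1 + 1) * (A * Y * P) := by
      have h4 : 2 * R * (A * Y * P) = R * (2 * A * Y * P) := by ring
      rw [h4, hidx]
      ring
    exact Nat.eq_of_mul_eq_mul_right (by positivity) h3
  · have hminus := not_plusType_of_equiv hd (⇑Qb) ζ₀ hab e he
    refine ⟨fun h => absurd h hminus, fun _ => ?_⟩
    have hc : Nat.card ↥(Cfsg.isometryGroup F ⇑Qb) = 2 * A * (Y + 1 + 1) * P := by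
      rw [Cfsg.Agent.Lib.helper6.card_isometryGroup_eq,
        Cfsg.Agent.Lib.helper6.card_iso_congr e (⇑Qb) (Cfsg.quadFormMinus (e' + 1 - 1) F 1 ζ₀)
          (fun v => by rw [he, Cfsg.Agent.S2679.qMg_apply]),
        ← Cfsg.Agent.Lib.helper6.card_isometryGroup_eq,
        Cfsg.Agent.Lib.helper6.card_GO_minus hq (e' + 1) hd 1 ζ₀ hab]
      simp only [Nat.add_sub_cancel]
      rw [← hP, hY, ← hA]
    rw [hc] at hidx
    rw [Nat.add_sub_cancel]
    have h3 : 2 * R * (A * (Y + 1 + 1) * P) = (Y + 1) * Y * (A * (Y + 1 + 1) * P) := by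
      have h4 : 2 * R * (A * (Y + 1 + 1) * P) = R * (2 * A * (Y + 1 + 1) * P) := by ring
      rw [h4, hidx]
      ring
    exact Nat.eq_of_mul_eq_mul_right (by positivity) h3

/-- an odd prime dividing the index divides `q ^ d ± 1` -/
lemma odd_prime_dvd (hd : 1 ≤ d) (Qb : QuadraticForm F (Fin d ⊕ Fin d → F))
    (hpol : ∀ u v, QuadraticMap.polar (⇑Qb) u v = Cfsg.sympForm d F u v)
    (r : ℕ) [Fact r.Prime] (hr2 : r ≠ 2)
    (hΩ : r ∣ (Cfsg.Geo.quadSimilarityGroup (⇑Qb)).relIndex (Cfsg.spGL d F)) :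
    (Cfsg.Geo.IsPlusTypeOn (⇑Qb) ⊤ → r ∣ Fintype.card F ^ d + 1) ∧
    (¬ Cfsg.Geo.IsPlusTypeOn (⇑Qb) ⊤ → r ∣ Fintype.card F ^ d - 1) := by
  have hnq : ¬ r ∣ Fintype.card F ^ d := by
    intro h1
    have h2 := (Fact.out : r.Prime).dvd_of_dvd_pow h1
    obtain ⟨n, -, hn⟩ := FiniteField.card F 2
    rw [hn] at h2
    have h3 := (Fact.out : r.Prime).dvd_of_dvd_pow h2
    exact hr2 ((Nat.prime_dvd_prime_iff_eq (Fact.out : r.Prime) Nat.prime_two).mp h3)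
  have h2 : r ∣ 2 * (Cfsg.Geo.quadSimilarityGroup (⇑Qb)).relIndex (Cfsg.spGL d F) :=
    Dvd.dvd.mul_left hΩ 2
  obtain ⟨hp, hm⟩ := two_mul_relIndex hd Qb hpol
  constructor
  · intro h
    rw [hp h] at h2
    rcases (Nat.Prime.dvd_mul (Fact.out : r.Prime)).mp h2 with h1 | h1
    · exact absurd h1 hnq
    · exact h1
  · intro h
    rw [hm h] at h2
    rcases (Nat.Prime.dvd_mul (Fact.out : r.Prime)).mp h2 with h1 | h1
    · exact absurd h1 hnq
    · exact h1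

/-- a fixed-point-free element of order `r ∣ q ^ d + 1` in `Sp` -/
theorem exists_sp_singer (hd : 1 ≤ d) (r : ℕ) [Fact r.Prime]
    (hr : r ∣ Fintype.card F ^ d + 1) :
    ∃ x : GL (Fin d ⊕ Fin d) F, x ∈ Cfsg.spGL d F ∧ x ^ r = 1 ∧
      ∀ v, (x : Matrix (Fin d ⊕ Fin d) (Fin d ⊕ Fin d) F) *ᵥ v = v → v = 0 := by
  classical
  haveI : NeZero (2 * d) := ⟨by omega⟩
  obtain ⟨Q', ζ, hQ', hζ, hζQ⟩ := exists_singer_quad (F := F) (2 * d) d rfl r hr
  have hV : finrank F (FiniteField.Extension F 2 (2 * d)) = 2 * d :=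
    FiniteField.finrank_extension F 2 (2 * d)
  have hA : (QuadraticMap.polarBilin Q').IsAlt := by
    intro v
    rw [QuadraticMap.polarBilin_apply_apply, QuadraticMap.polar_self, two_smul]
    exact CharTwo.add_self_eq_zero _
  obtain ⟨g, hg⟩ := symp_basis_equiv (QuadraticMap.polarBilin Q') hA hQ' hV
  have hζ1 : (ζ : FiniteField.Extension F 2 (2 * d)) - 1 ≠ 0 := by
    intro h
    have h2 : ζ = 1 := Units.ext (sub_eq_zero.mp h)
    rw [h2, orderOf_one] at hζ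
    exact (Fact.out : r.Prime).ne_one hζ.symm
  obtain ⟨ρ, hρ⟩ : ∃ ρ : (FiniteField.Extension F 2 (2 * d))ˣ →*
      Module.End F (FiniteField.Extension F 2 (2 * d)),
      ∀ u v, ρ u v = (u : FiniteField.Extension F 2 (2 * d)) * v :=
    ⟨((Algebra.lmul F (FiniteField.Extension F 2 (2 * d)) :
        FiniteField.Extension F 2 (2 * d) →ₐ[F] Module.End F _) :
        FiniteField.Extension F 2 (2 * d) →* Module.End F _).comp (Units.coeHom _),
      fun u v => rfl⟩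
  have hB : ∀ a b, QuadraticMap.polarBilin Q' ((ζ : FiniteField.Extension F 2 (2 * d)) * a)
      ((ζ : FiniteField.Extension F 2 (2 * d)) * b) = QuadraticMap.polarBilin Q' a b := by
    intro a b
    rw [QuadraticMap.polarBilin_apply_apply, QuadraticMap.polarBilin_apply_apply]
    unfold QuadraticMap.polar
    rw [← mul_add, hζQ, hζQ, hζQ]
  have h1 : ∀ a b : Fin d ⊕ Fin d → F, Cfsg.sympForm d F a b
      = - QuadraticMap.polarBilin Q' (g.symm a) (g.symm b) := by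
    intro a b
    rw [hg, LinearEquiv.apply_symm_apply, LinearEquiv.apply_symm_apply, neg_neg]
  refine ⟨(matHom ρ g).toHomUnits ζ, ?_, ?_, ?_⟩
  · intro u v
    show Cfsg.sympForm d F ((matHom ρ g ζ).mulVec u) ((matHom ρ g ζ).mulVec v)
      = Cfsg.sympForm d F u v
    rw [matHom_mulVec, matHom_mulVec, h1, LinearEquiv.symm_apply_apply,
      LinearEquiv.symm_apply_apply, hρ, hρ, hB, ← h1]
  · rw [← map_pow, ← hζ, pow_orderOf_eq_one, map_one]
  · intro v hv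
    have hv' : (matHom ρ g ζ).mulVec v = v := hv
    rw [matHom_mulVec, hρ] at hv'
    have h2 : (ζ : FiniteField.Extension F 2 (2 * d)) * g.symm v = g.symm v := by
      apply g.injective
      rw [hv', LinearEquiv.apply_symm_apply]
    have h3 : ((ζ : FiniteField.Extension F 2 (2 * d)) - 1) * g.symm v = 0 := by
      rw [sub_mul, h2, one_mul, sub_self]
    rcases mul_eq_zero.mp h3 with h | h
    · exact absurd h hζ1
    · exact (LinearEquiv.map_eq_zero_iff g.symm).mp h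

/-- a form of plus type has no fixed-point-free isometry of odd prime order `r ∣ q ^ d + 1` -/
lemma plus_no_fpf_gl (hd : 1 ≤ d) (r : ℕ) [Fact r.Prime] (hr2 : r ≠ 2)
    (hr : r ∣ Fintype.card F ^ d + 1)
    (Q : (Fin d ⊕ Fin d → F) → F) (e : (Fin d ⊕ Fin d → F) ≃ₗ[F] (Fin d ⊕ Fin d → F))
    (he : ∀ v, Q v = Cfsg.Agent.S2562.qP F d (e v)) (y : GL (Fin d ⊕ Fin d) F)
    (hy : ∀ v, Q ((y : Matrix (Fin d ⊕ Fin d) (Fin d ⊕ Fin d) F) *ᵥ v) = Q v) (hyr : y ^ r = 1)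
    (hfix : ∀ v, (y : Matrix (Fin d ⊕ Fin d) (Fin d ⊕ Fin d) F) *ᵥ v = v → v = 0) : False := by
  classical
  have hinv1 : ∀ v, ((y⁻¹ : GL (Fin d ⊕ Fin d) F) : Matrix (Fin d ⊕ Fin d) (Fin d ⊕ Fin d) F)
      *ᵥ ((y : Matrix (Fin d ⊕ Fin d) (Fin d ⊕ Fin d) F) *ᵥ v) = v := by
    intro v
    rw [Matrix.mulVec_mulVec, ← Units.val_mul, inv_mul_cancel, Units.val_one, Matrix.one_mulVec]
  have hinv2 : ∀ v, (y : Matrix (Fin d ⊕ Fin d) (Fin d ⊕ Fin d) F)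
      *ᵥ (((y⁻¹ : GL (Fin d ⊕ Fin d) F) : Matrix (Fin d ⊕ Fin d) (Fin d ⊕ Fin d) F) *ᵥ v) = v := by
    intro v
    rw [Matrix.mulVec_mulVec, ← Units.val_mul, mul_inv_cancel, Units.val_one, Matrix.one_mulVec]
  obtain ⟨ψ, hψ⟩ : ∃ ψ : Equiv.Perm (Fin d ⊕ Fin d → F),
      ∀ w, ψ w = e ((y : Matrix (Fin d ⊕ Fin d) (Fin d ⊕ Fin d) F) *ᵥ e.symm w) :=
    ⟨{ toFun := fun w => e ((y : Matrix (Fin d ⊕ Fin d) (Fin d ⊕ Fin d) F) *ᵥ e.symm w)
       invFun := fun w => e (((y⁻¹ : GL (Fin d ⊕ Fin d) F) :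
          Matrix (Fin d ⊕ Fin d) (Fin d ⊕ Fin d) F) *ᵥ e.symm w)
       left_inv := fun w => by
        simp only [LinearEquiv.symm_apply_apply, hinv1, LinearEquiv.apply_symm_apply]
       right_inv := fun w => by
        simp only [LinearEquiv.symm_apply_apply, hinv2, LinearEquiv.apply_symm_apply] },
      fun w => rfl⟩
  have hiter : ∀ (j : ℕ) w, (⇑ψ)^[j] w
      = e (((y ^ j : GL (Fin d ⊕ Fin d) F) : Matrix (Fin d ⊕ Fin d) (Fin d ⊕ Fin d) F)
        *ᵥ e.symm w) := by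
    intro j
    induction j with
    | zero =>
      intro w
      rw [Function.iterate_zero, id, pow_zero, Units.val_one, Matrix.one_mulVec,
        LinearEquiv.apply_symm_apply]
    | succ j ih =>
      intro w
      rw [Function.iterate_succ_apply', ih, hψ, LinearEquiv.symm_apply_apply,
        Matrix.mulVec_mulVec, ← Units.val_mul, ← pow_succ']
  refine plus_no_fpf d hd r hr2 hr ψ ?_ ?_ ?_ ?_
  · rw [hψ, map_zero, Matrix.mulVec_zero, map_zero]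
  · intro w
    rw [hψ, ← Cfsg.Agent.S2562.qP_apply, ← Cfsg.Agent.S2562.qP_apply, ← he, hy, he,
      LinearEquiv.apply_symm_apply]
  · intro w
    rw [hiter, hyr, Units.val_one, Matrix.one_mulVec, LinearEquiv.apply_symm_apply]
  · intro w hw
    rw [hψ] at hw
    have h1 : (y : Matrix (Fin d ⊕ Fin d) (Fin d ⊕ Fin d) F) *ᵥ e.symm w = e.symm w := by
      apply e.injective
      rw [hw, LinearEquiv.apply_symm_apply]
    exact (LinearEquiv.map_eq_zero_iff e.symm).mp (hfix _ h1)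

omit [Fintype F] in
/-- a form with polar form the symplectic form that is invariant under the image of a
fixed-point-free element of `GL_d` is of plus type -/
theorem plusType_of_plusEmb (Q : (Fin d ⊕ Fin d → F) → F)
    (hpol : ∀ u v, QuadraticMap.polar Q u v = Cfsg.sympForm d F u v)
    (A : GL (Fin d) F) (hA : IsUnit ((A : Matrix (Fin d) (Fin d) F) - 1))
    (g : GL (Fin d ⊕ Fin d) F) (hg : g ∈ Cfsg.spGL d F)
    (hinv : ∀ w, Q (((g⁻¹ : GL (Fin d ⊕ Fin d) F) : Matrix (Fin d ⊕ Fin d) (Fin d ⊕ Fin d) F)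
        *ᵥ (mat (Cfsg.Agent.S2562.qP F d) (plusEmb F d A) *ᵥ w))
      = Q (((g⁻¹ : GL (Fin d ⊕ Fin d) F) : Matrix (Fin d ⊕ Fin d) (Fin d ⊕ Fin d) F) *ᵥ w)) :
    Cfsg.Geo.IsPlusTypeOn Q ⊤ := by
  classical
  obtain ⟨N, hN⟩ := hA
  refine plusType_of_ts Q ((LinearMap.range (inlL F d)).map
    (Matrix.mulVecLin ((g⁻¹ : GL (Fin d ⊕ Fin d) F) :
      Matrix (Fin d ⊕ Fin d) (Fin d ⊕ Fin d) F))) ?_ ?_
  · rintro w ⟨u, ⟨a, rfl⟩, rfl⟩
    rw [Matrix.mulVecLin_apply]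
    obtain ⟨a', ha'⟩ : ∃ a' : Fin d → F,
        a' = ((N⁻¹ : (Matrix (Fin d) (Fin d) F)ˣ) : Matrix (Fin d) (Fin d) F) *ᵥ a := ⟨_, rfl⟩
    have h1 : (A : Matrix (Fin d) (Fin d) F) *ᵥ a' = a + a' := by
      have h2 : ((A : Matrix (Fin d) (Fin d) F) - 1) *ᵥ a' = a := by
        rw [ha', ← hN, Matrix.mulVec_mulVec, ← Units.val_mul, mul_inv_cancel, Units.val_one,
          Matrix.one_mulVec]
      rw [Matrix.sub_mulVec, Matrix.one_mulVec] at h2
      rw [← h2]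
      abel
    have h3 : mat (Cfsg.Agent.S2562.qP F d) (plusEmb F d A) *ᵥ inlL F d a'
        = inlL F d a + inlL F d a' := by
      rw [plusEmb_coe, ← map_add, ← h1, inlL_apply, inlL_apply, Matrix.fromBlocks_mulVec]
      simp
    have h4 := hpol
      (((g⁻¹ : GL (Fin d ⊕ Fin d) F) : Matrix (Fin d ⊕ Fin d) (Fin d ⊕ Fin d) F) *ᵥ inlL F d a)
      (((g⁻¹ : GL (Fin d ⊕ Fin d) F) : Matrix (Fin d ⊕ Fin d) (Fin d ⊕ Fin d) F) *ᵥ inlL F d a')
    unfold QuadraticMap.polar at h4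
    have h5 : Cfsg.sympForm d F
        (((g⁻¹ : GL (Fin d ⊕ Fin d) F) : Matrix (Fin d ⊕ Fin d) (Fin d ⊕ Fin d) F) *ᵥ inlL F d a)
        (((g⁻¹ : GL (Fin d ⊕ Fin d) F) : Matrix (Fin d ⊕ Fin d) (Fin d ⊕ Fin d) F) *ᵥ inlL F d a')
        = Cfsg.sympForm d F (inlL F d a) (inlL F d a') := (inv_mem hg) _ _
    rw [h5, sf_inlL, ← Matrix.mulVec_add, ← h3, hinv] at h4
    linear_combination -h4
  · have hinj : Function.Injective (Matrix.mulVecLin ((g⁻¹ : GL (Fin d ⊕ Fin d) F) :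
        Matrix (Fin d ⊕ Fin d) (Fin d ⊕ Fin d) F)) := by
      intro a b hab
      have h1 := congrArg (fun v => (g : Matrix (Fin d ⊕ Fin d) (Fin d ⊕ Fin d) F) *ᵥ v) hab
      simp only [Matrix.mulVecLin_apply, Matrix.mulVec_mulVec, ← Units.val_mul, mul_inv_cancel,
        Units.val_one, Matrix.one_mulVec] at h1
      exact h1
    rw [← (Submodule.equivMapOfInjective _ hinj _).finrank_eq, finrank_range_inlL]

/-- prime order elements of `Sp(2d, q)`, `q` even, and the orthogonal subgroups -/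
theorem sp_quad_iff (hd : 2 ≤ d) (Q : (Fin d ⊕ Fin d → F) → F)
    (hsm : ∀ (c : F) (v : Fin d ⊕ Fin d → F), Q (c • v) = c ^ 2 * Q v)
    (hQf : ∀ u v, QuadraticMap.polar Q u v = Cfsg.sympForm d F u v)
    (r : ℕ) [Fact r.Prime]
    (hΩ : r ∣ (Cfsg.Geo.quadSimilarityGroup Q).relIndex (Cfsg.spGL d F)) :
    (∀ x ∈ Cfsg.spGL d F,
      (∃ z : F, ((x ^ r : GL (Fin d ⊕ Fin d) F) : Matrix (Fin d ⊕ Fin d) (Fin d ⊕ Fin d) F)
        = z • (1 : Matrix (Fin d ⊕ Fin d) (Fin d ⊕ Fin d) F)) →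
      (∀ z : F, (x : Matrix (Fin d ⊕ Fin d) (Fin d ⊕ Fin d) F)
        ≠ z • (1 : Matrix (Fin d ⊕ Fin d) (Fin d ⊕ Fin d) F)) →
      ∃ g ∈ Cfsg.spGL d F, g⁻¹ * x * g ∈ Cfsg.Geo.quadSimilarityGroup Q) ↔
    (r = 2 ∧ (Cfsg.Geo.IsPlusTypeOn Q ⊤ ∨ Odd d)) := by
  classical
  obtain ⟨Qb, rfl⟩ := exists_quadForm_of_polar Q hsm hQf
  have hd1 : 1 ≤ d := by omega
  have hscal : ∀ x : GL (Fin d ⊕ Fin d) F, x ∈ Cfsg.spGL d F →
      (∀ v, (x : Matrix (Fin d ⊕ Fin d) (Fin d ⊕ Fin d) F) *ᵥ v = v → v = 0) →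
      ∀ z : F, (x : Matrix (Fin d ⊕ Fin d) (Fin d ⊕ Fin d) F)
        ≠ z • (1 : Matrix (Fin d ⊕ Fin d) (Fin d ⊕ Fin d) F) := by
    intro x hx hxfix z hz
    have hz1 := sp_scalar_one hd1 x hx z hz
    rw [hz1, one_smul] at hz
    have h1 := hxfix (Pi.single (Sum.inl ⟨0, hd1⟩) (1 : F)) (by rw [hz, Matrix.one_mulVec])
    have h2 := congrFun h1 (Sum.inl ⟨0, hd1⟩)
    simp at h2
  constructor
  · intro hall
    have hr2 : r = 2 := by
      by_contra hr2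
      obtain ⟨hp, hm⟩ := odd_prime_dvd hd1 Qb hQf r hr2 hΩ
      by_cases hplus : Cfsg.Geo.IsPlusTypeOn (⇑Qb) ⊤
      · have hdiv := hp hplus
        obtain ⟨x, hx, hxr, hxfix⟩ := exists_sp_singer (F := F) hd1 r hdiv
        obtain ⟨g, hg, hgx⟩ := hall x hx ⟨1, by rw [hxr, one_smul]; rfl⟩ (hscal x hx hxfix)
        rcases quad_dichotomy Qb hQf hd1 with ⟨e, he⟩ | ⟨ζ₀, e, hab, he⟩
        · have hy := (quadSim_iff (⇑Qb) hQf hd1 _ (mul_mem (mul_mem (inv_mem hg) hx) hg)).mp hgx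
          refine plus_no_fpf_gl hd1 r hr2 hdiv (⇑Qb) e he (g⁻¹ * x * g) hy ?_ ?_
          · have h1 : g⁻¹ * x * g = g⁻¹ * x * g⁻¹⁻¹ := by rw [inv_inv]
            rw [h1, conj_pow, hxr, mul_one, inv_inv, inv_mul_cancel]
          · intro v hv
            have h1 : (x : Matrix (Fin d ⊕ Fin d) (Fin d ⊕ Fin d) F)
                *ᵥ ((g : Matrix (Fin d ⊕ Fin d) (Fin d ⊕ Fin d) F) *ᵥ v)
                = (g : Matrix (Fin d ⊕ Fin d) (Fin d ⊕ Fin d) F) *ᵥ v := by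
              have h2 := congrArg
                (fun w => (g : Matrix (Fin d ⊕ Fin d) (Fin d ⊕ Fin d) F) *ᵥ w) hv
              simp only [Matrix.mulVec_mulVec, ← Units.val_mul] at h2
              have h3 : g * (g⁻¹ * x * g) = x * g := by group
              rw [h3] at h2
              rw [Matrix.mulVec_mulVec, ← Units.val_mul]
              exact h2
            have h3 := hxfix _ h1
            have h4 := congrArg (fun w => ((g⁻¹ : GL (Fin d ⊕ Fin d) F) :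
              Matrix (Fin d ⊕ Fin d) (Fin d ⊕ Fin d) F) *ᵥ w) h3
            simp only [Matrix.mulVec_mulVec, ← Units.val_mul, inv_mul_cancel, Units.val_one,
              Matrix.one_mulVec, Matrix.mulVec_zero] at h4
            exact h4
        · exact not_plusType_of_equiv hd1 (⇑Qb) ζ₀ hab e he hplus
      · have hdiv := hm hplus
        obtain ⟨A, hAr, hAu⟩ := exists_gl_fpf (F := F) 2 d hd1 r hdiv
        obtain ⟨x, hxdef⟩ : ∃ x : GL (Fin d ⊕ Fin d) F,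
            x = ((plusEmb F d A : ↥(Cfsg.isometryGroup F ⇑(Cfsg.Agent.S2562.qP F d))) :
              GL (Fin d ⊕ Fin d) F) := ⟨_, rfl⟩
        have hx : x ∈ Cfsg.spGL d F := by
          intro u v
          show Cfsg.sympForm d F ((x : Matrix (Fin d ⊕ Fin d) (Fin d ⊕ Fin d) F) *ᵥ u)
            ((x : Matrix (Fin d ⊕ Fin d) (Fin d ⊕ Fin d) F) *ᵥ v) = Cfsg.sympForm d F u v
          rw [hxdef, ← polar_qP_sf, ← polar_qP_sf]
          exact isom_polar (Cfsg.Agent.S2562.qP F d) (plusEmb F d A) u v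
        have hxr : x ^ r = 1 := by
          rw [hxdef, ← Subgroup.coe_pow, ← map_pow, hAr, map_one]
          rfl
        have hxfix : ∀ v, (x : Matrix (Fin d ⊕ Fin d) (Fin d ⊕ Fin d) F) *ᵥ v = v → v = 0 := by
          intro v hv
          rw [hxdef] at hv
          exact plusEmb_fix d A hAu v hv
        obtain ⟨g, hg, hgx⟩ := hall x hx ⟨1, by rw [hxr, one_smul]; rfl⟩ (hscal x hx hxfix)
        have hinv := (conj_quadSim_iff (⇑Qb) hQf hd1 x g hx hg).mp hgx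
        rw [hxdef] at hinv
        exact hplus (plusType_of_plusEmb (⇑Qb) hQf A hAu g hg hinv)
    subst hr2
    refine ⟨rfl, ?_⟩
    by_contra hcon
    push Not at hcon
    obtain ⟨hnp, hnodd⟩ := hcon
    obtain ⟨t, ht, htc⟩ := sp_invol_not_conj_into hd1 (⇑Qb) hQf hnp
      (Nat.not_odd_iff_even.mp hnodd)
    obtain ⟨x, hxdef⟩ : ∃ x : ↥(Cfsg.spGL d F), x = spEquiv d F t := ⟨_, rfl⟩
    have hxmat : ((x : GL (Fin d ⊕ Fin d) F) : Matrix (Fin d ⊕ Fin d) (Fin d ⊕ Fin d) F)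
        = (t : Matrix (Fin d ⊕ Fin d) (Fin d ⊕ Fin d) F) := by
      rw [hxdef]
      rfl
    obtain ⟨g, hg, hgx⟩ := hall (x : GL (Fin d ⊕ Fin d) F) x.2 ⟨1, by
        have h1 : t ^ 2 = 1 := by
          rw [← ht]
          exact pow_orderOf_eq_one t
        rw [one_smul, ← Subgroup.coe_pow, hxdef, ← map_pow, h1, map_one]
        rfl⟩ (by
        intro z hz
        have hz1 := sp_scalar_one hd1 (x : GL (Fin d ⊕ Fin d) F) x.2 z hz
        rw [hz1, one_smul, hxmat] at hz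
        have h1 : t = 1 := Subtype.ext hz
        rw [h1, orderOf_one] at ht
        omega)
    obtain ⟨c, hc⟩ : ∃ c : Matrix.symplecticGroup (Fin d) F,
        spEquiv d F c = ⟨g⁻¹, inv_mem hg⟩ :=
      ⟨(spEquiv d F).symm ⟨g⁻¹, inv_mem hg⟩, (spEquiv d F).apply_symm_apply _⟩
    apply htc c
    have h1 : ((spEquiv d F (c * t * c⁻¹) : ↥(Cfsg.spGL d F)) : GL (Fin d ⊕ Fin d) F)
        = g⁻¹ * x * g := by
      rw [map_mul, map_mul, map_inv, hc, ← hxdef]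
      simp
    have h2 := (quadSim_iff (⇑Qb) hQf hd1 _ (mul_mem (mul_mem (inv_mem hg) x.2) hg)).mp hgx
    intro v
    have h3 := h2 v
    rw [← h1] at h3
    exact h3
  · rintro ⟨rfl, hcase⟩ x hx ⟨z, hz⟩ hns
    have hz1 : z = 1 := sp_scalar_one hd1 (x ^ 2) (pow_mem hx 2) z hz
    rw [hz1, one_smul] at hz
    obtain ⟨t, htdef⟩ : ∃ t : Matrix.symplecticGroup (Fin d) F, spEquiv d F t = ⟨x, hx⟩ :=
      ⟨(spEquiv d F).symm ⟨x, hx⟩, (spEquiv d F).apply_symm_apply _⟩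
    have ht2 : t ^ 2 = 1 := by
      apply (spEquiv d F).injective
      rw [map_pow, htdef, map_one]
      apply Subtype.ext
      exact Units.ext hz
    have ht1 : t ≠ 1 := by
      rintro rfl
      rw [map_one] at htdef
      have h1 : x = 1 := (congrArg Subtype.val htdef).symm
      exact hns 1 (by rw [h1, one_smul]; rfl)
    have ht : orderOf t = 2 := orderOf_eq_prime ht2 ht1
    obtain ⟨c, hc⟩ := sp_invol_conj_into hd1 Qb hQf hcase t ht
    refine ⟨((spEquiv d F c⁻¹ : ↥(Cfsg.spGL d F)) : GL (Fin d ⊕ Fin d) F),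
      (spEquiv d F c⁻¹).2, ?_⟩
    have h1 : ((spEquiv d F c⁻¹ : ↥(Cfsg.spGL d F)) : GL (Fin d ⊕ Fin d) F)⁻¹ * x
        * ((spEquiv d F c⁻¹ : ↥(Cfsg.spGL d F)) : GL (Fin d ⊕ Fin d) F)
        = ((spEquiv d F (c * t * c⁻¹) : ↥(Cfsg.spGL d F)) : GL (Fin d ⊕ Fin d) F) := by
      rw [map_mul, map_mul, htdef, map_inv]
      simp
    rw [h1, quadSim_iff (⇑Qb) hQf hd1 _ (SetLike.coe_mem _)]
    exact hc

end SpQuadDer2

end Cfsg.Agent.Lib.helper4
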