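import Mathlib
import Cfsg.Prelude.Def_GeometricClasses

set_option autoImplicit false
set_option linter.unusedSectionVars false

/-!
# The tensor product subgroup `GL_2(2) ⊗ GL_m(2)` is not maximal

It normalizes the subgroup of order `3` generated by `ω ⊗ 1`.
-/

namespace Cfsg.Agent.Lib.helper4

open Matrix
open scoped Kronecker

section TensorF2

variable {F : Type*} [Field F]

/-- an element of order three of `GL_2` in characteristic two -/
def om2 (F : Type*) [Field F] : Matrix (Fin 2) (Fin 2) F := !![0, 1; 1, 1]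

theorem mat_add_self {ι : Type*} (h2 : (1 : F) + 1 = 0) (M : Matrix ι ι F) : M + M = 0 := by
  ext i j
  have h : M i j + M i j = (1 + 1) * M i j := by ring
  rw [Matrix.add_apply, h, h2, zero_mul]
  rfl

theorem om2_mul_self (h2 : (1 : F) + 1 = 0) : om2 F * om2 F = om2 F + 1 := by
  ext i j
  fin_cases i <;> fin_cases j <;> simp [om2, Matrix.mul_apply, Fin.sum_univ_two, h2]

theorem om2_mul_inv (h2 : (1 : F) + 1 = 0) : om2 F * (om2 F + 1) = 1 := by
  rw [mul_add, mul_one, om2_mul_self h2, add_comm (om2 F) 1, add_assoc, mat_add_self h2, add_zero]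

theorem om2_inv_mul (h2 : (1 : F) + 1 = 0) : (om2 F + 1) * om2 F = 1 := by
  rw [add_mul, one_mul, om2_mul_self h2, add_comm (om2 F) 1, add_assoc, mat_add_self h2, add_zero]

theorem gl2_f2_norm (h01 : ∀ x : F, x = 0 ∨ x = 1) (h2 : (1 : F) + 1 = 0)
    (a : Matrix (Fin 2) (Fin 2) F) (hdet : a.det ≠ 0) :
    a * om2 F = om2 F * a ∨ a * om2 F = (om2 F + 1) * a := by
  obtain ⟨x, hx⟩ : ∃ x, x = a 0 0 := ⟨_, rfl⟩
  obtain ⟨y, hy⟩ : ∃ y, y = a 0 1 := ⟨_, rfl⟩
  obtain ⟨z, hz⟩ : ∃ z, z = a 1 0 := ⟨_, rfl⟩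
  obtain ⟨w, hw⟩ : ∃ w, w = a 1 1 := ⟨_, rfl⟩
  have ha : a = !![x, y; z, w] := by
    rw [hx, hy, hz, hw]
    exact Matrix.eta_fin_two a
  rw [ha] at hdet ⊢
  rw [Matrix.det_fin_two_of] at hdet
  rcases h01 x with rfl | rfl <;> rcases h01 y with rfl | rfl <;> rcases h01 z with rfl | rfl <;>
    rcases h01 w with rfl | rfl
  all_goals first
    | (exfalso; apply hdet; simp; done)
    | (left; ext i j; fin_cases i <;> fin_cases j <;>
        simp [om2, Matrix.mul_apply, Fin.sum_univ_two, h2]; done)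
    | (right; ext i j; fin_cases i <;> fin_cases j <;>
        simp [om2, Matrix.mul_apply, Fin.sum_univ_two, h2]; done)

/-- `ω ⊗ 1` as an invertible matrix -/
def zetaGL (h2 : (1 : F) + 1 = 0) (m : ℕ) : GL (Fin 2 × Fin m) F :=
  ⟨om2 F ⊗ₖ (1 : Matrix (Fin m) (Fin m) F), (om2 F + 1) ⊗ₖ (1 : Matrix (Fin m) (Fin m) F),
    by rw [← Matrix.mul_kronecker_mul, om2_mul_inv h2, one_mul, Matrix.one_kronecker_one],
    by rw [← Matrix.mul_kronecker_mul, om2_inv_mul h2, one_mul, Matrix.one_kronecker_one]⟩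

/-- the normalizer of the group generated by `ω ⊗ 1` -/
def normZeta (h2 : (1 : F) + 1 = 0) (m : ℕ) : Subgroup (GL (Fin 2 × Fin m) F) where
  carrier := {g | g * zetaGL h2 m * g⁻¹ = zetaGL h2 m ∨ g * zetaGL h2 m * g⁻¹ = (zetaGL h2 m)⁻¹}
  one_mem' := Or.inl (by group)
  mul_mem' := by
    intro a b ha hb
    have e : a * b * zetaGL h2 m * (a * b)⁻¹ = a * (b * zetaGL h2 m * b⁻¹) * a⁻¹ := by group
    show a * b * zetaGL h2 m * (a * b)⁻¹ = zetaGL h2 m
      ∨ a * b * zetaGL h2 m * (a * b)⁻¹ = (zetaGL h2 m)⁻¹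
    rw [e]
    rcases hb with hb | hb
    · rw [hb]
      exact ha
    · rw [hb]
      have e2 : a * (zetaGL h2 m)⁻¹ * a⁻¹ = (a * zetaGL h2 m * a⁻¹)⁻¹ := by group
      rw [e2]
      rcases ha with ha | ha
      · right
        rw [ha]
      · left
        rw [ha, inv_inv]
  inv_mem' := by
    intro a ha
    show a⁻¹ * zetaGL h2 m * a⁻¹⁻¹ = zetaGL h2 m ∨ a⁻¹ * zetaGL h2 m * a⁻¹⁻¹ = (zetaGL h2 m)⁻¹
    rcases ha with ha | ha
    · left
      have e : a⁻¹ * (a * zetaGL h2 m * a⁻¹) * a⁻¹⁻¹ = zetaGL h2 m := by group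
      rw [ha] at e
      exact e
    · right
      have e : a⁻¹ * (a * zetaGL h2 m * a⁻¹)⁻¹ * a⁻¹⁻¹ = (zetaGL h2 m)⁻¹ := by group
      rw [ha, inv_inv] at e
      exact e

theorem mem_normZeta_iff (h2 : (1 : F) + 1 = 0) (m : ℕ) (g : GL (Fin 2 × Fin m) F) :
    g ∈ normZeta h2 m ↔
      ((g : Matrix (Fin 2 × Fin m) (Fin 2 × Fin m) F) * om2 F ⊗ₖ (1 : Matrix (Fin m) (Fin m) F)
          = om2 F ⊗ₖ (1 : Matrix (Fin m) (Fin m) F) * (g : Matrix (Fin 2 × Fin m) (Fin 2 × Fin m) F)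
        ∨ (g : Matrix (Fin 2 × Fin m) (Fin 2 × Fin m) F) * om2 F ⊗ₖ (1 : Matrix (Fin m) (Fin m) F)
          = (om2 F + 1) ⊗ₖ (1 : Matrix (Fin m) (Fin m) F)
            * (g : Matrix (Fin 2 × Fin m) (Fin 2 × Fin m) F)) := by
  show (g * zetaGL h2 m * g⁻¹ = zetaGL h2 m ∨ g * zetaGL h2 m * g⁻¹ = (zetaGL h2 m)⁻¹) ↔ _
  rw [mul_inv_eq_iff_eq_mul, mul_inv_eq_iff_eq_mul]
  constructor
  · rintro (h | h)
    · left
      exact congrArg Units.val h
    · right
      exact congrArg Units.val h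
  · rintro (h | h)
    · left
      exact Units.ext h
    · right
      exact Units.ext h

theorem kron_le_normZeta (h01 : ∀ x : F, x = 0 ∨ x = 1) (h2 : (1 : F) + 1 = 0) (m : ℕ) :
    Cfsg.Geo.kroneckerSubgroup 2 m F ≤ normZeta h2 m := by
  intro g hg
  obtain ⟨a, b, hab⟩ := hg
  rw [mem_normZeta_iff, hab]
  have hdet : (a : Matrix (Fin 2) (Fin 2) F).det ≠ 0 :=
    ((Matrix.isUnit_iff_isUnit_det _).mp a.isUnit).ne_zero
  rcases gl2_f2_norm h01 h2 (a : Matrix (Fin 2) (Fin 2) F) hdet with h | h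
  · left
    rw [← Matrix.mul_kronecker_mul, ← Matrix.mul_kronecker_mul, h, mul_one, one_mul]
  · right
    rw [← Matrix.mul_kronecker_mul, ← Matrix.mul_kronecker_mul, h, mul_one, one_mul]

/-- an element of the normalizer that is not a Kronecker product -/
def gOne (h2 : (1 : F) + 1 = 0) (m : ℕ) (i0 i1 : Fin m) (h01 : i0 ≠ i1) : GL (Fin 2 × Fin m) F :=
  ⟨1 + om2 F ⊗ₖ Matrix.single i0 i1 (1 : F), 1 + om2 F ⊗ₖ Matrix.single i0 i1 (1 : F),
    by
      rw [mul_add, mul_one, add_mul, one_mul, ← Matrix.mul_kronecker_mul,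
        Matrix.single_mul_single_of_ne _ _ _ _ h01.symm, Matrix.kronecker_zero, add_zero,
        add_assoc, mat_add_self h2, add_zero],
    by
      rw [mul_add, mul_one, add_mul, one_mul, ← Matrix.mul_kronecker_mul,
        Matrix.single_mul_single_of_ne _ _ _ _ h01.symm, Matrix.kronecker_zero, add_zero,
        add_assoc, mat_add_self h2, add_zero]⟩

theorem gOne_mem (h2 : (1 : F) + 1 = 0) (m : ℕ) (i0 i1 : Fin m) (h01 : i0 ≠ i1) :
    gOne h2 m i0 i1 h01 ∈ normZeta h2 m := by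
  rw [mem_normZeta_iff]
  left
  show (1 + om2 F ⊗ₖ Matrix.single i0 i1 (1 : F)) * om2 F ⊗ₖ (1 : Matrix (Fin m) (Fin m) F)
    = om2 F ⊗ₖ (1 : Matrix (Fin m) (Fin m) F) * (1 + om2 F ⊗ₖ Matrix.single i0 i1 (1 : F))
  rw [add_mul, mul_add, one_mul, mul_one, ← Matrix.mul_kronecker_mul, ← Matrix.mul_kronecker_mul,
    mul_one, one_mul]

theorem gOne_not_mem (h2 : (1 : F) + 1 = 0) (m : ℕ) (i0 i1 i2 : Fin m) (h01 : i0 ≠ i1)
    (h02 : i0 ≠ i2) (h12 : i1 ≠ i2) :
    gOne h2 m i0 i1 h01 ∉ Cfsg.Geo.kroneckerSubgroup 2 m F := by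
  rintro ⟨a, b, hab⟩
  have hg : (1 + om2 F ⊗ₖ Matrix.single i0 i1 (1 : F) : Matrix (Fin 2 × Fin m) (Fin 2 × Fin m) F)
      = (a : Matrix (Fin 2) (Fin 2) F) ⊗ₖ (b : Matrix (Fin m) (Fin m) F) := hab
  have h22 := congrFun (congrFun hg (0, i2)) (0, i2)
  have h01a := congrFun (congrFun hg (0, i0)) (0, i1)
  have h01b := congrFun (congrFun hg (0, i0)) (1, i1)
  simp [om2, h01, h02, h12] at h22 h01a h01b
  rcases h01a with h | h
  · rw [h, zero_mul] at h22
    exact one_ne_zero h22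
  · rw [h, mul_zero] at h01b
    exact one_ne_zero h01b

/-- an element outside the normalizer -/
def gTwo (h2 : (1 : F) + 1 = 0) (m : ℕ) (i0 : Fin m) : GL (Fin 2 × Fin m) F :=
  ⟨1 + Matrix.single ((0 : Fin 2), i0) ((1 : Fin 2), i0) (1 : F),
    1 + Matrix.single ((0 : Fin 2), i0) ((1 : Fin 2), i0) (1 : F),
    by
      rw [mul_add, mul_one, add_mul, one_mul,
        Matrix.single_mul_single_of_ne _ _ _ _ (by simp), add_zero,
        add_assoc, mat_add_self h2, add_zero],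
    by
      rw [mul_add, mul_one, add_mul, one_mul,
        Matrix.single_mul_single_of_ne _ _ _ _ (by simp), add_zero,
        add_assoc, mat_add_self h2, add_zero]⟩

theorem gTwo_not_mem (h2 : (1 : F) + 1 = 0) (m : ℕ) (i0 i2 : Fin m) (h02 : i0 ≠ i2) :
    gTwo h2 m i0 ∉ normZeta h2 m := by
  rw [mem_normZeta_iff]
  rintro (h | h)
  · have h1 : ((1 + Matrix.single ((0 : Fin 2), i0) ((1 : Fin 2), i0) (1 : F))
        * om2 F ⊗ₖ (1 : Matrix (Fin m) (Fin m) F)) ((0 : Fin 2), i0) ((1 : Fin 2), i0)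
        = (om2 F ⊗ₖ (1 : Matrix (Fin m) (Fin m) F)
          * (1 + Matrix.single ((0 : Fin 2), i0) ((1 : Fin 2), i0) (1 : F)))
            ((0 : Fin 2), i0) ((1 : Fin 2), i0) := congrFun (congrFun h _) _
    rw [add_mul, mul_add, one_mul, mul_one, Matrix.add_apply, Matrix.add_apply,
      Matrix.single_mul_apply_same, Matrix.mul_single_apply_same] at h1
    simp [om2, h2] at h1
  · have h1 : ((1 + Matrix.single ((0 : Fin 2), i0) ((1 : Fin 2), i0) (1 : F))
        * om2 F ⊗ₖ (1 : Matrix (Fin m) (Fin m) F)) ((0 : Fin 2), i2) ((0 : Fin 2), i2)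
        = (((om2 F + 1) ⊗ₖ (1 : Matrix (Fin m) (Fin m) F)
          * (1 + Matrix.single ((0 : Fin 2), i0) ((1 : Fin 2), i0) (1 : F)) :
            Matrix (Fin 2 × Fin m) (Fin 2 × Fin m) F))
            ((0 : Fin 2), i2) ((0 : Fin 2), i2) := congrFun (congrFun h _) _
    rw [add_mul, mul_add, one_mul, mul_one, Matrix.add_apply, Matrix.add_apply,
      Matrix.single_mul_apply_of_ne _ _ _ _ _ (by simp [h02.symm]),
      Matrix.mul_single_apply_of_ne _ _ _ _ _ (by simp)] at h1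
    simp [om2] at h1

theorem tensor_f2_not_max [Fintype F] (hq : Fintype.card F = 2) (n m : ℕ) (hm : 3 ≤ m)
    (e : Fin n ≃ Fin 2 × Fin m) (P : GL (Fin n) F) :
    ∃ K : Subgroup (GL (Fin n) F),
      Cfsg.Geo.tensorProductSubgroup 2 m e P ⊓ Cfsg.Geo.specialLinear (Fin n) F < K ∧
      K < Cfsg.Geo.specialLinear (Fin n) F := by
  classical
  have hU : Subsingleton Fˣ := by
    rw [← Fintype.card_le_one_iff_subsingleton, Fintype.card_units, hq]
  have h01 : ∀ x : F, x = 0 ∨ x = 1 := by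
    intro x
    by_cases hx : x = 0
    · exact Or.inl hx
    · right
      have h1 : Units.mk0 x hx = 1 := Subsingleton.elim _ _
      have h2 := congrArg Units.val h1
      exact h2
  have h2 : (1 : F) + 1 = 0 := by
    rcases h01 (1 + 1) with h | h
    · exact h
    · exfalso
      have h3 : (1 : F) = 0 := by linear_combination h
      exact one_ne_zero h3
  have hSL : Cfsg.Geo.specialLinear (Fin n) F = ⊤ := by
    rw [eq_top_iff]
    intro g _
    exact MonoidHom.mem_ker.mpr (Subsingleton.elim _ _)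
  rw [hSL, inf_top_eq]
  obtain ⟨i0, i1, i2, h01', h02, h12⟩ : ∃ i0 i1 i2 : Fin m, i0 ≠ i1 ∧ i0 ≠ i2 ∧ i1 ≠ i2 :=
    ⟨⟨0, by omega⟩, ⟨1, by omega⟩, ⟨2, by omega⟩, by simp [Fin.ext_iff], by simp [Fin.ext_iff],
      by simp [Fin.ext_iff]⟩
  have hlt1 : Cfsg.Geo.kroneckerSubgroup 2 m F < normZeta h2 m := by
    rw [lt_iff_le_and_ne]
    refine ⟨kron_le_normZeta h01 h2 m, fun h => ?_⟩
    apply gOne_not_mem h2 m i0 i1 i2 h01' h02 h12
    rw [h]
    exact gOne_mem h2 m i0 i1 h01'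
  have hlt2 : normZeta h2 m ≠ ⊤ := by
    intro h
    apply gTwo_not_mem h2 m i0 i2 h02
    rw [h]
    trivial
  refine ⟨((normZeta h2 m).map (Cfsg.Geo.glReindex e.symm).toMonoidHom).map
    (MulAut.conj P).toMonoidHom, ?_, ?_⟩
  · unfold Cfsg.Geo.tensorProductSubgroup
    exact (Subgroup.map_lt_map_iff_of_injective (MulEquiv.injective _)).mpr
      ((Subgroup.map_lt_map_iff_of_injective (MulEquiv.injective _)).mpr hlt1)
  · rw [lt_top_iff_ne_top]
    intro h
    apply hlt2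
    have h3 : ((⊤ : Subgroup (GL (Fin 2 × Fin m) F)).map
        (Cfsg.Geo.glReindex e.symm).toMonoidHom).map (MulAut.conj P).toMonoidHom = ⊤ := by
      rw [Subgroup.map_top_of_surjective _ (MulEquiv.surjective _),
        Subgroup.map_top_of_surjective _ (MulEquiv.surjective _)]
    rw [← h3] at h
    exact Subgroup.map_injective (MulEquiv.injective _)
      (Subgroup.map_injective (MulEquiv.injective _) h)

end TensorF2

end Cfsg.Agent.Lib.helper4
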