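import Mathlib
import Cfsg.Prelude.Def_GeometricClasses
import Cfsg.Agent.Lib.helper4.E27h
import Cfsg.Agent.Lib.helper4.UPerp
import Cfsg.Agent.Lib.helper4.USU

/-!
# `3^{1+2}` in `GU₃`: the standard basis is an orthogonal frame
-/

namespace Cfsg.Agent.Lib.helper4.E27

open Matrix

variable {F : Type*} [Field F]

theorem fin3_pairs (P : Fin 3 → Fin 3 → Prop) (h01 : P 0 1) (h02 : P 0 2) (h10 : P 1 0)
    (h12 : P 1 2) (h20 : P 2 0) (h21 : P 2 1) : ∀ i j, i ≠ j → P i j := by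
  intro i j hij
  fin_cases i <;> fin_cases j <;> first | exact absurd rfl hij | assumption

theorem orth_of_eig [Fintype F] {q : ℕ} (g : GL (Fin 3) F) (hg : g ∈ Cfsg.GU 3 F q)
    (u v : Fin 3 → F) (l m : F)
    (hu : (g : Matrix (Fin 3) (Fin 3) F) *ᵥ u = l • u)
    (hv : (g : Matrix (Fin 3) (Fin 3) F) *ᵥ v = m • v) (hlm : l * m ^ q ≠ 1) :
    Cfsg.hermForm 3 F q u v = 0 := by
  have h := (mem_GU_iff g).mp hg u v
  rw [hu, hv, herm_smul_left, herm_smul_right] at h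
  have h' : (l * m ^ q - 1) * Cfsg.hermForm 3 F q u v = 0 := by linear_combination h
  rcases mul_eq_zero.mp h' with h'' | h''
  · exact (hlm (sub_eq_zero.mp h'')).elim
  · exact h''

theorem orth_indep [Fintype F] {q : ℕ} (hF : Fintype.card F = q ^ 2) (W : Fin 3 → (Fin 3 → F))
    (ho : ∀ i j, i ≠ j → Cfsg.hermForm 3 F q (W i) (W j) = 0)
    (hn : ∀ i, Cfsg.hermForm 3 F q (W i) (W i) ≠ 0) : LinearIndependent F W := by
  rw [Fintype.linearIndependent_iff]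
  intro g hg i
  have h1 : uB hF 3 (W i) (∑ j, g j • W j) = 0 := by rw [hg, map_zero]
  rw [map_sum] at h1
  simp only [map_smul, uB_apply, smul_eq_mul] at h1
  rw [Finset.sum_eq_single i (fun j _ hj => by rw [ho j i hj, mul_zero])
    (fun h => absurd (Finset.mem_univ i) h)] at h1
  exact (mul_eq_zero.mp h1).resolve_right (hn i)

theorem eig_of_root (X : Matrix (Fin 3) (Fin 3) F) (c : F) (h : X.charpoly.eval c = 0) :
    ∃ v : Fin 3 → F, v ≠ 0 ∧ X *ᵥ v = c • v := by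
  rw [Matrix.eval_charpoly] at h
  obtain ⟨v, hv0, hv⟩ := Matrix.exists_mulVec_eq_zero_iff.mpr h
  refine ⟨v, hv0, ?_⟩
  rw [Matrix.sub_mulVec] at hv
  have h1 : (Matrix.scalar (Fin 3) c) *ᵥ v = c • v := by
    ext i
    simp [Matrix.mulVec, dotProduct, Matrix.scalar_apply, Matrix.diagonal_apply]
  rw [h1] at hv
  exact (sub_eq_zero.mp hv).symm

theorem frame_of_coords [Fintype F] {q : ℕ} (hF : Fintype.card F = q ^ 2)
    (M : Matrix (Fin 3) (Fin 3) F) (n : F) (hn : n ≠ 0)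
    (hsim : ∀ c d : Fin 3 → F,
      Cfsg.hermForm 3 F q (M *ᵥ c) (M *ᵥ d) = n * Cfsg.hermForm 3 F q c d)
    (w : GL (Fin 3) F) (W₀ : Matrix (Fin 3) (Fin 3) F)
    (hw : (w : Matrix (Fin 3) (Fin 3) F) * M = M * W₀)
    (u : Fin 3 → (Fin 3 → F)) (l : Fin 3 → F)
    (huo : ∀ i j, i ≠ j → Cfsg.hermForm 3 F q (u i) (u j) = 0)
    (hun : ∀ i, Cfsg.hermForm 3 F q (u i) (u i) ≠ 0)
    (hue : ∀ i, W₀ *ᵥ u i = l i • u i) :
    LinearIndependent F (fun i => M *ᵥ u i) ∧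
    (∀ i j, i ≠ j → Cfsg.hermForm 3 F q (M *ᵥ u i) (M *ᵥ u j) = 0) ∧
    ∀ i, (w : Matrix (Fin 3) (Fin 3) F) *ᵥ (M *ᵥ u i) = l i • (M *ᵥ u i) := by
  have ho : ∀ i j, i ≠ j → Cfsg.hermForm 3 F q (M *ᵥ u i) (M *ᵥ u j) = 0 := by
    intro i j hij
    rw [hsim, huo i j hij, mul_zero]
  refine ⟨orth_indep hF _ ho (fun i => by rw [hsim]; exact mul_ne_zero hn (hun i)), ho, ?_⟩
  intro i
  rw [Matrix.mulVec_mulVec, hw, ← Matrix.mulVec_mulVec, hue, Matrix.mulVec_smul]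

/-- explicit normalising elements. -/
theorem norm_expl (R : Subgroup (GL (Fin 3) F)) [Finite R] (e : F)
    (he : e ^ 2 + e + 1 = 0) (M Mi : Matrix (Fin 3) (Fin 3) F) (hM1 : M * Mi = 1)
    (hM2 : Mi * M = 1) (a b : GL (Fin 3) F) (ha : a ∈ R) (hb : b ∈ R)
    (haM : (a : Matrix (Fin 3) (Fin 3) F) * M = M * diagonal ![1, e, e ^ 2])
    (hbM : (b : Matrix (Fin 3) (Fin 3) F) * M = M * !![0, 0, 1; 1, 0, 0; 0, 1, 0])
    (hcl : Subgroup.closure {a, b} = R) :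
    ∃ t y yy : GL (Fin 3) F, t ∈ Cfsg.Geo.subgroupNormalizer R ∧
      y ∈ Cfsg.Geo.subgroupNormalizer R ∧ yy ∈ Cfsg.Geo.subgroupNormalizer R ∧
      (t : Matrix (Fin 3) (Fin 3) F) * M = M * !![-1, 0, 0; 0, 0, -1; 0, -1, 0] ∧
      (y : Matrix (Fin 3) (Fin 3) F) * M = M * diagonal ![e, e ^ 2, e] ∧
      (yy : Matrix (Fin 3) (Fin 3) F) * M = M * diagonal ![e ^ 2, e, e ^ 2] := by
  have he3 : e ^ 3 = 1 := by linear_combination (e - 1) * he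
  obtain ⟨Δ, hΔ⟩ : ∃ Δ : Matrix (Fin 3) (Fin 3) F, Δ = diagonal ![1, e, e ^ 2] := ⟨_, rfl⟩
  obtain ⟨S, hS⟩ : ∃ S : Matrix (Fin 3) (Fin 3) F, S = !![0, 0, 1; 1, 0, 0; 0, 1, 0] :=
    ⟨_, rfl⟩
  rw [← hΔ] at haM
  rw [← hS] at hbM
  have haaM : ((a * a : GL (Fin 3) F) : Matrix (Fin 3) (Fin 3) F) * M = M * (Δ * Δ) := by
    rw [Units.val_mul, mul_assoc, haM, ← mul_assoc, haM, mul_assoc]
  have hbbM : ((b * b : GL (Fin 3) F) : Matrix (Fin 3) (Fin 3) F) * M = M * (S * S) := by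
    rw [Units.val_mul, mul_assoc, hbM, ← mul_assoc, hbM, mul_assoc]
  have habM : ((a * b : GL (Fin 3) F) : Matrix (Fin 3) (Fin 3) F) * M = M * (Δ * S) := by
    rw [Units.val_mul, mul_assoc, hbM, ← mul_assoc, haM, mul_assoc]
  obtain ⟨T₀, hT₀⟩ : ∃ T₀ : Matrix (Fin 3) (Fin 3) F,
      T₀ = !![-1, 0, 0; 0, 0, -1; 0, -1, 0] := ⟨_, rfl⟩
  have hTT : T₀ * T₀ = 1 := by rw [hT₀]; exact T0_sq
  obtain ⟨t, ht, hti⟩ := exists_gl M Mi hM1 hM2 T₀ T₀ hTT hTT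
  have h1 : t * a * t⁻¹ = a * a :=
    conj_std M Mi hM1 hM2 a Δ haM t T₀ T₀ ht hti (a * a) (Δ * Δ) haaM
      (by rw [hT₀, hΔ]; exact T0_diag e he3)
  have h2 : t * b * t⁻¹ = b * b :=
    conj_std M Mi hM1 hM2 b S hbM t T₀ T₀ ht hti (b * b) (S * S) hbbM
      (by rw [hT₀, hS]; exact T0_shift)
  obtain ⟨Y₀, hY₀⟩ : ∃ Y₀ : Matrix (Fin 3) (Fin 3) F, Y₀ = diagonal ![e, e ^ 2, e] :=
    ⟨_, rfl⟩
  obtain ⟨Yi, hYi⟩ : ∃ Yi : Matrix (Fin 3) (Fin 3) F, Yi = diagonal ![e ^ 2, e, e ^ 2] :=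
    ⟨_, rfl⟩
  have hYY : Y₀ * Yi = 1 := by rw [hY₀, hYi]; exact Y0_inv e he3
  have hYY' : Yi * Y₀ = 1 := by rw [hY₀, hYi]; exact Y0_inv' e he3
  obtain ⟨y, hy, hyi⟩ := exists_gl M Mi hM1 hM2 Y₀ Yi hYY hYY'
  have h3 : y * a * y⁻¹ = a :=
    conj_std M Mi hM1 hM2 a Δ haM y Y₀ Yi hy hyi a Δ haM
      (by rw [hY₀, hYi, hΔ]; exact Y0_diag e he3)
  have h4 : y * b * y⁻¹ = a * b :=
    conj_std M Mi hM1 hM2 b S hbM y Y₀ Yi hy hyi (a * b) (Δ * S) habM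
      (by rw [hY₀, hYi, hΔ, hS]; exact Y0_shift e he3)
  have hyN : y ∈ Cfsg.Geo.subgroupNormalizer R :=
    norm_of R a b hcl y (by rw [h3]; exact ha) (by rw [h4]; exact R.mul_mem ha hb)
  refine ⟨t, y, y⁻¹, norm_of R a b hcl t (by rw [h1]; exact R.mul_mem ha ha)
      (by rw [h2]; exact R.mul_mem hb hb), hyN, Subgroup.inv_mem _ hyN, ?_, ?_, ?_⟩
  · rw [ht, mul_assoc, hM2, mul_one, hT₀]
  · rw [hy, mul_assoc, hM2, mul_one, hY₀]
  · rw [hyi, mul_assoc, hM2, mul_one, hYi]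

/-- the standard basis of `3^{1+2} ≤ GU₃` is orthogonal with equal norms. -/
theorem std_simil [Fintype F] {q : ℕ} (hF : Fintype.card F = q ^ 2) (e : F)
    (he : e ^ 2 + e + 1 = 0) (h3 : (3 : F) ≠ 0) (heq : e ^ q = e ^ 2)
    (M Mi : Matrix (Fin 3) (Fin 3) F) (hM2 : Mi * M = 1) (hM1 : M * Mi = 1)
    (a b : GL (Fin 3) F) (ha : a ∈ Cfsg.GU 3 F q) (hb : b ∈ Cfsg.GU 3 F q)
    (haM : (a : Matrix (Fin 3) (Fin 3) F) * M = M * diagonal ![1, e, e ^ 2])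
    (hbM : (b : Matrix (Fin 3) (Fin 3) F) * M = M * !![0, 0, 1; 1, 0, 0; 0, 1, 0]) :
    ∃ n : F, n ≠ 0 ∧ ∀ c d : Fin 3 → F,
      Cfsg.hermForm 3 F q (M *ᵥ c) (M *ᵥ d) = n * Cfsg.hermForm 3 F q c d := by
  have he3 : e ^ 3 = 1 := by linear_combination (e - 1) * he
  have he1 : e ≠ 1 := by
    rintro rfl
    apply h3
    linear_combination he
  have he21 : e ^ 2 ≠ 1 := by
    intro h
    apply he1
    have : e * e ^ 2 = 1 := by linear_combination he3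
    rw [h, mul_one] at this
    exact this
  have heq2 : (e ^ 2) ^ q = e := by
    rw [← pow_mul, mul_comm, pow_mul, heq]
    linear_combination e * he3
  obtain ⟨V0, hV0⟩ : ∃ V0 : Fin 3 → F, V0 = M *ᵥ ![1, 0, 0] := ⟨_, rfl⟩
  obtain ⟨V1, hV1⟩ : ∃ V1 : Fin 3 → F, V1 = M *ᵥ ![0, 1, 0] := ⟨_, rfl⟩
  obtain ⟨V2, hV2⟩ : ∃ V2 : Fin 3 → F, V2 = M *ᵥ ![0, 0, 1] := ⟨_, rfl⟩
  have haV : ∀ c : Fin 3 → F, (a : Matrix (Fin 3) (Fin 3) F) *ᵥ (M *ᵥ c)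
      = M *ᵥ (diagonal ![1, e, e ^ 2] *ᵥ c) := by
    intro c
    rw [Matrix.mulVec_mulVec, haM, ← Matrix.mulVec_mulVec]
  have hbV : ∀ c : Fin 3 → F, (b : Matrix (Fin 3) (Fin 3) F) *ᵥ (M *ᵥ c)
      = M *ᵥ (!![0, 0, 1; 1, 0, 0; 0, 1, 0] *ᵥ c) := by
    intro c
    rw [Matrix.mulVec_mulVec, hbM, ← Matrix.mulVec_mulVec]
  have ha0 : (a : Matrix (Fin 3) (Fin 3) F) *ᵥ V0 = (1 : F) • V0 := by
    rw [hV0, haV, ← Matrix.mulVec_smul]
    congr 1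
    rw [diag3]
    ext k
    fin_cases k <;> simp [Matrix.mulVec, dotProduct, Fin.sum_univ_three]
  have ha1 : (a : Matrix (Fin 3) (Fin 3) F) *ᵥ V1 = e • V1 := by
    rw [hV1, haV, ← Matrix.mulVec_smul]
    congr 1
    rw [diag3]
    ext k
    fin_cases k <;> simp [Matrix.mulVec, dotProduct, Fin.sum_univ_three]
  have ha2 : (a : Matrix (Fin 3) (Fin 3) F) *ᵥ V2 = (e ^ 2) • V2 := by
    rw [hV2, haV, ← Matrix.mulVec_smul]
    congr 1
    rw [diag3]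
    ext k
    fin_cases k <;> simp [Matrix.mulVec, dotProduct, Fin.sum_univ_three]
  have hb0 : (b : Matrix (Fin 3) (Fin 3) F) *ᵥ V0 = V1 := by
    rw [hV0, hV1, hbV]
    congr 1
    ext k
    fin_cases k <;> simp [Matrix.mulVec, dotProduct, Fin.sum_univ_three]
  have hb1 : (b : Matrix (Fin 3) (Fin 3) F) *ᵥ V1 = V2 := by
    rw [hV1, hV2, hbV]
    congr 1
    ext k
    fin_cases k <;> simp [Matrix.mulVec, dotProduct, Fin.sum_univ_three]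
  have o01 : Cfsg.hermForm 3 F q V0 V1 = 0 :=
    orth_of_eig a ha V0 V1 1 e ha0 ha1 (by rw [heq, one_mul]; exact he21)
  have o02 : Cfsg.hermForm 3 F q V0 V2 = 0 :=
    orth_of_eig a ha V0 V2 1 (e ^ 2) ha0 ha2 (by rw [heq2, one_mul]; exact he1)
  have o10 : Cfsg.hermForm 3 F q V1 V0 = 0 :=
    orth_of_eig a ha V1 V0 e 1 ha1 ha0 (by rw [one_pow, mul_one]; exact he1)
  have o12 : Cfsg.hermForm 3 F q V1 V2 = 0 :=
    orth_of_eig a ha V1 V2 e (e ^ 2) ha1 ha2 (by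
      rw [heq2]
      intro h
      exact he21 (by linear_combination h))
  have o20 : Cfsg.hermForm 3 F q V2 V0 = 0 :=
    orth_of_eig a ha V2 V0 (e ^ 2) 1 ha2 ha0 (by rw [one_pow, mul_one]; exact he21)
  have o21 : Cfsg.hermForm 3 F q V2 V1 = 0 :=
    orth_of_eig a ha V2 V1 (e ^ 2) e ha2 ha1 (by
      rw [heq]
      intro h
      exact he1 (by linear_combination h - e * he3))
  have n1 : Cfsg.hermForm 3 F q V1 V1 = Cfsg.hermForm 3 F q V0 V0 := by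
    rw [← hb0]
    exact (mem_GU_iff b).mp hb V0 V0
  have n2 : Cfsg.hermForm 3 F q V2 V2 = Cfsg.hermForm 3 F q V0 V0 := by
    rw [← n1, ← hb1]
    exact (mem_GU_iff b).mp hb V1 V1
  have hexp : ∀ c : Fin 3 → F, M *ᵥ c = c 0 • V0 + c 1 • V1 + c 2 • V2 := by
    intro c
    rw [hV0, hV1, hV2, ← Matrix.mulVec_smul, ← Matrix.mulVec_smul, ← Matrix.mulVec_smul,
      ← Matrix.mulVec_add, ← Matrix.mulVec_add]
    congr 1
    ext k
    fin_cases k <;> simp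
  have hq0 : q ≠ 0 := by
    have := uq_ge_two hF
    omega
  have hform : ∀ c d : Fin 3 → F, Cfsg.hermForm 3 F q (M *ᵥ c) (M *ᵥ d)
      = Cfsg.hermForm 3 F q V0 V0 * Cfsg.hermForm 3 F q c d := by
    intro c d
    rw [hexp c, hexp d]
    simp only [herm_add_left, herm_add_right hF, herm_smul_left, herm_smul_right, o01, o02,
      o10, o12, o20, o21, n1, n2, mul_zero, add_zero, zero_add]
    show _ = _ * ∑ i, c i * d i ^ q
    rw [Fin.sum_univ_three]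
    ring
  refine ⟨Cfsg.hermForm 3 F q V0 V0, ?_, hform⟩
  intro h0
  have hV00 : V0 = 0 := by
    apply herm_nondeg hF
    intro y
    have hy : y = M *ᵥ (Mi *ᵥ y) := by
      rw [Matrix.mulVec_mulVec, hM1, Matrix.one_mulVec]
    rw [hy, hV0, hform, h0, zero_mul]
  have : Mi *ᵥ V0 = ![1, 0, 0] := by
    rw [hV0, Matrix.mulVec_mulVec, hM2, Matrix.one_mulVec]
  rw [hV00, Matrix.mulVec_zero] at this
  have h' := congrFun this 0
  simp at h'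

end Cfsg.Agent.Lib.helper4.E27
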