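import Mathlib
import Cfsg.Prelude.Def_GeometricClasses
import Cfsg.Agent.Lib.helper4.U27a
import Cfsg.Agent.Lib.helper12.E27a
import Cfsg.Agent.Lib.helper12.E27k
import Cfsg.Agent.Lib.helper13.E27k3
import Cfsg.Agent.Lib.helper19.E27k4
import Cfsg.Agent.Lib.helper26.E27k5

/-!
# `PSU₃(p)`: elements of order `2`, `3` and the normaliser of `3^{1+2}`
-/

namespace Cfsg.Agent.Lib.helper4.E27

open Matrix Polynomial

universe u

variable {F : Type u} [Field F]

theorem good2U [Fintype F] {q : ℕ} (hF : Fintype.card F = q ^ 2) (hq3 : q % 3 = 2)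
    (hq2 : q % 2 = 1) (h2 : (2 : F) ≠ 0) (R : Subgroup (GL (Fin 3) F))
    (M : Matrix (Fin 3) (Fin 3) F) (n : F) (hn : n ≠ 0)
    (hsim : ∀ c d : Fin 3 → F,
      Cfsg.hermForm 3 F q (M *ᵥ c) (M *ᵥ d) = n * Cfsg.hermForm 3 F q c d)
    (t : GL (Fin 3) F) (htN : t ∈ Cfsg.Geo.subgroupNormalizer R)
    (htM : (t : Matrix (Fin 3) (Fin 3) F) * M = M * !![-1, 0, 0; 0, 0, -1; 0, -1, 0])
    (x : GL (Fin 3) F) (hx : x ∈ Cfsg.GU 3 F q ⊓ Cfsg.Geo.specialLinear (Fin 3) F) (z : F)
    (hx2 : ((x ^ 2 : GL (Fin 3) F) : Matrix (Fin 3) (Fin 3) F)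
      = z • (1 : Matrix (Fin 3) (Fin 3) F))
    (hxns : ∀ z : F, (x : Matrix (Fin 3) (Fin 3) F) ≠ z • (1 : Matrix (Fin 3) (Fin 3) F)) :
    ∃ g ∈ Cfsg.GU 3 F q ⊓ Cfsg.Geo.specialLinear (Fin 3) F,
      g⁻¹ * x * g ∈ Cfsg.Geo.subgroupNormalizer R := by
  obtain ⟨X, hX⟩ : ∃ X : Matrix (Fin 3) (Fin 3) F, X = (x : Matrix (Fin 3) (Fin 3) F) :=
    ⟨_, rfl⟩
  have hdet : X.det = 1 := by rw [hX]; exact det_of_mem x hx.2
  have hX2 : X ^ 2 = z • (1 : Matrix (Fin 3) (Fin 3) F) := by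
    rw [hX, ← hx2, Units.val_pow_eq_pow_val]
  have hz3 : z ^ 3 = 1 := by
    have := congrArg Matrix.det hX2
    rw [det_pow, hdet, one_pow, det_smul, det_one, mul_one, Fintype.card_fin] at this
    exact this.symm
  obtain ⟨c, hc⟩ : ∃ c : F, c = z ^ 2 := ⟨_, rfl⟩
  have hc3 : c ^ 3 = 1 := by rw [hc]; linear_combination (z ^ 3 + 1) * hz3
  have hc2 : c ^ 2 = z := by rw [hc]; linear_combination z * hz3
  have hc0 : c ≠ 0 := by
    rintro rfl
    rw [zero_pow (by norm_num)] at hc3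
    exact zero_ne_one hc3
  have hcq : c ^ (q + 1) = 1 := by
    obtain ⟨k, hk⟩ : 3 ∣ q + 1 := Nat.dvd_of_mod_eq_zero (by omega)
    rw [hk, pow_mul, hc3, one_pow]
  have hqodd : Odd q := Nat.odd_iff.mpr hq2
  have hq0 : q ≠ 0 := by omega
  have hnegq : (-c) ^ q = -(c ^ q) := Odd.neg_pow hqodd c
  have hneg1 : (-1 : F) ^ q = -1 := Odd.neg_one_pow hqodd
  have h0q : (0 : F) ^ q = 0 := zero_pow hq0
  have hquad : (X - c • (1 : Matrix (Fin 3) (Fin 3) F))
      * (X - (-c) • (1 : Matrix (Fin 3) (Fin 3) F)) = 0 := by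
    have e1 : (X - c • (1 : Matrix (Fin 3) (Fin 3) F))
        * (X - (-c) • (1 : Matrix (Fin 3) (Fin 3) F))
        = X * X - (c ^ 2) • (1 : Matrix (Fin 3) (Fin 3) F) := by
      simp only [sub_mul, mul_sub, Matrix.smul_mul, Matrix.mul_smul, one_mul, mul_one, smul_smul]
      module
    rw [e1, ← pow_two, hX2, hc2, sub_self]
  have hlm : c ≠ -c := by
    intro h
    have h' : (2 : F) * c = 0 := by linear_combination h
    rcases mul_eq_zero.mp h' with h'' | h''
    · exact h2 h''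
    · exact hc0 h''
  have hl : c * (-c) ^ q ≠ 1 := by
    rw [hnegq]
    intro h
    have h' : c ^ (q + 1) = -1 := by rw [pow_succ']; linear_combination -h
    rw [hcq] at h'
    apply h2
    linear_combination h'
  obtain ⟨W, hW, hWo, e0, e1, e2⟩ := Cfsg.Agent.Lib.helper13.E27.two_eig hF x hx.1 c (-c) hlm hl
    (by rw [← hX]; exact hquad) (by rw [← hX, hdet]; linear_combination -hc3) hxns
  obtain ⟨s, hs, hsN⟩ := scalar_norm R c hc0
  have hwM : ((s * t : GL (Fin 3) F) : Matrix (Fin 3) (Fin 3) F) * M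
      = M * (c • !![-1, 0, 0; 0, 0, -1; 0, -1, 0]) := by
    rw [Units.val_mul, hs, Matrix.smul_mul, one_mul, Matrix.smul_mul, htM, Matrix.mul_smul]
  obtain ⟨hU, hUo, hwU⟩ := frame_of_coords hF M n hn hsim (s * t) _ hwM
    ![![0, 1, -1], ![1, 0, 0], ![0, 1, 1]] ![c, -c, -c]
    (by
      intro i j hij
      fin_cases i <;> fin_cases j <;>
        first
          | exact absurd rfl hij
          | simp [Cfsg.hermForm, Fin.sum_univ_three, hneg1, h0q])
    (by
      intro i
      fin_cases i <;> simp [Cfsg.hermForm, Fin.sum_univ_three, hneg1, h0q] <;>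
        first
          | exact h2
          | (intro h; apply h2; linear_combination h))
    (by
      intro i
      fin_cases i <;>
        (ext k; fin_cases k <;> simp [Matrix.mulVec, dotProduct, Fin.sum_univ_three]))
  obtain ⟨g, hg, hgw⟩ := Cfsg.Agent.Lib.helper19.E27k4.uconj hF x (s * t) ![c, -c, -c] W _ hW hU hWo hUo
    (by
      intro i
      fin_cases i
      · exact e0
      · exact e1
      · exact e2) hwU
  exact ⟨g, hg, by rw [hgw]; exact Subgroup.mul_mem _ hsN htN⟩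

theorem good3U [Fintype F] {q : ℕ} (hF : Fintype.card F = q ^ 2) (hq9 : q % 9 = 8)
    (h3 : (3 : F) ≠ 0) (R : Subgroup (GL (Fin 3) F)) (e : F) (he : e ^ 2 + e + 1 = 0)
    (M : Matrix (Fin 3) (Fin 3) F) (n : F) (hn : n ≠ 0)
    (hsim : ∀ c d : Fin 3 → F,
      Cfsg.hermForm 3 F q (M *ᵥ c) (M *ᵥ d) = n * Cfsg.hermForm 3 F q c d)
    (a : GL (Fin 3) F) (haN : a ∈ Cfsg.Geo.subgroupNormalizer R)
    (haM : (a : Matrix (Fin 3) (Fin 3) F) * M = M * diagonal ![1, e, e ^ 2])
    (y : GL (Fin 3) F) (hyN : y ∈ Cfsg.Geo.subgroupNormalizer R)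
    (hyM : (y : Matrix (Fin 3) (Fin 3) F) * M = M * diagonal ![e, e ^ 2, e])
    (yy : GL (Fin 3) F) (hyyN : yy ∈ Cfsg.Geo.subgroupNormalizer R)
    (hyyM : (yy : Matrix (Fin 3) (Fin 3) F) * M = M * diagonal ![e ^ 2, e, e ^ 2])
    (x : GL (Fin 3) F) (hx : x ∈ Cfsg.GU 3 F q ⊓ Cfsg.Geo.specialLinear (Fin 3) F) (z : F)
    (hx3 : ((x ^ 3 : GL (Fin 3) F) : Matrix (Fin 3) (Fin 3) F)
      = z • (1 : Matrix (Fin 3) (Fin 3) F))
    (hxns : ∀ z : F, (x : Matrix (Fin 3) (Fin 3) F) ≠ z • (1 : Matrix (Fin 3) (Fin 3) F)) :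
    ∃ g ∈ Cfsg.GU 3 F q ⊓ Cfsg.Geo.specialLinear (Fin 3) F,
      g⁻¹ * x * g ∈ Cfsg.Geo.subgroupNormalizer R := by
  have he3 : e ^ 3 = 1 := by linear_combination (e - 1) * he
  have he1 : e ≠ 1 := by
    rintro rfl
    apply h3
    linear_combination he
  have he21 : e ^ 2 ≠ 1 := by
    intro h
    apply he1
    have : e * e ^ 2 = 1 := by linear_combination he3
    rw [h, mul_one] at this
    exact this
  have he2e : e ^ 2 ≠ e := by
    intro h
    apply he1
    have h5 : e * e ^ 2 = 1 := by linear_combination he3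
    rw [h] at h5
    have h6 : e ^ 2 = 1 := by linear_combination h5
    rw [h] at h6
    exact h6
  have hq0 : q ≠ 0 := by omega
  have h0q : (0 : F) ^ q = 0 := zero_pow hq0
  have heq : e ^ q = e ^ 2 := by
    obtain ⟨k, hk⟩ : ∃ k, q = 3 * k + 2 := ⟨q / 3, by omega⟩
    rw [hk, pow_add, pow_mul, he3, one_pow, one_mul]
  have heq2 : (e ^ 2) ^ q = e := by
    rw [← pow_mul, mul_comm, pow_mul, heq]
    linear_combination e * he3
  obtain ⟨X, hX⟩ : ∃ X : Matrix (Fin 3) (Fin 3) F, X = (x : Matrix (Fin 3) (Fin 3) F) :=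
    ⟨_, rfl⟩
  have hdet : X.det = 1 := by rw [hX]; exact det_of_mem x hx.2
  have hX3 : X ^ 3 = z • (1 : Matrix (Fin 3) (Fin 3) F) := by
    rw [hX, ← hx3, Units.val_pow_eq_pow_val]
  have hXns : ∀ c : F, X ≠ c • (1 : Matrix (Fin 3) (Fin 3) F) := by rw [hX]; exact hxns
  have hz3 : z ^ 3 = 1 := by
    have := congrArg Matrix.det hX3
    rw [det_pow, hdet, one_pow, det_smul, det_one, mul_one, Fintype.card_fin] at this
    exact this.symm
  have hz0 : z ≠ 0 := by
    rintro rfl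
    rw [zero_pow (by norm_num)] at hz3
    exact zero_ne_one hz3
  obtain ⟨c₂, c₁, hcp, hCH⟩ := Singer.cp3 X
  rw [hdet, one_smul, hX3] at hCH
  by_cases h2 : c₂ = 0
  · rw [h2, zero_smul, add_zero] at hCH
    have hz1 : z = 1 := by
      by_contra hz
      have hc1 : c₁ ≠ 0 := by
        rintro rfl
        rw [zero_smul, add_zero] at hCH
        have e0 := congrFun (congrFun hCH 0) 0
        simp only [Matrix.sub_apply, Matrix.smul_apply, Matrix.one_apply_eq, smul_eq_mul,
          mul_one, Matrix.zero_apply] at e0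
        exact hz (sub_eq_zero.mp e0)
      apply hXns ((1 - z) / c₁)
      have e' : c₁ • X = (1 - z) • (1 : Matrix (Fin 3) (Fin 3) F) := by
        linear_combination (norm := module) hCH
      calc X = c₁⁻¹ • (c₁ • X) := by rw [smul_smul, inv_mul_cancel₀ hc1, one_smul]
        _ = ((1 - z) / c₁) • 1 := by rw [e', smul_smul, div_eq_inv_mul]
    rw [hz1, one_smul] at hX3
    have hcpX := cp_cube X hX3 hdet hXns
    obtain ⟨l, hl⟩ : ∃ l : Fin 3 → F, l = ![1, e, e ^ 2] := ⟨_, rfl⟩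
    have hl3 : ∀ i, l i ^ 3 = 1 := by
      intro i
      rw [hl]
      fin_cases i
      · show (1 : F) ^ 3 = 1
        exact one_pow 3
      · exact he3
      · show (e ^ 2) ^ 3 = 1
        rw [← pow_mul, mul_comm, pow_mul, he3, one_pow]
    have hex : ∀ i : Fin 3, ∃ v : Fin 3 → F, v ≠ 0 ∧ X *ᵥ v = l i • v := by
      intro i
      apply eig_of_root
      rw [hcpX]
      simp only [eval_sub, eval_pow, eval_X, eval_one]
      rw [hl3 i, sub_self]
    choose W hW0 hXW using hex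
    have hne : ∀ i j, i ≠ j → l i ≠ l j := by
      rw [hl]
      exact fin3_pairs (fun i j => (![1, e, e ^ 2] : Fin 3 → F) i ≠ ![1, e, e ^ 2] j)
        (Ne.symm he1) (Ne.symm he21) he1 (Ne.symm he2e) he21 he2e
    have hinj : Function.Injective l := by
      intro i j hij
      by_contra hne'
      exact hne i j hne' hij
    have hlq : ∀ i j, i ≠ j → l i * l j ^ q ≠ 1 := by
      rw [hl]
      refine fin3_pairs (fun i j => (![1, e, e ^ 2] : Fin 3 → F) i * ![1, e, e ^ 2] j ^ q ≠ 1)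
        ?_ ?_ ?_ ?_ ?_ ?_
      · show (1 : F) * e ^ q ≠ 1
        rw [heq, one_mul]; exact he21
      · show (1 : F) * (e ^ 2) ^ q ≠ 1
        rw [heq2, one_mul]; exact he1
      · show e * (1 : F) ^ q ≠ 1
        rw [one_pow, mul_one]; exact he1
      · show e * (e ^ 2) ^ q ≠ 1
        rw [heq2]
        intro h
        exact he21 (by linear_combination h)
      · show e ^ 2 * (1 : F) ^ q ≠ 1
        rw [one_pow, mul_one]; exact he21
      · show e ^ 2 * e ^ q ≠ 1
        rw [heq]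
        intro h
        exact he1 (by linear_combination h - e * he3)
    obtain ⟨hWind, hWo⟩ := Cfsg.Agent.Lib.helper26.E27k5.three_eig hF x hx.1 l hinj hlq W hW0
      (by intro i; rw [← hX]; exact hXW i)
    obtain ⟨hU, hUo, hwU⟩ := frame_of_coords hF M n hn hsim a _ haM
      ![![1, 0, 0], ![0, 1, 0], ![0, 0, 1]] l
      (by
        intro i j hij
        fin_cases i <;> fin_cases j <;>
          first
            | exact absurd rfl hij
            | simp [Cfsg.hermForm, Fin.sum_univ_three, h0q])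
      (by
        intro i
        fin_cases i <;> simp [Cfsg.hermForm, Fin.sum_univ_three, h0q])
      (by
        intro i
        rw [hl, diag3]
        fin_cases i <;>
          (ext k; fin_cases k <;> simp [Matrix.mulVec, dotProduct, Fin.sum_univ_three]))
    obtain ⟨g, hg, hgw⟩ := Cfsg.Agent.Lib.helper19.E27k4.uconj hF x a l W _ hWind hU hWo hUo
      (by intro i; rw [← hX]; exact hXW i) hwU
    exact ⟨g, hg, by rw [hgw]; exact haN⟩
  · obtain ⟨a', ha'⟩ : ∃ a' : F, a' = c₂⁻¹ * -c₁ := ⟨_, rfl⟩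
    obtain ⟨b', hb'⟩ : ∃ b' : F, b' = c₂⁻¹ * (1 - z) := ⟨_, rfl⟩
    have hsq : X ^ 2 = a' • X + b' • (1 : Matrix (Fin 3) (Fin 3) F) := by
      have e' : c₂ • X ^ 2 = (-c₁) • X + (1 - z) • (1 : Matrix (Fin 3) (Fin 3) F) := by
        linear_combination (norm := module) hCH
      calc X ^ 2 = c₂⁻¹ • (c₂ • X ^ 2) := by rw [smul_smul, inv_mul_cancel₀ h2, one_smul]
        _ = a' • X + b' • 1 := by rw [e', smul_add, smul_smul, smul_smul, ha', hb']
    have hcube : X ^ 3 = (a' ^ 2 + b') • X + (a' * b') • (1 : Matrix (Fin 3) (Fin 3) F) := by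
      calc X ^ 3 = X * X ^ 2 := by rw [pow_succ']
        _ = a' • X ^ 2 + b' • X := by
          rw [hsq, mul_add, Matrix.mul_smul, Matrix.mul_smul, mul_one, ← pow_two, hsq]
        _ = (a' ^ 2 + b') • X + (a' * b') • 1 := by rw [hsq]; module
    rw [hX3] at hcube
    have hab : a' ^ 2 + b' = 0 := by
      by_contra h
      apply hXns ((z - a' * b') / (a' ^ 2 + b'))
      have e' : (a' ^ 2 + b') • X = (z - a' * b') • (1 : Matrix (Fin 3) (Fin 3) F) := by
        linear_combination (norm := module) -hcube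
      calc X = (a' ^ 2 + b')⁻¹ • ((a' ^ 2 + b') • X) := by
            rw [smul_smul, inv_mul_cancel₀ h, one_smul]
        _ = _ := by rw [e', smul_smul, div_eq_inv_mul]
    rw [hab, zero_smul, zero_add] at hcube
    have hzab : z = a' * b' := by
      have e0 := congrFun (congrFun hcube 0) 0
      simp only [Matrix.smul_apply, Matrix.one_apply_eq, smul_eq_mul, mul_one] at e0
      exact e0
    have hb'' : b' = -a' ^ 2 := by linear_combination hab
    have ha0 : a' ≠ 0 := by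
      rintro rfl
      rw [zero_mul] at hzab
      exact hz0 hzab
    obtain ⟨u, hu⟩ : ∃ u : F, u = -a' := ⟨_, rfl⟩
    have hu0 : u ≠ 0 := by rw [hu]; exact neg_ne_zero.mpr ha0
    have hXX : X * X = (-u) • X + (-u ^ 2) • (1 : Matrix (Fin 3) (Fin 3) F) := by
      rw [← pow_two, hsq, hb'', hu]
      module
    obtain ⟨X₁, hX₁⟩ : ∃ X₁ : Matrix (Fin 3) (Fin 3) F, X₁ = u⁻¹ • X := ⟨_, rfl⟩
    have hX₁q : X₁ * X₁ + X₁ + 1 = 0 := by
      rw [hX₁, smul_mul_smul_comm, hXX]
      have e2 : u⁻¹ * u⁻¹ * -u = -u⁻¹ := by field_simp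
      have e3 : u⁻¹ * u⁻¹ * -u ^ 2 = -1 := by field_simp
      rw [smul_add, smul_smul, smul_smul, e2, e3]
      module
    have hX₁ns : ∀ c : F, X₁ ≠ c • (1 : Matrix (Fin 3) (Fin 3) F) := by
      intro c hc
      apply hXns (u * c)
      calc X = u • (u⁻¹ • X) := by rw [smul_smul, mul_inv_cancel₀ hu0, one_smul]
        _ = (u * c) • 1 := by rw [← hX₁, hc, smul_smul]
    obtain ⟨-, hd, -⟩ := cp_quad X₁ hX₁q hX₁ns
    obtain ⟨d, hdd⟩ : ∃ d : F, d = X₁.det := ⟨_, rfl⟩
    rw [← hdd] at hd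
    have hdu : d * u ^ 3 = 1 := by
      rw [hdd, hX₁, det_smul, hdet, Fintype.card_fin, mul_one, ← mul_pow, inv_mul_cancel₀ hu0,
        one_pow]
    have hd3 : d ^ 3 = 1 := by linear_combination (d - 1) * hd
    have hd1 : d ≠ 1 := by
      rintro rfl
      apply h3
      linear_combination hd
    have hd0 : d ≠ 0 := by
      rintro rfl
      rw [zero_pow (by norm_num)] at hd3
      exact zero_ne_one hd3
    have hu9 : u ^ 9 = 1 := by
      have h1 : (d * u ^ 3) ^ 3 = 1 := by rw [hdu, one_pow]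
      rw [mul_pow, hd3, one_mul, ← pow_mul] at h1
      exact h1
    have huq : u ^ (q + 1) = 1 := by
      obtain ⟨k, hk⟩ : 9 ∣ q + 1 := Nat.dvd_of_mod_eq_zero (by omega)
      rw [hk, pow_mul, hu9, one_pow]
    have hdq : d ^ q = d ^ 2 := by
      obtain ⟨k, hk⟩ : ∃ k, q = 3 * k + 2 := ⟨q / 3, by omega⟩
      rw [hk, pow_add, pow_mul, hd3, one_pow, one_mul]
    have hquad : (X - (u * d ^ 2) • (1 : Matrix (Fin 3) (Fin 3) F))
        * (X - (u * d) • (1 : Matrix (Fin 3) (Fin 3) F)) = 0 := by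
      have e1 : (X - (u * d ^ 2) • (1 : Matrix (Fin 3) (Fin 3) F))
          * (X - (u * d) • (1 : Matrix (Fin 3) (Fin 3) F))
          = X * X - (u * d ^ 2 + u * d) • X
            + (u * d ^ 2 * (u * d)) • (1 : Matrix (Fin 3) (Fin 3) F) := by
        simp only [sub_mul, mul_sub, Matrix.smul_mul, Matrix.mul_smul, one_mul, mul_one,
          smul_smul]
        module
      rw [e1, hXX]
      have c1 : -u - (u * d ^ 2 + u * d) = 0 := by linear_combination -u * hd
      have c2 : -u ^ 2 + u * d ^ 2 * (u * d) = 0 := by linear_combination u ^ 2 * hd3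
      linear_combination (norm := module) c1 • X + c2 • (1 : Matrix (Fin 3) (Fin 3) F)
    have hlm : u * d ^ 2 ≠ u * d := by
      intro h
      have h5 : u * d * (d - 1) = 0 := by linear_combination h
      rcases mul_eq_zero.mp h5 with h6 | h6
      · rcases mul_eq_zero.mp h6 with h7 | h7
        · exact hu0 h7
        · exact hd0 h7
      · exact hd1 (sub_eq_zero.mp h6)
    have hlq : u * d ^ 2 * (u * d) ^ q ≠ 1 := by
      intro h
      apply hd1
      have h5 : u ^ (q + 1) * (d ^ 2 * d ^ q) = 1 := by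
        rw [pow_succ']
        rw [mul_pow] at h
        linear_combination h
      rw [huq, hdq, one_mul] at h5
      linear_combination h5 - d * hd3
    obtain ⟨W, hW, hWo, e0, e1, e2⟩ := Cfsg.Agent.Lib.helper13.E27.two_eig hF x hx.1 (u * d ^ 2)
      (u * d) hlm hlq (by rw [← hX]; exact hquad)
      (by rw [← hX, hdet]; linear_combination -hdu - u ^ 3 * d * hd3) hxns
    -- the normalising element `diag(d, d², d)`
    have hw : ∃ w : GL (Fin 3) F, w ∈ Cfsg.Geo.subgroupNormalizer R ∧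
        (w : Matrix (Fin 3) (Fin 3) F) * M = M * diagonal ![d, d ^ 2, d] := by
      have hfac : (d - e) * (d - e ^ 2) = 0 := by
        linear_combination hd - d * he + he3 - 1 * he + he
      rcases mul_eq_zero.mp hfac with h | h
      · have hde : d = e := sub_eq_zero.mp h
        exact ⟨y, hyN, by rw [hde]; exact hyM⟩
      · have hde : d = e ^ 2 := sub_eq_zero.mp h
        have h4 : (e ^ 2) ^ 2 = e := by linear_combination e * he3
        exact ⟨yy, hyyN, by rw [hde, h4]; exact hyyM⟩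
    obtain ⟨w, hwN, hwM⟩ := hw
    obtain ⟨s, hs, hsN⟩ := scalar_norm R u hu0
    have hswM : ((s * w : GL (Fin 3) F) : Matrix (Fin 3) (Fin 3) F) * M
        = M * (u • diagonal ![d, d ^ 2, d]) := by
      rw [Units.val_mul, hs, Matrix.smul_mul, one_mul, Matrix.smul_mul, hwM, Matrix.mul_smul]
    obtain ⟨hU, hUo, hwU⟩ := frame_of_coords hF M n hn hsim (s * w) _ hswM
      ![![0, 1, 0], ![1, 0, 0], ![0, 0, 1]] ![u * d ^ 2, u * d, u * d]
      (by
        intro i j hij
        fin_cases i <;> fin_cases j <;>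
          first
            | exact absurd rfl hij
            | simp [Cfsg.hermForm, Fin.sum_univ_three, h0q])
      (by
        intro i
        fin_cases i <;> simp [Cfsg.hermForm, Fin.sum_univ_three, h0q])
      (by
        intro i
        rw [diag3]
        fin_cases i <;>
          (ext k; fin_cases k <;> simp [Matrix.mulVec, dotProduct, Fin.sum_univ_three]))
    obtain ⟨g, hg, hgw⟩ := Cfsg.Agent.Lib.helper19.E27k4.uconj hF x (s * w)
      ![u * d ^ 2, u * d, u * d] W _ hW hU hWo hUo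
      (by
        intro i
        fin_cases i
        · exact e0
        · exact e1
        · exact e2) hwU
    exact ⟨g, hg, by rw [hgw]; exact Subgroup.mul_mem _ hsN hwN⟩

theorem bad5U [Fintype F] (K : Subgroup (GL (Fin 3) F))
    (hK : K ≤ Cfsg.Geo.specialLinear (Fin 3) F) (R : Subgroup (GL (Fin 3) F))
    (hR : Nat.card R = 27)
    (a b z : GL (Fin 3) F) (ha : a ∈ R) (hb : b ∈ R) (hz : z ∈ R) (e : F) (he1 : e ≠ 1)
    (hze : (z : Matrix (Fin 3) (Fin 3) F) = e • (1 : Matrix (Fin 3) (Fin 3) F))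
    (hcent : ∀ Y : Matrix (Fin 3) (Fin 3) F, Y * (a : Matrix (Fin 3) (Fin 3) F)
        = (a : Matrix (Fin 3) (Fin 3) F) * Y →
      Y * (b : Matrix (Fin 3) (Fin 3) F) = (b : Matrix (Fin 3) (Fin 3) F) * Y →
      ∃ c : F, Y = c • (1 : Matrix (Fin 3) (Fin 3) F))
    (r : ℕ) [Fact r.Prime] (hr5 : 5 ≤ r)
    (hΩ : r ∣ (Cfsg.Geo.subgroupNormalizer R).relIndex K)
    (h : ∀ x ∈ K,
      (∃ z : F, ((x ^ r : GL (Fin 3) F) : Matrix (Fin 3) (Fin 3) F)
        = z • (1 : Matrix (Fin 3) (Fin 3) F)) →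
      (∀ z : F, (x : Matrix (Fin 3) (Fin 3) F) ≠ z • (1 : Matrix (Fin 3) (Fin 3) F)) →
      ∃ g ∈ K, g⁻¹ * x * g ∈ Cfsg.Geo.subgroupNormalizer R) : False := by
  classical
  obtain ⟨x, hxS, hxr, hxns⟩ :=
    Cfsg.Agent.Lib.helper12.E27.exists_order_r' K (Cfsg.Geo.subgroupNormalizer R) hK r hr5 hΩ
  obtain ⟨g, hgS, hg⟩ := h x hxS ⟨1, by rw [hxr, one_smul]; rfl⟩ hxns
  obtain ⟨y, hy⟩ : ∃ y : GL (Fin 3) F, y = g⁻¹ * x * g := ⟨_, rfl⟩
  rw [← hy] at hg
  have hyr : y ^ r = 1 := by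
    have := conj_pow (a := g⁻¹) (b := x) (i := r)
    rw [inv_inv] at this
    rw [hy, this, hxr]
    group
  have hynorm : ∀ w ∈ R, y * w * y⁻¹ ∈ R := fun w hw =>
    ((Subgroup.mem_set_normalizer_iff (S := (R : Set (GL (Fin 3) F)))).mp hg w).mp hw
  have hz1 : z ≠ 1 := by
    intro h1
    apply he1
    have h2 := congrArg (fun t : GL (Fin 3) F => (t : Matrix (Fin 3) (Fin 3) F) 0 0) h1
    simp only [hze, Matrix.smul_apply, Matrix.one_apply_eq, smul_eq_mul, mul_one,
      Units.val_one] at h2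
    exact h2
  have hzy : y * z = z * y := by
    apply Units.ext
    rw [Units.val_mul, Units.val_mul, hze, Matrix.smul_mul, one_mul, Matrix.mul_smul, mul_one]
  have hc := Cfsg.Agent.Lib.helper12.E27.centralizes_of_pow R hR y z hynorm hz hz1 hzy r
    Fact.out hr5 (by intro w _; rw [hyr, one_mul, mul_one])
  have hya := congrArg (fun t : GL (Fin 3) F => (t : Matrix (Fin 3) (Fin 3) F)) (hc a ha)
  have hyb := congrArg (fun t : GL (Fin 3) F => (t : Matrix (Fin 3) (Fin 3) F)) (hc b hb)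
  simp only [Units.val_mul] at hya hyb
  obtain ⟨c, hc'⟩ := hcent _ hya hyb
  apply hxns c
  have hx : x = g * y * g⁻¹ := by rw [hy]; group
  rw [hx, Units.val_mul, Units.val_mul, hc', Matrix.mul_smul, mul_one, Matrix.smul_mul,
    ← Units.val_mul, mul_inv_cancel, Units.val_one]

end Cfsg.Agent.Lib.helper4.E27
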